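import Cfsg.Agent.LargeFischer.Semi
import Cfsg.Agent.SchurBound.CoresCert

/-!
Vectors as twelve-bit codes and maps given by the images of twelve basis codes.
-/

set_option autoImplicit false
set_option maxRecDepth 100000

namespace Cfsg.Agent.LargeFischer

open Cfsg.Agent.CosetCert Cfsg.Agent.GFour25
open Cfsg.Agent.SporB.FischerU (Vec vecN enc code4 elt4 vecN_enc enc_lt)
open Cfsg.Agent.TTClass

/-- The primitive scalar. -/
def om : F4 := ⟨false, true⟩

/-- The image of a basis code. -/
def col (e j : ℕ) : ℕ := Nat.mod (Nat.shiftRight e (Nat.mul 12 j)) 4096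

/-- One summand of the image. -/
def term (e v j : ℕ) : ℕ := bif Nat.testBit v j then col e j else 0

/-- The image of a code. -/
def appC (e v : ℕ) : ℕ :=
  term e v 0 ^^^ term e v 1 ^^^ term e v 2 ^^^ term e v 3 ^^^ term e v 4 ^^^ term e v 5 ^^^
    term e v 6 ^^^ term e v 7 ^^^ term e v 8 ^^^ term e v 9 ^^^ term e v 10 ^^^ term e v 11

theorem col_lt (e j : ℕ) : col e j < 4096 := Nat.mod_lt _ (by norm_num)

theorem term_lt (e v j : ℕ) : term e v j < 4096 := by
  unfold term
  cases Nat.testBit v j <;> simp [col_lt]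

theorem appC_lt (e v : ℕ) : appC e v < 4096 := by
  have h : ∀ {a b : ℕ}, a < 4096 → b < 4096 → a ^^^ b < 4096 := fun {a b} ha hb =>
    Nat.xor_lt_two_pow (n := 12) ha hb
  unfold appC
  exact h (h (h (h (h (h (h (h (h (h (h (term_lt ..) (term_lt ..)) (term_lt ..)) (term_lt ..))
    (term_lt ..)) (term_lt ..)) (term_lt ..)) (term_lt ..)) (term_lt ..)) (term_lt ..))
    (term_lt ..)) (term_lt ..)

theorem term_xor (e a b j : ℕ) : term e (a ^^^ b) j = term e a j ^^^ term e b j := by
  unfold term
  rw [Nat.testBit_xor]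
  cases Nat.testBit a j <;> cases Nat.testBit b j <;> simp

theorem appC_xor (e a b : ℕ) : appC e (a ^^^ b) = appC e a ^^^ appC e b := by
  simp only [appC, term_xor]
  ac_rfl

theorem appC_zero (e : ℕ) : appC e 0 = 0 := by
  simp [appC, term, Nat.zero_testBit]

theorem appC_term (a b v j : ℕ) : appC a (term b v j) =
    bif Nat.testBit v j then appC a (col b j) else 0 := by
  unfold term
  cases Nat.testBit v j <;> simp [appC_zero]

/-- The product of two coded maps, checked on the basis. -/
noncomputable def isProd (c a b : ℕ) : Bool := allB (fun j => Nat.ble 12 j || Nat.beq (col c j) (appC a (col b j))) 4 0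

theorem isProd_spec {c a b : ℕ} (h : isProd c a b = true) (v : ℕ) : appC a (appC b v) = appC c v := by
  have hj : ∀ j < 12, col c j = appC a (col b j) := fun j hj => by
    have h1 := allB_spec_zero h (by norm_num : 12 ≤ 2 ^ 4) hj
    rw [Bool.or_eq_true] at h1
    rcases h1 with h1 | h1
    · exact absurd (Nat.le_of_ble_eq_true h1) (not_le.2 hj)
    · exact Nat.eq_of_beq_eq_true h1
  have ht : ∀ j < 12, appC a (term b v j) = term c v j := fun j hlt => by
    rw [appC_term, term, hj j hlt]
  conv_lhs => rw [show appC b v = term b v 0 ^^^ term b v 1 ^^^ term b v 2 ^^^ term b v 3 ^^^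
    term b v 4 ^^^ term b v 5 ^^^ term b v 6 ^^^ term b v 7 ^^^ term b v 8 ^^^ term b v 9 ^^^
    term b v 10 ^^^ term b v 11 from rfl]
  simp only [appC_xor, ht 0 (by omega), ht 1 (by omega), ht 2 (by omega), ht 3 (by omega),
    ht 4 (by omega), ht 5 (by omega), ht 6 (by omega), ht 7 (by omega), ht 8 (by omega),
    ht 9 (by omega), ht 10 (by omega), ht 11 (by omega)]
  rfl

theorem enc_vecN {n : ℕ} (h : n < 4096) : enc (vecN n) = n := by
  have hb : allB (fun m => Nat.beq (enc (vecN m)) m) 12 0 = true := by decide +kernel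
  exact Nat.eq_of_beq_eq_true (allB_spec_zero hb (by norm_num : 4096 ≤ 2 ^ 12) h)

theorem vecN_apply (n : ℕ) (i : Fin 6) :
    vecN n i = ⟨Nat.testBit n (2 * i.val), Nat.testBit n (2 * i.val + 1)⟩ := by
  have h4 : 4 ^ i.val = 2 ^ (2 * i.val) := by rw [pow_mul]; norm_num
  have hb : ∀ m : ℕ, Nat.beq (m % 2) 1 = decide (m % 2 = 1) := fun m => by
    rcases Nat.mod_two_eq_zero_or_one m with h | h <;> rw [h] <;> rfl
  show elt4 _ = _
  unfold elt4
  rw [hb, hb, Nat.testBit_eq_decide_div_mod_eq, Nat.testBit_eq_decide_div_mod_eq, h4,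
    Nat.div_div_eq_div_mul, ← pow_succ]

theorem vecN_xor (a b : ℕ) : vecN (a ^^^ b) = vecN a + vecN b := by
  funext i
  rw [Pi.add_apply, vecN_apply, vecN_apply, vecN_apply, Nat.testBit_xor, Nat.testBit_xor]
  rfl

theorem enc_add (x y : Vec) : enc (x + y) = enc x ^^^ enc y := by
  conv_lhs => rw [← vecN_enc x, ← vecN_enc y, ← vecN_xor,
    enc_vecN (Nat.xor_lt_two_pow (n := 12) (enc_lt x) (enc_lt y))]

theorem vecN_zero : vecN 0 = 0 := by
  funext i
  rw [vecN_apply]
  simp only [Nat.zero_testBit]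
  rfl

/-- The map of a code. -/
def lin (e : ℕ) (x : Vec) : Vec := vecN (appC e (enc x))

theorem lin_add (e : ℕ) (x y : Vec) : lin e (x + y) = lin e x + lin e y := by
  rw [lin, lin, lin, enc_add, appC_xor, vecN_xor]

theorem lin_zero (e : ℕ) : lin e 0 = 0 := by
  have h := lin_add e 0 0
  rw [add_zero] at h
  exact left_eq_add.1 h

theorem enc_lin (e : ℕ) (x : Vec) : enc (lin e x) = appC e (enc x) := enc_vecN (appC_lt _ _)

theorem lin_lin {c a b : ℕ} (h : isProd c a b = true) (x : Vec) : lin a (lin b x) = lin c x := by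
  rw [lin, enc_lin, isProd_spec h, lin]

theorem f4_cases (c : F4) : c = 0 ∨ c = 1 ∨ c = om ∨ c = 1 + om := by
  revert c; decide

/-- A code map commuting with the primitive scalar up to the twist is semilinear. -/
theorem lin_smul {e : ℕ} {b : Bool} (h : ∀ x, lin e (om • x) = twist b om • lin e x) (c : F4)
    (x : Vec) : lin e (c • x) = twist b c • lin e x := by
  rcases f4_cases c with rfl | rfl | rfl | rfl
  · rw [zero_smul, lin_zero, show twist b 0 = 0 by cases b <;> rfl, zero_smul]
  · rw [one_smul, show twist b 1 = 1 by cases b <;> rfl, one_smul]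
  · exact h x
  · rw [add_smul, one_smul, lin_add, h, show twist b (1 + om) = 1 + twist b om by cases b <;> rfl,
      add_smul, one_smul]

/-- A scalar multiple of a code. -/
def scC (c : F4) (v : ℕ) : ℕ := enc (c • vecN v)

/-- The value of the form on a code. -/
def qC (v : ℕ) : Bool := decide (Cfsg.Agent.SporB.FischerU.hs (vecN v) (vecN v) = 0)

theorem hs_self : ∀ v : Vec, Cfsg.Agent.SporB.FischerU.hs v v = 0 ∨
    Cfsg.Agent.SporB.FischerU.hs v v = 1 := by
  intro v
  have hb : allB (fun m => decide (Cfsg.Agent.SporB.FischerU.hs (vecN m) (vecN m) = 0) ||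
      decide (Cfsg.Agent.SporB.FischerU.hs (vecN m) (vecN m) = 1)) 12 0 = true := by decide +kernel
  have h := allB_spec_zero hb (by norm_num : 4096 ≤ 2 ^ 12) (enc_lt v)
  rw [vecN_enc, Bool.or_eq_true, decide_eq_true_iff, decide_eq_true_iff] at h
  exact h

theorem qC_enc (x : Vec) : qC (enc x) = decide (UnitF4.H x x = 0) := by
  rw [qC, vecN_enc, Cfsg.Agent.SporB.FischerU.hs_eq]

theorem H_self_eq {x y : Vec} (h : qC (enc x) = qC (enc y)) : UnitF4.H x x = UnitF4.H y y := by
  rw [qC_enc, qC_enc, decide_eq_decide] at h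
  have hx := hs_self x
  have hy := hs_self y
  rw [Cfsg.Agent.SporB.FischerU.hs_eq] at hx hy
  rcases hx with hx | hx
  · rw [hx, h.1 hx]
  · rcases hy with hy | hy
    · rw [h.2 hy, hy]
    · rw [hx, hy]

/-- The check that a coded map is a semilinear isometry. -/
noncomputable def semiOK (b : Bool) (e : ℕ) : Bool :=
  allB (fun v => Nat.beq (appC e (scC om v)) (scC (twist b om) (appC e v)) &&
    (qC (appC e v) == qC v)) 12 0

theorem lin_semi {b : Bool} {e : ℕ} (h : semiOK b e = true) :
    (∀ (c : F4) x, lin e (c • x) = twist b c • lin e x) ∧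
      ∀ x, UnitF4.H (lin e x) (lin e x) = UnitF4.H x x := by
  have key : ∀ x, appC e (scC om (enc x)) = scC (twist b om) (appC e (enc x)) ∧
      qC (appC e (enc x)) = qC (enc x) := fun x => by
    have h1 := allB_spec_zero h (by norm_num : 4096 ≤ 2 ^ 12) (enc_lt x)
    rw [Bool.and_eq_true] at h1
    exact ⟨Nat.eq_of_beq_eq_true h1.1, eq_of_beq h1.2⟩
  refine ⟨lin_smul fun x => ?_, fun x => H_self_eq ?_⟩
  · have h1 := (key x).1
    rw [scC, scC, vecN_enc] at h1
    rw [lin, h1, vecN_enc]
    rfl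
  · rw [enc_lin]
    exact (key x).2

end Cfsg.Agent.LargeFischer
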