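import Cfsg.Agent.SporB.FiTwoTwo.Unit

/-!
Semilinear isometries of the Hermitian space of dimension six over the field with four elements,
as permutations of its vectors.
-/

set_option autoImplicit false

namespace Cfsg.Agent.LargeFischer

open Cfsg.Agent.GFour25
open Cfsg.Agent.SporB.FischerU (Vec SUSix)
open Cfsg.Agent.TTClass

/-- A linear (`false`) or conjugate-linear (`true`) scalar. -/
def twist (b : Bool) (c : F4) : F4 := bif b then c ^ 2 else c

theorem twist_twist : ∀ (a b : Bool) (c : F4), twist a (twist b c) = twist (xor a b) c := by decide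

theorem twist_self : ∀ (b : Bool) (c : F4), twist b (twist b c) = c := by decide

theorem twist_mul : ∀ (b : Bool) (c d : F4), twist b (c * d) = twist b c * twist b d := by decide

/-- The predicate of a semilinear isometry. -/
def IsSemi (b : Bool) (g : Equiv.Perm Vec) : Prop :=
  (∀ x y, g (x + y) = g x + g y) ∧ (∀ (c : F4) x, g (c • x) = twist b c • g x) ∧
    ∀ x, UnitF4.H (g x) (g x) = UnitF4.H x x

theorem IsSemi.mul {a b : Bool} {g h : Equiv.Perm Vec} (hg : IsSemi a g) (hh : IsSemi b h) :
    IsSemi (xor a b) (g * h) := by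
  refine ⟨fun x y => ?_, fun c x => ?_, fun x => ?_⟩
  · simp [Equiv.Perm.mul_apply, hh.1, hg.1]
  · simp [Equiv.Perm.mul_apply, hh.2.1, hg.2.1, twist_twist]
  · simp [Equiv.Perm.mul_apply, hh.2.2, hg.2.2]

theorem IsSemi.one : IsSemi false (1 : Equiv.Perm Vec) :=
  ⟨fun _ _ => rfl, fun _ _ => rfl, fun _ => rfl⟩

theorem IsSemi.inv {b : Bool} {g : Equiv.Perm Vec} (hg : IsSemi b g) : IsSemi b g⁻¹ := by
  refine ⟨fun x y => g.injective ?_, fun c x => g.injective ?_, fun x => ?_⟩
  · simp [hg.1]
  · simp [hg.2.1, twist_self]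
  · have h := hg.2.2 (g⁻¹ x)
    simpa using h.symm

/-- The group of semilinear isometries. -/
def semiU : Subgroup (Equiv.Perm Vec) where
  carrier := {g | ∃ b, IsSemi b g}
  one_mem' := ⟨false, IsSemi.one⟩
  mul_mem' := fun ⟨_, hg⟩ ⟨_, hh⟩ => ⟨_, hg.mul hh⟩
  inv_mem' := fun ⟨_, hg⟩ => ⟨_, hg.inv⟩

/-- The action of the special unitary group on vectors. -/
noncomputable def actHom : SUSix →* Equiv.Perm Vec where
  toFun g :=
    { toFun := UnitF4.act g
      invFun := UnitF4.act g⁻¹
      left_inv := UnitF4.act_inv g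
      right_inv := UnitF4.act_inv' g }
  map_one' := Equiv.ext UnitF4.act_one
  map_mul' g h := Equiv.ext fun x => UnitF4.act_mul g h x

theorem actHom_apply (g : SUSix) (x : Vec) : actHom g x = UnitF4.act g x := rfl

theorem actHom_injective : Function.Injective actHom := fun _ _ h =>
  UnitF4.act_ext fun x => Equiv.Perm.ext_iff.1 h x

theorem actHom_semi (g : SUSix) : IsSemi false (actHom g) :=
  ⟨UnitF4.act_add g, fun c x => UnitF4.act_smul g c x, fun x => UnitF4.act_iso g x x⟩

end Cfsg.Agent.LargeFischer
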