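import Cfsg.Agent.SporB.FiTwoTwo.Unit
import Cfsg.Agent.LargeFischer.Semi
import Cfsg.Agent.LargeFischer.Code

/-!
Coordinates: a quadratic space of order `2 ^ 12` over the field with two elements with an isometry
`a` satisfying `a² + a + 1 = 0` is the Hermitian space of dimension six over the field with four
elements.
-/

set_option autoImplicit false

namespace Cfsg.Agent.LargeFischer

open Cfsg.Agent.GFour25
open Cfsg.Agent.SporB.FischerU (Vec SUSix)
open Cfsg.Agent.TTClass

/-- A field element from two bits. -/
def mk4 (p q : ZMod 2) : F4 := ⟨decide (p = 1), decide (q = 1)⟩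

/-- A bit. -/
def bit (b : Bool) : ZMod 2 := if b then 1 else 0

theorem mk4_add : ∀ p q p' q' : ZMod 2, mk4 (p + p') (q + q') = mk4 p q + mk4 p' q' := by decide
theorem mk4_om : ∀ p q : ZMod 2, mk4 q (p + q) = om * mk4 p q := by decide
theorem mk4_sq : ∀ p q : ZMod 2, mk4 (p + q) q = mk4 p q ^ 2 := by decide
theorem mk4_zero : ∀ p q : ZMod 2, mk4 p q = 0 ↔ p = 0 ∧ q = 0 := by decide
theorem F4_split : ∀ c : F4, c = mk4 (bit c.re) 0 + om * mk4 (bit c.im) 0 := by decide
theorem mk4_bit : ∀ c : F4, c = mk4 (bit c.re) (bit c.im) := by decide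
theorem bit_add : ∀ b c : Bool, bit (xor b c) = bit b + bit c := by decide

section

variable {W : Type*} [AddCommGroup W]

/-- The data. -/
structure Space (a : W →+ W) (q : W → ZMod 2) (B : W →+ W →+ ZMod 2) : Prop where
  two : ∀ v : W, v + v = 0
  quad : ∀ v, a (a v) + a v + v = 0
  q_add : ∀ v w, q (v + w) = q v + q w + B v w
  self : ∀ v, B v v = 0
  symm : ∀ v w, B v w = B w v
  nondeg : ∀ v, (∀ w, B v w = 0) → v = 0
  q_a : ∀ v, q (a v) = q v

variable {a : W →+ W} {q : W → ZMod 2} {B : W →+ W →+ ZMod 2}

namespace Space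

variable (S : Space a q B)
include S

theorem a_two (v : W) : a (a v) = a v + v := by
  have h := S.quad v
  rw [add_assoc, add_eq_zero_iff_eq_neg] at h
  rw [h, neg_eq_of_add_eq_zero_left (S.two _)]

theorem a_three (v : W) : a (a (a v)) = v := by
  rw [S.a_two v, map_add, S.a_two v, add_comm (a v) v, add_assoc, S.two, add_zero]

theorem B_a (v w : W) : B (a v) (a w) = B v w := by
  have h := S.q_add (a v) (a w)
  rw [← map_add, S.q_a, S.q_a, S.q_a, S.q_add v w] at h
  exact (add_left_cancel h).symm

theorem B_a_right (v w : W) : B v (a w) = B (a v) w + B v w := by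
  have h := S.B_a (a (a v)) w
  rw [S.a_three, S.a_two, map_add, AddMonoidHom.add_apply] at h
  exact h

/-- The Hermitian form. -/
def herm (_ : Space a q B) (u v : W) : F4 := mk4 (B (a u) v + B u v) (B u v)

theorem herm_add_left (u u' v : W) : S.herm (u + u') v = S.herm u v + S.herm u' v := by
  simp only [herm, map_add, AddMonoidHom.add_apply, ← mk4_add]
  congr 1
  abel

theorem herm_a_left (u v : W) : S.herm (a u) v = om * S.herm u v := by
  simp only [herm]
  rw [← mk4_om, S.a_two, map_add, AddMonoidHom.add_apply, add_comm (B (a u) v) (B u v), add_assoc,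
    CharTwo.add_self_eq_zero, add_zero, add_comm (B u v) (B (a u) v), add_assoc,
    CharTwo.add_self_eq_zero, add_zero]

theorem herm_symm (u v : W) : S.herm v u = S.herm u v ^ 2 := by
  simp only [herm]
  rw [← mk4_sq, S.symm v u, S.symm (a v) u, S.B_a_right]

theorem herm_add_right (u v v' : W) : S.herm u (v + v') = S.herm u v + S.herm u v' := by
  simp only [herm, map_add, ← mk4_add]
  congr 1
  abel

theorem herm_self (v : W) : S.herm v v = mk4 (q v) 0 := by
  have hkey : B (a v) v = q v := by
    have h := S.q_add (a v) v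
    rw [show a v + v = a (a v) from (S.a_two v).symm, S.q_a, S.q_a, CharTwo.add_self_eq_zero,
      zero_add] at h
    exact h.symm
  simp only [herm]
  rw [hkey, S.self, add_zero]

theorem herm_zero_left (v : W) : S.herm 0 v = 0 := by simp [herm, mk4_zero]

theorem herm_zero_right (v : W) : S.herm v 0 = 0 := by simp [herm, mk4_zero]

/-- Scalar multiplication. -/
def smul (_ : Space a q B) (c : F4) (v : W) : W := (bif c.re then v else 0) + bif c.im then a v else 0

theorem smul_add (c d : F4) (v : W) : S.smul (c + d) v = S.smul c v + S.smul d v := by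
  obtain ⟨b1, b2⟩ := c
  obtain ⟨b3, b4⟩ := d
  show S.smul ⟨xor b1 b3, xor b2 b4⟩ v = _
  have h2 : ∀ b b' : Bool, ∀ w : W,
      (bif xor b b' then w else 0) = (bif b then w else 0) + bif b' then w else 0 := by
    intro b b' w
    cases b <;> cases b' <;> simp [S.two]
  simp only [smul, h2]
  abel

theorem smul_v_add (c : F4) (v w : W) : S.smul c (v + w) = S.smul c v + S.smul c w := by
  obtain ⟨b1, b2⟩ := c
  simp only [smul]
  cases b1 <;> cases b2 <;> simp [map_add] <;> abel

theorem smul_om (c : F4) (v : W) : S.smul (om * c) v = a (S.smul c v) := by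
  obtain ⟨b1, b2⟩ := c
  have h : om * (⟨b1, b2⟩ : F4) = ⟨b2, xor b1 b2⟩ := by revert b1 b2; decide
  rw [h]
  simp only [smul, map_add]
  cases b1 <;> cases b2 <;> simp [S.a_two, S.two]
  · exact add_comm _ _
  · rw [← add_assoc, S.two, zero_add]

theorem herm_smul_left (c : F4) (u v : W) : S.herm (S.smul c u) v = c * S.herm u v := by
  obtain ⟨b1, b2⟩ := c
  have h : ∀ (b : Bool) (w : W), S.herm (bif b then w else 0) v = (if b then S.herm w v else 0) := by
    intro b w
    cases b <;> simp [S.herm_zero_left]
  simp only [smul, S.herm_add_left, h]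
  rw [S.herm_a_left]
  generalize S.herm u v = x
  revert x b1 b2
  decide

/-- Combination of a family. -/
def comb {n : ℕ} (e : Fin n → W) (x : Fin n → F4) : W := ∑ i, S.smul (x i) (e i)

theorem comb_add {n : ℕ} (e : Fin n → W) (x y : Fin n → F4) :
    S.comb e (x + y) = S.comb e x + S.comb e y := by
  simp [comb, S.smul_add, Finset.sum_add_distrib]

theorem herm_sum_left {ι : Type*} (s : Finset ι) (f : ι → W) (v : W) :
    S.herm (∑ i ∈ s, f i) v = ∑ i ∈ s, S.herm (f i) v := by
  induction s using Finset.cons_induction with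
  | empty => simp [S.herm_zero_left]
  | cons i s hi ih => rw [Finset.sum_cons, Finset.sum_cons, S.herm_add_left, ih]

theorem herm_comb_left {n : ℕ} (e : Fin n → W) (x : Fin n → F4) (v : W) :
    S.herm (S.comb e x) v = ∑ i, x i * S.herm (e i) v := by
  simp [comb, S.herm_sum_left, S.herm_smul_left]

/-- An orthonormal family. -/
def Ortho {n : ℕ} (e : Fin n → W) : Prop := ∀ i j, S.herm (e i) (e j) = if i = j then 1 else 0

theorem comb_coeff {n : ℕ} {e : Fin n → W} (he : S.Ortho e) (x : Fin n → F4) (j : Fin n) :
    S.herm (S.comb e x) (e j) = x j := by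
  rw [S.herm_comb_left]
  simp [he _ j]

theorem exists_ortho (hcard : Nat.card W = 4096) : ∀ n : ℕ, n ≤ 6 → ∃ e : Fin n → W, S.Ortho e := by
  intro n
  induction n with
  | zero => exact fun _ => ⟨Fin.elim0, fun i => i.elim0⟩
  | succ n ih =>
    intro hn
    obtain ⟨e, he⟩ := ih (by omega)
    -- the projection to the orthogonal complement
    let P : W → W := fun v => v + S.comb e fun i => S.herm v (e i)
    have hP : ∀ v j, S.herm (P v) (e j) = 0 := fun v j => by
      show S.herm (v + S.comb e _) (e j) = 0
      rw [S.herm_add_left, S.comb_coeff he, GFour25.add_self]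
    by_cases hex : ∃ v, q (P v) = 1
    · obtain ⟨v, hv⟩ := hex
      refine ⟨Fin.cons (P v) e, fun i j => ?_⟩
      refine Fin.cases ?_ ?_ i
      · refine Fin.cases ?_ ?_ j
        · rw [Fin.cons_zero, if_pos rfl, S.herm_self, hv]; decide
        · intro j
          rw [Fin.cons_zero, Fin.cons_succ, hP, if_neg (Fin.succ_ne_zero j).symm]
      · intro i
        refine Fin.cases ?_ ?_ j
        · rw [Fin.cons_zero, Fin.cons_succ, S.herm_symm, hP, if_neg (Fin.succ_ne_zero i)]
          simp
        · intro j
          rw [Fin.cons_succ, Fin.cons_succ, he]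
          simp [Fin.succ_inj]
    · exfalso
      have hq : ∀ v, q (P v) = 0 := by
        intro v
        have h : ∀ t : ZMod 2, t ≠ 1 → t = 0 := by decide
        exact h _ fun h1 => hex ⟨v, h1⟩
      have hadd : ∀ v w, P (v + w) = P v + P w := by
        intro v w
        show v + w + S.comb e _ = v + S.comb e _ + (w + S.comb e _)
        rw [show (fun i => S.herm (v + w) (e i)) = (fun i => S.herm v (e i)) + fun i => S.herm w (e i) from
          funext fun i => S.herm_add_left v w (e i), S.comb_add]
        abel
      have hB : ∀ v w, B (P v) (P w) = 0 := by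
        intro v w
        have h := S.q_add (P v) (P w)
        rw [← hadd, hq, hq, hq, zero_add, zero_add] at h
        exact h.symm
      have hzero : ∀ v, P v = 0 := by
        intro v
        refine S.nondeg _ fun w => ?_
        have hh : S.herm (P v) (S.comb e fun i => S.herm w (e i)) = 0 := by
          rw [S.herm_symm, S.herm_comb_left]
          simp [S.herm_symm (P v), hP]
        have hb : B (P v) (S.comb e fun i => S.herm w (e i)) = 0 := ((mk4_zero _ _).1 hh).2
        have h := hB v w
        rw [map_add, hb, add_zero] at h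
        exact h
      have hs : Function.Surjective (S.comb e) := by
        intro v
        refine ⟨fun i => S.herm v (e i), ?_⟩
        have h := hzero v
        exact (neg_eq_of_add_eq_zero_right h).symm.trans
          (neg_eq_of_add_eq_zero_right (S.two v))
      have h4 : Nat.card (Fin n → F4) = 4 ^ n := by
        rw [Nat.card_fun, Nat.card_eq_fintype_card, card_F4, Nat.card_fin]
      have := Nat.card_le_card_of_surjective _ hs
      rw [h4, hcard, show (4096 : ℕ) = 4 ^ 6 by norm_num] at this
      have := (Nat.pow_le_pow_iff_right (by norm_num : 1 < 4)).1 this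
      omega

end Space

end

/-- The coordinates. -/
theorem exists_coords {W : Type*} [AddCommGroup W] (hcard : Nat.card W = 4096) {a : W →+ W}
    {q : W → ZMod 2} {B : W →+ W →+ ZMod 2} (S : Space a q B) :
    ∃ e : W ≃+ Vec, (∀ v, e (a v) = om • e v) ∧ ∀ v, UnitF4.H (e v) (e v) = mk4 (q v) 0 := by
  obtain ⟨b, hb⟩ := S.exists_ortho hcard 6 le_rfl
  haveI : Finite W := Nat.finite_of_card_ne_zero (by rw [hcard]; norm_num)
  have hinj : Function.Injective (S.comb b) := fun x y h => funext fun j => by
    rw [← S.comb_coeff hb x j, h, S.comb_coeff hb y j]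
  have hbij : Function.Bijective (S.comb b) :=
    (Nat.bijective_iff_injective_and_card _).2 ⟨hinj, by
      rw [Nat.card_fun, Nat.card_eq_fintype_card, card_F4, Nat.card_fin, hcard]; norm_num⟩
  let f : Vec ≃+ W := AddEquiv.ofBijective (AddMonoidHom.mk' (S.comb b) (S.comb_add b)) hbij
  have hf : ∀ x, f x = S.comb b x := fun _ => rfl
  refine ⟨f.symm, fun v => ?_, fun v => ?_⟩
  · rw [AddEquiv.symm_apply_eq, hf]
    conv_lhs => rw [← f.apply_symm_apply v, hf]
    simp [Space.comb, map_sum, S.smul_om]
  · conv_rhs => rw [← f.apply_symm_apply v, ← S.herm_self, hf]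
    rw [S.herm_comb_left]
    unfold UnitF4.H Cfsg.hermForm
    refine Finset.sum_congr rfl fun i _ => ?_
    rw [S.herm_symm (S.comb b _) (b i), S.comb_coeff hb]

/-- A linear map preserving the norm preserves the form. -/
theorem herm_of_norm {g : Vec → Vec} (hadd : ∀ x y, g (x + y) = g x + g y)
    (hsmul : ∀ (c : F4) x, g (c • x) = c • g x) (hn : ∀ x, UnitF4.H (g x) (g x) = UnitF4.H x x) :
    ∀ x y, UnitF4.H (g x) (g y) = UnitF4.H x y := by
  have key : ∀ c d : F4, c + c ^ 2 = d + d ^ 2 →
      om * c + (om * c) ^ 2 = om * d + (om * d) ^ 2 → c = d := by decide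
  have htr : ∀ x y, UnitF4.H (g x) (g y) + UnitF4.H (g x) (g y) ^ 2 =
      UnitF4.H x y + UnitF4.H x y ^ 2 := by
    intro x y
    have h := hn (x + y)
    rw [hadd, UnitF4.h_add_left, UnitF4.h_add_left, UnitF4.h_add_right card_F4, UnitF4.h_add_right card_F4,
      UnitF4.h_add_right card_F4, UnitF4.h_add_right card_F4, hn x, hn y, UnitF4.h_symm card_F4 (g x) (g y),
      UnitF4.h_symm card_F4 x y] at h
    linear_combination h
  intro x y
  refine key _ _ (htr x y) ?_
  have h := htr (om • x) y
  rw [hsmul, UnitF4.h_smul_left, UnitF4.h_smul_left] at h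
  exact h

end Cfsg.Agent.LargeFischer
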