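import Cfsg.Agent.LargeFischer.Semi
import Cfsg.Prelude.Def_Transfer

/-!
The elementary abelian subgroup of order `2^11` in a Sylow 2-subgroup of an extension of an
extraspecial group of order `2^13` by a group of semilinear isometries, from facts about the
semilinear group.
-/

set_option autoImplicit false

namespace Cfsg.Agent.LargeFischer.Thompson

open Cfsg
open Cfsg.Agent.GFour25
open Cfsg.Agent.SporB.FischerU (Vec)
open Cfsg.Agent.TTClass

/-- The facts used about the semilinear group. -/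
structure Model (R : Subgroup (Equiv.Perm Vec)) where
  /-- multiplication by `w` -/
  om : Equiv.Perm Vec
  om_apply : ∀ v, om v = (⟨false, true⟩ : F4) • v
  om_mem : om ∈ R
  /-- a Sylow 2-subgroup -/
  P : Subgroup (Equiv.Perm Vec)
  /-- the distinguished elementary abelian subgroup -/
  A : Subgroup (Equiv.Perm Vec)
  /-- its fixed space -/
  U : Set Vec
  P_le : P ≤ R
  P_card : Nat.card P = 256
  A_le : A ≤ P
  A_card : Nat.card A = 16
  A_sq : ∀ a ∈ A, a * a = 1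
  A_om : ∀ a ∈ A, a * om = om * a
  inv_le : {σ : Equiv.Perm Vec | σ ∈ P ∧ σ * σ = 1}.ncard ≤ 72
  U_card : U.ncard = 64
  U_fix : ∀ v, (∀ a ∈ A, a v = v) ↔ v ∈ U
  U_sing : ∀ u ∈ U, UnitF4.H u u = 0
  U_om : ∀ u ∈ U, om u ∈ U
  U_perp : ∀ v, (∀ u ∈ U, UnitF4.H (v + u) (v + u) = UnitF4.H v v) → v ∈ U
  /-- a basis of the fixed space -/
  b : Fin 6 → Vec
  /-- dual vectors -/
  w : Fin 6 → Vec
  b_mem : ∀ i, b i ∈ U
  U_span : ∀ S : Set Vec, (0 : Vec) ∈ S → (∀ x ∈ S, ∀ y ∈ S, x + y ∈ S) → (∀ i, b i ∈ S) → U ⊆ S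
  dual : ∀ i j, UnitF4.H (w i + b j) (w i + b j) = UnitF4.H (w i) (w i) ↔ i ≠ j
  unique : ∀ B : Subgroup (Equiv.Perm Vec), B ≤ P → Nat.card B = 16 → (∀ x ∈ B, x * x = 1) →
    B = A ∨ {v : Vec | ∀ x ∈ B, x v = v}.ncard ≤ 8
  trans : ∀ a ∈ A, a ≠ 1 → ∀ c ∈ A, c ≠ 1 → ∃ n ∈ R, n * om = om * n ∧ (∀ u ∈ U, n u ∈ U) ∧
    (∀ x ∈ A, n * x * n⁻¹ ∈ A) ∧ n * a * n⁻¹ = c

/-- The facts used about the extension. -/
structure Ext {H : Type*} [Group H] (Q : Subgroup H) [Q.Normal] (z : H) (rho : H →* Equiv.Perm Vec)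
    (psi : Q → Vec) : Prop where
  z_mem : z ∈ Q
  z_central : ∀ h : H, h * z = z * h
  z_sq : z * z = 1
  z_ne : z ≠ 1
  ker_rho : rho.ker = Q
  psi_mul : ∀ a b, psi (a * b) = psi a + psi b
  psi_surj : Function.Surjective psi
  psi_ker : ∀ a : Q, psi a = 0 ↔ (a : H) = 1 ∨ (a : H) = z
  psi_norm : ∀ a, UnitF4.H (psi a) (psi a) = 0 ↔ a * a = 1
  psi_conj : ∀ (h : H) (a : Q),
    psi ⟨h * a * h⁻¹, (inferInstance : Q.Normal).conj_mem _ a.2 h⟩ = rho h (psi a)
  abelian_le : ∀ R : Subgroup Q, IsMulCommutative R → Nat.card R ≤ 2 ^ 7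

theorem comm_of_sq {H : Type*} [Group H] {u v : H} (hu : u * u = 1) (hv : v * v = 1)
    (huv : u * v * (u * v) = 1) : u * v = v * u := by
  rw [eq_inv_of_mul_eq_one_left huv, mul_inv_rev, inv_eq_of_mul_eq_one_right hu,
    inv_eq_of_mul_eq_one_right hv]

theorem vec_self (v : Vec) : v + v = 0 := funext fun i => GFour25.add_self (v i)

variable {H : Type*} [Group H] {Q : Subgroup H} [Q.Normal] {z : H} {rho : H →* Equiv.Perm Vec}
  {psi : Q → Vec}

namespace Ext

variable (D : Ext Q z rho psi)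
include D

theorem psi_one : psi 1 = 0 := (D.psi_ker 1).2 (Or.inl rfl)

theorem eq_of_psi {a b : Q} (h : psi a = psi b) : (a : H) = b ∨ (a : H) = (b : H) * z := by
  have h1 : psi (b⁻¹ * a) = 0 := by
    have h2 := D.psi_mul b (b⁻¹ * a)
    rw [mul_inv_cancel_left, h] at h2
    simpa using h2
  rcases (D.psi_ker _).1 h1 with h2 | h2
  · rw [Subgroup.coe_mul, Subgroup.coe_inv, inv_mul_eq_one] at h2
    exact Or.inl h2.symm
  · rw [Subgroup.coe_mul, Subgroup.coe_inv, inv_mul_eq_iff_eq_mul] at h2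
    exact Or.inr h2

theorem rho_q {q : H} (hq : q ∈ Q) : rho q = 1 := by
  rw [← D.ker_rho] at hq
  exact hq

theorem mem_q {h : H} (hh : rho h = 1) : h ∈ Q := by
  rw [← D.ker_rho]
  exact hh

theorem rho_add (h : H) (u v : Vec) : rho h (u + v) = rho h u + rho h v := by
  obtain ⟨a, rfl⟩ := D.psi_surj u
  obtain ⟨b, rfl⟩ := D.psi_surj v
  rw [← D.psi_mul, ← D.psi_conj, ← D.psi_conj, ← D.psi_conj, ← D.psi_mul]
  refine congrArg psi (Subtype.ext ?_)
  show h * ((a : H) * b) * h⁻¹ = h * a * h⁻¹ * (h * b * h⁻¹)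
  group

theorem rho_zero (h : H) : rho h 0 = 0 := by
  simpa using D.rho_add h 0 0

/-- Commutation with an involution of `Q`, read in the space. -/
theorem comm_iff (a p : Q) (hp : p * p = 1) :
    (a : H) * p = p * a ↔ UnitF4.H (psi a + psi p) (psi a + psi p) = UnitF4.H (psi a) (psi a) := by
  have hpinv : p⁻¹ = p := inv_eq_of_mul_eq_one_right hp
  have hsq : ∀ c : Q, (c * c : Q) = (1 : Q) ∨ ((c * c : Q) : H) = z := by
    intro c
    have h0 : psi (c * c) = 0 := by rw [D.psi_mul, vec_self]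
    rcases (D.psi_ker _).1 h0 with h | h
    · exact Or.inl (Subtype.ext h)
    · exact Or.inr h
  have hH : UnitF4.H (psi a + psi p) (psi a + psi p) = UnitF4.H (psi a) (psi a) ↔
      (a * p * (a * p) = a * a) := by
    rw [← D.psi_mul]
    rcases UnitF4.h_self GFour25.card_F4 (psi (a * p)) with h1 | h1 <;>
      rcases UnitF4.h_self GFour25.card_F4 (psi a) with h2 | h2 <;> rw [h1, h2]
    · simp [(D.psi_norm _).1 h1, (D.psi_norm _).1 h2]
    · have h2' : ¬ a * a = 1 := fun e => zero_ne_one (((D.psi_norm a).2 e).symm.trans h2)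
      simp only [zero_ne_one, false_iff, (D.psi_norm _).1 h1]
      exact fun e => h2' e.symm
    · have h1' : ¬ a * p * (a * p) = 1 := fun e => zero_ne_one (((D.psi_norm _).2 e).symm.trans h1)
      simp only [one_ne_zero, false_iff, (D.psi_norm _).1 h2]
      exact h1'
    · have h1' : ¬ a * p * (a * p) = 1 := fun e => zero_ne_one (((D.psi_norm _).2 e).symm.trans h1)
      have h2' : ¬ a * a = 1 := fun e => zero_ne_one (((D.psi_norm a).2 e).symm.trans h2)
      simp only [true_iff]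
      exact Subtype.ext (((hsq (a * p)).resolve_left h1').trans ((hsq a).resolve_left h2').symm)
  rw [hH]
  constructor
  · intro h
    have h' : a * p = p * a := Subtype.ext h
    calc a * p * (a * p) = a * p * (p * a) := by rw [h']
      _ = a * a := by rw [mul_assoc, ← mul_assoc p, hp, one_mul]
  · intro h
    rw [mul_assoc, mul_left_cancel_iff] at h
    have h' : a * p = p * a := by
      calc a * p = p⁻¹ * (p * (a * p)) := by rw [inv_mul_cancel_left]
        _ = p * a := by rw [h, hpinv]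
    exact congrArg Subtype.val h'

/-- Orders of subgroups of `Q` are read in the space. -/
theorem card_sub [Finite H] (R : Subgroup H) (hR : R ≤ Q) :
    Nat.card R ≤ 2 * (psi '' {a : Q | (a : H) ∈ R}).ncard ∧
      (z ∈ R → Nat.card R = 2 * (psi '' {a : Q | (a : H) ∈ R}).ncard) := by
  classical
  let f : R →* Multiplicative Vec :=
    { toFun := fun r => Multiplicative.ofAdd (psi ⟨r.1, hR r.2⟩)
      map_one' := congrArg Multiplicative.ofAdd D.psi_one
      map_mul' := fun r s => congrArg Multiplicative.ofAdd (D.psi_mul ⟨r.1, hR r.2⟩ ⟨s.1, hR s.2⟩) }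
  have hrange : Nat.card f.range = (psi '' {a : Q | (a : H) ∈ R}).ncard := by
    rw [← Nat.card_coe_set_eq]
    refine Nat.card_congr
      { toFun := fun x => ⟨Multiplicative.toAdd x.1, by
          obtain ⟨r, hr⟩ := x.2
          exact ⟨⟨r.1, hR r.2⟩, r.2, congrArg Multiplicative.toAdd hr⟩⟩
        invFun := fun x => ⟨Multiplicative.ofAdd x.1, by
          obtain ⟨a, ha, he⟩ := x.2
          exact ⟨⟨(a : H), ha⟩, congrArg Multiplicative.ofAdd he⟩⟩
        left_inv := fun x => rfl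
        right_inv := fun x => rfl }
  have hcard : Nat.card R = Nat.card f.ker * (psi '' {a : Q | (a : H) ∈ R}).ncard := by
    rw [← hrange, ← Subgroup.index_ker, Subgroup.card_mul_index]
  have hmem : ∀ r : R, r ∈ f.ker ↔ (r : H) = 1 ∨ (r : H) = z := fun r => D.psi_ker ⟨r.1, hR r.2⟩
  have hk : Nat.card f.ker ≤ 2 := by
    have hinj : Function.Injective (fun k : f.ker => decide (((k : R) : H) = 1)) := by
      intro k l e
      simp only [decide_eq_decide] at e
      apply Subtype.ext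
      apply Subtype.ext
      rcases (hmem k).1 k.2 with hk' | hk' <;> rcases (hmem l).1 l.2 with hl' | hl' <;>
        rw [hk', hl'] at e ⊢
      · exact absurd (e.1 rfl) D.z_ne
      · exact absurd (e.2 rfl) D.z_ne
    exact (Nat.card_le_card_of_injective _ hinj).trans (by simp)
  refine ⟨hcard ▸ Nat.mul_le_mul hk le_rfl, fun hz => ?_⟩
  have hk2 : 2 ≤ Nat.card f.ker := by
    have : Nontrivial f.ker := ⟨⟨⟨z, hz⟩, (hmem _).2 (Or.inr rfl)⟩, 1, fun e =>
      D.z_ne (congrArg (fun k : f.ker => ((k : R) : H)) e)⟩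
    exact Finite.one_lt_card
  rw [hcard, le_antisymm hk hk2]

theorem card_q [Finite H] : Nat.card Q = 8192 := by
  have h := (D.card_sub Q le_rfl).2 D.z_mem
  rw [show psi '' {a : Q | (a : H) ∈ Q} = Set.univ from by
    rw [show {a : Q | (a : H) ∈ Q} = Set.univ from Set.eq_univ_of_forall fun a => a.2,
      Set.image_univ, D.psi_surj.range_eq], Set.ncard_univ] at h
  rw [h, show Nat.card Vec = 4096 by
    rw [Nat.card_eq_fintype_card, Fintype.card_fun, GFour25.card_F4]; rfl]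

theorem card_split [Finite H] (B : Subgroup H) :
    Nat.card B = Nat.card (B.map rho) * Nat.card (B ⊓ Q : Subgroup H) := by
  let f := rho.comp B.subtype
  have h1 : f.range = B.map rho := by
    rw [MonoidHom.range_comp, Subgroup.range_subtype]
  have h2 : Nat.card f.ker = Nat.card (B ⊓ Q : Subgroup H) :=
    Nat.card_congr
      { toFun := fun k => ⟨((k : B) : H), ⟨(k : B).2, D.mem_q k.2⟩⟩
        invFun := fun k => ⟨⟨k.1, k.2.1⟩, D.rho_q k.2.2⟩
        left_inv := fun k => rfl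
        right_inv := fun k => rfl }
  rw [← h1, ← h2, ← Subgroup.index_ker, mul_comm, Subgroup.card_mul_index]

/-! ### The subgroup -/

variable (M : Model rho.range)

theorem exists_lift {σ : Equiv.Perm Vec} (h : σ ∈ rho.range) : ∃ g, rho g = σ := h

theorem om_lift [Finite H] : ∃ x : H, rho x = M.om ∧ x ^ 3 = 1 := by
  obtain ⟨x, hx⟩ := M.om_mem
  have h3 : M.om ^ 3 = 1 := by
    refine Equiv.ext fun v => ?_
    rw [pow_succ, pow_two, Equiv.Perm.mul_apply, Equiv.Perm.mul_apply, M.om_apply, M.om_apply,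
      M.om_apply, smul_smul, smul_smul]
    rw [show ((⟨false, true⟩ : F4) * ⟨false, true⟩ * ⟨false, true⟩) = 1 by decide, one_smul]
    rfl
  have hxQ : x ^ 3 ∈ Q := D.mem_q (by rw [map_pow, hx, h3])
  have h12 : (x ^ 3) ^ 4 = 1 := by
    have h1 : (⟨x ^ 3, hxQ⟩ * ⟨x ^ 3, hxQ⟩ : Q) * (⟨x ^ 3, hxQ⟩ * ⟨x ^ 3, hxQ⟩) = 1 := by
      apply Subtype.ext
      have h0 : psi (⟨x ^ 3, hxQ⟩ * ⟨x ^ 3, hxQ⟩ : Q) = 0 := by rw [D.psi_mul, vec_self]
      rcases (D.psi_ker _).1 h0 with e | e <;> rw [Subgroup.coe_mul, e]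
      · exact one_mul 1
      · exact D.z_sq
    have := congrArg Subtype.val h1
    simpa [pow_succ, mul_assoc] using this
  refine ⟨x ^ 4, ?_, by rw [← pow_mul, show 4 * 3 = 3 * 4 by norm_num, pow_mul, h12]⟩
  rw [map_pow, hx, pow_succ, h3, one_mul]

/-- The preimage of the fixed space. -/
def P0 : Subgroup H where
  carrier := {h | ∃ hh : h ∈ Q, psi ⟨h, hh⟩ ∈ M.U}
  one_mem' := ⟨Q.one_mem, by
    rw [show (⟨1, Q.one_mem⟩ : Q) = 1 from rfl, D.psi_one, ← M.U_fix]
    intro a ha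
    obtain ⟨g, rfl⟩ := M.P_le (M.A_le ha)
    exact D.rho_zero g⟩
  mul_mem' := fun {a b} ⟨ha, hau⟩ ⟨hb, hbu⟩ => ⟨Q.mul_mem ha hb, by
    rw [show (⟨a * b, Q.mul_mem ha hb⟩ : Q) = ⟨a, ha⟩ * ⟨b, hb⟩ from rfl, D.psi_mul, ← M.U_fix]
    intro c hc
    obtain ⟨g, rfl⟩ := M.P_le (M.A_le hc)
    rw [D.rho_add, (M.U_fix _).2 hau _ hc, (M.U_fix _).2 hbu _ hc]⟩
  inv_mem' := fun {a} ⟨ha, hau⟩ => ⟨Q.inv_mem ha, by
    have h := D.psi_mul ⟨a, ha⟩ (⟨a, ha⟩⁻¹)
    rw [mul_inv_cancel, D.psi_one] at h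
    have h2 : psi (⟨a, ha⟩⁻¹ : Q) = psi ⟨a, ha⟩ := by
      rw [← zero_add (psi (⟨a, ha⟩⁻¹ : Q)), ← vec_self (psi ⟨a, ha⟩), add_assoc, ← h, add_zero]
    rw [show (⟨a⁻¹, Q.inv_mem ha⟩ : Q) = ⟨a, ha⟩⁻¹ from rfl, h2]
    exact hau⟩

theorem z_mem_P0 : z ∈ D.P0 M := ⟨D.z_mem, by
  rw [(D.psi_ker ⟨z, D.z_mem⟩).2 (Or.inr rfl), ← M.U_fix]
  intro a ha
  obtain ⟨g, rfl⟩ := M.P_le (M.A_le ha)
  exact D.rho_zero g⟩

theorem P0_le : D.P0 M ≤ Q := fun _ h => h.1

theorem P0_card [Finite H] : Nat.card (D.P0 M) = 2 ^ 7 := by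
  rw [(D.card_sub _ (D.P0_le M)).2 (D.z_mem_P0 M)]
  have : psi '' {a : Q | (a : H) ∈ D.P0 M} = M.U := by
    refine Set.Subset.antisymm ?_ fun u hu => ?_
    · rintro u ⟨a, ⟨ha, hu⟩, rfl⟩
      exact hu
    · obtain ⟨a, rfl⟩ := D.psi_surj u
      exact ⟨a, ⟨a.2, hu⟩, rfl⟩
  rw [this, M.U_card]
  norm_num

theorem P0_sq {p : H} (hp : p ∈ D.P0 M) : p * p = 1 := by
  obtain ⟨hq, hu⟩ := hp
  exact congrArg Subtype.val ((D.psi_norm ⟨p, hq⟩).1 (M.U_sing _ hu))

theorem P0_comm {p q : H} (hp : p ∈ D.P0 M) (hq : q ∈ D.P0 M) : p * q = q * p := by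
  exact comm_of_sq (D.P0_sq M hp) (D.P0_sq M hq) (D.P0_sq M ((D.P0 M).mul_mem hp hq))

/-- The subgroup. -/
def K : Subgroup H := Subgroup.centralizer (D.P0 M : Set H) ⊓ M.A.comap rho

theorem mem_K {h : H} : h ∈ D.K M ↔ (∀ p ∈ D.P0 M, p * h = h * p) ∧ rho h ∈ M.A := by
  rw [K, Subgroup.mem_inf, Subgroup.mem_centralizer_iff, Subgroup.mem_comap]
  rfl

theorem K_inf : D.K M ⊓ Q = D.P0 M := by
  refine le_antisymm ?_ fun p hp => ⟨(D.mem_K M).2 ⟨fun q hq => D.P0_comm M hq hp, ?_⟩, hp.1⟩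
  · rintro q ⟨hK, hq⟩
    refine ⟨hq, M.U_perp _ fun u hu => ?_⟩
    obtain ⟨p, rfl⟩ := D.psi_surj u
    have hp : (p : H) ∈ D.P0 M := ⟨p.2, hu⟩
    exact (D.comm_iff ⟨q, hq⟩ p (Subtype.ext (D.P0_sq M hp))).1 (((D.mem_K M).1 hK).1 p hp).symm
  · rw [D.rho_q hp.1]
    exact M.A.one_mem

theorem conj_P0 {h : H} (hfix : ∀ u ∈ M.U, rho h u = u) {p : H} (hp : p ∈ D.P0 M) :
    h * p * h⁻¹ = p ∨ h * p * h⁻¹ = p * z := by
  have he := D.psi_conj h ⟨p, hp.1⟩
  rw [hfix _ hp.2] at he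
  exact D.eq_of_psi he

theorem exists_fix {a : Equiv.Perm Vec} (ha : a ∈ M.A) : ∃ h ∈ D.K M, rho h = a := by
  classical
  choose p hp using fun i => D.psi_surj (M.b i)
  choose q hq using fun i => D.psi_surj (M.w i)
  have hpP : ∀ i, (p i : H) ∈ D.P0 M := fun i => ⟨(p i).2, hp i ▸ M.b_mem i⟩
  have hfix : ∀ g, rho g = a → ∀ u ∈ M.U, rho g u = u := fun g hg u hu =>
    hg ▸ (M.U_fix u).2 hu a ha
  have hcq : ∀ i j, (q i : H) * p j = p j * q i ↔ i ≠ j := fun i j => by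
    rw [D.comm_iff (q i) (p j) (Subtype.ext (D.P0_sq M (hpP j))), hq, hp, M.dual]
  have step : ∀ s : Finset (Fin 6), ∃ g, rho g = a ∧ ∀ i ∈ s, g * p i = p i * g := by
    intro s
    induction s using Finset.induction with
    | empty =>
      obtain ⟨g, hg⟩ := M.P_le (M.A_le ha)
      exact ⟨g, hg, by simp⟩
    | @insert i s his ih =>
      obtain ⟨g, hg, hgs⟩ := ih
      by_cases hi : g * p i = p i * g
      · exact ⟨g, hg, fun j hj => (Finset.mem_insert.1 hj).elim (fun e => e ▸ hi) (hgs j)⟩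
      refine ⟨q i * g, by rw [map_mul, D.rho_q (q i).2, one_mul, hg], fun j hj => ?_⟩
      by_cases hji : j = i
      · subst hji
        have h1 : g * p j * g⁻¹ = p j * z := (D.conj_P0 M (hfix g hg) (hpP j)).resolve_left
          fun e => hi (mul_inv_eq_iff_eq_mul.1 e)
        have h2 : (q j : H) * p j * (q j : H)⁻¹ = p j * z := by
          refine (D.conj_P0 M (fun u _ => ?_) (hpP j)).resolve_left
            fun e => (hcq j j).1 (mul_inv_eq_iff_eq_mul.1 e) rfl
          rw [D.rho_q (q j).2]; rfl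
        rw [← mul_inv_eq_iff_eq_mul]
        calc (q j : H) * g * p j * ((q j : H) * g)⁻¹
            = (q j : H) * (g * p j * g⁻¹) * (q j : H)⁻¹ := by group
          _ = (q j : H) * p j * (q j : H)⁻¹ * z := by
              rw [h1, ← mul_assoc, mul_assoc ((q j : H) * p j) z, ← D.z_central, ← mul_assoc]
          _ = p j := by rw [h2, mul_assoc, D.z_sq, mul_one]
      · rw [mul_assoc, hgs j ((Finset.mem_insert.1 hj).resolve_left hji), ← mul_assoc,
          (hcq i j).2 (Ne.symm hji), mul_assoc]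
  obtain ⟨g, hg, hgs⟩ := step Finset.univ
  refine ⟨g, (D.mem_K M).2 ⟨fun r hr => ?_, hg ▸ ha⟩, hg⟩
  let S : Set Vec := {v | ∀ r : Q, psi r = v → (r : H) * g = g * r}
  have hS : M.U ⊆ S := by
    refine M.U_span S ?_ ?_ ?_
    · intro r hr
      rcases (D.psi_ker r).1 hr with e | e <;> rw [e]
      · rw [one_mul, mul_one]
      · exact (D.z_central g).symm
    · intro u hu v hv r hr
      obtain ⟨a', rfl⟩ := D.psi_surj u
      obtain ⟨b', rfl⟩ := D.psi_surj v
      rw [← D.psi_mul] at hr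
      have hab : ((a' * b' : Q) : H) * g = g * (a' * b' : Q) := by
        rw [Subgroup.coe_mul, mul_assoc, hv b' rfl, ← mul_assoc, hu a' rfl, mul_assoc]
      rcases D.eq_of_psi hr with e | e <;> rw [e]
      · exact hab
      · rw [mul_assoc, ← D.z_central g, ← mul_assoc, hab, mul_assoc]
    · intro i r hr
      rw [← hp i] at hr
      have hi := (hgs i (Finset.mem_univ i)).symm
      rcases D.eq_of_psi hr with e | e <;> rw [e]
      · exact hi
      · rw [mul_assoc, ← D.z_central g, ← mul_assoc, hi, mul_assoc]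
  exact hS hr.2 ⟨r, hr.1⟩ rfl

theorem K_map : (D.K M).map rho = M.A := by
  refine le_antisymm ?_ fun a ha => ?_
  · rintro a ⟨h, hh, rfl⟩
    exact ((D.mem_K M).1 hh).2
  · obtain ⟨h, hh, rfl⟩ := D.exists_fix M ha
    exact ⟨h, hh, rfl⟩

theorem K_card [Finite H] : Nat.card (D.K M) = 2 ^ 11 := by
  rw [D.card_split (D.K M), D.K_map M, D.K_inf M, M.A_card, D.P0_card M]
  norm_num

theorem conj_K [Finite H] {n : H} (hU : ∀ u ∈ M.U, rho n u ∈ M.U)
    (hA : ∀ x ∈ M.A, rho n * x * (rho n)⁻¹ ∈ M.A) {h : H} (hh : h ∈ D.K M) :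
    n * h * n⁻¹ ∈ D.K M := by
  obtain ⟨hc, ha⟩ := (D.mem_K M).1 hh
  refine (D.mem_K M).2 ⟨fun p hp => ?_, by rw [map_mul, map_mul, map_inv]; exact hA _ ha⟩
  have hback : n⁻¹ * p * n ∈ D.P0 M := by
    refine ⟨by simpa using (inferInstance : Q.Normal).conj_mem _ hp.1 n⁻¹, ?_⟩
    have hsurj : rho n '' M.U = M.U :=
      Set.eq_of_subset_of_ncard_le (by rintro _ ⟨u, hu, rfl⟩; exact hU u hu)
        (by rw [Set.ncard_image_of_injective _ (rho n).injective]) (Set.toFinite _)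
    obtain ⟨u, hu, he⟩ : psi ⟨p, hp.1⟩ ∈ rho n '' M.U := by rw [hsurj]; exact hp.2
    have h2 := D.psi_conj n⁻¹ ⟨p, hp.1⟩
    rw [← he, map_inv] at h2
    have h3 : (rho n)⁻¹ (rho n u) = u := Equiv.symm_apply_apply _ u
    rw [h3] at h2
    simp only [inv_inv] at h2
    rw [h2]
    exact hu
  have e := hc _ hback
  calc p * (n * h * n⁻¹) = n * (n⁻¹ * p * n * h) * n⁻¹ := by group
    _ = n * h * n⁻¹ * p := by rw [e]; group

theorem shift {x : H} (hx : rho x = M.om) (hx3 : x ^ 3 = 1) {h : H}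
    (hc : rho h * M.om = M.om * rho h) : ∃ q ∈ Q, x * (q * h) * x⁻¹ = q * h := by
  have hpQ : x * h * x⁻¹ * h⁻¹ ∈ Q := D.mem_q (by
    rw [map_mul, map_mul, map_mul, map_inv, map_inv, hx, ← hc, mul_inv_cancel_right, mul_inv_cancel])
  set p := x * h * x⁻¹ * h⁻¹ with hp
  have hqQ : x * p * x⁻¹ ∈ Q := (inferInstance : Q.Normal).conj_mem _ hpQ x
  set q := x * p * x⁻¹ with hq
  have hrQ : x * q * x⁻¹ * p ∈ Q := Q.mul_mem ((inferInstance : Q.Normal).conj_mem _ hqQ x) hpQ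
  have hpsi : psi ⟨x * q * x⁻¹ * p, hrQ⟩ = psi ⟨q, hqQ⟩ := by
    have e1 : psi ⟨q, hqQ⟩ = M.om (psi ⟨p, hpQ⟩) := by rw [← hx]; exact D.psi_conj x ⟨p, hpQ⟩
    rw [show (⟨x * q * x⁻¹ * p, hrQ⟩ : Q) =
        ⟨x * q * x⁻¹, (inferInstance : Q.Normal).conj_mem _ hqQ x⟩ * ⟨p, hpQ⟩ from rfl,
      D.psi_mul, D.psi_conj x ⟨q, hqQ⟩, hx, e1, M.om_apply, M.om_apply, smul_smul]
    funext i
    simp only [Pi.add_apply, Pi.smul_apply, smul_eq_mul]
    generalize psi ⟨p, hpQ⟩ i = c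
    revert c
    decide
  refine ⟨q, hqQ, ?_⟩
  have e : x * (q * h) * x⁻¹ = x * q * x⁻¹ * p * h := by rw [hp]; group
  rcases D.eq_of_psi hpsi with h1 | h1 <;> change x * q * x⁻¹ * p = _ at h1
  · rw [e, h1]
  · exfalso
    have h2 : x * (q * h) * x⁻¹ = q * h * z := by
      rw [e, h1]
      show q * z * h = q * h * z
      rw [mul_assoc, ← D.z_central h, ← mul_assoc]
    have hz : ∀ y : H, x * (y * z) * x⁻¹ = x * y * x⁻¹ * z := fun y => by
      rw [← mul_assoc, mul_assoc (x * y) z, ← D.z_central, ← mul_assoc]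
    have h3 : x * (x * (x * (q * h) * x⁻¹) * x⁻¹) * x⁻¹ = q * h * z := by
      rw [h2, hz, h2, mul_assoc _ z z, D.z_sq, mul_one, h2]
    have h4 : x * (x * (x * (q * h) * x⁻¹) * x⁻¹) * x⁻¹ = x ^ 3 * (q * h) * (x ^ 3)⁻¹ := by
      rw [pow_succ, pow_two]; group
    rw [h4, hx3, one_mul, inv_one, mul_one] at h3
    exact D.z_ne (mul_left_cancel (a := q * h) (by rw [mul_one]; exact h3.symm))

theorem om_fix_zero {v : Vec} (h : M.om v = v) : v = 0 := by
  funext i
  have := congrFun h i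
  rw [M.om_apply, Pi.smul_apply, smul_eq_mul] at this
  have key : ∀ c : F4, (⟨false, true⟩ : F4) * c = c → c = 0 := by decide
  exact key _ this

theorem fixed_in_q {x : H} (hx : rho x = M.om) {q : H} (hq : q ∈ Q) (hc : x * q * x⁻¹ = q) :
    q = 1 ∨ q = z := by
  refine (D.psi_ker ⟨q, hq⟩).1 (D.om_fix_zero M ?_)
  have h := D.psi_conj x ⟨q, hq⟩
  rw [hx] at h
  rw [← h]
  exact congrArg psi (Subtype.ext hc)

theorem K_sq [Finite H] : ∀ h ∈ D.K M, h * h = 1 := by
  obtain ⟨x, hx, hx3⟩ := D.om_lift M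
  have hxK : ∀ h ∈ D.K M, x * h * x⁻¹ ∈ D.K M := fun h hh =>
    D.conj_K M (fun u hu => hx ▸ M.U_om u hu) (fun a ha => by
      rw [hx, ← M.A_om a ha, mul_inv_cancel_right]; exact ha) hh
  have hKP : ∀ q h, q ∈ Q → q * h ∈ D.K M → h ∈ D.K M → q ∈ D.P0 M := fun q h hq h1 h2 => by
    rw [← D.K_inf M]
    refine ⟨?_, hq⟩
    have := (D.K M).mul_mem h1 ((D.K M).inv_mem h2)
    rwa [mul_inv_cancel_right] at this
  -- fixed lifts
  have hlift : ∀ h ∈ D.K M, ∃ q ∈ D.P0 M, x * (q * h) * x⁻¹ = q * h := by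
    intro h hh
    obtain ⟨q, hq, he⟩ := D.shift M hx hx3 (h := h) (M.A_om _ ((D.mem_K M).1 hh).2)
    refine ⟨q, ?_, he⟩
    -- `q` is the image of the commutator under `x`
    have h1 : x * h * x⁻¹ * h⁻¹ ∈ D.P0 M := by
      rw [← D.K_inf M]
      refine ⟨(D.K M).mul_mem (hxK h hh) ((D.K M).inv_mem hh), D.mem_q ?_⟩
      rw [map_mul, map_mul, map_mul, map_inv, map_inv, hx, ← M.A_om _ ((D.mem_K M).1 hh).2,
        mul_inv_cancel_right, mul_inv_cancel]
    have hq' : psi ⟨q, hq⟩ ∈ M.U := by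
      have e : x * q * x⁻¹ * (x * h * x⁻¹ * h⁻¹) = q := by
        calc x * q * x⁻¹ * (x * h * x⁻¹ * h⁻¹) = x * (q * h) * x⁻¹ * h⁻¹ := by group
          _ = q := by rw [he, mul_inv_cancel_right]
      have e2 : psi ⟨q, hq⟩ = M.om (psi ⟨q, hq⟩) + psi ⟨_, h1.1⟩ := by
        have h0 := D.psi_mul ⟨x * q * x⁻¹, (inferInstance : Q.Normal).conj_mem _ hq x⟩ ⟨_, h1.1⟩
        rw [D.psi_conj x ⟨q, hq⟩, hx] at h0
        rw [← h0]
        exact congrArg psi (Subtype.ext e.symm)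
      have e3 : psi ⟨q, hq⟩ = M.om (psi ⟨_, h1.1⟩) := by
        rw [M.om_apply] at e2 ⊢
        funext i
        have := congrFun e2 i
        simp only [Pi.add_apply, Pi.smul_apply, smul_eq_mul] at this ⊢
        revert this
        generalize psi ⟨q, hq⟩ i = c
        generalize psi ⟨_, h1.1⟩ i = d
        revert c d
        decide
      rw [e3]
      exact M.U_om _ h1.2
    exact ⟨hq, hq'⟩
  -- squares of fixed elements
  have hsq : ∀ c ∈ D.K M, x * c * x⁻¹ = c → c * c = 1 ∨ c * c = z := by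
    intro c hc hcx
    refine D.fixed_in_q M hx (D.mem_q ?_) ?_
    · rw [map_mul]; exact M.A_sq _ ((D.mem_K M).1 hc).2
    · calc x * (c * c) * x⁻¹ = (x * c * x⁻¹) * (x * c * x⁻¹) := by group
        _ = c * c := by rw [hcx]
  have hwell : ∀ c ∈ D.K M, x * c * x⁻¹ = c → ∀ c' ∈ D.K M, x * c' * x⁻¹ = c' →
      rho c = rho c' → c' * c' = c * c := by
    intro c hc hcx c' hc' hcx' he
    have hd : c' = c ∨ c' = c * z := by
      rcases D.fixed_in_q M hx (q := c⁻¹ * c') (D.mem_q (by rw [map_mul, map_inv, he, inv_mul_cancel]))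
        (by
          calc x * (c⁻¹ * c') * x⁻¹ = (x * c * x⁻¹)⁻¹ * (x * c' * x⁻¹) := by group
            _ = c⁻¹ * c' := by rw [hcx, hcx']) with e | e
      · exact Or.inl (inv_mul_eq_one.1 e).symm
      · exact Or.inr (inv_mul_eq_iff_eq_mul.1 e)
    rcases hd with rfl | rfl
    · rfl
    · calc c * z * (c * z) = c * (z * c) * z := by group
        _ = c * c * (z * z) := by rw [← D.z_central c]; group
        _ = c * c := by rw [D.z_sq, mul_one]
  have hfx : ∀ a ∈ M.A, ∃ c ∈ D.K M, x * c * x⁻¹ = c ∧ rho c = a := by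
    intro a ha
    obtain ⟨h, hh, rfl⟩ := D.exists_fix M ha
    obtain ⟨q, hq, he⟩ := hlift h hh
    exact ⟨q * h, (D.K M).mul_mem (((D.K_inf M).ge hq).1) hh, he, by
      rw [map_mul, D.rho_q hq.1, one_mul]⟩
  -- the squares do not depend on the element
  have hconst : ∀ c ∈ D.K M, x * c * x⁻¹ = c → rho c ≠ 1 → ∀ d ∈ D.K M, x * d * x⁻¹ = d →
      rho d ≠ 1 → d * d = c * c := by
    intro c hc hcx hc1 d hd hdx hd1
    obtain ⟨n, ⟨g, rfl⟩, hnom, hnU, hnA, hcd⟩ :=
      M.trans _ ((D.mem_K M).1 hc).2 hc1 _ ((D.mem_K M).1 hd).2 hd1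
    obtain ⟨q, hq, he⟩ := D.shift M hx hx3 (h := g) hnom
    have hrho : rho (q * g) = rho g := by rw [map_mul, D.rho_q hq, one_mul]
    set m := q * g with hm
    have hcm : x * (m * c * m⁻¹) * x⁻¹ = m * c * m⁻¹ := by
      calc x * (m * c * m⁻¹) * x⁻¹ = (x * m * x⁻¹) * (x * c * x⁻¹) * (x * m * x⁻¹)⁻¹ := by group
        _ = m * c * m⁻¹ := by rw [he, hcx]
    have hmK : m * c * m⁻¹ ∈ D.K M :=
      D.conj_K M (fun u hu => hrho ▸ hnU u hu) (fun a ha => hrho ▸ hnA a ha) hc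
    have h1 := hwell _ hmK hcm d hd hdx (by rw [map_mul, map_mul, map_inv, hrho, hcd])
    rw [h1]
    rcases hsq c hc hcx with e | e <;>
      calc m * c * m⁻¹ * (m * c * m⁻¹) = m * (c * c) * m⁻¹ := by group
        _ = c * c := by
          rw [e]
          first
          | rw [mul_one, mul_inv_cancel]
          | rw [D.z_central, mul_inv_cancel_right]
  have hone : ∀ c ∈ D.K M, x * c * x⁻¹ = c → c * c = 1 := by
    intro c hc hcx
    by_cases hc1 : rho c = 1
    · rcases D.fixed_in_q M hx (D.mem_q hc1) hcx with rfl | rfl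
      · exact one_mul 1
      · exact D.z_sq
    rcases hsq c hc hcx with e | e
    · exact e
    exfalso
    -- otherwise the commutator would be a nonzero alternating form on every pair
    have hall : ∀ c' ∈ D.K M, x * c' * x⁻¹ = c' → rho c' ≠ 1 → c' * c' = z := fun c' h1 h2 h3 =>
      (hconst c hc hcx hc1 c' h1 h2 h3).trans e
    have hanti : ∀ u v, u ∈ D.K M → v ∈ D.K M → x * u * x⁻¹ = u → x * v * x⁻¹ = v → rho u ≠ 1 →
        rho v ≠ 1 → rho u ≠ rho v → u * v = v * u * z := by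
      intro u v hu hv hux hvx hu1 hv1 huv
      have huvx : x * (u * v) * x⁻¹ = u * v := by
        calc x * (u * v) * x⁻¹ = (x * u * x⁻¹) * (x * v * x⁻¹) := by group
          _ = u * v := by rw [hux, hvx]
      have h1 := hall _ ((D.K M).mul_mem hu hv) huvx (fun e' => huv (by
        rw [map_mul] at e'
        calc rho u = rho u * (rho v * rho v) := by rw [M.A_sq _ ((D.mem_K M).1 hv).2, mul_one]
          _ = rho v := by rw [← mul_assoc, e', one_mul]))
      calc u * v = u * v * (u * v) * (v⁻¹ * u⁻¹) := by group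
        _ = z * (v⁻¹ * u⁻¹) := by rw [h1]
        _ = z * ((v * v) * v⁻¹ * ((u * u) * u⁻¹)) := by
          rw [hall v hv hvx hv1, hall u hu hux hu1, ← D.z_central v⁻¹, mul_assoc v⁻¹ z,
            ← mul_assoc z z, D.z_sq, one_mul]
        _ = z * (v * u) := by group
        _ = v * u * z := (D.z_central _).symm
    classical
    have hex : ∀ s : Finset (Equiv.Perm Vec), s.card < 16 → ∃ a ∈ M.A, a ∉ s := by
      intro s hs
      by_contra hno
      push Not at hno
      have h1 : (M.A : Set (Equiv.Perm Vec)).ncard ≤ s.card := by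
        rw [← Set.ncard_coe_finset]
        exact Set.ncard_le_ncard (fun a ha => hno a ha) (Finset.finite_toSet s)
      rw [← Nat.card_coe_set_eq] at h1
      have h2 : Nat.card (M.A : Set (Equiv.Perm Vec)) = 16 := M.A_card
      omega
    obtain ⟨b, hb, hb'⟩ := hex {1, rho c} (by
      exact lt_of_le_of_lt (Finset.card_insert_le _ _) (by simp))
    obtain ⟨d, hd, hd'⟩ := hex {1, rho c, b, b * rho c} (by
      refine lt_of_le_of_lt (Finset.card_insert_le _ _) ?_
      refine Nat.succ_lt_succ (lt_of_le_of_lt (Finset.card_insert_le _ _) ?_)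
      refine Nat.succ_lt_succ (lt_of_le_of_lt (Finset.card_insert_le _ _) ?_)
      simp)
    simp only [Finset.mem_insert, Finset.mem_singleton, not_or] at hb' hd'
    obtain ⟨cb, hcb, hcbx, rfl⟩ := hfx b hb
    obtain ⟨cd, hcd, hcdx, rfl⟩ := hfx d hd
    have h1 := hanti c cb hc hcb hcx hcbx hc1 hb'.1 (Ne.symm hb'.2)
    have h2 := hanti c cd hc hcd hcx hcdx hc1 hd'.1 (Ne.symm hd'.2.1)
    have hprod : rho (cb * cd) ≠ 1 := fun e' => hd'.2.2.1 (by
      rw [map_mul] at e'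
      calc rho cd = rho cb * rho cb * rho cd := by rw [M.A_sq _ hb, one_mul]
        _ = rho cb := by rw [mul_assoc, e', mul_one])
    have hne : rho c ≠ rho (cb * cd) := fun e' => hd'.2.2.2 (by
      rw [map_mul] at e'
      rw [e', ← mul_assoc, M.A_sq _ hb, one_mul])
    have h3 := hanti c (cb * cd) hc ((D.K M).mul_mem hcb hcd) hcx (by
      calc x * (cb * cd) * x⁻¹ = (x * cb * x⁻¹) * (x * cd * x⁻¹) := by group
        _ = cb * cd := by rw [hcbx, hcdx]) hc1 hprod hne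
    have h4 : c * (cb * cd) = cb * cd * c := by
      calc c * (cb * cd) = (c * cb) * cd := by group
        _ = cb * c * z * cd := by rw [h1]
        _ = cb * (c * cd) * z := by
          rw [mul_assoc (cb * c) z, ← D.z_central cd]; group
        _ = cb * cd * c * (z * z) := by rw [h2]; group
        _ = cb * cd * c := by rw [D.z_sq, mul_one]
    rw [h4] at h3
    exact D.z_ne (mul_left_cancel (a := cb * cd * c) (by rw [mul_one]; exact h3.symm))
  intro h hh
  obtain ⟨q, hq, he⟩ := hlift h hh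
  have hqK : q ∈ D.K M := ((D.K_inf M).ge hq).1
  have h1 := hone _ ((D.K M).mul_mem hqK hh) he
  have hcomm := ((D.mem_K M).1 hh).1 q hq
  calc h * h = q * q * (h * h) := by rw [D.P0_sq M hq, one_mul]
    _ = q * (q * h) * h := by group
    _ = q * (h * q) * h := by rw [hcomm]
    _ = q * h * (q * h) := by group
    _ = 1 := h1

/-- An elementary abelian subgroup above the chosen Sylow subgroup of the image. -/
theorem bound [Finite H] (B : Subgroup H) (hB : B ≤ M.P.comap rho) (hel : IsElementaryAbelian 2 B) :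
    Nat.card B ≤ 2 ^ 11 ∧ (Nat.card B = 2 ^ 11 → B = D.K M) := by
  haveI : Fact (Nat.Prime 2) := ⟨Nat.prime_two⟩
  have hcomm : ∀ u ∈ B, ∀ v ∈ B, u * v = v * u := fun u hu v hv =>
    congrArg Subtype.val (hel.1.is_comm.comm ⟨u, hu⟩ ⟨v, hv⟩)
  set Bb := B.map rho with hBb
  have hle : Bb ≤ M.P := Subgroup.map_le_iff_le_comap.2 hB
  have hsqb : ∀ a ∈ Bb, a * a = 1 := by
    rintro a ⟨h, hh, rfl⟩
    rw [← map_mul, ← pow_two, hel.2 h hh, map_one]
  have h72 : Nat.card Bb ≤ 72 := by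
    refine le_trans ?_ M.inv_le
    rw [← Nat.card_coe_set_eq]
    exact Nat.card_le_card_of_injective (fun a : Bb => (⟨a.1, hle a.2, hsqb a.1 a.2⟩ :
      {σ : Equiv.Perm Vec | σ ∈ M.P ∧ σ * σ = 1})) fun a b h => Subtype.ext (congrArg (fun t : {σ : Equiv.Perm Vec | σ ∈ M.P ∧ σ * σ = 1} => (t : Equiv.Perm Vec)) h)
  have hp2 : IsPGroup 2 Bb := fun a => ⟨1, Subtype.ext (by
    show (a : Equiv.Perm Vec) ^ (2 ^ 1) = 1
    rw [pow_one, pow_two]; exact hsqb a.1 a.2)⟩
  obtain ⟨b, hb⟩ := hp2.exists_card_eq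
  have hb6 : b ≤ 6 := by
    by_contra hc
    have : 2 ^ 7 ≤ 2 ^ b := Nat.pow_le_pow_right (by norm_num) (by omega)
    omega
  have hfix : ∀ v ∈ psi '' {a : Q | (a : H) ∈ B ⊓ Q}, ∀ a ∈ Bb, a v = v := by
    rintro v ⟨q, ⟨hqB, -⟩, rfl⟩ a ⟨h, hh, rfl⟩
    rw [← D.psi_conj h q]
    refine congrArg psi (Subtype.ext ?_)
    show h * q * h⁻¹ = q
    rw [hcomm h hh q hqB, mul_inv_cancel_right]
  have hsplit := D.card_split B
  have hinfQ : B ⊓ Q ≤ Q := inf_le_right
  have hq7 : Nat.card (B ⊓ Q : Subgroup H) ≤ 2 ^ 7 := by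
    have h1 := D.abelian_le ((B ⊓ Q).subgroupOf Q) ⟨⟨fun u v => Subtype.ext (Subtype.ext
      (hcomm _ u.2.1 _ v.2.1))⟩⟩
    rwa [Nat.card_congr (Subgroup.subgroupOfEquivOfLe hinfQ).toEquiv] at h1
  by_cases hb3 : b ≤ 3
  · have h8 : Nat.card Bb ≤ 8 := hb ▸ (Nat.pow_le_pow_right (by norm_num) hb3).trans (by norm_num)
    have h1 : Nat.card B ≤ 8 * 2 ^ 7 := hsplit ▸ Nat.mul_le_mul h8 hq7
    exact ⟨h1.trans (by norm_num), fun e => absurd (e ▸ h1) (by norm_num)⟩
  by_cases hother : ∃ B4 : Subgroup (Equiv.Perm Vec), B4 ≤ Bb ∧ Nat.card B4 = 16 ∧ B4 ≠ M.A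
  · obtain ⟨B4, h4, h4c, h4n⟩ := hother
    have h8 := (M.unique B4 (h4.trans hle) h4c fun a ha => hsqb a (h4 ha)).resolve_left h4n
    have h16 : Nat.card (B ⊓ Q : Subgroup H) ≤ 16 := by
      refine (D.card_sub _ hinfQ).1.trans ?_
      have : (psi '' {a : Q | (a : H) ∈ B ⊓ Q}).ncard ≤ 8 :=
        (Set.ncard_le_ncard (fun v hv => fun a ha => hfix v hv a (h4 ha)) (Set.toFinite _)).trans h8
      omega
    have h1 : Nat.card B ≤ 2 ^ 6 * 16 :=
      hsplit ▸ Nat.mul_le_mul (hb ▸ Nat.pow_le_pow_right (by norm_num) hb6) h16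
    exact ⟨h1.trans (by norm_num), fun e => absurd (e ▸ h1) (by norm_num)⟩
  push Not at hother
  have hBA : Bb = M.A := by
    by_cases hb4 : b = 4
    · exact hother Bb le_rfl (by rw [hb, hb4]; norm_num)
    exfalso
    have hbig : ¬ Bb ≤ M.A := fun h => by
      have := Subgroup.card_le_of_le h
      rw [M.A_card, hb] at this
      have : 2 ^ 5 ≤ 2 ^ b := Nat.pow_le_pow_right (by norm_num) (by omega)
      omega
    obtain ⟨a, haB, haA⟩ := SetLike.not_le_iff_exists.1 hbig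
    have hdvd : 2 ^ 4 ∣ Nat.card Bb := hb ▸ pow_dvd_pow 2 (by omega)
    have hzc : Nat.card (Subgroup.zpowers (⟨a, haB⟩ : Bb)) = 2 ^ 1 := by
      rw [Nat.card_zpowers, pow_one, orderOf_eq_prime (p := 2)]
      · exact Subtype.ext (show a ^ 2 = 1 by rw [pow_two]; exact hsqb a haB)
      · intro e
        exact haA (by rw [show a = 1 from congrArg Subtype.val e]; exact M.A.one_mem)
    obtain ⟨L, hL, hLle⟩ := Sylow.exists_subgroup_card_pow_prime_le 2 hdvd _ hzc (by norm_num)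
    have e := hother (L.map Bb.subtype) (Subgroup.map_subtype_le L)
      (by rw [Subgroup.card_map_of_injective Bb.subtype_injective, hL]; norm_num)
    refine haA (e ▸ ?_)
    exact ⟨⟨a, haB⟩, hLle (Subgroup.mem_zpowers _), rfl⟩
  have hle0 : B ⊓ Q ≤ D.P0 M := by
    rintro q ⟨hqB, hqQ⟩
    exact ⟨hqQ, (M.U_fix _).1 fun a ha => hfix _ ⟨⟨q, hqQ⟩, ⟨hqB, hqQ⟩, rfl⟩ a (hBA ▸ ha)⟩
  have hmap16 : Nat.card Bb = 16 := hBA ▸ M.A_card
  have h128 := Subgroup.card_le_of_le hle0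
  rw [D.P0_card M] at h128
  refine ⟨by rw [hsplit, hmap16]; exact (Nat.mul_le_mul le_rfl h128).trans (by norm_num), fun e => ?_⟩
  have hinf : B ⊓ Q = D.P0 M := Subgroup.eq_of_le_of_card_ge hle0 (by
    rw [hsplit, hmap16] at e
    rw [D.P0_card M]
    omega)
  refine Subgroup.eq_of_le_of_card_ge (fun h hh => (D.mem_K M).2 ⟨fun p hp => ?_, ?_⟩)
    (by rw [D.K_card M, e])
  · exact hcomm p ((hinf.ge hp).1) h hh
  · exact hBA ▸ Subgroup.mem_map_of_mem rho hh

include M in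
/-- The statement for every Sylow 2-subgroup. -/
theorem unique_max [Finite H] (hfac : (Nat.card rho.range).factorization 2 = 8) (T : Sylow 2 H) :
    ∃ K : Subgroup H, K ≤ T ∧ IsElementaryAbelian 2 K ∧ Nat.card K = 2 ^ 11 ∧
      Nat.card ↥(K ⊓ Q) = 2 ^ 7 ∧ Nat.card (K.map (QuotientGroup.mk' Q)) = 16 ∧
      ∀ B : Subgroup H, B ≤ T → IsElementaryAbelian 2 B →
        Nat.card B ≤ 2 ^ 11 ∧ (Nat.card B = 2 ^ 11 → B = K) := by
  haveI : Fact (Nat.Prime 2) := ⟨Nat.prime_two⟩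
  set T0 := M.P.comap rho with hT0
  have hQT : Q ≤ T0 := fun q hq => by
    rw [hT0, Subgroup.mem_comap, D.rho_q hq]; exact M.P.one_mem
  have hT0card : Nat.card T0 = 2 ^ 21 := by
    rw [D.card_split T0, inf_eq_right.2 hQT, D.card_q, hT0,
      Subgroup.map_comap_eq, inf_eq_right.2 M.P_le, M.P_card]
    norm_num
  have hHfac : (Nat.card H).factorization 2 = 21 := by
    have h := D.card_split (⊤ : Subgroup H)
    rw [Subgroup.card_top, top_inf_eq, D.card_q, ← MonoidHom.range_eq_map] at h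
    rw [h, Nat.factorization_mul Nat.card_pos.ne' (by norm_num), Finsupp.add_apply, hfac,
      show (8192 : ℕ) = 2 ^ 13 by norm_num, Nat.factorization_pow, Finsupp.smul_apply,
      Nat.Prime.factorization_self Nat.prime_two]
    norm_num
  obtain ⟨S, hS⟩ := (IsPGroup.of_card hT0card).exists_le_sylow
  have hS0 : (S : Subgroup H) = T0 := (Subgroup.eq_of_le_of_card_ge hS (by
    rw [hT0card]
    exact le_of_eq (by rw [Sylow.card_eq_multiplicity, hHfac]))).symm
  obtain ⟨g, hg⟩ := MulAction.exists_smul_eq H S T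
  have hTmem : ∀ y, y ∈ (T : Subgroup H) ↔ g⁻¹ * y * g ∈ T0 := by
    intro y
    rw [← hg, Sylow.smul_def, Sylow.pointwise_smul_def, Subgroup.mem_pointwise_smul_iff_inv_smul_mem,
      hS0]
    simp
  let e : H →* H := (MulAut.conj g).toMonoidHom
  have hinj : Function.Injective e := (MulAut.conj g).injective
  let e' : H →* H := (MulAut.conj g⁻¹).toMonoidHom
  have hee : ∀ B : Subgroup H, (B.map e').map e = B := fun B => by
    rw [Subgroup.map_map]
    convert Subgroup.map_id B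
    ext y
    simp [e, e', MulAut.conj_apply, mul_assoc]
  have hKT : D.K M ≤ T0 := fun h hh => M.A_le ((D.mem_K M).1 hh).2
  have hKel : IsElementaryAbelian 2 (D.K M) := by
    refine ⟨⟨⟨fun u v => Subtype.ext ?_⟩⟩, fun a ha => by rw [pow_two]; exact D.K_sq M a ha⟩
    have h := D.K_sq M _ ((D.K M).mul_mem u.2 v.2)
    have hu := D.K_sq M _ u.2
    have hv := D.K_sq M _ v.2
    exact comm_of_sq hu hv h
  refine ⟨(D.K M).map e, ?_, ?_, ?_, ?_, ?_, ?_⟩
  · rintro y ⟨h, hh, rfl⟩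
    rw [hTmem]
    simpa [e, MulAut.conj_apply, mul_assoc] using hKT hh
  · refine ⟨⟨⟨fun u v => ?_⟩⟩, ?_⟩
    · obtain ⟨a, ha, hua⟩ := u.2
      obtain ⟨b, hb, hvb⟩ := v.2
      apply Subtype.ext
      show (u : H) * v = v * u
      rw [← hua, ← hvb, ← map_mul, ← map_mul]
      exact congrArg e (congrArg Subtype.val (hKel.1.is_comm.comm ⟨a, ha⟩ ⟨b, hb⟩))
    · rintro _ ⟨a, ha, rfl⟩
      rw [← map_pow, hKel.2 a ha, map_one]
  · rw [Subgroup.card_map_of_injective hinj, D.K_card M]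
  · have he : (D.K M).map e ⊓ Q = (D.K M ⊓ Q).map e := by
      rw [Subgroup.map_inf _ _ _ hinj]
      congr 1
      exact (Subgroup.Normal.map_conj_eq Q g).symm
    rw [he, Subgroup.card_map_of_injective hinj, D.K_inf M, D.P0_card M]
  · have hkey : Nat.card ((D.K M).map (QuotientGroup.mk' Q)) = 16 := by
      have h1 := D.K_card M
      rw [D.card_split, D.K_inf M, D.P0_card M] at h1
      let f := (QuotientGroup.mk' Q).comp (D.K M).subtype
      have hr : f.range = (D.K M).map (QuotientGroup.mk' Q) := by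
        rw [MonoidHom.range_comp, Subgroup.range_subtype]
      have hk : f.ker = Q.subgroupOf (D.K M) := by
        ext y
        simp [f, Subgroup.mem_subgroupOf]
      have h2 := f.ker.card_mul_index
      rw [Subgroup.index_ker, hr, hk, D.K_card M] at h2
      rw [show Nat.card (Q.subgroupOf (D.K M)) = 2 ^ 7 by
        rw [← D.P0_card M, ← D.K_inf M]
        exact Nat.card_congr
          { toFun := fun y => ⟨((y : D.K M) : H), (y : D.K M).2, y.2⟩
            invFun := fun y => ⟨⟨y.1, y.2.1⟩, y.2.2⟩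
            left_inv := fun y => rfl
            right_inv := fun y => rfl }] at h2
      omega
    rw [Subgroup.map_map]
    have : (QuotientGroup.mk' Q).comp e =
        (MulAut.conj (QuotientGroup.mk' Q g)).toMonoidHom.comp (QuotientGroup.mk' Q) := by
      ext y
      simp [e, MulAut.conj_apply]
    rw [this, ← Subgroup.map_map, Subgroup.card_map_of_injective (MulAut.conj _).injective, hkey]
  · intro B hBT hB
    have hB0 : B.map e' ≤ T0 := by
      rintro _ ⟨y, hy, rfl⟩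
      have := (hTmem y).1 (hBT hy)
      simpa [e', MulAut.conj_apply, mul_assoc] using this
    have hel : IsElementaryAbelian 2 (B.map e') := by
      refine ⟨⟨⟨fun u v => ?_⟩⟩, ?_⟩
      · obtain ⟨a, ha, hua⟩ := u.2
        obtain ⟨b, hb, hvb⟩ := v.2
        apply Subtype.ext
        show (u : H) * v = v * u
        rw [← hua, ← hvb, ← map_mul, ← map_mul]
        exact congrArg e' (congrArg Subtype.val (hB.1.is_comm.comm ⟨a, ha⟩ ⟨b, hb⟩))
      · rintro _ ⟨a, ha, rfl⟩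
        rw [← map_pow, hB.2 a ha, map_one]
    obtain ⟨h1, h2⟩ := D.bound M _ hB0 hel
    have hc : Nat.card (B.map e') = Nat.card B :=
      Subgroup.card_map_of_injective (MulAut.conj g⁻¹).injective
    exact ⟨hc ▸ h1, fun h => by rw [← hee B, h2 (hc.trans h)]⟩

end Ext

end Cfsg.Agent.LargeFischer.Thompson
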