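import Cfsg.Agent.Golay.TransvectionStructure

/-!
Generic facts: orbit counting under conjugation, automorphisms of an elementary group of order
eight, and a quotient as a direct product.
-/

set_option autoImplicit false

namespace Cfsg.Agent.LargeFischer.Eight

open Cfsg

theorem sl_three_facts :
    Nat.card (Matrix.SpecialLinearGroup (Fin 3) (ZMod 2)) = 168 ∧
      IsSimpleGroup (Matrix.SpecialLinearGroup (Fin 3) (ZMod 2)) :=
  ⟨Golay.card_SLThree, Golay.isSimple_SLThree⟩

/-- A subgroup of order divisible by 42 is everything. -/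
theorem eq_top_of_fortytwo {H : Subgroup (Matrix.SpecialLinearGroup (Fin 3) (ZMod 2))}
    (h : 42 ∣ Nat.card H) : H = ⊤ := by
  haveI := sl_three_facts.2
  have hc := Subgroup.card_mul_index H
  rw [sl_three_facts.1] at hc
  obtain ⟨c, hc'⟩ := h
  by_contra hne
  rcases (Subgroup.normalCore_normal H).eq_bot_or_eq_top with hb | ht
  · let f := MulAction.toPermHom (Matrix.SpecialLinearGroup (Fin 3) (ZMod 2))
      ((Matrix.SpecialLinearGroup (Fin 3) (ZMod 2)) ⧸ H)
    have hf : Function.Injective f := by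
      rw [← MonoidHom.ker_eq_bot_iff, ← Subgroup.normalCore_eq_ker, hb]
    have hle := Nat.card_le_card_of_injective f hf
    rw [sl_three_facts.1, Nat.card_perm, ← Subgroup.index_eq_card] at hle
    have hi : H.index ≤ 4 := by
      rw [hc'] at hc
      rcases Nat.eq_zero_or_pos c with rfl | hcp
      · simp at hc
      · nlinarith
    have := Nat.factorial_le hi
    simp only [show Nat.factorial 4 = 24 from rfl] at this
    omega
  · exact hne (top_le_iff.1 (ht ▸ H.normalCore_le))

variable {G : Type*} [Group G]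

/-- Orbit counting for conjugation by a subgroup. -/
theorem card_orbit_conj [Finite G] (H : Subgroup G) (a : G) (O : Set G)
    (hO : ∀ b, b ∈ O ↔ ∃ h ∈ H, h * a * h⁻¹ = b) :
    Nat.card H = O.ncard * Nat.card ↥(H ⊓ Subgroup.centralizer ({a} : Set G)) := by
  letI : MulAction H G := MulAction.compHom G (MulAut.conj.comp H.subtype : H →* MulAut G)
  have hst : MulAction.stabilizer H a = (H ⊓ Subgroup.centralizer ({a} : Set G)).subgroupOf H := by
    ext h
    rw [MulAction.mem_stabilizer_iff, Subgroup.mem_subgroupOf, Subgroup.mem_inf,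
      Subgroup.mem_centralizer_singleton_iff]
    show (h : G) * a * (h : G)⁻¹ = a ↔ _
    rw [mul_inv_eq_iff_eq_mul]
    exact ⟨fun e => ⟨h.2, e⟩, fun e => e.2⟩
  have horb : MulAction.orbit H a = O := by
    ext b
    rw [hO]
    exact ⟨fun ⟨h, e⟩ => ⟨h, h.2, e⟩, fun ⟨h, hh, e⟩ => ⟨⟨h, hh⟩, e⟩⟩
  rw [← Subgroup.card_mul_index (MulAction.stabilizer H a), MulAction.index_stabilizer, horb, hst,
    Nat.card_congr (Subgroup.subgroupOfEquivOfLe inf_le_left).toEquiv, mul_comm]

/-- The automorphisms of an elementary group of order eight are unimodular matrices. -/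
theorem aut_to_SL {V : Type*} [Group V] (e : Multiplicative (Fin 3 → ZMod 2) ≃* V) :
    ∃ f : MulAut V →* Matrix.SpecialLinearGroup (Fin 3) (ZMod 2), Function.Injective f := by
  let lin : MulAut V → ((Fin 3 → ZMod 2) →ₗ[ZMod 2] (Fin 3 → ZMod 2)) := fun φ =>
    (AddMonoidHom.mk' (fun v => (e.symm (φ (e (Multiplicative.ofAdd v)))).toAdd) fun v w => by
      simp [ofAdd_add]).toZModLinearMap 2
  have lin_mul : ∀ φ ψ, lin (φ * ψ) = (lin φ).comp (lin ψ) := fun φ ψ => LinearMap.ext fun v => by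
    simp [lin, MulAut.mul_apply]
  have lin_one : lin 1 = LinearMap.id := LinearMap.ext fun v => by simp [lin]
  have h1 : ∀ d : ZMod 2, d ≠ 0 → d = 1 := by decide
  have hdet : ∀ φ, (LinearMap.toMatrix' (lin φ)).det = 1 := fun φ => by
    refine h1 _ fun h0 => ?_
    have h2 : LinearMap.toMatrix' (lin φ) * LinearMap.toMatrix' (lin φ⁻¹) = 1 := by
      rw [← LinearMap.toMatrix'_comp, ← lin_mul, mul_inv_cancel, lin_one, LinearMap.toMatrix'_id]
    have h3 := congrArg Matrix.det h2
    rw [Matrix.det_mul, h0, zero_mul, Matrix.det_one] at h3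
    exact zero_ne_one h3
  refine ⟨MonoidHom.mk' (fun φ => ⟨LinearMap.toMatrix' (lin φ), hdet φ⟩) fun φ ψ => Subtype.ext ?_,
    fun φ ψ h => ?_⟩
  · show LinearMap.toMatrix' (lin (φ * ψ)) = _
    rw [lin_mul, LinearMap.toMatrix'_comp]
    rfl
  · have h' := LinearMap.toMatrix'.injective (congrArg Subtype.val h)
    refine MulEquiv.ext fun x => ?_
    obtain ⟨v, rfl⟩ := e.surjective x
    have h2 := DFunLike.congr_fun h' v.toAdd
    simpa [lin] using h2

/-- A group with a normal subgroup and a complement modulo a common part. -/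
theorem quotient_equiv_prod {L A S : Type*} [Group L] [Group A] [Group S] (K C R : Subgroup L)
    [K.Normal] [C.Normal] [R.Normal] (ρ : L →* S) (hρ : Function.Surjective ρ) (hρk : ρ.ker = K)
    (f : K →* A) (hf : Function.Surjective f) (hR : ∀ l, l ∈ R ↔ ∃ h : l ∈ K, f ⟨l, h⟩ = 1)
    (hCK : C ⊓ K ≤ R) (hsup : C ⊔ K = ⊤) : Nonempty (L ⧸ R ≃* S × A) := by
  let g : K →* L ⧸ C := (QuotientGroup.mk' C).comp K.subtype
  have hg : Function.Surjective g := by
    intro x
    obtain ⟨l, rfl⟩ := QuotientGroup.mk'_surjective C x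
    have hl : l ∈ (⊤ : Subgroup L) := Subgroup.mem_top l
    rw [← hsup, Subgroup.mem_sup_of_normal_left] at hl
    obtain ⟨c, hc, k, hk, rfl⟩ := hl
    refine ⟨⟨k, hk⟩, ?_⟩
    rw [map_mul, show QuotientGroup.mk' C c = 1 from (QuotientGroup.eq_one_iff c).2 hc, one_mul]
    rfl
  have hker : g.ker ≤ f.ker := fun k hk => by
    have hkC : (k : L) ∈ C := (QuotientGroup.eq_one_iff _).1 hk
    obtain ⟨h, e⟩ := (hR k).1 (hCK ⟨hkC, k.2⟩)
    exact e
  let φ : L →* A := (g.liftOfSurjective hg ⟨f, hker⟩).comp (QuotientGroup.mk' C)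
  have hφ : ∀ k : K, φ k = f k := fun k => g.liftOfRightInverse_comp_apply (Function.surjInv hg) (Function.rightInverse_surjInv hg) ⟨f, hker⟩ k
  have hsurj : Function.Surjective (ρ.prod φ) := by
    rintro ⟨x, y⟩
    obtain ⟨l, rfl⟩ := hρ x
    obtain ⟨k, hk⟩ := hf ((φ l)⁻¹ * y)
    refine ⟨l * k, Prod.ext ?_ ?_⟩
    · show ρ (l * k) = ρ l
      rw [map_mul, MonoidHom.mem_ker.1 (show (k : L) ∈ ρ.ker by rw [hρk]; exact k.2), mul_one]
    · show φ (l * k) = y
      rw [map_mul, hφ, hk, mul_inv_cancel_left]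
  have hk : (ρ.prod φ).ker = R := by
    ext l
    rw [MonoidHom.mem_ker, MonoidHom.prod_apply, Prod.mk_eq_one, ← MonoidHom.mem_ker, hρk, hR]
    exact ⟨fun ⟨h1, h2⟩ => ⟨h1, by rw [← hφ ⟨l, h1⟩]; exact h2⟩,
      fun ⟨h1, h2⟩ => ⟨h1, by rw [hφ ⟨l, h1⟩]; exact h2⟩⟩
  exact ⟨(QuotientGroup.quotientMulEquivOfEq hk.symm).trans
    (QuotientGroup.quotientKerEquivOfSurjective _ hsurj)⟩

end Cfsg.Agent.LargeFischer.Eight
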