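import Cfsg.Agent.LargeFischer.CenterCert
import Cfsg.Agent.LargeFischer.SylU
import Cfsg.Agent.LargeExtra.PairGroup
import Cfsg.Agent.LargeExtra.Large

/-!
A conjugate `s = g z g⁻¹` of `z` in `Q` for a group with a frame in normal form, transported to the
ambient group: `s` lies over the long orbit, `g Q g⁻¹` covers the subgroup of order sixteen of the
stabiliser and meets `Q` in the preimage of the six-dimensional space.
-/

set_option autoImplicit false

namespace Cfsg.Agent.LargeFischer.Center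

open Cfsg
open Cfsg.Agent.GFour25
open Cfsg.Agent.SporB.FischerU (Vec vecN enc vecN_enc)
open Cfsg.Agent.TTClass

theorem vadd_self (x : Vec) : x + x = 0 := funext fun i => GFour25.add_self _

/-- The frame, read in the ambient group. -/
structure Model {G : Type*} [Group G] (z : G) where
  QG : Subgroup G
  rh : G → Equiv.Perm Vec
  ps : G → Vec
  ci : LargeExtra.CentralInvolution QG z
  cent : Subgroup.centralizer (QG : Set G) ≤ Subgroup.zpowers z
  norm : Subgroup.centralizer ({z} : Set G) ≤ Subgroup.normalizer (QG : Set G)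
  card_Q : Nat.card QG = 8192
  rh_mul : ∀ a b, Commute a z → Commute b z → rh (a * b) = rh a * rh b
  rh_ker : ∀ a, Commute a z → (rh a = 1 ↔ a ∈ QG)
  rh_mem : ∀ a, Commute a z → rh a ∈ Ke
  rh_surj : ∀ k ∈ Ke, ∃ a, Commute a z ∧ rh a = k
  ps_mul : ∀ a b, a ∈ QG → b ∈ QG → ps (a * b) = ps a + ps b
  ps_ker : ∀ a, a ∈ QG → (ps a = 0 ↔ a = 1 ∨ a = z)
  ps_surj : ∀ x, ∃ a ∈ QG, ps a = x
  ps_norm : ∀ a, a ∈ QG → (UnitF4.H (ps a) (ps a) = 0 ↔ a * a = 1)
  ps_conj : ∀ h a, Commute h z → a ∈ QG → ps (h * a * h⁻¹) = rh h (ps a)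
  card_Kc : Nat.card Kc = 9797760
  card_Ke : Nat.card Ke ≤ 2 * Nat.card Kc

namespace Model

variable {G : Type*} [Group G] {z : G} (M : Model z)
include M

theorem comm_of_mem {a : G} (ha : a ∈ M.QG) : Commute a z := M.ci.comm a ha

theorem rh_one : M.rh 1 = 1 := (M.rh_ker 1 (Commute.one_left z)).2 (one_mem _)

theorem rh_inv {a : G} (ha : Commute a z) : M.rh a⁻¹ = (M.rh a)⁻¹ := by
  have h := M.rh_mul a⁻¹ a ha.inv_left ha
  rw [inv_mul_cancel, M.rh_one] at h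
  exact eq_inv_of_mul_eq_one_left h.symm

theorem rh_conj {a b : G} (ha : Commute a z) (hb : Commute b z) :
    M.rh (a * b * a⁻¹) = M.rh a * M.rh b * (M.rh a)⁻¹ := by
  rw [M.rh_mul _ _ (ha.mul_left hb) ha.inv_left, M.rh_mul _ _ ha hb, M.rh_inv ha]

theorem rh_Q {a : G} (ha : a ∈ M.QG) : M.rh a = 1 := (M.rh_ker a (M.comm_of_mem ha)).2 ha

theorem ps_one : M.ps 1 = 0 := (M.ps_ker 1 (one_mem _)).2 (Or.inl rfl)

theorem ps_z : M.ps z = 0 := (M.ps_ker z M.ci.mem).2 (Or.inr rfl)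

theorem ps_inv {a : G} (ha : a ∈ M.QG) : M.ps a⁻¹ = M.ps a := by
  have h := M.ps_mul a a⁻¹ ha (inv_mem ha)
  rw [mul_inv_cancel, M.ps_one] at h
  calc M.ps a⁻¹ = M.ps a + M.ps a + M.ps a⁻¹ := by rw [vadd_self, zero_add]
    _ = M.ps a := by rw [add_assoc, ← h, add_zero]

theorem ps_ratio {a b : G} (ha : a ∈ M.QG) (hb : b ∈ M.QG) : M.ps (a * b⁻¹) = M.ps a + M.ps b := by
  rw [M.ps_mul _ _ ha (inv_mem hb), M.ps_inv hb]

theorem eq_or_eq_mul_of_ps_eq {a b : G} (ha : a ∈ M.QG) (hb : b ∈ M.QG) (h : M.ps a = M.ps b) :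
    a = b ∨ a = b * z := by
  have h1 : M.ps (b⁻¹ * a) = 0 := by
    rw [M.ps_mul _ _ (inv_mem hb) ha, M.ps_inv hb, h, vadd_self]
  rcases (M.ps_ker _ (mul_mem (inv_mem hb) ha)).1 h1 with e | e
  · exact Or.inl (inv_mul_eq_one.1 e).symm
  · exact Or.inr (inv_mul_eq_iff_eq_mul.1 e)

theorem conj_mem_Q {h a : G} (hh : Commute h z) (ha : a ∈ M.QG) : h * a * h⁻¹ ∈ M.QG :=
  (Subgroup.mem_normalizer_iff.1 (M.norm (Subgroup.mem_centralizer_singleton_iff.2 hh)) a).1 ha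

/-- A conjugate of `Q`. -/
def cj (g : G) : Subgroup G := M.QG.map (MulAut.conj g).toMonoidHom

theorem mem_cj {g a : G} : a ∈ M.cj g ↔ g⁻¹ * a * g ∈ M.QG := by
  constructor
  · rintro ⟨q, hq, rfl⟩
    show g⁻¹ * (g * q * g⁻¹) * g ∈ M.QG
    rwa [show g⁻¹ * (g * q * g⁻¹) * g = q by group]
  · intro h
    refine ⟨g⁻¹ * a * g, h, ?_⟩
    show g * (g⁻¹ * a * g) * g⁻¹ = a
    group

theorem conj_mem_cj_iff {g a c : G} : c * a * c⁻¹ ∈ M.cj (c * g) ↔ a ∈ M.cj g := by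
  rw [M.mem_cj, M.mem_cj, show (c * g)⁻¹ * (c * a * c⁻¹) * (c * g) = g⁻¹ * a * g by group]

/-- A standard conjugate: it lies in `Q` over the chosen vector. -/
def Std (g : G) : Prop := g * z * g⁻¹ ∈ M.QG ∧ M.ps (g * z * g⁻¹) = w0

theorem Std.ne {g : G} (h : M.Std g) : g * z * g⁻¹ ≠ z := fun e => by
  have h2 := h.2
  rw [e, M.ps_z] at h2
  exact rep_props.2.1 h2.symm

variable [Finite G]

theorem large {g : G} (hs : g * z * g⁻¹ ∈ M.QG) (hne : g * z * g⁻¹ ≠ z) : IsLargeExtraspecial M.QG :=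
  LargeExtra.isLarge_of_conj M.ci M.cent M.norm (w := 6) (by norm_num)
    (M.card_Q.trans (by norm_num)) hs hne

theorem pair {g : G} (hs : g * z * g⁻¹ ∈ M.QG) (hne : g * z * g⁻¹ ≠ z) :
    LargeExtra.PairData M.QG (M.cj g) z (g * z * g⁻¹) :=
  LargeExtra.pairData_of_large (M.large hs hne) M.ci.center_eq (w := 6) (by norm_num)
    (M.card_Q.trans (by norm_num))
    (fun h => hne (mul_inv_eq_iff_eq_mul.2 (Subgroup.mem_centralizer_singleton_iff.1 h))) hs

theorem mem_cj_z {g : G} (hs : g * z * g⁻¹ ∈ M.QG) (hne : g * z * g⁻¹ ≠ z) : z ∈ M.cj g :=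
  (M.pair hs hne).hz

theorem conj_mem_cj {g a p : G} (hs : g * z * g⁻¹ ∈ M.QG) (hne : g * z * g⁻¹ ≠ z)
    (ha : Commute a (g * z * g⁻¹)) (hp : p ∈ M.cj g) : a * p * a⁻¹ ∈ M.cj g :=
  (Subgroup.mem_normalizer_iff.1 ((M.pair hs hne).hL3' (Subgroup.mem_centralizer_singleton_iff.2 ha)) p).1 hp

theorem comm_of_mem_cj {g p : G} (hs : g * z * g⁻¹ ∈ M.QG) (hne : g * z * g⁻¹ ≠ z) (hp : p ∈ M.cj g) :
    Commute p (g * z * g⁻¹) :=
  (M.pair hs hne).hQ'.comm p hp

/-- An element fixing the vector of a conjugate lifts to one centralising it. -/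
theorem exists_lift_stab {g : G} (hs : g * z * g⁻¹ ∈ M.QG) (hne : g * z * g⁻¹ ≠ z) {k : Equiv.Perm Vec}
    (hk : k ∈ Ke) (hfix : k (M.ps (g * z * g⁻¹)) = M.ps (g * z * g⁻¹)) :
    ∃ a, Commute a z ∧ Commute a (g * z * g⁻¹) ∧ M.rh a = k := by
  obtain ⟨a, ha, rfl⟩ := M.rh_surj k hk
  set s := g * z * g⁻¹ with hsdef
  have h1 : M.ps (a * s * a⁻¹) = M.ps s := by rw [M.ps_conj a s ha hs, hfix]
  rcases M.eq_or_eq_mul_of_ps_eq (M.conj_mem_Q ha hs) hs h1 with e | e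
  · exact ⟨a, ha, mul_inv_eq_iff_eq_mul.1 e, rfl⟩
  · obtain ⟨y, hy, hys⟩ := M.ci.exists_swap hs (M.pair hs hne).hQ'.ne_one hne
    refine ⟨y * a, (M.comm_of_mem hy).mul_left ha, mul_inv_eq_iff_eq_mul.1 ?_, ?_⟩
    · calc y * a * s * (y * a)⁻¹ = y * (a * s * a⁻¹) * y⁻¹ := by group
        _ = y * s * y⁻¹ * (y * z * y⁻¹) := by rw [e]; group
        _ = s * z * z := by rw [hys, mul_inv_eq_iff_eq_mul.2 (M.comm_of_mem hy)]
        _ = s := by rw [mul_assoc, M.ci.sq, mul_one]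
    · rw [M.rh_mul _ _ (M.comm_of_mem hy) ha, M.rh_Q hy, one_mul]

/-- The restriction of the action to the centraliser. -/
noncomputable def rhHom : Subgroup.centralizer ({z} : Set G) →* Equiv.Perm Vec where
  toFun a := M.rh a
  map_one' := M.rh_one
  map_mul' a b := M.rh_mul a b (Subgroup.mem_centralizer_singleton_iff.1 a.2)
    (Subgroup.mem_centralizer_singleton_iff.1 b.2)

/-- The image of the part of a conjugate of `Q` centralising `z`. -/
noncomputable def hat (g : G) : Subgroup (Equiv.Perm Vec) :=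
  ((M.cj g).subgroupOf (Subgroup.centralizer ({z} : Set G))).map M.rhHom

theorem mem_hat {g : G} {k : Equiv.Perm Vec} :
    k ∈ M.hat g ↔ ∃ a ∈ M.cj g, Commute a z ∧ M.rh a = k := by
  constructor
  · rintro ⟨a, ha, rfl⟩
    exact ⟨a, ha, Subgroup.mem_centralizer_singleton_iff.1 a.2, rfl⟩
  · rintro ⟨a, ha, haz, rfl⟩
    exact ⟨⟨a, Subgroup.mem_centralizer_singleton_iff.2 haz⟩, ha, rfl⟩

theorem hat_le {g : G} (hs : g * z * g⁻¹ ∈ M.QG) (hne : g * z * g⁻¹ ≠ z) :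
    M.hat g ≤ Ke ⊓ MulAction.stabilizer (Equiv.Perm Vec) (M.ps (g * z * g⁻¹)) := by
  intro k hk
  obtain ⟨a, ha, haz, rfl⟩ := M.mem_hat.1 hk
  refine ⟨M.rh_mem a haz, ?_⟩
  show M.rh a (M.ps (g * z * g⁻¹)) = _
  rw [← M.ps_conj a _ haz hs, mul_inv_eq_iff_eq_mul.2 (M.comm_of_mem_cj hs hne ha)]

theorem hat_normal {g : G} (hs : g * z * g⁻¹ ∈ M.QG) (hne : g * z * g⁻¹ ≠ z) {k e : Equiv.Perm Vec}
    (hk : k ∈ Ke) (hfix : k (M.ps (g * z * g⁻¹)) = M.ps (g * z * g⁻¹)) (he : e ∈ M.hat g) :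
    k * e * k⁻¹ ∈ M.hat g := by
  obtain ⟨a, ha, haz, rfl⟩ := M.mem_hat.1 he
  obtain ⟨c, hcz, hcs, rfl⟩ := M.exists_lift_stab hs hne hk hfix
  exact M.mem_hat.2 ⟨c * a * c⁻¹, M.conj_mem_cj hs hne hcs ha, (hcz.mul_left haz).mul_left hcz.inv_left,
    M.rh_conj hcz haz⟩

theorem hat_isPGroup {g : G} (hs : g * z * g⁻¹ ∈ M.QG) (hne : g * z * g⁻¹ ≠ z) :
    IsPGroup 2 (M.hat g) :=
  ((M.pair hs hne).hQ'.isPGroup.comap_subtype).map _

theorem card_inter_le {g : G} (hs : g * z * g⁻¹ ∈ M.QG) (hne : g * z * g⁻¹ ≠ z) :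
    Nat.card ↥(M.QG ⊓ M.cj g) ≤ 128 := by
  haveI : Fact (Nat.Prime 2) := ⟨Nat.prime_two⟩
  have hc := (M.pair hs hne).elementary.1
  have hA : IsMulCommutative ↥((M.QG ⊓ M.cj g).subgroupOf M.QG) :=
    ⟨⟨fun x y => Subtype.ext (Subtype.ext (congrArg (fun u : ↥(M.QG ⊓ M.cj g) => (u : G))
      (hc.is_comm.comm ⟨((x : ↥M.QG) : G), x.2⟩ ⟨((y : ↥M.QG) : G), y.2⟩) :))⟩⟩
  have h := Cfsg.Agent.PGroup.extraspecial_card_abelian_le M.ci.extra (n := 6)
    (M.card_Q.trans (by norm_num)) hA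
  rwa [Nat.card_congr (Subgroup.subgroupOfEquivOfLe inf_le_left).toEquiv] at h

theorem card_hat {g : G} (hs : g * z * g⁻¹ ∈ M.QG) (hne : g * z * g⁻¹ ≠ z) :
    32 ≤ Nat.card (M.hat g) := by
  classical
  haveI : Fact (Nat.Prime 2) := ⟨Nat.prime_two⟩
  have D := M.pair hs hne
  set H := Subgroup.centralizer ({z} : Set G) with hH
  set P : Subgroup ↥H := (M.cj g).subgroupOf H with hP
  -- the order of the part centralising `z`
  have hcardP : Nat.card P = 4096 := by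
    have hz' : (⟨z, D.hz⟩ : ↥(M.cj g)) ∉ Subgroup.center ↥(M.cj g) := fun hc => by
      rcases D.hQ'.eq_of_mem hc with e | e
      · exact M.ci.ne_one e
      · exact hne e.symm
    have hidx := Cfsg.Agent.PGroup.extraspecial_index_centralizer D.hQ'.extra hz'
    have hC : Subgroup.centralizer ({(⟨z, D.hz⟩ : ↥(M.cj g))} : Set ↥(M.cj g)) = H.subgroupOf (M.cj g) := by
      ext x
      rw [Subgroup.mem_subgroupOf, hH, Subgroup.mem_centralizer_singleton_iff,
        Subgroup.mem_centralizer_singleton_iff]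
      exact ⟨congrArg Subtype.val, fun h => Subtype.ext h⟩
    rw [hC] at hidx
    have h1 := Subgroup.card_mul_index (H.subgroupOf (M.cj g))
    have h2 : Nat.card ↥(M.cj g) = 8192 := by
      rw [← M.card_Q]
      exact (Nat.card_congr (M.QG.equivMapOfInjective _ (MulAut.conj g).injective).toEquiv).symm
    rw [hidx, h2] at h1
    have h3 : Nat.card P = Nat.card ↥(H.subgroupOf (M.cj g)) := by
      have e1 := Nat.card_congr
        (Subgroup.equivMapOfInjective ((M.cj g).subgroupOf H) H.subtype H.subtype_injective).toEquiv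
      have e2 := Nat.card_congr (Subgroup.equivMapOfInjective (H.subgroupOf (M.cj g)) (M.cj g).subtype
        (M.cj g).subtype_injective).toEquiv
      rw [Subgroup.subgroupOf_map_subtype] at e1 e2
      rw [inf_comm] at e1
      exact e1.trans e2.symm
    omega
  -- the kernel
  let f : P →* Equiv.Perm Vec := M.rhHom.comp P.subtype
  have hker : Nat.card f.ker ≤ 128 := by
    refine le_trans ?_ (M.card_inter_le hs hne)
    refine Nat.card_le_card_of_injective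
      (fun a : f.ker => (⟨((a.1 : ↥H) : G), (M.rh_ker _ (Subgroup.mem_centralizer_singleton_iff.1 (a.1 : ↥H).2)).1
        a.2, a.1.2⟩ : ↥(M.QG ⊓ M.cj g))) ?_
    intro a b e
    exact Subtype.ext (Subtype.ext (Subtype.ext (congrArg Subtype.val e :)))
  have hrange : f.range = M.hat g := by
    rw [Model.hat, MonoidHom.range_comp, Subgroup.range_subtype]
  have h := Subgroup.card_eq_card_quotient_mul_card_subgroup f.ker
  rw [Nat.card_congr (QuotientGroup.quotientKerEquivRange f).toEquiv, hrange, hcardP] at h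
  by_contra hlt
  push Not at hlt
  have : Nat.card (M.hat g) * Nat.card f.ker ≤ 31 * 128 := Nat.mul_le_mul (by omega) hker
  omega

theorem card_hat_inf {g : G} (hs : g * z * g⁻¹ ∈ M.QG) (hne : g * z * g⁻¹ ≠ z) :
    16 ≤ Nat.card ↥(M.hat g ⊓ Kc) := by
  have hle : M.hat g ≤ Ke := (M.hat_le hs hne).trans inf_le_left
  have h1 := Subgroup.card_mul_index (Kc.subgroupOf Ke)
  rw [Nat.card_congr (Subgroup.subgroupOfEquivOfLe Kc_le_Ke).toEquiv] at h1
  have hidx : Kc.relIndex Ke ≤ 2 := by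
    have h2 := M.card_Ke
    rw [← h1, M.card_Kc] at h2
    show (Kc.subgroupOf Ke).index ≤ 2
    omega
  have hne0 : Kc.relIndex Ke ≠ 0 := Subgroup.index_ne_zero_of_finite
  have h3 : Kc.relIndex (M.hat g) ≤ 2 := (Subgroup.relIndex_le_of_le_right hle hne0).trans hidx
  have h4 := Subgroup.card_mul_index (Kc.subgroupOf (M.hat g))
  rw [← Subgroup.inf_subgroupOf_left, Nat.card_congr (Subgroup.subgroupOfEquivOfLe inf_le_left).toEquiv,
    Subgroup.inf_subgroupOf_left] at h4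
  have h5 := M.card_hat hs hne
  have h6 : Nat.card ↥(M.hat g ⊓ Kc) * (Kc.subgroupOf (M.hat g)).index ≤ Nat.card ↥(M.hat g ⊓ Kc) * 2 :=
    Nat.mul_le_mul_left _ h3
  omega

theorem card_stab_U : Nat.card ↥(Kc ⊓ stabV Data.repU) = 25920 := by
  have h := (card_stabs (le_refl Kc) Kc_le_Kall).1
  rw [M.card_Kc] at h
  omega

theorem card_S0 : Nat.card S0 = 5760 := by
  have h := (card_stabs (le_refl Kc) Kc_le_Kall).2
  rw [M.card_Kc] at h
  show Nat.card ↥(Kc ⊓ stabV Data.repW) = 5760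
  omega

theorem card_stab_Ke : Nat.card ↥(Ke ⊓ stabV Data.repW) ≤ 11520 := by
  have h := (card_stabs Kc_le_Ke Ke_le_Kall).2
  have h' := M.card_Ke
  rw [M.card_Kc, h] at h'
  omega

/-- Every conjugate of `z` in `Q` lies over the long orbit. -/
theorem exists_std {g : G} (hs : g * z * g⁻¹ ∈ M.QG) (hne : g * z * g⁻¹ ≠ z) :
    ∃ a, Commute a z ∧ M.Std (a * g) := by
  have hne1 : g * z * g⁻¹ ≠ 1 := (M.pair hs hne).hQ'.ne_one
  have h0 : M.ps (g * z * g⁻¹) ≠ 0 := fun h => by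
    rcases (M.ps_ker _ hs).1 h with e | e
    · exact hne1 e
    · exact hne e
  have hiso : UnitF4.H (M.ps (g * z * g⁻¹)) (M.ps (g * z * g⁻¹)) = 0 :=
    (M.ps_norm _ hs).2 (M.pair hs hne).hQ'.sq
  have move : ∀ k ∈ Kc, ∃ a, Commute a z ∧ a * g * z * (a * g)⁻¹ ∈ M.QG ∧
      M.ps (a * g * z * (a * g)⁻¹) = k (M.ps (g * z * g⁻¹)) := by
    intro k hk
    obtain ⟨a, ha, rfl⟩ := M.rh_surj k (Kc_le_Ke hk)
    refine ⟨a, ha, ?_⟩
    rw [show a * g * z * (a * g)⁻¹ = a * (g * z * g⁻¹) * a⁻¹ by group]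
    exact ⟨M.conj_mem_Q ha hs, M.ps_conj a _ ha hs⟩
  rcases orbit_cases h0 hiso with ⟨-, k, hk, e⟩ | ⟨-, k, hk, e⟩
  · exfalso
    obtain ⟨a, -, hq, hp⟩ := move k hk
    rw [e] at hp
    have hne' : a * g * z * (a * g)⁻¹ ≠ z := fun h => by
      rw [h, M.ps_z] at hp
      exact rep_props.1.1 hp.symm
    have hlt := small_two_normal M.card_stab_U (M.hat (a * g) ⊓ Kc)
      (fun x hx => ⟨hx.2, by
        have h2 := (M.hat_le hq hne' hx.1).2
        rw [hp] at h2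
        exact h2⟩)
      (fun x hx y hy => ⟨M.hat_normal hq hne' (Kc_le_Ke hx.1) (by rw [hp]; exact hx.2) hy.1,
        Subgroup.mul_mem _ (Subgroup.mul_mem _ hx.1 hy.2) (Subgroup.inv_mem _ hx.1)⟩)
      ((M.hat_isPGroup hq hne').to_le inf_le_left)
    have := M.card_hat_inf hq hne'
    omega
  · obtain ⟨a, ha, hq, hp⟩ := move k hk
    exact ⟨a, ha, hq, hp.trans e⟩

/-- The commutation criterion. -/
theorem commute_iff_perp {g a : G} (hg : M.Std g) (ha : a ∈ M.QG) :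
    Commute a (g * z * g⁻¹) ↔ Perp (M.ps a) := by
  have hs2 := (M.pair hg.1 (Std.ne M hg)).hQ'.sq
  set s := g * z * g⁻¹ with hsdef
  have hn := M.ps_norm (a * s) (mul_mem ha hg.1)
  rw [M.ps_mul a s ha hg.1, hg.2] at hn
  have hna := M.ps_norm a ha
  have hvals : ∀ x : Vec, UnitF4.H x x = 0 ∨ UnitF4.H x x = 1 := fun x => by
    rw [← Cfsg.Agent.SporB.FischerU.hs_eq]; exact hs_self x
  constructor
  · intro hc
    have e : a * s * (a * s) = a * a := by
      rw [mul_assoc a s, ← mul_assoc s a, ← hc.eq, mul_assoc a s s, hs2, mul_one]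
    rw [e, ← hna] at hn
    show UnitF4.H (M.ps a + w0) (M.ps a + w0) = UnitF4.H (M.ps a) (M.ps a)
    rcases hvals (M.ps a) with h | h
    · rw [h, hn.2 h]
    · rcases hvals (M.ps a + w0) with h' | h'
      · rw [h', hn.1 h']
      · rw [h, h']
  · intro hp
    refine mul_inv_eq_iff_eq_mul.1 ((M.ci.conj_cases ha hg.1).resolve_right fun e => ?_)
    have h1 : a * s = s * z * a := mul_inv_eq_iff_eq_mul.1 e
    have h2 : s * a = a * s * z := by
      rw [h1, mul_assoc (s * z), M.ci.comm a ha, mul_assoc s z, ← mul_assoc z z a, M.ci.sq, one_mul]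
    have e2 : a * s * (a * s) = a * a * z := by
      calc a * s * (a * s) = a * (s * a) * s := by group
        _ = a * a * (s * z) * s := by rw [h2]; group
        _ = a * a * (z * (s * s)) := by rw [M.ci.comm s hg.1]; group
        _ = a * a * z := by rw [hs2, mul_one]
    rw [e2, show UnitF4.H (M.ps a + w0) (M.ps a + w0) = UnitF4.H (M.ps a) (M.ps a) from hp, hna] at hn
    rcases M.ci.sq_mem ha with r | r
    · exact M.ci.ne_one (by simpa [r] using hn.1 r)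
    · have := hn.2 (by rw [r, M.ci.sq])
      exact M.ci.ne_one (r.symm.trans this)

/-- The conjugate of `Q` covers the subgroup of order sixteen. -/
theorem EFour_le_hat {g : G} (hg : M.Std g) : EFour ≤ M.hat g := by
  have hne := Std.ne M hg
  have hle : M.hat g ⊓ Kc ≤ EFour := by
    refine normal_two_le M.card_S0 (fun x hx => ⟨hx.2, ?_⟩) (fun c hc p hp => ?_)
      ((M.hat_isPGroup hg.1 hne).to_le inf_le_left)
    · have h2 := (M.hat_le hg.1 hne hx.1).2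
      rw [hg.2] at h2
      exact h2
    · exact ⟨M.hat_normal hg.1 hne (Kc_le_Ke hc.1) (by rw [hg.2]; exact hc.2) hp.1,
        Subgroup.mul_mem _ (Subgroup.mul_mem _ hc.1 hp.2) (Subgroup.inv_mem _ hc.1)⟩
  have he := Subgroup.eq_of_le_of_card_ge hle (card_EFour.trans (M.card_hat_inf hg.1 hne))
  exact he ▸ inf_le_left

theorem card_EFour_eq {g : G} (hg : M.Std g) : Nat.card EFour = 16 := by
  have hne := Std.ne M hg
  refine le_antisymm card_EFour ((M.card_hat_inf hg.1 hne).trans (Subgroup.card_le_of_le ?_))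
  refine normal_two_le M.card_S0 (fun x hx => ⟨hx.2, ?_⟩) (fun c hc p hp => ?_)
    ((M.hat_isPGroup hg.1 hne).to_le inf_le_left)
  · have h2 := (M.hat_le hg.1 hne hx.1).2
    rw [hg.2] at h2
    exact h2
  · exact ⟨M.hat_normal hg.1 hne (Kc_le_Ke hc.1) (by rw [hg.2]; exact hc.2) hp.1,
      Subgroup.mul_mem _ (Subgroup.mul_mem _ hc.1 hp.2) (Subgroup.inv_mem _ hc.1)⟩

theorem ps_commutator {g p a : G} (hg : M.Std g) (hp : p ∈ M.cj g) (hpz : Commute p z) (ha : a ∈ M.QG)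
    (hperp : Perp (M.ps a)) :
    p * a * p⁻¹ * a⁻¹ ∈ M.QG ⊓ M.cj g ∧ M.ps (p * a * p⁻¹ * a⁻¹) = M.rh p (M.ps a) + M.ps a := by
  have hc := (M.commute_iff_perp hg ha).2 hperp
  refine ⟨Subgroup.mem_inf.2 ⟨mul_mem (M.conj_mem_Q hpz ha) (inv_mem ha), ?_⟩, ?_⟩
  · rw [show p * a * p⁻¹ * a⁻¹ = p * (a * p⁻¹ * a⁻¹) by group]
    exact mul_mem hp (M.conj_mem_cj hg.1 (Std.ne M hg) hc (inv_mem hp))
  · rw [M.ps_ratio (M.conj_mem_Q hpz ha) ha, M.ps_conj p a hpz ha]

/-- The intersection with the conjugate of `Q` is the preimage of the six-dimensional space. -/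
theorem mem_cj_iff {g a : G} (hg : M.Std g) (ha : a ∈ M.QG) : a ∈ M.cj g ↔ M.ps a ∈ DSet := by
  classical
  have hne := Std.ne M hg
  have hz := M.mem_cj_z hg.1 hne
  have hss : g * z * g⁻¹ ∈ M.cj g := ⟨z, M.ci.mem, rfl⟩
  let U : Set Vec := M.ps '' ↑(M.QG ⊓ M.cj g)
  have hsub : DSet ⊆ U := by
    refine DSet_subset ⟨1, one_mem _, M.ps_one⟩ ?_ ⟨_, ⟨hg.1, hss⟩, hg.2⟩ ?_
    · rintro _ ⟨a, ha, rfl⟩ _ ⟨b, hb, rfl⟩
      exact ⟨a * b, mul_mem ha hb, M.ps_mul a b ha.1 hb.1⟩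
    · intro e he x hx
      obtain ⟨p, hp, hpz, rfl⟩ := M.mem_hat.1 (M.EFour_le_hat hg he)
      obtain ⟨b, hb, rfl⟩ := M.ps_surj x
      obtain ⟨h1, h2⟩ := M.ps_commutator hg hp hpz hb hx
      exact ⟨_, h1, h2⟩
  let φ : ↥(M.QG ⊓ M.cj g) →* Multiplicative Vec :=
    { toFun := fun d => Multiplicative.ofAdd (M.ps d)
      map_one' := by rw [OneMemClass.coe_one, M.ps_one]; rfl
      map_mul' := fun d d' => by rw [Subgroup.coe_mul, M.ps_mul _ _ d.2.1 d'.2.1]; rfl }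
  have hk : 2 ≤ Nat.card φ.ker := by
    haveI : Nontrivial φ.ker := ⟨⟨⟨⟨z, M.ci.mem, hz⟩, by
      show Multiplicative.ofAdd (M.ps z) = 1
      rw [M.ps_z]; rfl⟩, 1, fun e => M.ci.ne_one (congrArg (fun d : φ.ker => ((d.1 : ↥(M.QG ⊓ M.cj g)) : G)) e)⟩⟩
    exact Finite.one_lt_card
  have h := Subgroup.card_eq_card_quotient_mul_card_subgroup φ.ker
  rw [Nat.card_congr (QuotientGroup.quotientKerEquivRange φ).toEquiv] at h
  have hU : U.ncard ≤ 64 := by
    have hU' : U.ncard ≤ Nat.card φ.range := by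
      refine le_of_eq_of_le ?_ (le_of_eq (Nat.card_coe_set_eq (φ.range : Set (Multiplicative Vec))).symm)
      refine Set.ncard_congr (fun x _ => Multiplicative.ofAdd x) ?_ (fun _ _ _ _ e => e) ?_
      · rintro _ ⟨d, hd, rfl⟩
        exact ⟨⟨d, hd⟩, rfl⟩
      · rintro _ ⟨d, rfl⟩
        exact ⟨M.ps d, ⟨d, d.2, rfl⟩, rfl⟩
    have h128 := M.card_inter_le hg.1 hne
    rw [h] at h128
    have : U.ncard * 2 ≤ Nat.card φ.range * Nat.card φ.ker := Nat.mul_le_mul hU' hk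
    omega
  have hEq : DSet = U := Set.eq_of_subset_of_ncard_le hsub (ncard_DSet.symm ▸ hU)
  rw [hEq]
  refine ⟨fun h => ⟨a, ⟨ha, h⟩, rfl⟩, ?_⟩
  rintro ⟨d, hd, e⟩
  rcases M.eq_or_eq_mul_of_ps_eq ha hd.1 e.symm with r | r <;> rw [r]
  · exact hd.2
  · exact mul_mem hd.2 hz

/-- The centralising part of the conjugate acts trivially on the space modulo the vector. -/
theorem hat_trivial {g : G} (hg : M.Std g) {k : Equiv.Perm Vec} (hk : k ∈ M.hat g) {x : Vec}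
    (hx : x ∈ DSet) : k x + x = 0 ∨ k x + x = w0 := by
  have hne := Std.ne M hg
  obtain ⟨p, hp, hpz, rfl⟩ := M.mem_hat.1 hk
  obtain ⟨d, hd, rfl⟩ := M.ps_surj x
  have hd' := (M.mem_cj_iff hg hd).2 hx
  have e : M.ps (p * d * p⁻¹ * d⁻¹) = M.rh p (M.ps d) + M.ps d := by
    rw [M.ps_ratio (M.conj_mem_Q hpz hd) hd, M.ps_conj p d hpz hd]
  rcases (M.pair hg.1 hne).hQ'.comm_mem hp hd' with r | r <;> rw [r] at e
  · exact Or.inl (e.symm.trans M.ps_one)
  · exact Or.inr (e.symm.trans hg.2)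

end Model

end Cfsg.Agent.LargeFischer.Center
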