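import Cfsg.Agent.LargeFischer.Orbits
import Cfsg.Agent.LargeFischer.CenterData

/-!
The stabiliser of a vector of the long orbit: its normal 2-subgroup of order sixteen and the invariant
six-dimensional space through the vector.
-/

set_option autoImplicit false
set_option maxRecDepth 100000

namespace Cfsg.Agent.LargeFischer.Center

open Cfsg.Agent.CosetCert Cfsg.Agent.GFour25
open Cfsg.Agent.SporB.FischerU (Vec vecN enc vecN_enc enc_lt)
open Cfsg.Agent.TTClass

/-- The vector. -/
noncomputable def w0 : Vec := vecN Data.repW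

/-- Its stabiliser in the cover. -/
noncomputable def S0 : Subgroup (Equiv.Perm Vec) := Kc ⊓ stabV Data.repW

/-- A permutation given by a code. -/
def IsCode (c : ℕ) (g : Equiv.Perm Vec) : Prop := ∀ x, g x = lin c x

theorem IsCode.unique {c : ℕ} {g h : Equiv.Perm Vec} (hg : IsCode c g) (hh : IsCode c h) : g = h :=
  Equiv.ext fun x => (hg x).trans (hh x).symm

theorem IsCode.apply {c : ℕ} {g : Equiv.Perm Vec} (hg : IsCode c g) {n : ℕ} (hn : n < 4096) :
    g (vecN n) = vecN (appC c n) := by
  rw [hg, lin, enc_vecN hn]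

theorem IsCode.enc_apply {c : ℕ} {g : Equiv.Perm Vec} (hg : IsCode c g) (x : Vec) :
    enc (g x) = appC c (enc x) := by rw [hg, enc_lin]

theorem IsCode.mul {c a b : ℕ} (h : isProd c a b = true) {g k : Equiv.Perm Vec}
    (hg : IsCode a g) (hk : IsCode b k) : IsCode c (g * k) := fun x => by
  rw [Equiv.Perm.mul_apply, hk x, hg, lin_lin h]

/-- Two codes agree on the basis. -/
noncomputable def eqC (a b : ℕ) : Bool :=
  allB (fun j => Nat.ble 12 j || Nat.beq (col a j) (col b j)) 4 0

theorem eqC_spec {a b : ℕ} (h : eqC a b = true) (v : ℕ) : appC a v = appC b v := by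
  have hj : ∀ j < 12, term a v j = term b v j := fun j hj => by
    have h1 := allB_spec_zero h (by norm_num : 12 ≤ 2 ^ 4) hj
    rw [Bool.or_eq_true] at h1
    rcases h1 with h1 | h1
    · exact absurd (Nat.le_of_ble_eq_true h1) (not_le.2 hj)
    · rw [term, term, Nat.eq_of_beq_eq_true h1]
  unfold appC
  rw [hj 0 (by omega), hj 1 (by omega), hj 2 (by omega), hj 3 (by omega), hj 4 (by omega),
    hj 5 (by omega), hj 6 (by omega), hj 7 (by omega), hj 8 (by omega), hj 9 (by omega),
    hj 10 (by omega), hj 11 (by omega)]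

theorem eq_of_eqC {a b : ℕ} {g h : Equiv.Perm Vec} (hg : IsCode a g) (hh : IsCode b h)
    (e : eqC a b = true) : g = h :=
  Equiv.ext fun x => by rw [hg, hh, lin, lin, eqC_spec e]

theorem appC_pow (e : ℕ) (j : ℕ) (hj : j < 12) : appC e (Nat.shiftLeft 1 j) = col e j := by
  interval_cases j <;> simp [appC, term, Nat.testBit]

theorem eqC_self_of_eq {a b : ℕ} {g : Equiv.Perm Vec} (ha : IsCode a g) (hb : IsCode b g) :
    eqC a b = true := by
  refine allB_of (F := col a) (C := col b) fun j hj => ?_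
  have h1 := ha.apply (n := Nat.shiftLeft 1 j) (shl_lt hj)
  rw [hb.apply (shl_lt hj), appC_pow _ _ hj, appC_pow _ _ hj] at h1
  rw [← enc_vecN (col_lt a j), ← enc_vecN (col_lt b j), h1]

/-- The two compositions agree on the basis. -/
noncomputable def sameComp (a b c d : ℕ) : Bool :=
  allB (fun j => Nat.ble 12 j || Nat.beq (appC a (col b j)) (appC c (col d j))) 4 0

theorem sameComp_spec {a b c d : ℕ} (h : sameComp a b c d = true) (v : ℕ) :
    appC a (appC b v) = appC c (appC d v) := by
  have hj : ∀ j < 12, appC a (term b v j) = appC c (term d v j) := fun j hj => by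
    have h1 := allB_spec_zero h (by norm_num : 12 ≤ 2 ^ 4) hj
    rw [Bool.or_eq_true] at h1
    rcases h1 with h1 | h1
    · exact absurd (Nat.le_of_ble_eq_true h1) (not_le.2 hj)
    · rw [appC_term, appC_term, Nat.eq_of_beq_eq_true h1]
  show appC a (term b v 0 ^^^ term b v 1 ^^^ term b v 2 ^^^ term b v 3 ^^^ term b v 4 ^^^
      term b v 5 ^^^ term b v 6 ^^^ term b v 7 ^^^ term b v 8 ^^^ term b v 9 ^^^ term b v 10 ^^^
      term b v 11) = appC c (term d v 0 ^^^ term d v 1 ^^^ term d v 2 ^^^ term d v 3 ^^^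
      term d v 4 ^^^ term d v 5 ^^^ term d v 6 ^^^ term d v 7 ^^^ term d v 8 ^^^ term d v 9 ^^^
      term d v 10 ^^^ term d v 11)
  simp only [appC_xor]
  rw [hj 0 (by omega), hj 1 (by omega), hj 2 (by omega), hj 3 (by omega), hj 4 (by omega),
    hj 5 (by omega), hj 6 (by omega), hj 7 (by omega), hj 8 (by omega), hj 9 (by omega),
    hj 10 (by omega), hj 11 (by omega)]

theorem mul_eq_of_sameComp {a b c d : ℕ} (h : sameComp a b c d = true) {g k g' k' : Equiv.Perm Vec}
    (hg : IsCode a g) (hk : IsCode b k) (hg' : IsCode c g') (hk' : IsCode d k') :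
    g * k = g' * k' := Equiv.ext fun x => by
  rw [Equiv.Perm.mul_apply, Equiv.Perm.mul_apply, hk, hg, hk', hg']
  show vecN _ = vecN _
  rw [enc_lin, enc_lin, sameComp_spec h]

/-! ### The words -/

/-- The code of a word. -/
noncomputable def cW (i : ℕ) : ℕ := CenterData.codeW.get 144 i

/-- The left factor of a word. -/
noncomputable def lW (i : ℕ) : ℕ := Nat.mod (CenterData.opW.get 24 i) 4096

/-- The right factor of a word. -/
noncomputable def rW (i : ℕ) : ℕ := Nat.shiftRight (CenterData.opW.get 24 i) 12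

/-- Iterated application of a code. -/
noncomputable def iterC (c : ℕ) (n : ℕ) : ℕ → ℕ :=
  Nat.rec (motive := fun _ => ℕ → ℕ) (fun v => v) (fun _ ih v => ih (appC c v)) n

theorem iterC_spec {c : ℕ} {g : Equiv.Perm Vec} (hg : IsCode c g) :
    ∀ (n : ℕ) (x : Vec), enc ((g ^ n) x) = iterC c n (enc x) := by
  intro n
  induction n with
  | zero => intro x; rfl
  | succ n ih =>
    intro x
    rw [pow_succ, Equiv.Perm.mul_apply, ih, hg.enc_apply]
    rfl

/-- The check of the two generators. -/
noncomputable def baseOK : Bool :=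
  CenterData.baseW.all fun p => inK p.1 && Nat.beq (appC (eN p.1) Data.repW) Data.repW &&
    Nat.beq (Nat.mod p.2 2) 1 && allB (fun v => Nat.beq (iterC (eN p.1) p.2 v) v) 12 0

theorem baseOK_true : baseOK = true := by decide +kernel

theorem base_spec {p : ℕ × ℕ} (hp : p ∈ CenterData.baseW) :
    el p.1 ∈ S0 ∧ IsCode (eN p.1) (el p.1) ∧ p.2 % 2 = 1 ∧ el p.1 ^ p.2 = 1 := by
  have h := List.all_eq_true.1 baseOK_true p hp
  simp only [Bool.and_eq_true] at h
  obtain ⟨⟨⟨hk, hv⟩, ho⟩, hi⟩ := h
  have hlt : p.1 < Data.numE := by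
    have := hk
    rw [inK, Bool.and_eq_true] at this
    exact Nat.blt_eq.mp this.1
  have hc : IsCode (eN p.1) (el p.1) := (el_spec hlt).2
  refine ⟨⟨el_mem_Kc hk, ?_⟩, hc, Nat.eq_of_beq_eq_true ho, Equiv.ext fun x => ?_⟩
  · show el p.1 (vecN Data.repW) = vecN Data.repW
    rw [hc.apply repW_lt, Nat.eq_of_beq_eq_true hv]
  · have h1 := allB_spec_zero hi (by norm_num : 4096 ≤ 2 ^ 12) (enc_lt x)
    have h2 := iterC_spec hc p.2 x
    rw [Nat.eq_of_beq_eq_true h1] at h2
    rw [← vecN_enc ((el p.1 ^ p.2) x), h2, vecN_enc]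
    rfl

/-- The check of the words. -/
noncomputable def wordsOK : Bool :=
  allB (fun i => Nat.ble CenterData.numW i || bif Nat.beq i 0 then eqC (cW i) (eN 20) else
    bif Nat.beq i 1 then eqC (cW i) (eN (CenterData.baseW.getD 0 (0, 0)).1) else
    bif Nat.beq i 2 then eqC (cW i) (eN (CenterData.baseW.getD 1 (0, 0)).1) else
    Nat.blt (lW i) i && Nat.blt (rW i) i && isProd (cW i) (cW (lW i)) (cW (rW i))) 9 0

theorem wordsOK_true : wordsOK = true := by decide +kernel

theorem IsCode.congr {a b : ℕ} {g : Equiv.Perm Vec} (hg : IsCode b g) (e : eqC a b = true) : IsCode a g :=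
  fun x => by rw [hg, lin, lin, eqC_spec e]

theorem exists_word : ∀ i < CenterData.numW, ∃ g : Equiv.Perm Vec, IsCode (cW i) g ∧
    ∀ K : Subgroup (Equiv.Perm Vec), (∀ p ∈ CenterData.baseW, el p.1 ∈ K) → g ∈ K := by
  intro i
  induction i using Nat.strong_induction_on with
  | _ i ih =>
    intro hi
    have h := allB_spec_zero wordsOK_true (by decide : CenterData.numW ≤ 2 ^ 9) hi
    rw [Bool.or_eq_true] at h
    rcases h with h | h
    · exact absurd (Nat.le_of_ble_eq_true h) (not_le.2 hi)
    rcases lt_or_ge i 3 with h3 | h3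
    · interval_cases i
      · exact ⟨1, IsCode.congr isEl_one h, fun K _ => one_mem _⟩
      · have hm : CenterData.baseW.getD 0 (0, 0) ∈ CenterData.baseW := by decide
        exact ⟨_, IsCode.congr (base_spec hm).2.1 h, fun K hK => hK _ hm⟩
      · have hm : CenterData.baseW.getD 1 (0, 0) ∈ CenterData.baseW := by decide
        exact ⟨_, IsCode.congr (base_spec hm).2.1 h, fun K hK => hK _ hm⟩
    · rw [show Nat.beq i 0 = false from Bool.eq_false_iff.2 fun e => by
          have := Nat.eq_of_beq_eq_true e; omega,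
        show Nat.beq i 1 = false from Bool.eq_false_iff.2 fun e => by
          have := Nat.eq_of_beq_eq_true e; omega,
        show Nat.beq i 2 = false from Bool.eq_false_iff.2 fun e => by
          have := Nat.eq_of_beq_eq_true e; omega, cond_false, cond_false, cond_false] at h
      simp only [Bool.and_eq_true, Nat.blt_eq] at h
      obtain ⟨⟨ha, hb⟩, hp⟩ := h
      obtain ⟨g, hg, hgK⟩ := ih _ ha (lt_trans ha hi)
      obtain ⟨k, hk, hkK⟩ := ih _ hb (lt_trans hb hi)
      exact ⟨g * k, hg.mul hp hk, fun K hK => mul_mem (hgK K hK) (hkK K hK)⟩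

/-- A word as a permutation. -/
noncomputable def word (i : ℕ) : Equiv.Perm Vec :=
  if h : i < CenterData.numW then (exists_word i h).choose else 1

theorem word_code {i : ℕ} (h : i < CenterData.numW) : IsCode (cW i) (word i) := by
  rw [word, dif_pos h]
  exact (exists_word i h).choose_spec.1

theorem word_mem_of {K : Subgroup (Equiv.Perm Vec)} (hK : ∀ p ∈ CenterData.baseW, el p.1 ∈ K) (i : ℕ) :
    word i ∈ K := by
  rw [word]
  split_ifs with h
  · exact (exists_word i h).choose_spec.2 K hK
  · exact one_mem _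

theorem word_mem (i : ℕ) : word i ∈ S0 := word_mem_of (fun _ hp => (base_spec hp).1) i

/-! ### Enumerated subgroups -/

/-- The element at a position of a list of words. -/
noncomputable def atPos (L : PTree) (k : ℕ) : ℕ := L.get 16 k

/-- The product of a generator with an element of the list, as a position. -/
noncomputable def tabAt (T : PTree) (k j : ℕ) : ℕ :=
  Nat.mod (Nat.shiftRight (T.get 24 k) (Nat.mul 8 j)) 256

/-- The check of an enumerated subgroup of order 128. -/
noncomputable def listOK (gens : List ℕ) (L T P : PTree) : Bool :=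
  (Nat.beq (atPos L 0) 0 && gens.all (fun g => Nat.blt g CenterData.numW) &&
    allB (fun k => Nat.blt (atPos L k) CenterData.numW &&
      (List.range gens.length).all (fun j => Nat.blt (tabAt T k j) 128 &&
        isProd (cW (atPos L (tabAt T k j))) (cW (gens.getD j 0)) (cW (atPos L k)))) 7 0) &&
  (allB (fun k => Nat.beq k 0 || (Nat.blt (Nat.mod (P.get 16 k) 256) k &&
      Nat.blt (Nat.shiftRight (P.get 16 k) 8) gens.length &&
        isProd (cW (atPos L k)) (cW (gens.getD (Nat.shiftRight (P.get 16 k) 8) 0))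
          (cW (atPos L (Nat.mod (P.get 16 k) 256))))) 7 0 &&
    allB (fun k => allB (fun l => Nat.beq k l || !(eqC (cW (atPos L k)) (cW (atPos L l)))) 7 0) 7 0)

theorem list_spec {gens : List ℕ} {L T P : PTree} (h : listOK gens L T P = true) :
    ∃ S : Subgroup (Equiv.Perm Vec), Nat.card S = 128 ∧ S ≤ S0 ∧
      (∀ K : Subgroup (Equiv.Perm Vec), (∀ p ∈ CenterData.baseW, el p.1 ∈ K) → S ≤ K) ∧
      (∀ g, g ∈ S ↔ ∃ k < 128, g = word (atPos L k)) ∧ ∀ k < 128, atPos L k < CenterData.numW := by
  simp only [listOK, Bool.and_eq_true] at h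
  obtain ⟨⟨⟨h0, hg⟩, ht⟩, hp, hd⟩ := h
  rw [List.all_eq_true] at hg
  have hgj : ∀ j < gens.length, gens.getD j 0 < CenterData.numW := fun j hj => by
    rw [List.getD_eq_getElem _ _ hj]
    exact Nat.blt_eq.mp (hg _ (List.getElem_mem hj))
  have hL : ∀ k < 128, atPos L k < CenterData.numW := fun k hk => by
    have h1 := allB_spec_zero ht (by norm_num : 128 ≤ 2 ^ 7) hk
    rw [Bool.and_eq_true] at h1
    exact Nat.blt_eq.mp h1.1
  have hcode : ∀ k < 128, IsCode (cW (atPos L k)) (word (atPos L k)) := fun k hk => word_code (hL k hk)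
  let X : Set (Equiv.Perm Vec) := {g | ∃ k < 128, g = word (atPos L k)}
  let gs : Set (Equiv.Perm Vec) := {g | ∃ j < gens.length, g = word (gens.getD j 0)}
  let M : Subgroup (Equiv.Perm Vec) :=
    { carrier := {g | ∀ x, g * x ∈ X ↔ x ∈ X}
      one_mem' := fun x => by rw [one_mul]
      mul_mem' := fun {a b} ha hb x => by rw [mul_assoc]; exact (ha _).trans (hb x)
      inv_mem' := fun {a} ha x => by
        have := ha (a⁻¹ * x)
        rw [mul_inv_cancel_left] at this
        exact this.symm }
  have hXfin : X.Finite := Set.toFinite X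
  have hgM : Subgroup.closure gs ≤ M := by
    rw [Subgroup.closure_le]
    rintro _ ⟨j, hj, rfl⟩
    have hmaps : Set.MapsTo (word (gens.getD j 0) * ·) X X := by
      rintro _ ⟨k, hk, rfl⟩
      have h1 := allB_spec_zero ht (by norm_num : 128 ≤ 2 ^ 7) hk
      rw [Bool.and_eq_true, List.all_eq_true] at h1
      have h2 := h1.2 j (List.mem_range.2 hj)
      rw [Bool.and_eq_true, Nat.blt_eq] at h2
      exact ⟨tabAt T k j, h2.1, (((word_code (hgj j hj)).mul h2.2 (hcode k hk)).unique (hcode _ h2.1))⟩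
    intro x
    refine ⟨fun hx => ?_, fun hx => hmaps hx⟩
    obtain ⟨y, hy, e⟩ :=
      ((hXfin.injOn_iff_bijOn_of_mapsTo hmaps).1 (mul_right_injective _).injOn).surjOn hx
    exact mul_left_cancel (a := word (gens.getD j 0)) e ▸ hy
  have h1X : (1 : Equiv.Perm Vec) ∈ X := ⟨0, by norm_num, by
    have e := Nat.eq_of_beq_eq_true h0
    rw [e]
    have hw := allB_spec_zero wordsOK_true (by decide : CenterData.numW ≤ 2 ^ 9) (by decide : 0 < CenterData.numW)
    rw [Bool.or_eq_true] at hw
    rcases hw with hw | hw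
    · exact absurd (Nat.le_of_ble_eq_true hw) (by decide)
    · exact (eq_of_eqC (word_code (by decide)) isEl_one hw).symm⟩
  have hback : ∀ k < 128, word (atPos L k) ∈ Subgroup.closure gs := by
    intro k
    induction k using Nat.strong_induction_on with
    | _ k ih =>
      intro hk
      have h1 := allB_spec_zero hp (by norm_num : 128 ≤ 2 ^ 7) hk
      rw [Bool.or_eq_true] at h1
      rcases h1 with h1 | h1
      · rw [Nat.eq_of_beq_eq_true h1, Nat.eq_of_beq_eq_true h0]
        have hw := allB_spec_zero wordsOK_true (by decide : CenterData.numW ≤ 2 ^ 9) (by decide : 0 < CenterData.numW)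
        rw [Bool.or_eq_true] at hw
        rcases hw with hw | hw
        · exact absurd (Nat.le_of_ble_eq_true hw) (by decide)
        · rw [eq_of_eqC (word_code (by decide)) isEl_one hw]
          exact one_mem _
      · simp only [Bool.and_eq_true, Nat.blt_eq] at h1
        obtain ⟨⟨hpk, hjk⟩, hpr⟩ := h1
        rw [(hcode k hk).unique ((word_code (hgj _ hjk)).mul hpr (hcode _ (lt_trans hpk hk)))]
        exact mul_mem (Subgroup.subset_closure ⟨_, hjk, rfl⟩) (ih _ hpk (lt_trans hpk hk))
  have hmem : ∀ g, g ∈ Subgroup.closure gs ↔ g ∈ X := fun g => by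
    refine ⟨fun h => ?_, fun ⟨k, hk, e⟩ => e ▸ hback k hk⟩
    have := (hgM h 1).2 h1X
    rwa [mul_one] at this
  refine ⟨Subgroup.closure gs, ?_, ?_, ?_, hmem, hL⟩
  · let f : Fin 128 → Subgroup.closure gs := fun k => ⟨_, hback k k.2⟩
    rw [← Nat.card_eq_of_bijective f ⟨?_, ?_⟩, Nat.card_eq_fintype_card, Fintype.card_fin]
    · intro k l e
      have e1 : word (atPos L k) = word (atPos L l) := congrArg Subtype.val e
      have h1 := allB_spec_zero (allB_spec_zero hd (by norm_num : 128 ≤ 2 ^ 7) k.2)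
        (by norm_num : 128 ≤ 2 ^ 7) l.2
      rw [Bool.or_eq_true, Bool.not_eq_true'] at h1
      rcases h1 with h1 | h1
      · exact Fin.ext (Nat.eq_of_beq_eq_true h1)
      · have h2 := eqC_self_of_eq (hcode k k.2) (e1 ▸ hcode l l.2 : IsCode (cW (atPos L l)) (word (atPos L k)))
        rw [h1] at h2
        exact absurd h2 (by decide)
    · rintro ⟨g, hg⟩
      obtain ⟨k, hk, e⟩ := (hmem g).1 hg
      exact ⟨⟨k, hk⟩, Subtype.ext e.symm⟩
  · rw [Subgroup.closure_le]
    rintro _ ⟨j, -, rfl⟩
    exact word_mem _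
  · intro K hK
    rw [Subgroup.closure_le]
    rintro _ ⟨j, -, rfl⟩
    exact word_mem_of hK _

theorem sylA_ok : listOK CenterData.genA CenterData.elsA CenterData.tabA CenterData.parA = true := by
  decide +kernel

theorem sylB_ok : listOK CenterData.genB CenterData.elsB CenterData.tabB CenterData.parB = true := by
  decide +kernel

/-- The first subgroup of order 128. -/
noncomputable def sylA : Subgroup (Equiv.Perm Vec) := (list_spec sylA_ok).choose

/-- The second subgroup of order 128. -/
noncomputable def sylB : Subgroup (Equiv.Perm Vec) := (list_spec sylB_ok).choose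

/-- The normal subgroup of order sixteen. -/
noncomputable def EFour : Subgroup (Equiv.Perm Vec) := sylA ⊓ sylB

theorem allB_true {f : ℕ → Bool} (h : ∀ i, f i = true) : ∀ d lo, allB f d lo = true := by
  intro d
  induction d with
  | zero => exact h
  | succ k ih =>
    intro lo
    show (allB f k lo && allB f k (Nat.add lo (Nat.shiftLeft 1 k))) = true
    rw [ih, ih]
    rfl

/-- The check that the intersection is the listed set. -/
noncomputable def interOK : Bool :=
  allB (fun k => allB (fun l =>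
      !(eqC (cW (atPos CenterData.elsA k)) (cW (atPos CenterData.elsB l))) ||
        CenterData.kerW.any (fun i => eqC (cW (atPos CenterData.elsA k)) (cW i))) 7 0) 7 0 &&
    CenterData.kerW.all (fun i => Nat.blt i CenterData.numW &&
      !(allB (fun k => !(eqC (cW (atPos CenterData.elsA k)) (cW i))) 7 0) &&
      !(allB (fun k => !(eqC (cW (atPos CenterData.elsB k)) (cW i))) 7 0))

theorem interOK_true : interOK = true := by decide +kernel

theorem exists_of_not_allB {f : ℕ → Bool} : ∀ {d lo : ℕ}, allB f d lo = false →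
    ∃ i, lo ≤ i ∧ i < lo + 2 ^ d ∧ f i = false := by
  intro d
  induction d with
  | zero => exact fun {lo} h => ⟨lo, le_rfl, by simp, h⟩
  | succ k ih =>
    intro lo h
    have e : allB f (k + 1) lo = (allB f k lo && allB f k (lo + Nat.shiftLeft 1 k)) := rfl
    have e2 : Nat.shiftLeft 1 k = 2 ^ k := Nat.one_shiftLeft k
    rw [e, e2, Bool.and_eq_false_iff] at h
    rw [pow_succ]
    rcases h with h | h
    · obtain ⟨i, h1, h2, h3⟩ := ih h
      exact ⟨i, h1, by omega, h3⟩
    · obtain ⟨i, h1, h2, h3⟩ := ih h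
      exact ⟨i, by omega, by omega, h3⟩

theorem mem_EFour_iff {g : Equiv.Perm Vec} : g ∈ EFour ↔ ∃ i ∈ CenterData.kerW, g = word i := by
  obtain ⟨-, -, -, hA, hLA⟩ := (list_spec sylA_ok).choose_spec
  obtain ⟨-, -, -, hB, hLB⟩ := (list_spec sylB_ok).choose_spec
  have h := interOK_true
  rw [interOK, Bool.and_eq_true, List.all_eq_true] at h
  constructor
  · rintro ⟨ha, hb⟩
    obtain ⟨k, hk, rfl⟩ := (hA _).1 ha
    obtain ⟨l, hl, e⟩ := (hB _).1 hb
    have h1 := allB_spec_zero (allB_spec_zero h.1 (by norm_num : 128 ≤ 2 ^ 7) hk)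
      (by norm_num : 128 ≤ 2 ^ 7) hl
    have hkl := eqC_self_of_eq (word_code (hLA k hk))
      (e ▸ word_code (hLB l hl) : IsCode (cW (atPos CenterData.elsB l)) (word (atPos CenterData.elsA k)))
    rw [hkl, Bool.not_true, Bool.false_or, List.any_eq_true] at h1
    obtain ⟨i, hi, he⟩ := h1
    have hin := h.2 i hi
    simp only [Bool.and_eq_true, Nat.blt_eq] at hin
    exact ⟨i, hi, eq_of_eqC (word_code (hLA k hk)) (word_code hin.1.1) he⟩
  · rintro ⟨i, hi, rfl⟩
    have hin := h.2 i hi
    simp only [Bool.and_eq_true, Nat.blt_eq, Bool.not_eq_true'] at hin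
    obtain ⟨⟨hin, hAi⟩, hBi⟩ := hin
    obtain ⟨k, -, hk, hk'⟩ := exists_of_not_allB hAi
    obtain ⟨l, -, hl, hl'⟩ := exists_of_not_allB hBi
    rw [zero_add, show (2 : ℕ) ^ 7 = 128 by norm_num] at hk hl
    rw [Bool.not_eq_false'] at hk' hl'
    exact ⟨(hA _).2 ⟨k, hk, (eq_of_eqC (word_code (hLA k hk)) (word_code hin) hk').symm⟩,
      (hB _).2 ⟨l, hl, (eq_of_eqC (word_code (hLB l hl)) (word_code hin) hl').symm⟩⟩

theorem kerW_lt : ∀ i ∈ CenterData.kerW, i < CenterData.numW := by decide

theorem card_EFour : Nat.card EFour ≤ 16 := by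
  classical
  have hsub : (EFour : Set (Equiv.Perm Vec)) ⊆ ↑(CenterData.kerW.toFinset.image word) := fun g hg => by
    obtain ⟨i, hi, rfl⟩ := mem_EFour_iff.1 hg
    simp only [Finset.coe_image, Set.mem_image, Finset.mem_coe, List.mem_toFinset]
    exact ⟨i, hi, rfl⟩
  rw [← SetLike.coe_sort_coe, Nat.card_coe_set_eq]
  calc _ ≤ (↑(CenterData.kerW.toFinset.image word) : Set (Equiv.Perm Vec)).ncard :=
        Set.ncard_le_ncard hsub
    _ ≤ CenterData.kerW.toFinset.card := by rw [Set.ncard_coe_finset]; exact Finset.card_image_le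
    _ ≤ 16 := (List.toFinset_card_le _).trans (by decide)

theorem EFour_le : EFour ≤ S0 := inf_le_left.trans (list_spec sylA_ok).choose_spec.2.1

/-- A normal 2-subgroup of the stabiliser lies in the subgroup of order sixteen. -/
theorem normal_two_le (hS : Nat.card S0 = 5760) {P : Subgroup (Equiv.Perm Vec)} (hP : P ≤ S0)
    (hn : ∀ g ∈ S0, ∀ p ∈ P, g * p * g⁻¹ ∈ P) (h2 : IsPGroup 2 P) : P ≤ EFour := by
  haveI : Fact (Nat.Prime 2) := ⟨Nat.prime_two⟩
  suffices key : ∀ T : Subgroup (Equiv.Perm Vec), T ≤ S0 → Nat.card T = 128 → P ≤ T from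
    le_inf (key _ (list_spec sylA_ok).choose_spec.2.1 (list_spec sylA_ok).choose_spec.1)
      (key _ (list_spec sylB_ok).choose_spec.2.1 (list_spec sylB_ok).choose_spec.1)
  intro T hT hc
  have hT2 : IsPGroup 2 T := IsPGroup.of_card (n := 7) (by rw [hc]; norm_num)
  have hnorm : T ≤ Subgroup.normalizer (P : Set (Equiv.Perm Vec)) := fun t ht => by
    refine Subgroup.mem_normalizer_iff.2 fun p => ⟨hn t (hT ht) p, fun hp => ?_⟩
    have h1 := hn t⁻¹ (inv_mem (hT ht)) _ hp
    simpa [mul_assoc] using h1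
  have hJ : IsPGroup 2 (T ⊔ P : Subgroup (Equiv.Perm Vec)) := IsPGroup.to_sup_of_normal_right' hT2 h2 hnorm
  obtain ⟨m, hm⟩ := IsPGroup.iff_card.1 hJ
  have hd : 2 ^ m ∣ 5760 := hm ▸ hS ▸ Subgroup.card_dvd_of_le (sup_le hT hP)
  have hm7 : m ≤ 7 := by
    by_contra hlt
    have : 2 ^ 8 ∣ 5760 := (pow_dvd_pow 2 (by omega : 8 ≤ m)).trans hd
    norm_num at this
  have hle : Nat.card (T ⊔ P : Subgroup (Equiv.Perm Vec)) ≤ Nat.card T := by
    rw [hm, hc]
    calc 2 ^ m ≤ 2 ^ 7 := Nat.pow_le_pow_right (by norm_num) hm7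
      _ = 128 := by norm_num
  rw [Subgroup.eq_of_le_of_card_ge le_sup_left hle]
  exact le_sup_right

/-- A homomorphism of the stabiliser to a group of order two is trivial. -/
theorem eq_S0 (hS : Nat.card S0 = 5760) {K : Subgroup (Equiv.Perm Vec)} (hK : K ≤ S0)
    (hsq : ∀ g ∈ S0, g * g ∈ K) (hidx : Nat.card S0 ≤ 2 * Nat.card K) : K = S0 := by
  have hbase : ∀ p ∈ CenterData.baseW, el p.1 ∈ K := by
    intro p hp
    obtain ⟨hm, -, hodd, hpow⟩ := base_spec hp
    have e : (el p.1 ^ ((p.2 + 1) / 2)) * (el p.1 ^ ((p.2 + 1) / 2)) = el p.1 := by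
      rw [← pow_add, show (p.2 + 1) / 2 + (p.2 + 1) / 2 = p.2 + 1 by omega, pow_succ, hpow, one_mul]
    exact e ▸ hsq _ (pow_mem hm _)
  have h128 : 128 ∣ Nat.card K := by
    have := Subgroup.card_dvd_of_le ((list_spec sylA_ok).choose_spec.2.2.1 K hbase)
    rwa [(list_spec sylA_ok).choose_spec.1] at this
  obtain ⟨i, hi⟩ := Subgroup.card_dvd_of_le hK
  rw [hS] at hidx hi
  refine Subgroup.eq_of_le_of_card_ge hK ?_
  rw [hS]
  obtain ⟨m, hm⟩ := h128
  rw [hm] at hi hidx ⊢
  have hi2 : i ≤ 2 := by
    by_contra hlt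
    have : 128 * m * 3 ≤ 128 * m * i := Nat.mul_le_mul_left _ (by omega)
    omega
  interval_cases i <;> omega

/-- The check of the commutator expressions. -/
noncomputable def comOK : Bool :=
  CenterData.kerW.all (fun i => Nat.beq i 0 || CenterData.comW.any (fun t => Nat.beq t.1 i)) &&
    CenterData.comW.all fun t => CenterData.kerW.contains t.2.2.1 && Nat.blt t.1 CenterData.numW &&
      Nat.blt t.2.1 CenterData.numW && Nat.blt t.2.2.2 CenterData.numW &&
      isProd (cW t.2.2.2) (cW t.1) (cW t.2.2.1) &&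
      sameComp (cW t.2.1) (cW t.2.2.1) (cW t.2.2.2) (cW t.2.1)

theorem comOK_true : comOK = true := by decide +kernel

theorem word_zero : word 0 = 1 := by
  have hw := allB_spec_zero wordsOK_true (by decide : CenterData.numW ≤ 2 ^ 9) (by decide : 0 < CenterData.numW)
  rw [Bool.or_eq_true] at hw
  rcases hw with hw | hw
  · exact absurd (Nat.le_of_ble_eq_true hw) (by decide)
  · exact eq_of_eqC (word_code (by decide)) isEl_one hw

/-- Every element of the subgroup of order sixteen is a commutator with the stabiliser. -/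
theorem EFour_commutator {e : Equiv.Perm Vec} (he : e ∈ EFour) :
    ∃ g ∈ S0, ∃ e' ∈ EFour, e = g * e' * g⁻¹ * e'⁻¹ := by
  obtain ⟨i, hi, rfl⟩ := mem_EFour_iff.1 he
  have h := comOK_true
  rw [comOK, Bool.and_eq_true, List.all_eq_true, List.all_eq_true] at h
  have h1 := h.1 i hi
  rw [Bool.or_eq_true] at h1
  rcases h1 with h1 | h1
  · exact ⟨1, one_mem _, 1, one_mem _, by rw [Nat.eq_of_beq_eq_true h1, word_zero]; group⟩
  · obtain ⟨t, ht, e⟩ := List.any_eq_true.1 h1
    obtain rfl := Nat.eq_of_beq_eq_true e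
    have h2 := h.2 t ht
    simp only [Bool.and_eq_true, Nat.blt_eq, List.contains_iff_mem] at h2
    obtain ⟨⟨⟨⟨⟨hk, ha⟩, hb⟩, hd⟩, hp⟩, hs⟩ := h2
    have hc := kerW_lt _ hk
    refine ⟨word t.2.1, word_mem _, word t.2.2.1, mem_EFour_iff.2 ⟨_, hk, rfl⟩, ?_⟩
    have e1 : word t.1 * word t.2.2.1 = word t.2.2.2 :=
      ((word_code ha).mul hp (word_code hc)).unique (word_code hd)
    have e2 : word t.2.1 * word t.2.2.1 = word t.2.2.2 * word t.2.1 :=
      mul_eq_of_sameComp hs (word_code hb) (word_code hc) (word_code hd) (word_code hb)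
    rw [e2, ← e1]
    group

/-! ### The six-dimensional space -/

/-- Membership of a code in the space. -/
noncomputable def inD (n : ℕ) : Bool := Nat.testBit CenterData.bitsW n

/-- The six-dimensional space. -/
noncomputable def DSet : Set Vec := {x | inD (enc x) = true}

/-- The orthogonal space of the vector. -/
noncomputable def perpC (n : ℕ) : Bool := qC (n ^^^ Data.repW) == qC n

/-- Orthogonality to the vector. -/
def Perp (x : Vec) : Prop := UnitF4.H (x + w0) (x + w0) = UnitF4.H x x

theorem enc_w0 : enc w0 = Data.repW := enc_vecN repW_lt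

theorem perp_iff {x : Vec} : Perp x ↔ perpC (enc x) = true := by
  rw [Perp, perpC, ← enc_w0, ← enc_add, qC_enc, qC_enc, beq_iff_eq, decide_eq_decide]
  refine ⟨fun h => by rw [h], fun h => ?_⟩
  have h1 := hs_self (x + w0)
  have h2 := hs_self x
  rw [Cfsg.Agent.SporB.FischerU.hs_eq] at h1 h2
  rcases h1 with h1 | h1
  · rw [h1, h.1 h1]
  · rcases h2 with h2 | h2
    · rw [h.2 h2, h2]
    · rw [h1, h2]

/-- The image of a word on a code, minus the code. -/
noncomputable def moveC (i n : ℕ) : ℕ := appC (cW i) n ^^^ n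

theorem enc_move {i : ℕ} (hi : i < CenterData.numW) (x : Vec) :
    enc (word i x + x) = moveC i (enc x) := by
  rw [enc_add, (word_code hi).enc_apply, moveC]

/-- The span of the listed commutators. -/
noncomputable def combC (m : ℕ) : ℕ :=
  (CenterData.spanW.map fun p => moveC p.1 p.2).zipIdx.foldr
    (fun q acc => bif Nat.testBit m q.2 then q.1 ^^^ acc else acc)
    (bif Nat.testBit m CenterData.spanW.length then Data.repW else 0)

/-- The check of the space. -/
noncomputable def spaceOK : Bool :=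
  allB (fun n => !(inD n) || CenterData.spaceW.any (Nat.beq n)) 12 0 &&
    (Nat.beq (cntB inD 12 0) 64 &&
      (List.range CenterData.spaceW.length).all (fun m => Nat.beq (CenterData.spaceW.getD m 0) (combC m)) &&
        CenterData.spanW.all (fun p => CenterData.kerW.contains p.1 && Nat.blt p.2 4096 && perpC p.2))

theorem spaceOK_true : spaceOK = true := by decide +kernel

theorem ncard_DSet : DSet.ncard = 64 := by
  have h := spaceOK_true
  simp only [spaceOK, Bool.and_eq_true] at h
  rw [← Nat.eq_of_beq_eq_true h.2.1.1]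
  exact ncard_eq_cnt fun n hn => by
    show inD (enc (vecN n)) = true ↔ _
    rw [enc_vecN hn]

/-- A set closed under sums with the vector and the commutators contains the space. -/
theorem DSet_subset {U : Set Vec} (h0 : (0 : Vec) ∈ U) (hadd : ∀ a ∈ U, ∀ b ∈ U, a + b ∈ U) (hw : w0 ∈ U)
    (hcomm : ∀ e ∈ EFour, ∀ x, Perp x → e x + x ∈ U) : DSet ⊆ U := by
  intro x hx
  have h := spaceOK_true
  simp only [spaceOK, Bool.and_eq_true, List.all_eq_true] at h
  obtain ⟨h1, ⟨-, h2⟩, h3⟩ := h
  have h4 := allB_spec_zero h1 (by norm_num : 4096 ≤ 2 ^ 12) (enc_lt x)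
  rw [show inD (enc x) = true from hx, Bool.not_true, Bool.false_or, List.any_eq_true] at h4
  obtain ⟨n, hn, e⟩ := h4
  obtain ⟨m, hm, rfl⟩ := List.getElem_of_mem hn
  have h5 := h2 m (List.mem_range.2 hm)
  rw [List.getD_eq_getElem _ _ hm] at h5
  rw [← vecN_enc x, Nat.eq_of_beq_eq_true e, Nat.eq_of_beq_eq_true h5, combC]
  have hfold : ∀ (l : List (ℕ × ℕ)), (∀ q ∈ l, vecN q.1 ∈ U) → ∀ a, vecN a ∈ U →
      vecN (l.foldr (fun q acc => bif Nat.testBit m q.2 then q.1 ^^^ acc else acc) a) ∈ U := by
    intro l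
    induction l with
    | nil => exact fun _ a ha => ha
    | cons q l ih =>
      intro hl a ha
      have := ih (fun r hr => hl r (List.mem_cons_of_mem _ hr)) a ha
      rw [List.foldr_cons]
      cases Nat.testBit m q.2
      · exact this
      · rw [cond_true, vecN_xor]
        exact hadd _ (hl q List.mem_cons_self) _ this
  refine hfold _ (fun q hq => ?_) _ ?_
  · have hq' := List.fst_mem_of_mem_zipIdx hq
    obtain ⟨p, hp, hpq⟩ := List.mem_map.1 hq'
    have h6 := h3 p hp
    simp only [Bool.and_eq_true, List.contains_iff_mem, Nat.blt_eq] at h6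
    have hk := kerW_lt _ h6.1.1
    have he : enc (vecN p.2) = p.2 := enc_vecN h6.1.2
    have h7 := enc_move hk (vecN p.2)
    rw [he, hpq] at h7
    rw [← h7, vecN_enc]
    exact hcomm _ (mem_EFour_iff.2 ⟨_, h6.1.1, rfl⟩) _ (perp_iff.2 (by rw [he]; exact h6.2))
  · cases Nat.testBit m CenterData.spanW.length
    · rw [cond_false, vecN_zero]; exact h0
    · exact hw

/-- The scalar multiple of the vector in the space. -/
noncomputable def w1 : Vec := om • w0

/-- The check of the scalar multiple. -/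
noncomputable def scalarOK : Bool :=
  inD (scC om Data.repW) && inD Data.repW && perpC 0 &&
    !(rootR (scC om Data.repW)) && !(Nat.beq (scC om Data.repW) Data.repW) &&
    !(perpC CenterData.outW) && Nat.blt CenterData.outW 4096

theorem scalarOK_true : scalarOK = true := by decide +kernel

theorem enc_w1 : enc w1 = scC om Data.repW := rfl

theorem w1_props : w1 ∈ DSet ∧ w0 ∈ DSet ∧ ¬ IsRoot w1 ∧ w1 ≠ w0 := by
  have h := scalarOK_true
  simp only [scalarOK, Bool.and_eq_true, Bool.not_eq_true'] at h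
  obtain ⟨⟨⟨⟨⟨⟨h1, h2⟩, -⟩, h3⟩, h4⟩, -⟩, -⟩ := h
  refine ⟨h1, show inD (enc w0) = true by rw [enc_w0]; exact h2, ?_, fun e => ?_⟩
  · unfold IsRoot
    rw [enc_w1, h3]
    exact Bool.false_ne_true
  · have e1 := congrArg enc e
    rw [enc_w1, enc_w0] at e1
    rw [e1, Nat.beq_refl] at h4
    exact absurd h4 (by decide)

/-- A vector outside the orthogonal space. -/
noncomputable def q0 : Vec := vecN CenterData.outW

theorem q0_not_perp : ¬ Perp q0 := by
  have h := scalarOK_true
  simp only [scalarOK, Bool.and_eq_true, Bool.not_eq_true', Nat.blt_eq] at h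
  rw [perp_iff, q0, enc_vecN h.2, h.1.2]
  exact Bool.false_ne_true

/-- The check of fixed spaces on the quotient by the space. -/
noncomputable def centOK : Bool :=
  CenterData.kerW.all (fun i => Nat.beq i 0 || CenterData.centW.any (fun t => Nat.beq t.1 i)) &&
    CenterData.centW.all fun t => Nat.blt t.1 CenterData.numW &&
      t.2.all (fun c => Nat.blt c CenterData.numW && sameComp (cW c) (cW t.1) (cW t.1) (cW c)) &&
      allB (fun n => !(perpC n) || (!(t.2.all fun c => inD (moveC c n)) ||
        (inD n || inD (n ^^^ moveC t.1 CenterData.outW)))) 12 0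

theorem centOK_true : centOK = true := by decide +kernel

/-- Vectors orthogonal to the vector, fixed modulo the space by the centraliser of an element. -/
theorem fixed_quot {e : Equiv.Perm Vec} (he : e ∈ EFour) (he1 : e ≠ 1) {x : Vec} (hx : Perp x)
    (hfix : ∀ c ∈ S0, c * e = e * c → c x + x ∈ DSet) :
    x ∈ DSet ∨ x + (e q0 + q0) ∈ DSet := by
  obtain ⟨i, hi, rfl⟩ := mem_EFour_iff.1 he
  have h := centOK_true
  rw [centOK, Bool.and_eq_true, List.all_eq_true, List.all_eq_true] at h
  have h1 := h.1 i hi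
  rw [Bool.or_eq_true] at h1
  rcases h1 with h1 | h1
  · exact absurd (by rw [Nat.eq_of_beq_eq_true h1, word_zero]) he1
  obtain ⟨t, ht, e⟩ := List.any_eq_true.1 h1
  obtain rfl := Nat.eq_of_beq_eq_true e
  have h2 := h.2 t ht
  simp only [Bool.and_eq_true, Nat.blt_eq, List.all_eq_true] at h2
  obtain ⟨⟨ha, hc⟩, hall⟩ := h2
  have h3 := allB_spec_zero hall (by norm_num : 4096 ≤ 2 ^ 12) (enc_lt x)
  rw [perp_iff.1 hx, Bool.not_true, Bool.false_or] at h3
  have hT : (t.2.all fun c => inD (moveC c (enc x))) = true := by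
    rw [List.all_eq_true]
    intro c hcm
    have h4 := hc c hcm
    rw [← enc_move h4.1]
    exact hfix _ (word_mem c) (mul_eq_of_sameComp h4.2 (word_code h4.1) (word_code ha) (word_code ha) (word_code h4.1))
  rw [hT, Bool.not_true, Bool.false_or, Bool.or_eq_true] at h3
  refine h3.imp (fun h => h) fun h => ?_
  show inD (enc (x + (word t.1 q0 + q0))) = true
  have h5 := scalarOK_true
  simp only [scalarOK, Bool.and_eq_true, Nat.blt_eq] at h5
  rw [enc_add, enc_move ha, q0, enc_vecN h5.2]
  exact h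

/-- The check of the fixed points and of the witness against complements. -/
noncomputable def fixOK : Bool :=
  allB (fun n => !(inD n) || (!(allB (fun i => Nat.beq i 0 || Nat.ble 3 i ||
      (Nat.beq (moveC i n) 0 || Nat.beq (moveC i n) Data.repW)) 2 0) ||
    (Nat.beq n 0 || Nat.beq n Data.repW || Nat.beq n (scC om Data.repW) ||
      Nat.beq n (scC om Data.repW ^^^ Data.repW)))) 12 0 &&
    (CenterData.witW.all (fun p => Nat.blt p.1 CenterData.numW && Nat.blt p.2 4096 && inD p.2) &&
      Nat.beq (CenterData.witW.foldr (fun p acc => moveC p.1 p.2 ^^^ acc) 0) (scC om Data.repW))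

theorem fixOK_true : fixOK = true := by decide +kernel

/-- The fixed points of the stabiliser on the space modulo the vector. -/
theorem fixed_space {x : Vec} (hx : x ∈ DSet) (hfix : ∀ g ∈ S0, g x + x = 0 ∨ g x + x = w0) :
    x = 0 ∨ x = w0 ∨ x = w1 ∨ x = w1 + w0 := by
  have h := fixOK_true
  rw [fixOK, Bool.and_eq_true] at h
  have h1 := allB_spec_zero h.1 (by norm_num : 4096 ≤ 2 ^ 12) (enc_lt x)
  rw [show inD (enc x) = true from hx, Bool.not_true, Bool.false_or] at h1
  have hT : allB (fun i => Nat.beq i 0 || Nat.ble 3 i ||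
      (Nat.beq (moveC i (enc x)) 0 || Nat.beq (moveC i (enc x)) Data.repW)) 2 0 = true := by
    have key : ∀ i < 3, (Nat.beq (moveC i (enc x)) 0 || Nat.beq (moveC i (enc x)) Data.repW) = true := by
      intro i hi
      rw [← enc_move (lt_trans hi (by decide)), Bool.or_eq_true]
      refine (hfix _ (word_mem i)).imp (fun e => ?_) fun e => ?_ <;> rw [e]
      · rw [enc_zero]; rfl
      · rw [enc_w0]; exact Nat.beq_refl _
    refine allB_true (fun i => ?_) 2 0
    rcases lt_or_ge i 3 with hi | hi
    · rw [key i hi, Bool.or_true]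
    · rw [Nat.ble_eq_true_of_le hi, Bool.or_true, Bool.true_or]
  rw [hT, Bool.not_true, Bool.false_or] at h1
  simp only [Bool.or_eq_true, or_assoc] at h1
  have conv : ∀ y : Vec, Nat.beq (enc x) (enc y) = true → x = y := fun y e => by
    rw [← vecN_enc x, Nat.eq_of_beq_eq_true e, vecN_enc]
  rcases h1 with e | e | e | e
  · exact Or.inl (conv 0 (by rw [enc_zero]; exact e))
  · exact Or.inr (Or.inl (conv w0 (by rw [enc_w0]; exact e)))
  · exact Or.inr (Or.inr (Or.inl (conv w1 (by rw [enc_w1]; exact e))))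
  · exact Or.inr (Or.inr (Or.inr (conv (w1 + w0) (by rw [enc_add, enc_w1, enc_w0]; exact e))))

/-- A set closed under sums that absorbs the moves of the space contains the scalar multiple. -/
theorem w1_mem {U : Set Vec} (h0 : (0 : Vec) ∈ U) (hadd : ∀ a ∈ U, ∀ b ∈ U, a + b ∈ U)
    (hmove : ∀ g ∈ S0, ∀ x ∈ DSet, g x + x ∈ U) : w1 ∈ U := by
  have h := fixOK_true
  simp only [fixOK, Bool.and_eq_true, List.all_eq_true, Nat.blt_eq] at h
  obtain ⟨-, h1, h2⟩ := h
  rw [← vecN_enc w1, enc_w1, ← Nat.eq_of_beq_eq_true h2]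
  have : ∀ l : List (ℕ × ℕ), (∀ p ∈ l, p ∈ CenterData.witW) →
      vecN (l.foldr (fun p acc => moveC p.1 p.2 ^^^ acc) 0) ∈ U := by
    intro l
    induction l with
    | nil => intro _; rw [List.foldr_nil, vecN_zero]; exact h0
    | cons p l ih =>
      intro hl
      obtain ⟨⟨hp1, hp2⟩, hp3⟩ := h1 p (hl p List.mem_cons_self)
      rw [List.foldr_cons, vecN_xor]
      refine hadd _ ?_ _ (ih fun q hq => hl q (List.mem_cons_of_mem _ hq))
      have e := enc_move hp1 (vecN p.2)
      rw [enc_vecN hp2] at e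
      rw [← e, vecN_enc]
      exact hmove _ (word_mem _) _ (show inD (enc (vecN p.2)) = true by rw [enc_vecN hp2]; exact hp3)
  exact this _ fun p hp => hp

end Cfsg.Agent.LargeFischer.Center
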