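import Cfsg.Agent.LargeFischer.Code
import Cfsg.Agent.LargeFischer.Data
import Cfsg.Agent.SUSixU43.DataPoints

/-!
The triple cover of `PSU4(3)` inside the special unitary group, its extensions by the transvection
and the field automorphism, and their named elements.
-/

set_option autoImplicit false
set_option maxRecDepth 100000

namespace Cfsg.Agent.LargeFischer

open Cfsg.Agent.CosetCert Cfsg.Agent.GFour25
open Cfsg.Agent.SporB.FischerU (Vec SUSix vecN enc vecN_enc enc_lt)
open Cfsg.Agent.TTClass

/-- The code of a named element. -/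
noncomputable def eN (i : ℕ) : ℕ := Data.colT.get 144 i

/-- The operation word of a named element. -/
noncomputable def opN (i : ℕ) : ℕ := Data.opT.get 32 i

/-- The left factor. -/
noncomputable def fA (i : ℕ) : ℕ := Nat.mod (opN i) 4096

/-- The right factor. -/
noncomputable def fB (i : ℕ) : ℕ := Nat.mod (Nat.shiftRight (opN i) 12) 4096

/-- The group flag: zero inside the cover, one inside the semilinear extension. -/
noncomputable def flag (i : ℕ) : ℕ := Nat.shiftRight (opN i) 24

/-- One of the 126 points among the 693. -/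
noncomputable def root (k : ℕ) : Fin 693 :=
  ⟨Nat.mod (SchurBound.getN 16 SUSixU43.o1N k) 693, Nat.mod_lt _ (by norm_num)⟩

/-- The pair of a generator. -/
def pr (i : ℕ) : ℕ × ℕ := SUSixU43.pairs.getD i (0, 0)

/-- A generator of the cover: the square of a product of two transvections. -/
noncomputable def genU (i : ℕ) : SUSix :=
  (SporB.FischerU.tv (root (pr i).1) * SporB.FischerU.tv (root (pr i).2)) ^ 2

/-- The transvection. -/
noncomputable def trn : SUSix := SporB.FischerU.tv (root SUSixU43.sigmaI)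

/-- The generated subgroup of the special unitary group. -/
noncomputable def covU : Subgroup SUSix := Subgroup.closure {g | ∃ i < 10, genU i = g}

/-- The cover as permutations of the vectors. -/
noncomputable def Kc : Subgroup (Equiv.Perm Vec) := covU.map actHom

theorem genU_mem {i : ℕ} (h : i < 10) : genU i ∈ covU := Subgroup.subset_closure ⟨i, h, rfl⟩

/-- Conjugation of the coordinates. -/
def frob : Equiv.Perm Vec where
  toFun x := fun i => x i ^ 2
  invFun x := fun i => x i ^ 2
  left_inv x := funext fun i => by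
    show (x i ^ 2) ^ 2 = x i
    generalize x i = c; revert c; decide
  right_inv x := funext fun i => by
    show (x i ^ 2) ^ 2 = x i
    generalize x i = c; revert c; decide

theorem frob_semi : IsSemi true frob := by
  refine ⟨fun x y => funext fun i => ?_, fun c x => funext fun i => ?_, fun x => ?_⟩
  · show (x i + y i) ^ 2 = x i ^ 2 + y i ^ 2
    generalize x i = a; generalize y i = b; revert a b; decide
  · show (c * x i) ^ 2 = c ^ 2 * x i ^ 2
    exact mul_pow _ _ _
  · apply H_self_eq
    rw [qC_enc, qC_enc, decide_eq_decide]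
    have h2 : ∀ a b : F4, (a + b) ^ 2 = a ^ 2 + b ^ 2 := by decide
    have h0 : ∀ a : F4, a ^ 2 = 0 ↔ a = 0 := by decide
    have hh : UnitF4.H (frob x) (frob x) = UnitF4.H x x ^ 2 := by
      rw [← Cfsg.Agent.SporB.FischerU.hs_eq, ← Cfsg.Agent.SporB.FischerU.hs_eq]
      simp only [Cfsg.Agent.SporB.FischerU.hs, h2]
      simp only [show ∀ i, frob x i = x i ^ 2 from fun _ => rfl, mul_pow]
    rw [hh, h0]

/-- The semilinear outer element. -/
noncomputable def outE : Equiv.Perm Vec := frob * actHom trn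

/-- The cover with the semilinear outer element. -/
noncomputable def Ke : Subgroup (Equiv.Perm Vec) := Kc ⊔ Subgroup.zpowers outE

/-- All extensions together. -/
noncomputable def Kall : Subgroup (Equiv.Perm Vec) :=
  Kc ⊔ Subgroup.closure {actHom trn, frob}

theorem Kc_le_Ke : Kc ≤ Ke := le_sup_left
theorem Kc_le_Kall : Kc ≤ Kall := le_sup_left

theorem Ke_le_Kall : Ke ≤ Kall :=
  sup_le le_sup_left (Subgroup.zpowers_le.2 (mul_mem
    (Subgroup.mem_sup_right (Subgroup.subset_closure (by simp)))
    (Subgroup.mem_sup_right (Subgroup.subset_closure (by simp)))))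

/-- The permutation is the coded map of a named element. -/
def IsEl (i : ℕ) (g : Equiv.Perm Vec) : Prop := ∀ x, g x = lin (eN i) x

theorem IsEl.unique {i : ℕ} {g h : Equiv.Perm Vec} (hg : IsEl i g) (hh : IsEl i h) : g = h :=
  Equiv.ext fun x => (hg x).trans (hh x).symm

theorem allB_of {F : ℕ → ℕ} {C : ℕ → ℕ} (h : ∀ j < 12, F j = C j) :
    allB (fun j => Nat.ble 12 j || Nat.beq (F j) (C j)) 4 0 = true := by
  have hq : ∀ j, (Nat.ble 12 j || Nat.beq (F j) (C j)) = true := fun j => by
    rcases lt_or_ge j 12 with hj | hj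
    · rw [h j hj, Nat.beq_refl, Bool.or_true]
    · rw [Nat.ble_eq_true_of_le hj, Bool.true_or]
  have key : ∀ (d lo : ℕ), allB (fun j => Nat.ble 12 j || Nat.beq (F j) (C j)) d lo = true := by
    intro d
    induction d with
    | zero => exact fun lo => hq lo
    | succ k ih =>
      intro lo
      show (allB _ k lo && allB _ k (Nat.add lo (Nat.shiftLeft 1 k))) = true
      rw [ih, ih]
      rfl
  exact key 4 0

theorem isEl_of_basis {i : ℕ} {b : Bool} {g : Equiv.Perm Vec} (hg : IsSemi b g)
    (h : allB (fun j => Nat.ble 12 j || Nat.beq (enc (g (vecN (Nat.shiftLeft 1 j)))) (col (eN i) j)) 4 0 = true) :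
    IsEl i g := by
  have hj : ∀ j < 12, g (vecN (Nat.shiftLeft 1 j)) = vecN (col (eN i) j) := fun j hj => by
    have h1 := allB_spec_zero h (by norm_num : 12 ≤ 2 ^ 4) hj
    rw [Bool.or_eq_true] at h1
    rcases h1 with h1 | h1
    · exact absurd (Nat.le_of_ble_eq_true h1) (not_le.2 hj)
    · rw [← Nat.eq_of_beq_eq_true h1, vecN_enc]
  have h0 : g 0 = 0 := by
    have := hg.1 0 0
    rw [add_zero] at this
    exact left_eq_add.1 this
  have hgx : ∀ a c : ℕ, g (vecN (a ^^^ c)) = g (vecN a) + g (vecN c) := fun a c => by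
    rw [vecN_xor, hg.1]
  have hbit : ∀ v, v < 4096 → (bif Nat.testBit v 0 then 1 else 0) ^^^
      (bif Nat.testBit v 1 then 2 else 0) ^^^ (bif Nat.testBit v 2 then 4 else 0) ^^^
      (bif Nat.testBit v 3 then 8 else 0) ^^^ (bif Nat.testBit v 4 then 16 else 0) ^^^
      (bif Nat.testBit v 5 then 32 else 0) ^^^ (bif Nat.testBit v 6 then 64 else 0) ^^^
      (bif Nat.testBit v 7 then 128 else 0) ^^^ (bif Nat.testBit v 8 then 256 else 0) ^^^
      (bif Nat.testBit v 9 then 512 else 0) ^^^ (bif Nat.testBit v 10 then 1024 else 0) ^^^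
      (bif Nat.testBit v 11 then 2048 else 0) = v := fun v hv => by
    have hb : allB (fun v => Nat.beq ((bif Nat.testBit v 0 then 1 else 0) ^^^
      (bif Nat.testBit v 1 then 2 else 0) ^^^ (bif Nat.testBit v 2 then 4 else 0) ^^^
      (bif Nat.testBit v 3 then 8 else 0) ^^^ (bif Nat.testBit v 4 then 16 else 0) ^^^
      (bif Nat.testBit v 5 then 32 else 0) ^^^ (bif Nat.testBit v 6 then 64 else 0) ^^^
      (bif Nat.testBit v 7 then 128 else 0) ^^^ (bif Nat.testBit v 8 then 256 else 0) ^^^
      (bif Nat.testBit v 9 then 512 else 0) ^^^ (bif Nat.testBit v 10 then 1024 else 0) ^^^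
      (bif Nat.testBit v 11 then 2048 else 0)) v) 12 0 = true := by decide +kernel
    exact Nat.eq_of_beq_eq_true (allB_spec_zero hb (by norm_num : 4096 ≤ 2 ^ 12) hv)
  have hterm : ∀ j < 12, ∀ (t : Bool) (m : ℕ), m = Nat.shiftLeft 1 j →
      g (vecN (bif t then m else 0)) = vecN (bif t then col (eN i) j else 0) := by
    intro j hjlt t m hm
    cases t
    · simp [vecN_zero, h0]
    · subst hm
      exact hj j hjlt
  intro x
  rw [lin]
  conv_lhs => rw [← vecN_enc x, ← hbit _ (enc_lt x)]
  simp only [hgx, hterm 0 (by omega) _ 1 rfl, hterm 1 (by omega) _ 2 rfl, hterm 2 (by omega) _ 4 rfl,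
    hterm 3 (by omega) _ 8 rfl, hterm 4 (by omega) _ 16 rfl, hterm 5 (by omega) _ 32 rfl,
    hterm 6 (by omega) _ 64 rfl, hterm 7 (by omega) _ 128 rfl, hterm 8 (by omega) _ 256 rfl,
    hterm 9 (by omega) _ 512 rfl, hterm 10 (by omega) _ 1024 rfl, hterm 11 (by omega) _ 2048 rfl]
  simp only [← vecN_xor]
  rfl

/-- Image of a vector under a transvection, computed. -/
noncomputable def tvA (k : ℕ) (x : Vec) : Vec :=
  x + SporB.FischerU.hs x (SporB.FischerU.pt (root k)) • SporB.FischerU.pt (root k)

theorem act_tv (k : ℕ) (x : Vec) : actHom (SporB.FischerU.tv (root k)) x = tvA k x := by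
  rw [actHom_apply, SporB.FischerU.tv, UnitF4.act_tSU card_F4, tvA, SporB.FischerU.hs_eq]

theorem act_genU (i : ℕ) (x : Vec) :
    actHom (genU i) x = tvA (pr i).1 (tvA (pr i).2 (tvA (pr i).1 (tvA (pr i).2 x))) := by
  rw [genU, pow_two, map_mul, map_mul, Equiv.Perm.mul_apply, Equiv.Perm.mul_apply,
    Equiv.Perm.mul_apply, act_tv, act_tv, act_tv, act_tv]

/-- One transvection step on codes. -/
noncomputable def tvN (k n : ℕ) : ℕ := enc (tvA k (vecN n))

theorem tvN_spec (k : ℕ) (x : Vec) : tvA k x = vecN (tvN k (enc x)) := by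
  rw [tvN, vecN_enc, vecN_enc]

/-- The check of the generators against their codes. -/
noncomputable def genOK : Bool :=
  allB (fun i => Nat.ble 10 i || (allB (fun j => Nat.ble 12 j || Nat.beq (col (eN i) j)
    (tvN (pr i).1 (tvN (pr i).2 (tvN (pr i).1 (tvN (pr i).2 (Nat.shiftLeft 1 j)))))) 4 0 &&
    isProd (eN 20) (eN (Nat.add 10 i)) (eN i))) 4 0

theorem genOK_true : genOK = true := by decide +kernel

theorem gen_spec {i : ℕ} (hi : i < 10) :
    (∀ j < 12, col (eN i) j =
      tvN (pr i).1 (tvN (pr i).2 (tvN (pr i).1 (tvN (pr i).2 (Nat.shiftLeft 1 j))))) ∧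
      isProd (eN 20) (eN (10 + i)) (eN i) = true := by
  have h := allB_spec_zero genOK_true (by norm_num : 10 ≤ 2 ^ 4) hi
  rw [Bool.or_eq_true] at h
  rcases h with h | h
  · exact absurd (Nat.le_of_ble_eq_true h) (not_le.2 hi)
  rw [Bool.and_eq_true] at h
  refine ⟨fun j hj => ?_, h.2⟩
  have h1 := allB_spec_zero h.1 (by norm_num : 12 ≤ 2 ^ 4) hj
  rw [Bool.or_eq_true] at h1
  rcases h1 with h1 | h1
  · exact absurd (Nat.le_of_ble_eq_true h1) (not_le.2 hj)
  · exact Nat.eq_of_beq_eq_true h1

theorem shl_lt {j : ℕ} (hj : j < 12) : Nat.shiftLeft 1 j < 4096 := by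
  interval_cases j <;> decide

theorem enc_tvN (k n : ℕ) : enc (vecN (tvN k n)) = tvN k n := enc_vecN (enc_lt _)

theorem isEl_gen {i : ℕ} (hi : i < 10) : IsEl i (actHom (genU i)) := by
  refine isEl_of_basis (actHom_semi _) ?_
  have h : ∀ j < 12, enc (actHom (genU i) (vecN (Nat.shiftLeft 1 j))) = col (eN i) j := by
    intro j hj
    simp only [act_genU, tvN_spec]
    simp only [enc_tvN, enc_vecN (shl_lt hj)]
    exact ((gen_spec hi).1 j hj).symm
  exact allB_of h

theorem isEl_one : IsEl 20 1 :=
  isEl_of_basis IsSemi.one (by decide +kernel :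
    allB (fun j => Nat.ble 12 j || Nat.beq (enc (vecN (Nat.shiftLeft 1 j))) (col (eN 20) j)) 4 0 = true)

theorem isEl_geninv {i : ℕ} (hi : i < 10) : IsEl (10 + i) (actHom (genU i))⁻¹ := fun x => by
  obtain ⟨y, rfl⟩ := (actHom (genU i)).surjective x
  rw [show (actHom (genU i))⁻¹ (actHom (genU i) y) = y from Equiv.symm_apply_apply _ y,
    isEl_gen hi y, lin_lin (gen_spec hi).2]
  exact isEl_one y

theorem isEl_trn : IsEl 21 (actHom trn) := by
  refine isEl_of_basis (actHom_semi _) ?_
  have hb : allB (fun j => Nat.ble 12 j ||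
      Nat.beq (tvN SUSixU43.sigmaI (Nat.shiftLeft 1 j)) (col (eN 21) j)) 4 0 = true := by
    decide +kernel
  refine allB_of fun j hj => ?_
  simp only [trn, act_tv, tvN_spec, enc_tvN, enc_vecN (shl_lt hj)]
  have h1 := allB_spec_zero hb (by norm_num : 12 ≤ 2 ^ 4) hj
  rw [Bool.or_eq_true] at h1
  rcases h1 with h1 | h1
  · exact absurd (Nat.le_of_ble_eq_true h1) (not_le.2 hj)
  · exact Nat.eq_of_beq_eq_true h1

theorem isEl_frob : IsEl 22 frob :=
  isEl_of_basis frob_semi (by decide +kernel :
    allB (fun j => Nat.ble 12 j ||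
      Nat.beq (enc (fun i => vecN (Nat.shiftLeft 1 j) i ^ 2)) (col (eN 22) j)) 4 0 = true)

theorem prod_top : isProd (eN 23) (eN 22) (eN 21) = true := by decide +kernel

theorem isEl_mul {c a b : ℕ} (h : isProd (eN c) (eN a) (eN b) = true) {g k : Equiv.Perm Vec}
    (hg : IsEl a g) (hk : IsEl b k) : IsEl c (g * k) := fun x => by
  rw [Equiv.Perm.mul_apply, hk x, hg, lin_lin h]

theorem isEl_outE : IsEl 23 outE := isEl_mul prod_top isEl_frob isEl_trn

/-- The check of the table of products and flags. -/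
noncomputable def opsOK : Bool :=
  allB (fun i => Nat.ble Data.numE i ||
    (bif Nat.blt i 24 then Nat.beq (flag i) (bif Nat.blt i 21 then 0 else bif Nat.beq i 23 then 1 else 2)
      else Nat.blt (fA i) i && Nat.blt (fB i) i && isProd (eN i) (eN (fA i)) (eN (fB i)) &&
        Nat.ble (flag (fA i)) (flag i) && Nat.ble (flag (fB i)) (flag i))) 11 0

theorem opsOK_true : opsOK = true := by decide +kernel

/-- The group of a flag. -/
noncomputable def flagGroup (f : ℕ) : Subgroup (Equiv.Perm Vec) :=
  if f = 0 then Kc else if f = 1 then Ke else Kall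

theorem flagGroup_mono {f g : ℕ} (h : f ≤ g) : flagGroup f ≤ flagGroup g := by
  unfold flagGroup
  split_ifs <;> first | exact le_rfl | exact Kc_le_Ke | exact Kc_le_Kall | exact Ke_le_Kall | omega

theorem exists_el : ∀ i < Data.numE, ∃ g ∈ flagGroup (flag i), IsEl i g := by
  intro i
  induction i using Nat.strong_induction_on with
  | _ i ih =>
    intro hi
    have h := allB_spec_zero opsOK_true (by decide +kernel : Data.numE ≤ 2 ^ 11) hi
    rw [Bool.or_eq_true] at h
    rcases h with h | h
    · exact absurd (Nat.le_of_ble_eq_true h) (not_le.2 hi)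
    by_cases h24 : i < 24
    · rw [show Nat.blt i 24 = true from Nat.blt_eq.mpr h24, cond_true] at h
      have hf := Nat.eq_of_beq_eq_true h
      have hK : ∀ g ∈ covU, actHom g ∈ Kc := fun g hg => ⟨g, hg, rfl⟩
      rcases lt_or_ge i 10 with h10 | h10
      · exact ⟨_, flagGroup_mono (Nat.zero_le _) (hK _ (genU_mem h10)), isEl_gen h10⟩
      rcases lt_or_ge i 20 with h20 | h20
      · obtain ⟨j, rfl⟩ : ∃ j, i = 10 + j := ⟨i - 10, by omega⟩
        exact ⟨_, inv_mem (flagGroup_mono (Nat.zero_le _) (hK _ (genU_mem (by omega)))),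
          isEl_geninv (by omega)⟩
      interval_cases i
      · exact ⟨1, one_mem _, isEl_one⟩
      · refine ⟨_, ?_, isEl_trn⟩
        rw [hf]
        exact Subgroup.mem_sup_right (Subgroup.subset_closure (by simp))
      · refine ⟨_, ?_, isEl_frob⟩
        rw [hf]
        exact Subgroup.mem_sup_right (Subgroup.subset_closure (by simp))
      · refine ⟨_, ?_, isEl_outE⟩
        rw [hf]
        exact Subgroup.mem_sup_right (Subgroup.mem_zpowers _)
    · rw [show Nat.blt i 24 = false from Bool.eq_false_iff.2 fun e => h24 (Nat.blt_eq.mp e),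
        cond_false] at h
      simp only [Bool.and_eq_true, Nat.blt_eq] at h
      obtain ⟨⟨⟨⟨ha, hb⟩, hp⟩, hfa⟩, hfb⟩ := h
      obtain ⟨g, hg, hge⟩ := ih _ ha (lt_trans ha hi)
      obtain ⟨k, hk, hke⟩ := ih _ hb (lt_trans hb hi)
      exact ⟨g * k, mul_mem (flagGroup_mono (Nat.le_of_ble_eq_true hfa) hg)
        (flagGroup_mono (Nat.le_of_ble_eq_true hfb) hk), isEl_mul hp hge hke⟩

/-- A named element as a permutation. -/
noncomputable def el (i : ℕ) : Equiv.Perm Vec :=
  if h : i < Data.numE then (exists_el i h).choose else 1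

theorem el_spec {i : ℕ} (h : i < Data.numE) : el i ∈ flagGroup (flag i) ∧ IsEl i (el i) := by
  rw [el, dif_pos h]
  exact (exists_el i h).choose_spec

theorem el_eq {i : ℕ} (h : i < Data.numE) {g : Equiv.Perm Vec} (hg : IsEl i g) : el i = g :=
  (el_spec h).2.unique hg

theorem el_apply {i : ℕ} (h : i < Data.numE) (v : ℕ) (hv : v < 4096) :
    el i (vecN v) = vecN (appC (eN i) v) := by
  rw [(el_spec h).2, lin, enc_vecN hv]

/-- The check that a named element lies in the cover. -/
noncomputable def inK (i : ℕ) : Bool := Nat.blt i Data.numE && Nat.beq (flag i) 0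

/-- The check that a named element lies in the semilinear extension. -/
noncomputable def inE (i : ℕ) : Bool := Nat.blt i Data.numE && Nat.ble (flag i) 1

theorem el_mem_Kc {i : ℕ} (h : inK i = true) : el i ∈ Kc := by
  rw [inK, Bool.and_eq_true] at h
  have h2 := (el_spec (Nat.blt_eq.mp h.1)).1
  rwa [Nat.eq_of_beq_eq_true h.2] at h2

theorem el_mem_Ke {i : ℕ} (h : inE i = true) : el i ∈ Ke := by
  rw [inE, Bool.and_eq_true] at h
  exact flagGroup_mono (Nat.le_of_ble_eq_true h.2) (el_spec (Nat.blt_eq.mp h.1)).1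

theorem el_mem_Kall {i : ℕ} (h : i < Data.numE) : el i ∈ Kall := by
  have h2 : flag i ≤ flag i + 2 := Nat.le_add_right _ _
  have h3 := flagGroup_mono h2 (el_spec h).1
  rw [flagGroup, if_neg (by omega), if_neg (by omega)] at h3
  exact h3

theorem Kc_le_semiU : Kc ≤ semiU := by
  rintro _ ⟨g, -, rfl⟩
  exact ⟨false, actHom_semi g⟩

theorem Kc_linear {g : Equiv.Perm Vec} (h : g ∈ Kc) : IsSemi false g := by
  obtain ⟨k, -, rfl⟩ := h
  exact actHom_semi k

theorem Kall_le_semiU : Kall ≤ semiU := by
  refine sup_le Kc_le_semiU ((Subgroup.closure_le _).2 ?_)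
  rintro g (rfl | rfl)
  · exact ⟨false, actHom_semi trn⟩
  · exact ⟨true, frob_semi⟩

end Cfsg.Agent.LargeFischer
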