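import Cfsg.Agent.LargeFischer.Frame
import Cfsg.Agent.LargeFischer.Elem
import Cfsg.Agent.SUSixU43.Ortho
import Cfsg.Prelude.Def_CaseTheorems

/-!
The centraliser in `C(z)` of a subgroup of order 3 covering the scalars, for a frame in normal form:
it covers the linear part with kernel `⟨z⟩`, so it is quasisimple with centre of order 6 as soon as
`z` lies in its commutator subgroup.
-/

set_option autoImplicit false

namespace Cfsg.Agent.LargeFischer

open Cfsg
open Cfsg.Agent.CosetCert Cfsg.Agent.GFour25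
open Cfsg.Agent.SporB.FischerU (Vec SUSix vecN enc vecN_enc enc_lt)
open Cfsg.Agent.TTClass

/-- The scalar `ω`. -/
def scal : Equiv.Perm Vec where
  toFun x := om • x
  invFun x := (om * om) • x
  left_inv x := by
    show (om * om) • om • x = x
    rw [smul_smul, show om * om * om = 1 by decide, one_smul]
  right_inv x := by
    show om • (om * om) • x = x
    rw [smul_smul, show om * (om * om) = 1 by decide, one_smul]

theorem scal_apply (x : Vec) : scal x = om • x := rfl

/-- The check that two named elements have the scalar as commutator. -/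
noncomputable def scalOK : Bool :=
  allB (fun v => Nat.beq (appC (eN 591) (appC (eN 131) v))
    (enc (om • vecN (appC (eN 131) (appC (eN 591) v))))) 12 0 && inK 131 && inK 591

theorem scalOK_true : scalOK = true := by decide +kernel

theorem scal_comm : ∃ a ∈ Kc, ∃ b ∈ Kc, b * a = scal * (a * b) := by
  have h := scalOK_true
  simp only [scalOK, Bool.and_eq_true] at h
  obtain ⟨⟨h0, ha⟩, hb⟩ := h
  refine ⟨el 131, el_mem_Kc ha, el 591, el_mem_Kc hb, Equiv.ext fun x => ?_⟩
  have h1 := Nat.eq_of_beq_eq_true (allB_spec_zero h0 (by norm_num : 4096 ≤ 2 ^ 12) (enc_lt x))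
  have hn1 : 131 < Data.numE := by decide
  have hn2 : 591 < Data.numE := by decide
  rw [Equiv.Perm.mul_apply, Equiv.Perm.mul_apply, Equiv.Perm.mul_apply, scal_apply]
  conv_lhs => rw [← vecN_enc x, el_apply hn1 _ (enc_lt x), el_apply hn2 _ (appC_lt _ _), h1, vecN_enc]
  conv_rhs => rw [← vecN_enc x, el_apply hn2 _ (enc_lt x), el_apply hn1 _ (appC_lt _ _)]

theorem scal_mem : scal ∈ Kc := by
  obtain ⟨a, ha, b, hb, h⟩ := scal_comm
  have : scal = b * a * (a * b)⁻¹ := by rw [h, mul_inv_cancel_right]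
  rw [this]
  exact mul_mem (mul_mem hb ha) (inv_mem (mul_mem ha hb))

theorem scal_commute {g : Equiv.Perm Vec} (h : IsSemi false g) : scal * g = g * scal :=
  Equiv.ext fun x => by
    rw [Equiv.Perm.mul_apply, Equiv.Perm.mul_apply, scal_apply, scal_apply, h.2.1]
    rfl

theorem scal_ne_one : scal ≠ 1 := by
  intro h
  have := congrFun (Equiv.Perm.ext_iff.1 h fun _ => 1) 0
  revert this
  decide

variable {G : Type*} [Group G] {z : G}
  {Q : Subgroup (Subgroup.centralizer ({z} : Set G))} [Q.Normal]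

namespace Frame

variable (F : Frame z Q)
include F

theorem psi_one : F.psi 1 = 0 := by
  have h := F.psi_mul 1 1
  rw [mul_one] at h
  exact left_eq_add.1 h

theorem eq_of_psi_eq {a b : Q} (h : F.psi a = F.psi b) :
    ((b⁻¹ * a : Q) : Subgroup.centralizer ({z} : Set G)).1 = 1 ∨
      ((b⁻¹ * a : Q) : Subgroup.centralizer ({z} : Set G)).1 = z := by
  refine (F.psi_ker _).1 (add_left_cancel (a := F.psi b) ?_)
  rw [← F.psi_mul, mul_inv_cancel_left, add_zero, h]

theorem psi_self (a : Q) : F.psi a + F.psi a = 0 := funext fun i => GFour25.add_self _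

theorem not_mem_of_order_three {x : Subgroup.centralizer ({z} : Set G)} (hx : orderOf x = 3) : x ∉ Q := by
  intro h
  have h3 : x ^ 3 = 1 := by rw [← hx]; exact pow_orderOf_eq_one x
  have h0 : F.psi ⟨x, h⟩ = 0 := by
    have e : (⟨x, h⟩ : Q) * ⟨x, h⟩ * ⟨x, h⟩ = 1 := Subtype.ext (by
      show x * x * x = 1
      rw [← h3, pow_succ, pow_succ, pow_one])
    have := congrArg F.psi e
    rwa [F.psi_mul, F.psi_mul, F.psi_self, zero_add, F.psi_one] at this
  have h2 := (F.psi_norm ⟨x, h⟩).1 (by rw [h0]; exact UnitF4.h_zero_left _)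
  have h2' : x ^ 2 = 1 := by rw [pow_two]; exact congrArg Subtype.val h2
  have := orderOf_dvd_of_pow_eq_one h2'
  rw [hx] at this
  norm_num at this

theorem rho_eq_one {h : Subgroup.centralizer ({z} : Set G)} : F.rho h = 1 ↔ h ∈ Q := by
  exact MonoidHom.mem_ker.symm.trans (SetLike.ext_iff.1 F.ker_rho h)

variable {x : Subgroup.centralizer ({z} : Set G)}

/-- A lift of the scalar centralises only the centre in `Q`. -/
theorem center_of_commute (hx : F.rho x = scal) {q : Q}
    (hq : x * q * x⁻¹ = (q : Subgroup.centralizer ({z} : Set G))) :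
    ((q : Subgroup.centralizer ({z} : Set G)) : G) = 1 ∨ ((q : Subgroup.centralizer ({z} : Set G)) : G) = z := by
  refine (F.psi_ker q).1 ?_
  have h := F.psi_conj x q
  rw [show (⟨x * q * x⁻¹, (inferInstance : Q.Normal).conj_mem _ q.2 x⟩ : Q) = q from Subtype.ext hq, hx,
    scal_apply] at h
  funext i
  have h1 : F.psi q i = om * F.psi q i := congrFun h i
  have key : ∀ c : F4, c = om * c → c = 0 := by decide
  exact key _ h1

/-- An element commuting with a lift of the scalar and fixing an element of `Q` modulo the centre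
fixes it. -/
theorem fix_of_psi_fix (hx : F.rho x = scal) {h : Subgroup.centralizer ({z} : Set G)} (hh : h * x = x * h)
    {v : Q} (hv : F.psi ⟨h * v * h⁻¹, (inferInstance : Q.Normal).conj_mem _ v.2 h⟩ = F.psi v) :
    h * v * h⁻¹ = (v : Subgroup.centralizer ({z} : Set G)) := by
  let c : Subgroup.centralizer ({z} : Set G) → Q → Q := fun g w =>
    ⟨g * w * g⁻¹, (inferInstance : Q.Normal).conj_mem _ w.2 g⟩
  have hc : ∀ g w, F.psi (c g w) = F.rho g (F.psi w) := F.psi_conj
  have hcmul : ∀ g w w', c g (w * w') = c g w * c g w' := fun g w w' => Subtype.ext (by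
    show g * (w * w' : Q) * g⁻¹ = g * w * g⁻¹ * (g * w' * g⁻¹)
    rw [Subgroup.coe_mul]; group)
  have hcc : ∀ w, c h (c x w) = c x (c h w) := fun w => Subtype.ext (by
    show h * (x * w * x⁻¹) * h⁻¹ = x * (h * w * h⁻¹) * x⁻¹
    calc h * (x * w * x⁻¹) * h⁻¹ = h * x * w * (h * x)⁻¹ := by group
      _ = x * h * w * (x * h)⁻¹ := by rw [hh]
      _ = _ := by group)
  let T : Q → Q := fun w => w * c x w * c x (c x w)
  have hT : ∀ w, F.psi (T w) = 0 := fun w => by
    show F.psi (w * c x w * c x (c x w)) = 0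
    simp only [F.psi_mul, hc, hx, scal_apply, smul_smul]
    funext i
    have key : ∀ t : F4, t + om * t + om * om * t = 0 := by decide
    exact key _
  have hcen : ∀ {e : Q}, (((e : Subgroup.centralizer ({z} : Set G)) : G) = 1 ∨
      ((e : Subgroup.centralizer ({z} : Set G)) : G) = z) → ∀ g, c g e = e := by
    intro e he g
    refine Subtype.ext (Subtype.ext ?_)
    show (g : G) * ((e : Subgroup.centralizer ({z} : Set G)) : G) * (g : G)⁻¹ = _
    rcases he with he | he <;> rw [he]
    · simp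
    · rw [Subgroup.mem_centralizer_singleton_iff.1 g.2, mul_inv_cancel_right]
  have hsq : ∀ {e : Q}, (((e : Subgroup.centralizer ({z} : Set G)) : G) = 1 ∨
      ((e : Subgroup.centralizer ({z} : Set G)) : G) = z) → e * e = 1 := by
    intro e he
    refine (F.psi_norm e).1 ?_
    rw [(F.psi_ker e).2 he]
    exact UnitF4.h_zero_left _
  have he := F.eq_of_psi_eq (a := c h v) (b := v) hv
  set e : Q := v⁻¹ * c h v with hedef
  have hve : c h v = v * e := by rw [hedef, mul_inv_cancel_left]
  have hcomm : ∀ w, e * w = w * e := fun w => by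
    have h1 := congrArg Subtype.val (hcen he w)
    refine Subtype.ext ?_
    show (e : Subgroup.centralizer ({z} : Set G)) * w = w * e
    have h2 : (w : Subgroup.centralizer ({z} : Set G)) * e * (w : Subgroup.centralizer ({z} : Set G))⁻¹ = e := h1
    exact (mul_inv_eq_iff_eq_mul.1 h2).symm
  have hA : c h (T v) = T v := hcen ((F.psi_ker _).1 (hT v)) h
  have hB : c h (T v) = T v * e := by
    show c h (v * c x v * c x (c x v)) = v * c x v * c x (c x v) * e
    rw [hcmul, hcmul, hcc (c x v), hcc v, hve, hcmul, hcen he x, hcmul, hcen he x]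
    calc v * e * (c x v * e) * (c x (c x v) * e)
        = v * (e * c x v) * (e * c x (c x v)) * e := by group
      _ = v * (c x v * e) * (c x (c x v) * e) * e := by rw [hcomm, hcomm]
      _ = v * c x v * (e * c x (c x v)) * (e * e) := by group
      _ = v * c x v * (c x (c x v) * e) * (e * e) := by rw [hcomm]
      _ = v * c x v * c x (c x v) * e := by rw [hsq he, mul_one]; group
  have he1 : e = 1 := mul_eq_left.1 (hB.symm.trans hA)
  rw [he1, mul_one] at hve
  exact congrArg Subtype.val hve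

theorem lin_simple : IsSimpleGroup (F.lin ⧸ Subgroup.center F.lin) ∧
    Nat.card (F.lin ⧸ Subgroup.center F.lin) = 3265920 := by
  obtain ⟨K, _, _, hK, ⟨e⟩⟩ := F.lin_quot
  obtain ⟨hc, hs⟩ := SUSixU43.psu_facts K hK
  exact ⟨MulEquiv.isSimpleGroup e, by rw [Nat.card_congr e.toEquiv, hc]⟩

/-- The scalar in the linear part. -/
theorem exists_scalar (hKc : F.big.map F.rho = Kc) :
    ∃ g : F.lin, actHom (g : SUSix) = scal ∧ g ∈ commutator F.lin ∧ g ∈ Subgroup.center F.lin ∧
      ∀ y ∈ Subgroup.center F.lin, ∃ k : ℕ, y = g ^ k := by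
  have hmem : ∀ k ∈ Kc, ∃ g : F.lin, actHom (g : SUSix) = k := fun k hk => by
    rw [← hKc, ← F.lin_eq] at hk
    obtain ⟨g, hg, rfl⟩ := hk
    exact ⟨⟨g, hg⟩, rfl⟩
  obtain ⟨a, ha, b, hb, hab⟩ := scal_comm
  obtain ⟨a', rfl⟩ := hmem a ha
  obtain ⟨b', rfl⟩ := hmem b hb
  obtain ⟨g, hg⟩ := hmem scal scal_mem
  have hinj : Function.Injective (fun y : F.lin => actHom (y : SUSix)) :=
    actHom_injective.comp Subtype.val_injective
  have hgeq : g = b' * a' * b'⁻¹ * a'⁻¹ := hinj (by
    show actHom (g : SUSix) = actHom ((b' * a' * b'⁻¹ * a'⁻¹ : F.lin) : SUSix)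
    simp only [Subgroup.coe_mul, Subgroup.coe_inv, map_mul, map_inv]
    rw [hg, hab]
    group)
  have hgc : g ∈ Subgroup.center F.lin := Subgroup.mem_center_iff.2 fun y => hinj (by
    show actHom ((y * g : F.lin) : SUSix) = actHom ((g * y : F.lin) : SUSix)
    simp only [Subgroup.coe_mul, map_mul]
    rw [hg, scal_commute (actHom_semi _)])
  refine ⟨g, hg, hgeq ▸ Subgroup.commutator_mem_commutator (Subgroup.mem_top _) (Subgroup.mem_top _), hgc,
    fun y hy => ?_⟩
  haveI : Fact (Nat.Prime 3) := ⟨by norm_num⟩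
  have hne : (⟨g, hgc⟩ : Subgroup.center F.lin) ≠ 1 := fun h => scal_ne_one (by
    rw [← hg, show g = 1 from congrArg Subtype.val h]
    simp)
  obtain ⟨k, hk⟩ := mem_powers_of_prime_card F.lin_center hne (g' := (⟨y, hy⟩ : Subgroup.center F.lin))
  exact ⟨k, by simpa using (congrArg Subtype.val hk).symm⟩

theorem lin_perfect (hKc : F.big.map F.rho = Kc) : commutator F.lin = ⊤ := by
  obtain ⟨g, hg, hgd, hgc, hpow⟩ := F.exists_scalar hKc
  obtain ⟨hs, hcard⟩ := F.lin_simple
  haveI := hs
  have hle : Subgroup.center F.lin ≤ commutator F.lin := fun y hy => by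
    obtain ⟨k, rfl⟩ := hpow y hy
    exact pow_mem hgd k
  haveI hnn : ((commutator F.lin).map (QuotientGroup.mk' (Subgroup.center F.lin))).Normal :=
    Subgroup.Normal.map inferInstance _ (QuotientGroup.mk'_surjective _)
  rcases IsSimpleGroup.eq_bot_or_eq_top_of_normal
    ((commutator F.lin).map (QuotientGroup.mk' (Subgroup.center F.lin))) hnn with h | h
  · exfalso
    have hc : ∀ u v : F.lin ⧸ Subgroup.center F.lin, u * v = v * u := by
      intro u v
      induction u using QuotientGroup.induction_on with | _ a => ?_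
      induction v using QuotientGroup.induction_on with | _ b => ?_
      have h1 : QuotientGroup.mk' (Subgroup.center F.lin) (a * b * a⁻¹ * b⁻¹) = 1 :=
        Subgroup.mem_bot.1 (h ▸ Subgroup.mem_map_of_mem _
          (Subgroup.commutator_mem_commutator (Subgroup.mem_top a) (Subgroup.mem_top b)))
      rw [map_mul, map_mul, map_mul, map_inv, map_inv, mul_inv_eq_one, mul_inv_eq_iff_eq_mul] at h1
      exact h1
    have hp : (Nat.card (F.lin ⧸ Subgroup.center F.lin)).Prime := by
      letI : CommGroup (F.lin ⧸ Subgroup.center F.lin) :=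
        { (inferInstance : Group (F.lin ⧸ Subgroup.center F.lin)) with mul_comm := hc }
      haveI : Finite (F.lin ⧸ Subgroup.center F.lin) := Nat.finite_of_card_ne_zero (by rw [hcard]; norm_num)
      exact IsSimpleGroup.prime_card
    rw [hcard] at hp
    norm_num at hp
  · refine eq_top_iff.2 fun y _ => ?_
    obtain ⟨d, hd, he⟩ := (show QuotientGroup.mk' (Subgroup.center F.lin) y ∈
      (commutator F.lin).map (QuotientGroup.mk' _) from h ▸ Subgroup.mem_top _)
    have := mul_mem hd (hle (QuotientGroup.eq.1 he))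
    rwa [mul_inv_cancel_left] at this

/-- A generator of `X` acting as the scalar `ω`. -/
theorem exists_gen [Finite G] (hKc : F.big.map F.rho = Kc)
    {X : Subgroup (Subgroup.centralizer ({z} : Set G))} (hX : Nat.card X = 3) (hXQ : (X ⊔ Q).Normal) :
    ∃ x : Subgroup.centralizer ({z} : Set G),
      orderOf x = 3 ∧ x ∈ F.big ∧ F.rho x = scal ∧ X = Subgroup.zpowers x := by
  haveI : Fact (Nat.Prime 3) := ⟨by norm_num⟩
  obtain ⟨⟨x, hxX⟩, hx'⟩ := exists_prime_orderOf_dvd_card' (G := X) 3 (by rw [hX])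
  have hx : orderOf x = 3 := (Subgroup.orderOf_mk x hxX).symm.trans hx'
  have hX' : X = Subgroup.zpowers x := (Subgroup.eq_of_le_of_card_ge (Subgroup.zpowers_le.2 hxX)
    (by rw [hX, Nat.card_zpowers, hx])).symm
  have hbig : ∀ y : Subgroup.centralizer ({z} : Set G), orderOf y = 3 → y ∈ F.big := fun y hy => by
    have h := mul_mem (Subgroup.mul_self_mem_of_index_two F.big_index y)
      (Subgroup.mul_self_mem_of_index_two F.big_index y)
    have h4 : y * y * (y * y) = y ^ 3 * y := by simp only [pow_succ, pow_zero, one_mul, mul_assoc]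
    rwa [h4, ← hy, pow_orderOf_eq_one, one_mul] at h
  have hrho : ∀ y ∈ F.big, ∃ g : F.lin, actHom (g : SUSix) = F.rho y := fun y hy => by
    have h : F.rho y ∈ F.lin.map actHom := F.lin_eq ▸ Subgroup.mem_map_of_mem _ hy
    obtain ⟨g, hg, hge⟩ := h
    exact ⟨⟨g, hg⟩, hge⟩
  obtain ⟨g, hg⟩ := hrho x (hbig x hx)
  obtain ⟨s, hs, -, hsc, hpow⟩ := F.exists_scalar hKc
  have hinj : Function.Injective (fun y : F.lin => actHom (y : SUSix)) :=
    actHom_injective.comp Subtype.val_injective
  have hnorm : (Subgroup.zpowers g).Normal := by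
    refine ⟨fun a ha b => ?_⟩
    have hb : actHom (b : SUSix) ∈ F.big.map F.rho := F.lin_eq ▸ Subgroup.mem_map_of_mem _ b.2
    obtain ⟨m, hm, hme⟩ := hb
    obtain ⟨i, rfl⟩ := Subgroup.mem_zpowers_iff.1 ha
    have h1 : m * x ^ i * m⁻¹ ∈ X ⊔ Q := hXQ.conj_mem _ (Subgroup.mem_sup_left (zpow_mem hxX i)) m
    obtain ⟨w, hw, q, hq, hwq⟩ := Subgroup.mem_sup_of_normal_right.1 h1
    rw [hX'] at hw
    obtain ⟨j, rfl⟩ := Subgroup.mem_zpowers_iff.1 hw
    refine Subgroup.mem_zpowers_iff.2 ⟨j, hinj ?_⟩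
    show actHom ((g ^ j : F.lin) : SUSix) = actHom ((b * g ^ i * b⁻¹ : F.lin) : SUSix)
    simp only [Subgroup.coe_mul, Subgroup.coe_inv, SubgroupClass.coe_zpow, map_mul, map_inv, map_zpow]
    rw [hg, ← hme, ← map_zpow, ← map_zpow, ← map_inv, ← map_mul, ← map_mul, ← hwq, map_mul,
      (F.rho_eq_one).2 hq, mul_one]
  have hgc : g ∈ Subgroup.center F.lin := by
    obtain ⟨hsimp, hcard⟩ := F.lin_simple
    haveI := hsimp
    haveI : ((Subgroup.zpowers g).map (QuotientGroup.mk' (Subgroup.center F.lin))).Normal :=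
      Subgroup.Normal.map hnorm _ (QuotientGroup.mk'_surjective _)
    rcases IsSimpleGroup.eq_bot_or_eq_top_of_normal
      ((Subgroup.zpowers g).map (QuotientGroup.mk' (Subgroup.center F.lin))) inferInstance with h | h
    · exact (QuotientGroup.eq_one_iff g).1 (Subgroup.mem_bot.1 (h ▸ Subgroup.mem_map_of_mem _
        (Subgroup.mem_zpowers g)))
    · exfalso
      rw [MonoidHom.map_zpowers] at h
      have h1 : Nat.card (Subgroup.zpowers (QuotientGroup.mk' (Subgroup.center F.lin) g)) = 3265920 := by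
        rw [h, Subgroup.card_top, hcard]
      rw [Nat.card_zpowers] at h1
      have hg3 : g ^ 3 = 1 := hinj (by
        show actHom ((g ^ 3 : F.lin) : SUSix) = actHom ((1 : F.lin) : SUSix)
        simp only [SubgroupClass.coe_pow, Subgroup.coe_one, map_one]
        rw [map_pow, hg, ← map_pow, ← hx, pow_orderOf_eq_one, map_one])
      have := orderOf_dvd_of_pow_eq_one (n := 3)
        (x := QuotientGroup.mk' (Subgroup.center F.lin) g) (by rw [← map_pow, hg3, map_one])
      rw [h1] at this
      norm_num at this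
  obtain ⟨k, hk⟩ := hpow g hgc
  have hxk : F.rho x = scal ^ k := by
    rw [← hg, hk, SubgroupClass.coe_pow, map_pow, hs]
  have hs3 : scal ^ 3 = 1 := Equiv.ext fun v => by
    simp only [pow_succ, pow_zero, one_mul, Equiv.Perm.mul_apply, scal_apply, smul_smul]
    rw [show om * (om * om) = 1 by decide, one_smul, Equiv.Perm.one_apply]
  rw [pow_eq_pow_mod k hs3] at hxk
  have h3 : k % 3 = 0 ∨ k % 3 = 1 ∨ k % 3 = 2 := by omega
  rcases h3 with h | h | h <;> rw [h] at hxk
  · exact absurd ((F.rho_eq_one).1 (by rw [hxk, pow_zero])) (F.not_mem_of_order_three hx)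
  · exact ⟨x, hx, hbig x hx, by rw [hxk, pow_one], hX'⟩
  · have hx2 : orderOf (x ^ 2) = 3 := by rw [orderOf_pow' x (by norm_num), hx]; norm_num
    refine ⟨x ^ 2, hx2, hbig _ hx2, ?_, ?_⟩
    · rw [map_pow, hxk, ← pow_mul, show 2 * 2 = 3 + 1 by norm_num, pow_add, hs3, one_mul, pow_one]
    · exact (Subgroup.eq_of_le_of_card_ge (Subgroup.zpowers_le.2 (pow_mem hxX 2))
        (by rw [hX, Nat.card_zpowers, hx2])).symm

/-- Every element is an element of `Q` times one normalising `X`. -/
theorem exists_lift [Finite G] {X : Subgroup (Subgroup.centralizer ({z} : Set G))} (hX : Nat.card X = 3)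
    (hXQ : (X ⊔ Q).Normal) (h : Subgroup.centralizer ({z} : Set G)) :
    ∃ q ∈ Q, ∃ n ∈ Subgroup.normalizer (X : Set (Subgroup.centralizer ({z} : Set G))), h = q * n := by
  haveI : Fact (Nat.Prime 3) := ⟨by norm_num⟩
  haveI := hXQ
  have hQ3 : ¬ 3 ∣ Nat.card Q := fun hd => by
    obtain ⟨⟨y, hy⟩, hy'⟩ := exists_prime_orderOf_dvd_card' (G := Q) 3 hd
    exact F.not_mem_of_order_three ((Subgroup.orderOf_mk y hy).symm.trans hy') hy
  have hdisj : Disjoint (X.subgroupOf (X ⊔ Q)) (Q.subgroupOf (X ⊔ Q)) := by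
    rw [Subgroup.disjoint_def]
    intro y hy1 hy2
    by_contra hne
    have h1 : orderOf ((y : Subgroup.centralizer ({z} : Set G))) = 3 := by
      have hd := Subgroup.orderOf_dvd_natCard X (Subgroup.mem_subgroupOf.1 hy1)
      rw [hX] at hd
      rcases (Nat.dvd_prime (by norm_num)).1 hd with e | e
      · exact absurd (Subtype.ext (orderOf_eq_one_iff.1 e)) hne
      · exact e
    exact F.not_mem_of_order_three h1 (Subgroup.mem_subgroupOf.1 hy2)
  have hcod : Codisjoint (X.subgroupOf (X ⊔ Q)) (Q.subgroupOf (X ⊔ Q)) := by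
    rw [codisjoint_iff, ← Subgroup.subgroupOf_sup le_sup_left le_sup_right, Subgroup.subgroupOf_self]
  have hcard : Nat.card ↥(X ⊔ Q) = 3 * Nat.card Q := by
    rw [← (Subgroup.isComplement'_of_disjoint_and_mul_eq_univ hdisj (by
      rw [← Subgroup.coe_top, ← codisjoint_iff.1 hcod, Subgroup.mul_normal])).card_mul,
      Nat.card_congr (Subgroup.subgroupOfEquivOfLe le_sup_left).toEquiv,
      Nat.card_congr (Subgroup.subgroupOfEquivOfLe le_sup_right).toEquiv, hX]
  let P : Sylow 3 ↥(X ⊔ Q) := Sylow.ofCard (X.subgroupOf (X ⊔ Q)) (by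
    rw [Nat.card_congr (Subgroup.subgroupOfEquivOfLe le_sup_left).toEquiv, hX, hcard,
      Nat.factorization_mul (by norm_num) Nat.card_pos.ne', Finsupp.add_apply,
      Nat.factorization_eq_zero_of_not_dvd hQ3, Nat.Prime.factorization_self (by norm_num)]
    norm_num)
  have h1 := Sylow.normalizer_sup_eq_top P
  rw [show (P : Subgroup ↥(X ⊔ Q)) = X.subgroupOf (X ⊔ Q) from rfl, Subgroup.subgroupOf_map_subtype,
    inf_of_le_left le_sup_left] at h1
  have h2 : Subgroup.normalizer (X : Set (Subgroup.centralizer ({z} : Set G))) ⊔ Q = ⊤ := by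
    rw [eq_top_iff, ← h1]
    exact sup_le le_sup_left (sup_le (le_trans Subgroup.le_normalizer le_sup_left) le_sup_right)
  obtain ⟨n, hn, q, hq, hnq⟩ := Subgroup.mem_sup_of_normal_right.1 (h2 ▸ Subgroup.mem_top h)
  exact ⟨n * q * n⁻¹, (inferInstance : Q.Normal).conj_mem q hq n, n, hn, by rw [← hnq]; group⟩

/-- Every element of the linear part is an element of `Q` times one centralising `x`. -/
theorem exists_centralizing [Finite G] {X : Subgroup (Subgroup.centralizer ({z} : Set G))}
    (hx3 : orderOf x = 3) (hx : F.rho x = scal) (hXe : X = Subgroup.zpowers x) (hXQ : (X ⊔ Q).Normal)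
    {m : Subgroup.centralizer ({z} : Set G)} (hm : m ∈ F.big) :
    ∃ q ∈ Q, ∃ n : Subgroup.centralizer ({z} : Set G), n * x = x * n ∧ m = q * n := by
  obtain ⟨q, hq, n, hn, rfl⟩ := F.exists_lift (by rw [hXe, Nat.card_zpowers, hx3]) hXQ m
  refine ⟨q, hq, n, ?_, rfl⟩
  have hQM : F.rho (q * n) = F.rho n := by rw [map_mul, (F.rho_eq_one).2 hq, one_mul]
  have hlin : scal * F.rho n = F.rho n * scal := by
    have h : F.rho (q * n) ∈ F.lin.map actHom := F.lin_eq ▸ Subgroup.mem_map_of_mem _ hm
    obtain ⟨g, -, hg⟩ := h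
    rw [← hQM, ← hg]
    exact scal_commute (actHom_semi _)
  have h1 : n * x * n⁻¹ ∈ X := (Subgroup.mem_normalizer_iff.1 hn x).1 (hXe ▸ Subgroup.mem_zpowers x)
  rw [hXe] at h1
  obtain ⟨i, hi⟩ := Subgroup.mem_zpowers_iff.1 h1
  have h2 : F.rho (x ^ (i - 1)) = 1 := by
    rw [zpow_sub, zpow_one, hi, map_mul, map_mul, map_mul, map_inv, map_inv, hx, ← hlin]
    group
  have h3 := (F.rho_eq_one).1 h2
  have h4 : x ^ (i - 1) = 1 := by
    by_contra hne
    refine F.not_mem_of_order_three ?_ h3
    have hd : orderOf (x ^ (i - 1)) ∣ 3 := by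
      rw [← hx3, ← Nat.card_zpowers x]
      exact Subgroup.orderOf_dvd_natCard _ (zpow_mem (Subgroup.mem_zpowers x) _)
    rcases (Nat.dvd_prime (by norm_num)).1 hd with e | e
    · exact absurd (orderOf_eq_one_iff.1 e) hne
    · exact e
  have h5 : n * x * n⁻¹ = x := by
    rw [← hi, ← mul_inv_eq_one, ← h4, zpow_sub, zpow_one]
  exact mul_inv_eq_iff_eq_mul.1 h5

/-- The centraliser of a lift of the scalar lies in the linear part. -/
theorem mem_big_of_centralizes (hKc : F.big.map F.rho = Kc) (hKe : F.rho.range = Ke) (hx : F.rho x = scal)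
    {h : Subgroup.centralizer ({z} : Set G)} (hh : h * x = x * h) : h ∈ F.big := by
  by_contra hb
  have hanti : ∀ {g : Equiv.Perm Vec}, g * scal = scal * g → ¬ IsSemi true g := by
    intro g hg hs
    obtain ⟨u, hu⟩ := g.surjective fun _ => (1 : F4)
    have h1 := Equiv.Perm.ext_iff.1 hg u
    simp only [Equiv.Perm.mul_apply, scal_apply, hs.2.1, hu] at h1
    have h2 : twist true om * 1 = om * 1 := congrFun h1 0
    revert h2
    decide
  have hout : IsSemi true outE := by
    have := frob_semi.mul (actHom_semi trn)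
    exact this
  obtain ⟨h0, h0e⟩ := (show outE ∈ F.rho.range from
    hKe ▸ Subgroup.mem_sup_right (Subgroup.mem_zpowers outE))
  have hin : h * h0 ∈ F.big := by
    rw [Subgroup.mul_mem_iff_of_index_two F.big_index]
    refine iff_of_false hb fun h0b => ?_
    have h1 : outE ∈ Kc := hKc ▸ h0e ▸ Subgroup.mem_map_of_mem _ h0b
    exact hanti (scal_commute (Kc_linear h1)).symm hout
  have h1 : F.rho (h * h0) ∈ Kc := hKc ▸ Subgroup.mem_map_of_mem _ hin
  have h2 : IsSemi true (F.rho h) := by
    have h3 := (Kc_linear h1).mul hout.inv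
    rw [map_mul, h0e, mul_inv_cancel_right] at h3
    exact h3
  refine hanti ?_ h2
  rw [← hx, ← map_mul, ← map_mul, hh]

/-- The centraliser of `X`, given that `z` is in its commutator subgroup. -/
theorem three_core [Finite G] (hz : orderOf z = 2) (hKc : F.big.map F.rho = Kc) (hKe : F.rho.range = Ke)
    {X : Subgroup (Subgroup.centralizer ({z} : Set G))} (hX : Nat.card X = 3) (hXQ : (X ⊔ Q).Normal)
    (e : ↥(Subgroup.centralizer (X : Set (Subgroup.centralizer ({z} : Set G)))))
    (he : ((e : Subgroup.centralizer ({z} : Set G)) : G) = z)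
    (hed : e ∈ commutator ↥(Subgroup.centralizer (X : Set (Subgroup.centralizer ({z} : Set G))))) :
    IsQuasisimple ↥(Subgroup.centralizer (X : Set (Subgroup.centralizer ({z} : Set G)))) ∧
    IsCyclic ↥(Subgroup.center ↥(Subgroup.centralizer (X : Set (Subgroup.centralizer ({z} : Set G))))) ∧
    Nat.card ↥(Subgroup.center ↥(Subgroup.centralizer (X : Set (Subgroup.centralizer ({z} : Set G))))) = 6 ∧
    ∃ (K : Type) (_ : Field K) (_ : Fintype K), Fintype.card K = 9 ∧
      Nonempty (↥(Subgroup.centralizer (X : Set (Subgroup.centralizer ({z} : Set G)))) ⧸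
        Subgroup.center ↥(Subgroup.centralizer (X : Set (Subgroup.centralizer ({z} : Set G)))) ≃* PSU 4 K 3) := by
  obtain ⟨x, hx3, hxb, hx, hXe⟩ := F.exists_gen hKc hX hXQ
  have hD : ∀ d : Subgroup.centralizer ({z} : Set G),
      d ∈ Subgroup.centralizer (X : Set (Subgroup.centralizer ({z} : Set G))) ↔ d * x = x * d := by
    intro d
    rw [hXe, Subgroup.mem_centralizer_iff]
    constructor
    · exact fun h => (h x (Subgroup.mem_zpowers x)).symm
    · intro h y hy
      obtain ⟨i, rfl⟩ := Subgroup.mem_zpowers_iff.1 hy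
      exact (Commute.zpow_right (h : Commute d x) i).symm.eq
  generalize hDdef : Subgroup.centralizer (X : Set (Subgroup.centralizer ({z} : Set G))) = D at *
  have hinj : Function.Injective (fun y : F.lin => actHom (y : SUSix)) :=
    actHom_injective.comp Subtype.val_injective
  have hDl : ∀ d : D, ∃ g : F.lin, actHom (g : SUSix) = F.rho d := fun d => by
    have h : F.rho d ∈ F.lin.map actHom :=
      F.lin_eq ▸ Subgroup.mem_map_of_mem _ (F.mem_big_of_centralizes hKc hKe hx ((hD d).1 d.2))
    obtain ⟨g, hg, hge⟩ := h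
    exact ⟨⟨g, hg⟩, hge⟩
  choose f hf using hDl
  let θ : D →* F.lin :=
    { toFun := f
      map_one' := hinj (by simp [hf])
      map_mul' := fun a b => hinj (by simp [hf]) }
  have hθ : ∀ d : D, actHom (θ d : SUSix) = F.rho d := hf
  have θsurj : Function.Surjective θ := by
    intro g
    have h : actHom (g : SUSix) ∈ F.big.map F.rho := F.lin_eq ▸ Subgroup.mem_map_of_mem _ g.2
    obtain ⟨m, hm, hme⟩ := h
    obtain ⟨q, hq, n, hn, rfl⟩ := F.exists_centralizing hx3 hx hXe hXQ hm
    refine ⟨⟨n, (hD n).2 hn⟩, hinj ?_⟩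
    show actHom (θ ⟨n, (hD n).2 hn⟩ : SUSix) = actHom (g : SUSix)
    rw [hθ, ← hme, map_mul, (F.rho_eq_one).2 hq, one_mul]
  -- the kernel
  have heZ : e ∈ Subgroup.center D := Subgroup.mem_center_iff.2 fun d => Subtype.ext (Subtype.ext (by
    show ((d : Subgroup.centralizer ({z} : Set G)) : G) * ((e : Subgroup.centralizer ({z} : Set G)) : G) =
      ((e : Subgroup.centralizer ({z} : Set G)) : G) * ((d : Subgroup.centralizer ({z} : Set G)) : G)
    rw [he]
    exact Subgroup.mem_centralizer_singleton_iff.1 (d : Subgroup.centralizer ({z} : Set G)).2))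
  have he2 : orderOf e = 2 := (Subgroup.orderOf_coe e).symm.trans
    ((Subgroup.orderOf_coe _).symm.trans (by rw [he]; exact hz))
  obtain ⟨gs, hgs, -, hgsc, hgpow⟩ := F.exists_scalar hKc
  have hθc : ∀ d ∈ Subgroup.center D, θ d ∈ Subgroup.center F.lin := fun d hd =>
    Subgroup.mem_center_iff.2 fun y => by
      obtain ⟨c, rfl⟩ := θsurj y
      rw [← map_mul, ← map_mul, Subgroup.mem_center_iff.1 hd c]
  have he1 : θ e = 1 := by
    have h2 : θ e ^ 2 = 1 := by rw [← map_pow, ← he2, pow_orderOf_eq_one, map_one]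
    haveI : Finite (Subgroup.center F.lin) := Nat.finite_of_card_ne_zero (by rw [F.lin_center]; norm_num)
    have h3 : orderOf (θ e) ∣ 3 := by
      have := Subgroup.orderOf_dvd_natCard (Subgroup.center F.lin) (hθc e heZ)
      rwa [F.lin_center] at this
    have h4 := Nat.dvd_gcd (orderOf_dvd_of_pow_eq_one h2) h3
    exact orderOf_eq_one_iff.1 (Nat.dvd_one.1 (by simpa using h4))
  have hker : θ.ker = Subgroup.zpowers e := by
    refine le_antisymm (fun d hd => ?_) (Subgroup.zpowers_le.2 (MonoidHom.mem_ker.2 he1))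
    have h1 : F.rho d = 1 := by rw [← hθ, MonoidHom.mem_ker.1 hd]; simp
    have h2 := (hD d).1 d.2
    rcases F.center_of_commute hx (q := ⟨d, (F.rho_eq_one).1 h1⟩) (by
      show x * (d : Subgroup.centralizer ({z} : Set G)) * x⁻¹ = d
      rw [← h2, mul_inv_cancel_right]) with h | h
    · rw [show d = 1 from Subtype.ext (Subtype.ext h)]
      exact one_mem _
    · rw [show d = e from Subtype.ext (Subtype.ext (h.trans he.symm))]
      exact Subgroup.mem_zpowers e
  -- the centre
  have hcen : Subgroup.center D = (Subgroup.center F.lin).comap θ := by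
    refine le_antisymm (fun d hd => hθc d hd) fun d hd => ?_
    obtain ⟨k, hk⟩ := hgpow _ hd
    have hxD : x ∈ D := (hD x).2 rfl
    have hxc : (⟨x, hxD⟩ : D) ∈ Subgroup.center D :=
      Subgroup.mem_center_iff.2 fun c => Subtype.ext ((hD c).1 c.2)
    have h1 : θ ((⟨x, hxD⟩ : D) ^ k) = θ d := by
      rw [hk, map_pow]
      exact congrArg (· ^ k) (hinj ((hθ _).trans (hx.trans hgs.symm)))
    have h2 : ((⟨x, hxD⟩ : D) ^ k)⁻¹ * d ∈ θ.ker := by
      rw [MonoidHom.mem_ker, map_mul, map_inv, h1, inv_mul_cancel]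
    rw [hker] at h2
    have h3 := mul_mem (pow_mem hxc k) (Subgroup.zpowers_le.2 heZ h2)
    rwa [mul_inv_cancel_left] at h3
  have hcard6 : Nat.card (Subgroup.center D) = 6 := by
    rw [hcen]
    have h := Subgroup.card_eq_card_quotient_mul_card_subgroup
      ((θ.ker).subgroupOf ((Subgroup.center F.lin).comap θ))
    have hle : θ.ker ≤ (Subgroup.center F.lin).comap θ := fun d hd => by
      show θ d ∈ Subgroup.center F.lin
      rw [MonoidHom.mem_ker.1 hd]
      exact one_mem _
    rw [Nat.card_congr (Subgroup.subgroupOfEquivOfLe hle).toEquiv, hker, Nat.card_zpowers, he2] at h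
    rw [h, ← hker]
    let φ : (Subgroup.center F.lin).comap θ →* Subgroup.center F.lin := θ.subgroupComap _
    have hφ : Function.Surjective φ := fun y => by
      obtain ⟨d, hd⟩ := θsurj y.1
      exact ⟨⟨d, by rw [Subgroup.mem_comap, hd]; exact y.2⟩, Subtype.ext hd⟩
    have hφk : φ.ker = θ.ker.subgroupOf ((Subgroup.center F.lin).comap θ) := by
      ext d
      rw [MonoidHom.mem_ker, Subgroup.mem_subgroupOf, MonoidHom.mem_ker]
      exact ⟨congrArg Subtype.val, fun h => Subtype.ext h⟩
    rw [← hφk, Nat.card_congr (QuotientGroup.quotientKerEquivOfSurjective φ hφ).toEquiv, F.lin_center]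
  have hcyc : IsCyclic (Subgroup.center D) := by
    have hxD : x ∈ D := (hD x).2 rfl
    have hxc : (⟨x, hxD⟩ : D) ∈ Subgroup.center D :=
      Subgroup.mem_center_iff.2 fun c => Subtype.ext ((hD c).1 c.2)
    refine isCyclic_of_orderOf_eq_card ((⟨⟨x, hxD⟩, hxc⟩ : Subgroup.center D) * ⟨e, heZ⟩) ?_
    rw [hcard6, Commute.orderOf_mul_eq_mul_orderOf_of_coprime]
    · rw [← Subgroup.orderOf_coe (⟨⟨x, hxD⟩, hxc⟩ : Subgroup.center D),
        ← Subgroup.orderOf_coe (⟨x, hxD⟩ : D), hx3, ← Subgroup.orderOf_coe (⟨e, heZ⟩ : Subgroup.center D), he2]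
    · exact Subtype.ext (Subgroup.mem_center_iff.1 heZ ⟨x, hxD⟩)
    · rw [← Subgroup.orderOf_coe (⟨⟨x, hxD⟩, hxc⟩ : Subgroup.center D),
        ← Subgroup.orderOf_coe (⟨x, hxD⟩ : D), hx3, ← Subgroup.orderOf_coe (⟨e, heZ⟩ : Subgroup.center D), he2]
      norm_num
  -- perfect
  have hperf : commutator D = ⊤ := by
    refine eq_top_iff.2 fun d _ => ?_
    have h1 : θ d ∈ (commutator D).map θ := by
      rw [commutator_def, Subgroup.map_commutator, ← MonoidHom.range_eq_map,
        MonoidHom.range_eq_top.2 θsurj, ← commutator_def, F.lin_perfect hKc]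
      exact Subgroup.mem_top _
    obtain ⟨c, hc, hce⟩ := h1
    have h2 : c⁻¹ * d ∈ θ.ker := by rw [MonoidHom.mem_ker, map_mul, map_inv, hce, inv_mul_cancel]
    rw [hker] at h2
    have h3 := mul_mem hc (Subgroup.zpowers_le.2 hed h2)
    rwa [mul_inv_cancel_left] at h3
  obtain ⟨K, _, _, hK, ⟨eK⟩⟩ := F.lin_quot
  have φs : Function.Surjective ((QuotientGroup.mk' (Subgroup.center F.lin)).comp θ) :=
    (QuotientGroup.mk'_surjective _).comp θsurj
  have φk : Subgroup.center D = ((QuotientGroup.mk' (Subgroup.center F.lin)).comp θ).ker := by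
    rw [hcen, ← MonoidHom.comap_ker, QuotientGroup.ker_mk']
  let eq : D ⧸ Subgroup.center D ≃* F.lin ⧸ Subgroup.center F.lin :=
    (QuotientGroup.quotientMulEquivOfEq φk).trans (QuotientGroup.quotientKerEquivOfSurjective _ φs)
  haveI := F.lin_simple.1
  exact ⟨⟨⟨hperf⟩, MulEquiv.isSimpleGroup eq⟩, hcyc, hcard6, ⟨K, _, _, hK, ⟨eq.trans eK⟩⟩⟩

/-- Outside the commutator subgroup of its centraliser, `z` splits off: a subgroup centralising `x` on
which `rho` is injective covers the linear part. -/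
theorem exists_complement [Finite G] (hKc : F.big.map F.rho = Kc) (hKe : F.rho.range = Ke)
    {X : Subgroup (Subgroup.centralizer ({z} : Set G))} (hx3 : orderOf x = 3) (hx : F.rho x = scal)
    (hXe : X = Subgroup.zpowers x) (hXQ : (X ⊔ Q).Normal)
    (hno : ∀ e : ↥(Subgroup.centralizer (X : Set (Subgroup.centralizer ({z} : Set G)))),
      ((e : Subgroup.centralizer ({z} : Set G)) : G) = z →
        e ∉ commutator ↥(Subgroup.centralizer (X : Set (Subgroup.centralizer ({z} : Set G))))) :
    ∃ C1 : Subgroup (Subgroup.centralizer ({z} : Set G)),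
      (∀ c ∈ C1, c * x = x * c) ∧ (∀ c ∈ C1, F.rho c = 1 → c = 1) ∧ C1.map F.rho = Kc := by
  set D := Subgroup.centralizer (X : Set (Subgroup.centralizer ({z} : Set G))) with hDdef
  have hD : ∀ d ∈ D, d * x = x * d := fun d hd =>
    ((Subgroup.mem_centralizer_iff.1 hd) x (hXe ▸ Subgroup.mem_zpowers x)).symm
  have hC1 : ∀ c ∈ (commutator D).map D.subtype, c * x = x * c := fun c hc => by
    obtain ⟨d, -, rfl⟩ := hc
    exact hD d d.2
  refine ⟨(commutator D).map D.subtype, hC1, fun c hc h1 => ?_, ?_⟩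
  · obtain ⟨d, hd, rfl⟩ := hc
    rcases F.center_of_commute hx (q := ⟨(d : Subgroup.centralizer ({z} : Set G)), (F.rho_eq_one).1 h1⟩) (by
      show x * (d : Subgroup.centralizer ({z} : Set G)) * x⁻¹ = d
      rw [← hD d d.2, mul_inv_cancel_right]) with h | h
    · exact Subtype.ext h
    · exact absurd hd (hno d h)
  · have hDK : D.map F.rho = Kc := by
      refine le_antisymm ?_ ?_
      · rintro _ ⟨d, hd, rfl⟩
        exact hKc ▸ Subgroup.mem_map_of_mem _ (F.mem_big_of_centralizes hKc hKe hx (hD d hd))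
      · rw [← hKc]
        rintro _ ⟨m, hm, rfl⟩
        obtain ⟨q, hq, n, hn, rfl⟩ := F.exists_centralizing hx3 hx hXe hXQ hm
        refine ⟨n, ?_, by rw [map_mul, (F.rho_eq_one).2 hq, one_mul]⟩
        rw [hDdef, hXe, SetLike.mem_coe, Subgroup.mem_centralizer_iff]
        intro y hy
        obtain ⟨i, rfl⟩ := Subgroup.mem_zpowers_iff.1 hy
        exact (Commute.zpow_right (hn : Commute n x) i).symm.eq
    have hlin : Subgroup.map actHom F.lin = Kc := by rw [F.lin_eq, hKc]
    rw [commutator_def, Subgroup.map_commutator, ← MonoidHom.range_eq_map, Subgroup.range_subtype,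
      Subgroup.map_commutator, hDK, ← hlin, ← Subgroup.map_commutator]
    congr 1
    have h2 : Subgroup.map F.lin.subtype (commutator F.lin) = F.lin := by
      rw [F.lin_perfect hKc, ← MonoidHom.range_eq_map, Subgroup.range_subtype]
    rw [commutator_def, Subgroup.map_commutator, ← MonoidHom.range_eq_map, Subgroup.range_subtype] at h2
    exact h2

/-- The centraliser of `X`, given that there is no complement. -/
theorem three_core_of [Finite G] (hz : orderOf z = 2) (hKc : F.big.map F.rho = Kc) (hKe : F.rho.range = Ke)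
    (hfalse : ∀ (x : Subgroup.centralizer ({z} : Set G)) (C1 : Subgroup (Subgroup.centralizer ({z} : Set G))),
      F.rho x = scal → (∀ c ∈ C1, c * x = x * c) → (∀ c ∈ C1, F.rho c = 1 → c = 1) →
        C1.map F.rho = Kc → False)
    {X : Subgroup (Subgroup.centralizer ({z} : Set G))} (hX : Nat.card X = 3) (hXQ : (X ⊔ Q).Normal) :
    IsQuasisimple ↥(Subgroup.centralizer (X : Set (Subgroup.centralizer ({z} : Set G)))) ∧
    IsCyclic ↥(Subgroup.center ↥(Subgroup.centralizer (X : Set (Subgroup.centralizer ({z} : Set G))))) ∧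
    Nat.card ↥(Subgroup.center ↥(Subgroup.centralizer (X : Set (Subgroup.centralizer ({z} : Set G))))) = 6 ∧
    ∃ (K : Type) (_ : Field K) (_ : Fintype K), Fintype.card K = 9 ∧
      Nonempty (↥(Subgroup.centralizer (X : Set (Subgroup.centralizer ({z} : Set G)))) ⧸
        Subgroup.center ↥(Subgroup.centralizer (X : Set (Subgroup.centralizer ({z} : Set G)))) ≃* PSU 4 K 3) := by
  by_cases hex : ∃ e : ↥(Subgroup.centralizer (X : Set (Subgroup.centralizer ({z} : Set G)))),
      ((e : Subgroup.centralizer ({z} : Set G)) : G) = z ∧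
        e ∈ commutator ↥(Subgroup.centralizer (X : Set (Subgroup.centralizer ({z} : Set G))))
  · obtain ⟨e, he, hed⟩ := hex
    exact F.three_core hz hKc hKe hX hXQ e he hed
  · exfalso
    obtain ⟨x, hx3, -, hx, hXe⟩ := F.exists_gen hKc hX hXQ
    obtain ⟨C1, h1, h2, h3⟩ := F.exists_complement hKc hKe hx3 hx hXe hXQ
      fun e he hed => hex ⟨e, he, hed⟩
    exact hfalse x C1 hx h1 h2 h3

end Frame

end Cfsg.Agent.LargeFischer
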