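import Cfsg.Agent.LargeFischer.CenterBase
import Cfsg.Agent.LargeFischer.ThreeCore

/-!
The centraliser in `C(z)` of a lift of the scalar does not split over `⟨z⟩`: a complement would give
an invariant complement to the fixed line in the six-dimensional space modulo its vector.
-/

set_option autoImplicit false

namespace Cfsg.Agent.LargeFischer.Center

open Cfsg
open Cfsg.Agent.GFour25
open Cfsg.Agent.SporB.FischerU (Vec vecN enc)
open Cfsg.Agent.TTClass

namespace Model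

variable {G : Type*} [Group G] {z : G} (M : Model z)
include M

theorem rh_add {a : G} (ha : Commute a z) (u v : Vec) : M.rh a (u + v) = M.rh a u + M.rh a v := by
  obtain ⟨b, hb⟩ := Kall_le_semiU (Ke_le_Kall (M.rh_mem a ha))
  exact hb.1 u v

theorem rh_zero {a : G} (ha : Commute a z) : M.rh a 0 = 0 := by
  have h := M.rh_add ha 0 0
  rw [add_zero] at h
  exact left_eq_add.1 h

variable [Finite G]

theorem EFour_normal {g : G} (hg : M.Std g) {k e : Equiv.Perm Vec} (hk : k ∈ S0) (he : e ∈ EFour) :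
    k * e * k⁻¹ ∈ EFour := by
  have hne := Std.ne M hg
  have hfix : k (M.ps (g * z * g⁻¹)) = M.ps (g * z * g⁻¹) := by rw [hg.2]; exact hk.2
  refine normal_two_le M.card_S0 (P := M.hat g ⊓ Kc) (fun x hx => ⟨hx.2, ?_⟩) (fun c hc p hp => ?_)
    ((M.hat_isPGroup hg.1 hne).to_le inf_le_left)
    ⟨M.hat_normal hg.1 hne (Kc_le_Ke hk.1) hfix (M.EFour_le_hat hg he),
      Subgroup.mul_mem _ (Subgroup.mul_mem _ hk.1 (EFour_le he).1) (Subgroup.inv_mem _ hk.1)⟩
  · have h2 := (M.hat_le hg.1 hne hx.1).2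
    rw [hg.2] at h2
    exact h2
  · exact ⟨M.hat_normal hg.1 hne (Kc_le_Ke hc.1) (by rw [hg.2]; exact hc.2) hp.1,
      Subgroup.mul_mem _ (Subgroup.mul_mem _ hc.1 hp.2) (Subgroup.inv_mem _ hc.1)⟩

/-- No lift of the stabiliser centralises `x` with its subgroup of order sixteen inside `g Q g⁻¹`. -/
theorem false_of_inside {g : G} (hg : M.Std g) {x : G} (hxz : Commute x z)
    (hx : ∀ v, M.rh x v = om • v) (L : ↥S0 →* G) (hLz : ∀ k, Commute (L k) z)
    (hLrh : ∀ k : ↥S0, M.rh (L k) = k) (hLx : ∀ k, Commute (L k) x)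
    (hLs : ∀ k, Commute (L k) (g * z * g⁻¹))
    (hE : ∀ k : ↥S0, (k : Equiv.Perm Vec) ∈ EFour → L k ∈ M.cj g) : False := by
  classical
  obtain ⟨hw1D, hw0D, -, hw10⟩ := w1_props
  have hne := Std.ne M hg
  have D := M.pair hg.1 hne
  have hw0 : w0 ≠ 0 := rep_props.2.1
  -- the translate of `s` by `x`
  obtain ⟨s, hs⟩ : ∃ s, s = g * z * g⁻¹ := ⟨_, rfl⟩
  obtain ⟨s1, hs1⟩ : ∃ s1, s1 = x * s * x⁻¹ := ⟨_, rfl⟩
  have hsQ : s ∈ M.QG := hs ▸ hg.1
  have hs1Q : s1 ∈ M.QG := hs1 ▸ M.conj_mem_Q hxz hsQ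
  have hps1 : M.ps s1 = w1 := by rw [hs1, M.ps_conj x s hxz hsQ, hs, hg.2, hx]; rfl
  have hw1ne : w1 ≠ 0 := fun e => by
    have h2 := M.rh_zero hxz
    exact hw0 ((M.rh x).injective (by rw [hx w0, h2]; exact e))
  have hs1c : s1 ∈ M.cj g := (M.mem_cj_iff hg hs1Q).2 (hps1 ▸ hw1D)
  have hxg : x * g * z * (x * g)⁻¹ = s1 := by rw [hs1, hs]; group
  have hs1z : s1 ≠ z := fun e => hw1ne (by rw [← hps1, e, M.ps_z])
  -- back to a standard conjugate
  have h' : g⁻¹ * x * g * z * (g⁻¹ * x * g)⁻¹ = g⁻¹ * s1 * g := by rw [hs1, hs]; group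
  obtain ⟨m, hm, hg3'⟩ := M.exists_std (g := g⁻¹ * x * g) (h' ▸ M.mem_cj.1 hs1c) fun e => by
    rw [h'] at e
    refine hw10 (hps1.symm.trans ?_)
    rw [← hg.2]
    congr 1
    calc s1 = g * (g⁻¹ * s1 * g) * g⁻¹ := by group
      _ = g * z * g⁻¹ := by rw [e]
  obtain ⟨c, hc⟩ : ∃ c, c = m * g⁻¹ := ⟨_, rfl⟩
  have hg3 : M.Std (c * (x * g)) := by
    rwa [hc, show m * g⁻¹ * (x * g) = m * (g⁻¹ * x * g) by group]
  obtain ⟨s3, hs3⟩ : ∃ s3, s3 = c * (x * g) * z * (c * (x * g))⁻¹ := ⟨_, rfl⟩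
  have hne3 := Std.ne M hg3
  have hs3Q : s3 ∈ M.QG := hs3 ▸ hg3.1
  have hps3 : M.ps s3 = w0 := hs3 ▸ hg3.2
  have hs3s1 : s3 = c * s1 * c⁻¹ := by rw [hs3, hs1, hs]; group
  have hcs : c * s * c⁻¹ = z := by
    rw [hs, hc, show m * g⁻¹ * (g * z * g⁻¹) * (m * g⁻¹)⁻¹ = m * z * m⁻¹ by group]
    exact mul_inv_eq_iff_eq_mul.2 hm
  have toQ : ∀ a, a ∈ M.cj g → c * a * c⁻¹ ∈ M.QG := fun a ha => by
    rw [hc, show m * g⁻¹ * a * (m * g⁻¹)⁻¹ = m * (g⁻¹ * a * g) * m⁻¹ by group]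
    exact M.conj_mem_Q hm (M.mem_cj.1 ha)
  obtain ⟨z3, hz3⟩ : ∃ z3, z3 = c * z * c⁻¹ := ⟨_, rfl⟩
  have hz3Q : z3 ∈ M.QG := hz3 ▸ toQ z (M.mem_cj_z hg.1 hne)
  have hz3c : z3 ∈ M.cj (c * (x * g)) := by
    rw [hz3]
    exact M.conj_mem_cj_iff.2 (M.mem_cj_z (hxg ▸ hs1Q) (hxg ▸ hs1z))
  have htD : M.ps z3 ∈ DSet := (M.mem_cj_iff hg3 hz3Q).1 hz3c
  -- the preimage in `Q`
  have hVz : z ∈ M.cj c := M.mem_cj.2 (by
    have e : c⁻¹ * z * c = s := by rw [← hcs]; group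
    rw [e]; exact hsQ)
  have hVs : s3 ∈ M.cj c := M.mem_cj.2 (by
    have e : c⁻¹ * s3 * c = s1 := by rw [hs3s1]; group
    rw [e]; exact hs1Q)
  have hVz3 : z3 ∈ M.cj c := M.mem_cj.2 (by
    have e : c⁻¹ * z3 * c = z := by rw [hz3]; group
    rw [e]; exact M.ci.mem)
  have back : ∀ {a b}, a ∈ M.QG → b ∈ M.QG → b ∈ M.cj c → M.ps a = M.ps b → c⁻¹ * a * c ∈ M.QG := by
    intro a b ha hb hbc e
    refine M.mem_cj.1 ?_
    rcases M.eq_or_eq_mul_of_ps_eq ha hb e with r | r <;> rw [r]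
    · exact hbc
    · exact mul_mem hbc hVz
  -- `z3` lies over neither `0` nor `w0`
  have ht0 : M.ps z3 ≠ 0 ∧ M.ps z3 ≠ w0 := by
    have e0 : c⁻¹ * z3 * c = z := by rw [hz3]; group
    constructor <;> intro e
    · rcases (M.ps_ker z3 hz3Q).1 e with r | r <;> rw [r] at e0
      · exact M.ci.ne_one (by rw [← e0]; group)
      · refine hne (?_ : g * z * g⁻¹ = z)
        rw [← hs, ← e0, show c⁻¹ * z * c = c⁻¹ * (c * s * c⁻¹) * c by rw [hcs]]
        group
    · rcases M.eq_or_eq_mul_of_ps_eq hz3Q hs3Q (e.trans hps3.symm) with r | r <;> rw [r, hs3s1] at e0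
      · exact hs1z (by rw [← e0]; group)
      · refine hw10 (?_ : w1 = w0)
        have h2 : z = s1 * s := by
          rw [← e0, ← hcs]
          group
        have h3 : M.ps z = w1 + w0 := (congrArg M.ps h2).trans (by
          rw [M.ps_mul _ _ hs1Q hsQ, hps1, hs, hg.2])
        rw [M.ps_z] at h3
        calc w1 = w1 + w0 + w0 := by rw [add_assoc, vadd_self, add_zero]
          _ = w0 := by rw [← h3, zero_add]
  -- conjugated lifts
  let Λ : ↥S0 →* G := (MulAut.conj c).toMonoidHom.comp L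
  have hΛ : ∀ k, Λ k = c * L k * c⁻¹ := fun _ => rfl
  have hΛz : ∀ k, Commute (Λ k) z := fun k => by
    have := (hs ▸ hLs k : Commute (L k) s).map (MulAut.conj c).toMonoidHom
    rwa [show (MulAut.conj c).toMonoidHom s = z from hcs] at this
  have hΛs : ∀ k, Commute (Λ k) s3 := fun k => by
    have h1 : Commute (L k) s1 := by
      rw [hs1, hs]
      exact ((hLx k).mul_right (hLs k)).mul_right (hLx k).inv_right
    have := h1.map (MulAut.conj c).toMonoidHom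
    rwa [show (MulAut.conj c).toMonoidHom s1 = s3 from hs3s1.symm] at this
  have hΛz3 : ∀ k, Commute (Λ k) z3 := fun k => by
    have := (hLz k).map (MulAut.conj c).toMonoidHom
    rwa [show (MulAut.conj c).toMonoidHom z = z3 from hz3.symm] at this
  let θ : ↥S0 →* Equiv.Perm Vec :=
    { toFun := fun k => M.rh (Λ k)
      map_one' := by rw [map_one, M.rh_one]
      map_mul' := fun a b => by rw [map_mul, M.rh_mul _ _ (hΛz a) (hΛz b)] }
  have hθ : ∀ k, θ k = M.rh (Λ k) := fun _ => rfl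
  have hθfix : ∀ k, θ k w0 = w0 ∧ θ k (M.ps z3) = M.ps z3 := fun k => by
    constructor
    · rw [← hps3, hθ, ← M.ps_conj _ _ (hΛz k) hs3Q, mul_inv_eq_iff_eq_mul.2 (hΛs k).eq]
    · rw [hθ, ← M.ps_conj _ _ (hΛz k) hz3Q, mul_inv_eq_iff_eq_mul.2 (hΛz3 k).eq]
  have hΛQ : ∀ k : ↥S0, (k : Equiv.Perm Vec) ∈ EFour → Λ k ∈ M.QG := fun k hk => toQ _ (hE k hk)
  have hΛc : ∀ k : ↥S0, (k : Equiv.Perm Vec) ∈ EFour → Λ k ∈ M.cj (c * (x * g)) := fun k hk => by
    rw [hΛ]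
    refine M.conj_mem_cj_iff.2 (M.mem_cj.2 ?_)
    rw [show (x * g)⁻¹ * L k * (x * g) = g⁻¹ * (x⁻¹ * (L k * x)) * g by group, (hLx k).eq,
      inv_mul_cancel_left]
    exact M.mem_cj.1 (hE k hk)
  -- the lifts meet the conjugate of `Q` only in the lift of `EFour`
  have hθhat : ∀ k, θ k ∈ M.hat (c * (x * g)) → (k : Equiv.Perm Vec) ∈ EFour ∧ θ k = 1 := by
    intro k hk
    have hk4 : (k : Equiv.Perm Vec) ∈ EFour := by
      refine normal_two_le M.card_S0 (P := ((M.hat (c * (x * g))).comap θ).map S0.subtype)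
        (Subgroup.map_subtype_le _) ?_ ?_ ⟨k, hk, rfl⟩
      · rintro a ha _ ⟨b, hb, rfl⟩
        refine ⟨⟨a, ha⟩ * b * ⟨a, ha⟩⁻¹, ?_, rfl⟩
        show θ (⟨a, ha⟩ * b * ⟨a, ha⟩⁻¹) ∈ M.hat (c * (x * g))
        rw [map_mul, map_mul, map_inv]
        exact M.hat_normal hg3.1 hne3 (M.rh_mem _ (hΛz _)) (by rw [hg3.2]; exact (hθfix _).1) hb
      · refine IsPGroup.map ?_ _
        rintro ⟨b, hb⟩
        obtain ⟨n, hn⟩ := M.hat_isPGroup hg3.1 hne3 ⟨θ b, hb⟩
        have h1 : θ (b ^ 2 ^ n) = 1 := by rw [map_pow]; exact congrArg Subtype.val hn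
        obtain ⟨j, hj⟩ := M.ci.isPGroup ⟨Λ (b ^ 2 ^ n), (M.rh_ker _ (hΛz _)).1 h1⟩
        refine ⟨n + j, Subtype.ext ?_⟩
        have h2 : Λ (b ^ 2 ^ (n + j)) = 1 := by
          rw [pow_add, pow_mul, map_pow]; exact congrArg Subtype.val hj
        rw [hΛ] at h2
        have h3 := congrArg M.rh (conj_eq_one_iff.1 h2)
        rw [hLrh, M.rh_one] at h3
        exact Subtype.ext h3
    exact ⟨hk4, M.rh_Q (hΛQ k hk4)⟩
  -- every element of the stabiliser is a lift times an element of the conjugate of `Q`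
  have hcover : ∀ k ∈ S0, ∃ j : ↥S0, ∃ p ∈ M.hat (c * (x * g)), k = θ j * p := by
    have hle : ∀ q : ↥θ.range × ↥(M.hat (c * (x * g))),
        (q.1 : Equiv.Perm Vec) * (q.2 : Equiv.Perm Vec) ∈ Ke ⊓ stabV Data.repW := by
      rintro ⟨⟨_, j, rfl⟩, ⟨p, hp⟩⟩
      have h2 := M.hat_le hg3.1 hne3 hp
      rw [hg3.2] at h2
      exact Subgroup.mul_mem _ ⟨M.rh_mem _ (hΛz j), (hθfix j).1⟩ h2
    let ι : ↥θ.range × ↥(M.hat (c * (x * g))) → ↥(Ke ⊓ stabV Data.repW) := fun q => ⟨_, hle q⟩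
    have hinj : Function.Injective ι := by
      rintro ⟨⟨a, ha⟩, ⟨b, hb⟩⟩ ⟨⟨a', ha'⟩, ⟨b', hb'⟩⟩ e
      have e1 : a * b = a' * b' := congrArg Subtype.val e
      obtain ⟨j, hj⟩ := mul_mem (inv_mem ha') ha
      have e2 : a'⁻¹ * a = b' * b⁻¹ := by
        rw [eq_mul_inv_iff_mul_eq, mul_assoc, e1, inv_mul_cancel_left]
      have h1 := (hθhat j (by rw [hj, e2]; exact mul_mem hb' (inv_mem hb))).2
      rw [hj] at h1
      obtain rfl : a' = a := inv_mul_eq_one.1 h1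
      exact Prod.ext rfl (Subtype.ext (mul_left_cancel e1))
    have hker : Nat.card θ.ker ≤ 16 := by
      refine le_trans (Nat.card_le_card_of_injective
        (fun a : θ.ker => (⟨(a.1 : Equiv.Perm Vec),
          (hθhat a.1 (by rw [MonoidHom.mem_ker.1 a.2]; exact one_mem _)).1⟩ : ↥EFour)) ?_) card_EFour
      intro a b e
      exact Subtype.ext (Subtype.ext (congrArg Subtype.val e :))
    have h5 := Subgroup.card_eq_card_quotient_mul_card_subgroup θ.ker
    rw [Nat.card_congr (QuotientGroup.quotientKerEquivRange θ).toEquiv, M.card_S0] at h5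
    have hrange : 360 ≤ Nat.card θ.range := by
      by_contra hlt
      push Not at hlt
      have : Nat.card θ.range * Nat.card θ.ker ≤ 359 * 16 := Nat.mul_le_mul (by omega) hker
      omega
    have hbij := hinj.bijective_of_nat_card_le (by
      rw [Nat.card_prod]
      refine M.card_stab_Ke.trans ?_
      have : 360 * 32 ≤ Nat.card θ.range * Nat.card (M.hat (c * (x * g))) :=
        Nat.mul_le_mul hrange (M.card_hat hg3.1 hne3)
      omega)
    intro k hk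
    obtain ⟨⟨⟨_, j, rfl⟩, ⟨p, hp⟩⟩, e⟩ := hbij.2 ⟨k, Kc_le_Ke hk.1, hk.2⟩
    exact ⟨j, p, hp, (congrArg Subtype.val e).symm⟩
  -- the fixed points
  have hmove : ∀ k ∈ S0, ∀ d ∈ DSet, ∃ j : ↥S0, ∃ w, (w = 0 ∨ w = w0) ∧ k d + d = θ j d + d + w := by
    intro k hk d hd
    obtain ⟨j, p, hp, rfl⟩ := hcover k hk
    refine ⟨j, p d + d, M.hat_trivial hg3 hp hd, ?_⟩
    have hw : θ j (p d + d) = p d + d := by
      rcases M.hat_trivial hg3 hp hd with r | r <;> rw [r]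
      · exact M.rh_zero (hΛz j)
      · exact (hθfix j).1
    have h2 : θ j (p d) + θ j d = p d + d := by rw [← hw, hθ, M.rh_add (hΛz j)]
    show θ j (p d) + d = θ j d + d + (p d + d)
    calc θ j (p d) + d = θ j (p d) + θ j d + (θ j d + d) := by
          rw [add_assoc, ← add_assoc (θ j d), vadd_self, zero_add]
      _ = θ j d + d + (p d + d) := by rw [h2, add_comm]
  have ht1 : M.ps z3 = w1 ∨ M.ps z3 = w1 + w0 := by
    rcases fixed_space htD (fun k hk => by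
      obtain ⟨j, w, hw, e⟩ := hmove k hk _ htD
      rw [e, (hθfix j).2, vadd_self, zero_add]
      exact hw) with r | r | r | r
    · exact absurd r ht0.1
    · exact absurd r ht0.2
    · exact Or.inl r
    · exact Or.inr r
  -- the invariant complement
  let one0 : Bool → Vec → Vec := fun i v => bif i then v else 0
  let e' : ↥EFour → ↥S0 := fun e => ⟨e.1, EFour_le e.2⟩
  have key : ∀ (e : ↥EFour) (i j : Bool),
      M.ps (Λ (e' e)) + one0 i w0 + one0 j (M.ps z3) = 0 → e = 1 ∧ i = false ∧ j = false := by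
    intro e i j h
    have hf := hΛQ (e' e) e.2
    have hb : ∃ b ∈ M.QG, b ∈ M.cj c ∧ M.ps b = one0 i w0 + one0 j (M.ps z3) := by
      refine ⟨(bif i then s3 else 1) * (bif j then z3 else 1), ?_, ?_, ?_⟩ <;>
        cases i <;> cases j <;> simp [one0, hs3Q, hz3Q, hVs, hVz3, mul_mem, M.ps_mul, hps3, M.ps_one, one_mem]
    obtain ⟨b, hb1, hb2, hb3⟩ := hb
    have h1 : M.ps (Λ (e' e)) = M.ps b := by
      rw [hb3]
      calc M.ps (Λ (e' e)) = M.ps (Λ (e' e)) + (one0 i w0 + one0 j (M.ps z3)) +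
            (one0 i w0 + one0 j (M.ps z3)) := by rw [add_assoc, vadd_self, add_zero]
        _ = _ := by rw [← add_assoc (M.ps _), h, zero_add]
    have h2 := back hf hb1 hb2 h1
    rw [hΛ, show c⁻¹ * (c * L (e' e) * c⁻¹) * c = L (e' e) by group] at h2
    have he : e = 1 := Subtype.ext ((hLrh (e' e)).symm.trans (M.rh_Q h2))
    subst he
    rw [show e' 1 = 1 from Subtype.ext rfl, map_one, M.ps_one, zero_add] at h
    refine ⟨rfl, ?_⟩
    cases i <;> cases j <;> simp [one0] at h ⊢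
    · exact ht0.1 h
    · exact hw0 h
    · exact ht0.2 (by
        calc M.ps z3 = w0 + M.ps z3 + w0 := by rw [add_comm w0, add_assoc, vadd_self, add_zero]
          _ = w0 := by rw [h, zero_add])
  have hmul : ∀ a b : ↥EFour, M.ps (Λ (e' (a * b))) = M.ps (Λ (e' a)) + M.ps (Λ (e' b)) := fun a b => by
    rw [show e' (a * b) = e' a * e' b from rfl, map_mul, M.ps_mul _ _ (hΛQ _ a.2) (hΛQ _ b.2)]
  have hinv : ∀ a : ↥EFour, M.ps (Λ (e' a⁻¹)) = M.ps (Λ (e' a)) := fun a => by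
    rw [show e' a⁻¹ = (e' a)⁻¹ from rfl, map_inv, M.ps_inv (hΛQ _ a.2)]
  let Ψ : ↥EFour × Bool × Bool → ↥DSet := fun q =>
    ⟨M.ps (Λ (e' q.1)) + one0 q.2.1 w0 + one0 q.2.2 (M.ps z3), by
      obtain ⟨e, i, j⟩ := q
      have hmem : Λ (e' e) * (bif i then s3 else 1) * (bif j then z3 else 1) ∈
          M.QG ⊓ M.cj (c * (x * g)) := by
        have hs3c : s3 ∈ M.cj (c * (x * g)) := hs3 ▸ ⟨z, M.ci.mem, rfl⟩
        refine Subgroup.mul_mem _ (Subgroup.mul_mem _ ⟨hΛQ _ e.2, hΛc _ e.2⟩ ?_) ?_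
        · cases i
          · exact one_mem _
          · exact ⟨hs3Q, hs3c⟩
        · cases j
          · exact one_mem _
          · exact ⟨hz3Q, hz3c⟩
      have h1 := (M.mem_cj_iff hg3 hmem.1).1 hmem.2
      have hb1 : (bif i then s3 else 1) ∈ M.QG := by
        cases i
        · exact one_mem _
        · exact hs3Q
      have hb2 : (bif j then z3 else 1) ∈ M.QG := by
        cases j
        · exact one_mem _
        · exact hz3Q
      have hp1 : M.ps (bif i then s3 else 1) = one0 i w0 := by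
        cases i
        · exact M.ps_one
        · exact hps3
      have hp2 : M.ps (bif j then z3 else 1) = one0 j (M.ps z3) := by
        cases j
        · exact M.ps_one
        · rfl
      rw [M.ps_mul _ _ (mul_mem (hΛQ (e' e) e.2) hb1) hb2, M.ps_mul _ _ (hΛQ (e' e) e.2) hb1, hp1,
        hp2] at h1
      exact h1⟩
  have hb : ∀ (p q : Bool) (v : Vec), one0 p v + one0 q v = one0 (xor p q) v := fun p q v => by
    cases p <;> cases q <;> simp [one0, vadd_self]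
  have hΨ : Function.Injective Ψ := by
    rintro ⟨a, i, j⟩ ⟨b, i', j'⟩ e
    have e1 : M.ps (Λ (e' a)) + one0 i w0 + one0 j (M.ps z3) =
        M.ps (Λ (e' b)) + one0 i' w0 + one0 j' (M.ps z3) := congrArg Subtype.val e
    obtain ⟨h1, h2, h3⟩ := key (a * b⁻¹) (xor i i') (xor j j') (by
      rw [hmul, hinv, ← hb, ← hb]
      calc _ = (M.ps (Λ (e' a)) + one0 i w0 + one0 j (M.ps z3)) +
            (M.ps (Λ (e' b)) + one0 i' w0 + one0 j' (M.ps z3)) := by abel
        _ = 0 := by rw [e1, vadd_self])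
    refine Prod.ext (mul_inv_eq_one.1 h1) (Prod.ext ?_ ?_)
    · revert h2; cases i <;> cases i' <;> simp
    · revert h3; cases j <;> cases j' <;> simp
  haveI : Finite ↥DSet := Set.toFinite DSet
  have hΨs := (hΨ.bijective_of_nat_card_le (by
    rw [Nat.card_prod, Nat.card_prod, M.card_EFour_eq hg, Nat.card_coe_set_eq, ncard_DSet,
      Nat.card_eq_fintype_card, Fintype.card_bool])).2
  let U : Set Vec := {v | ∃ (e : ↥EFour) (i : Bool), v = M.ps (Λ (e' e)) + one0 i w0}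
  have hU0 : (0 : Vec) ∈ U := ⟨1, false, by
    rw [show e' 1 = 1 from Subtype.ext rfl, map_one, M.ps_one]; simp [one0]⟩
  have hUw : w0 ∈ U := ⟨1, true, by
    rw [show e' 1 = 1 from Subtype.ext rfl, map_one, M.ps_one]; simp [one0]⟩
  have hUadd : ∀ a ∈ U, ∀ b ∈ U, a + b ∈ U := by
    rintro _ ⟨a, i, rfl⟩ _ ⟨b, j, rfl⟩
    refine ⟨a * b, xor i j, ?_⟩
    rw [hmul, ← hb]
    abel
  have hUθ : ∀ (j : ↥S0) (d : Vec), d ∈ DSet → θ j d + d ∈ U := by
    intro j d hd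
    obtain ⟨⟨e, i, i'⟩, he⟩ := hΨs ⟨d, hd⟩
    obtain rfl : M.ps (Λ (e' e)) + one0 i w0 + one0 i' (M.ps z3) = d := congrArg Subtype.val he
    have hf : θ j (one0 i w0) = one0 i w0 := by
      cases i
      · exact M.rh_zero (hΛz j)
      · exact (hθfix j).1
    have hf' : θ j (one0 i' (M.ps z3)) = one0 i' (M.ps z3) := by
      cases i'
      · exact M.rh_zero (hΛz j)
      · exact (hθfix j).2
    have he' : θ j (M.ps (Λ (e' e))) =
        M.ps (Λ (e' ⟨(j : Equiv.Perm Vec) * e * (j : Equiv.Perm Vec)⁻¹, M.EFour_normal hg j.2 e.2⟩)) := by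
      rw [hθ, ← M.ps_conj _ _ (hΛz j) (hΛQ _ e.2), ← map_inv, ← map_mul, ← map_mul]
      rfl
    have h2 : θ j (M.ps (Λ (e' e)) + one0 i w0 + one0 i' (M.ps z3)) =
        θ j (M.ps (Λ (e' e))) + one0 i w0 + one0 i' (M.ps z3) := by
      conv_lhs => rw [hθ, M.rh_add (hΛz j), M.rh_add (hΛz j), ← hθ, hf, hf']
    rw [h2]
    have h3 : θ j (M.ps (Λ (e' e))) + one0 i w0 + one0 i' (M.ps z3) +
        (M.ps (Λ (e' e)) + one0 i w0 + one0 i' (M.ps z3)) =
        θ j (M.ps (Λ (e' e))) + M.ps (Λ (e' e)) + (one0 i w0 + one0 i w0) +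
          (one0 i' (M.ps z3) + one0 i' (M.ps z3)) := by abel
    rw [h3, vadd_self, vadd_self, add_zero, add_zero, he']
    exact hUadd _ ⟨⟨_, M.EFour_normal hg j.2 e.2⟩, false, by simp [one0]⟩ _ ⟨e, false, by simp [one0]⟩
  obtain ⟨e, i, hw⟩ := w1_mem hU0 hUadd fun k hk d hd => by
    obtain ⟨j, w, hw, e⟩ := hmove k hk d hd
    rw [e]
    refine hUadd _ (hUθ j d hd) _ ?_
    rcases hw with rfl | rfl
    · exact hU0
    · exact hUw
  rcases ht1 with r | r
  · have := (key e i true (by rw [← hw, ← r]; exact vadd_self _)).2.2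
    simp at this
  · have := (key e (!i) true (by
      show M.ps (Λ (e' e)) + one0 (!i) w0 + M.ps z3 = 0
      rw [r, hw]
      calc _ = (M.ps (Λ (e' e)) + M.ps (Λ (e' e))) + (one0 (!i) w0 + (one0 i w0 + w0)) := by abel
        _ = 0 := by rw [vadd_self]; cases i <;> simp [one0, vadd_self])).2.2
    simp at this

/-- The centraliser of a lift of the scalar has no complement to the centre. -/
theorem false_of_complement {g : G} (hg : M.Std g) {x : G} (hxz : Commute x z)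
    (hx : ∀ v, M.rh x v = om • v) (C1 : Subgroup G) (hCz : ∀ a ∈ C1, Commute a z)
    (hCx : ∀ a ∈ C1, Commute a x) (hinj : ∀ a ∈ C1, M.rh a = 1 → a = 1)
    (hmap : ∀ k ∈ Kc, ∃ a ∈ C1, M.rh a = k) : False := by
  classical
  have hne := Std.ne M hg
  have hex : ∀ k : ↥S0, ∃ a ∈ C1, M.rh a = k := fun k => hmap k k.2.1
  choose L0 hL0C hL0r using hex
  have huniq : ∀ a ∈ C1, ∀ b ∈ C1, M.rh a = M.rh b → a = b := fun a ha b hb e => by
    refine mul_inv_eq_one.1 (hinj _ (mul_mem ha (inv_mem hb)) ?_)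
    rw [M.rh_mul _ _ (hCz a ha) (hCz b hb).inv_left, M.rh_inv (hCz b hb), e, mul_inv_cancel]
  let L : ↥S0 →* G :=
    { toFun := L0
      map_one' := huniq _ (hL0C 1) _ (one_mem _) (by rw [hL0r, M.rh_one]; rfl)
      map_mul' := fun a b => huniq _ (hL0C _) _ (mul_mem (hL0C a) (hL0C b)) (by
        rw [hL0r, M.rh_mul _ _ (hCz _ (hL0C a)) (hCz _ (hL0C b)), hL0r, hL0r]; rfl) }
  have hLz : ∀ k, Commute (L k) z := fun k => hCz _ (hL0C k)
  have hLrh : ∀ k : ↥S0, M.rh (L k) = k := hL0r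
  have hLx : ∀ k, Commute (L k) x := fun k => hCx _ (hL0C k)
  obtain ⟨s, hs⟩ : ∃ s, s = g * z * g⁻¹ := ⟨_, rfl⟩
  have hsQ : s ∈ M.QG := hs ▸ hg.1
  have hps : M.ps s = w0 := hs ▸ hg.2
  have hcases : ∀ k, L k * s * (L k)⁻¹ = s ∨ L k * s * (L k)⁻¹ = s * z := fun k => by
    refine M.eq_or_eq_mul_of_ps_eq (M.conj_mem_Q (hLz k) hsQ) hsQ ?_
    rw [M.ps_conj _ _ (hLz k) hsQ, hLrh, hps]
    exact k.2.2
  have hsz : ∀ k, L k * (s * z) * (L k)⁻¹ = L k * s * (L k)⁻¹ * z := fun k => by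
    rw [show L k * (s * z) * (L k)⁻¹ = L k * s * (L k)⁻¹ * (L k * z * (L k)⁻¹) by group,
      mul_inv_eq_iff_eq_mul.2 (hLz k).eq]
  -- every lift centralises `s`
  let Ks : Subgroup ↥S0 := (Subgroup.centralizer ({s} : Set G)).comap L
  have hmemKs : ∀ k, k ∈ Ks ↔ L k * s * (L k)⁻¹ = s := fun k => by
    rw [Subgroup.mem_comap, Subgroup.mem_centralizer_singleton_iff, mul_inv_eq_iff_eq_mul]
  have hdiff : ∀ a b, a ∉ Ks → b ∉ Ks → a⁻¹ * b ∈ Ks := fun a b ha hb => by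
    rw [hmemKs] at ha hb ⊢
    have e1 := (hcases a).resolve_left ha
    have e2 := (hcases b).resolve_left hb
    rw [map_mul, map_inv,
      show (L a)⁻¹ * L b * s * ((L a)⁻¹ * L b)⁻¹ = (L a)⁻¹ * (L b * s * (L b)⁻¹) * L a by group,
      e2, ← e1]
    group
  have hidx : Nat.card S0 ≤ 2 * Nat.card ↥(Ks.map S0.subtype) := by
    rw [← Nat.card_congr (Subgroup.equivMapOfInjective Ks S0.subtype S0.subtype_injective).toEquiv,
      ← Subgroup.card_mul_index Ks, mul_comm 2]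
    refine Nat.mul_le_mul_left _ ?_
    refine (Nat.card_le_card_of_injective (fun q : ↥S0 ⧸ Ks => decide (q.out ∈ Ks)) ?_).trans
      (by rw [Nat.card_eq_fintype_card, Fintype.card_bool])
    intro q q' e
    rw [← QuotientGroup.out_eq' q, ← QuotientGroup.out_eq' q', QuotientGroup.eq]
    by_cases h : q.out ∈ Ks
    · exact mul_mem (inv_mem h) (by simpa [h] using e.symm)
    · exact hdiff _ _ h (by simpa [h] using e.symm)
  have hKs : Ks.map S0.subtype = S0 := by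
    refine eq_S0 M.card_S0 (Subgroup.map_subtype_le _) (fun k hk => ?_) hidx
    refine ⟨⟨k, hk⟩ * ⟨k, hk⟩, ?_, rfl⟩
    show _ ∈ Ks
    rw [hmemKs, map_mul]
    generalize hkk : (⟨k, hk⟩ : ↥S0) = k'
    rw [show L k' * L k' * s * (L k' * L k')⁻¹ = L k' * (L k' * s * (L k')⁻¹) * (L k')⁻¹ by group]
    rcases hcases k' with e | e
    · rw [e, e]
    · rw [e, hsz, e, mul_assoc, M.ci.sq, mul_one]
  have hLs : ∀ k, Commute (L k) s := fun k => by
    obtain ⟨k', hk', e⟩ := (show (k : Equiv.Perm Vec) ∈ Ks.map S0.subtype from hKs.symm ▸ k.2)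
    rw [← Subtype.ext (show ((k' : ↥S0) : Equiv.Perm Vec) = k from e)]
    exact mul_inv_eq_iff_eq_mul.1 ((hmemKs k').1 hk')
  -- the second conjugate
  obtain ⟨a0, ha0, ha0p⟩ := M.ps_surj q0
  have ha0s : a0 * s * a0⁻¹ = s * z := (M.ci.conj_cases ha0 hsQ).resolve_left fun e =>
    q0_not_perp (ha0p ▸ (M.commute_iff_perp hg ha0).1 (hs ▸ mul_inv_eq_iff_eq_mul.1 e))
  have hg2s : a0 * g * z * (a0 * g)⁻¹ = s * z := by rw [← ha0s, hs]; group
  have hg2 : M.Std (a0 * g) := by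
    refine ⟨hg2s ▸ mul_mem hsQ M.ci.mem, ?_⟩
    rw [hg2s, M.ps_mul _ _ hsQ M.ci.mem, hps, M.ps_z, add_zero]
  -- each element of the subgroup of order sixteen lifts into one of the two conjugates
  let A1 : Subgroup ↥EFour :=
    (M.cj g).comap (L.comp (Subgroup.inclusion EFour_le))
  let A2 : Subgroup ↥EFour :=
    (M.cj (a0 * g)).comap (L.comp (Subgroup.inclusion EFour_le))
  have hor : ∀ e : ↥EFour, e ∈ A1 ∨ e ∈ A2 := by
    intro e
    obtain ⟨f, hf⟩ : ∃ f, f = L (Subgroup.inclusion EFour_le e) := ⟨_, rfl⟩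
    show L (Subgroup.inclusion EFour_le e) ∈ M.cj g ∨ L (Subgroup.inclusion EFour_le e) ∈ M.cj (a0 * g)
    rw [← hf]
    by_cases he1 : (e : Equiv.Perm Vec) = 1
    · left
      rw [hf, show Subgroup.inclusion EFour_le e = 1 from Subtype.ext he1, map_one]
      exact one_mem _
    have hfz : Commute f z := hf ▸ hLz _
    have hfr : M.rh f = e := hf ▸ hLrh _
    obtain ⟨p, hp, hpz, hpr⟩ := M.mem_hat.1 (M.EFour_le_hat hg e.2)
    obtain ⟨q, hq⟩ : ∃ q, q = f * p⁻¹ := ⟨_, rfl⟩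
    have hqQ : q ∈ M.QG := by
      rw [hq]
      refine (M.rh_ker _ (hfz.mul_left hpz.inv_left)).1 ?_
      rw [M.rh_mul _ _ hfz hpz.inv_left, M.rh_inv hpz, hfr, hpr, mul_inv_cancel]
    have hps' : Commute p s := hs ▸ M.comm_of_mem_cj hg.1 hne hp
    have hqs : Commute q s := hq ▸ (hf ▸ hLs _ : Commute f s).mul_left hps'.inv_left
    have hperp : Perp (M.ps q) := (M.commute_iff_perp hg hqQ).1 (hs ▸ hqs)
    have hfix : ∀ k ∈ S0, k * e = e * k → k (M.ps q) + M.ps q ∈ DSet := by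
      intro k hk hke
      obtain ⟨γ, hγ⟩ : ∃ γ, γ = L ⟨k, hk⟩ := ⟨_, rfl⟩
      have hγz : Commute γ z := hγ ▸ hLz _
      have hγf : γ * f * γ⁻¹ = f := by
        rw [hγ, hf, ← map_inv, ← map_mul, ← map_mul]
        congr 1
        refine Subtype.ext ?_
        show k * (e : Equiv.Perm Vec) * k⁻¹ = e
        rw [hke, mul_inv_cancel_right]
      have hp' : γ * p * γ⁻¹ ∈ M.cj g := M.conj_mem_cj hg.1 hne (hs ▸ hγ ▸ hLs _) hp
      have h1 : q⁻¹ * (γ * q * γ⁻¹) = p * (γ * p * γ⁻¹)⁻¹ := by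
        rw [hq, show (f * p⁻¹)⁻¹ * (γ * (f * p⁻¹) * γ⁻¹) = p * f⁻¹ * (γ * f * γ⁻¹) * (γ * p * γ⁻¹)⁻¹ by group,
          hγf, inv_mul_cancel_right]
      have h2 := (M.mem_cj_iff hg (mul_mem (inv_mem hqQ) (M.conj_mem_Q hγz hqQ))).1
        (h1 ▸ mul_mem hp (inv_mem hp'))
      rw [M.ps_mul _ _ (inv_mem hqQ) (M.conj_mem_Q hγz hqQ), M.ps_inv hqQ, M.ps_conj _ _ hγz hqQ,
        hγ, hLrh, add_comm] at h2
      exact h2
    rcases fixed_quot e.2 he1 hperp hfix with h | h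
    · left
      rw [show f = q * p by rw [hq, inv_mul_cancel_right]]
      exact mul_mem ((M.mem_cj_iff hg hqQ).2 h) hp
    · right
      have hp2 : a0 * p * a0⁻¹ ∈ M.cj (a0 * g) := M.conj_mem_cj_iff.2 hp
      have hpa : p * a0 * p⁻¹ ∈ M.QG := M.conj_mem_Q hpz ha0
      have hq2 : q * (p * a0 * p⁻¹ * a0⁻¹) ∈ M.cj (a0 * g) := by
        refine (M.mem_cj_iff hg2 (mul_mem hqQ (mul_mem hpa (inv_mem ha0)))).2 ?_
        rw [M.ps_mul _ _ hqQ (mul_mem hpa (inv_mem ha0)), M.ps_ratio hpa ha0, M.ps_conj _ _ hpz ha0,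
          hpr, ha0p]
        exact h
      have := mul_mem hq2 hp2
      rwa [show q * (p * a0 * p⁻¹ * a0⁻¹) * (a0 * p * a0⁻¹) = f by rw [hq]; group] at this
  rcases (show (∀ e, e ∈ A1) ∨ ∀ e, e ∈ A2 from by
    by_contra hcon
    push Not at hcon
    obtain ⟨⟨a, ha⟩, ⟨b, hb⟩⟩ := hcon
    rcases hor (a * b) with h | h
    · exact ha (by simpa using mul_mem h (inv_mem ((hor b).resolve_right hb)))
    · exact hb (by simpa using mul_mem (inv_mem ((hor a).resolve_left ha)) h)) with h | h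
  · exact M.false_of_inside hg hxz hx L hLz hLrh hLx (fun k => hs ▸ hLs k)
      fun k hk => h ⟨k.1, hk⟩
  · exact M.false_of_inside hg2 hxz hx L hLz hLrh hLx
      (fun k => by rw [hg2s]; exact (hLs k).mul_right (hLz k))
      fun k hk => h ⟨k.1, hk⟩

end Model

end Cfsg.Agent.LargeFischer.Center
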