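import Cfsg.Agent.LargeFischer.Semi
import Cfsg.Prelude.Def_MonsterType

/-!
The data read off from a group of large Fischer type: `Q` modulo its centre as the Hermitian
space of dimension six over the field with four elements, with the centraliser acting on it by
semilinear isometries.
-/

set_option autoImplicit false

namespace Cfsg.Agent.LargeFischer

open Cfsg
open Cfsg.Agent.GFour25
open Cfsg.Agent.SporB.FischerU (Vec SUSix)
open Cfsg.Agent.TTClass

variable {G : Type*} [Group G]

/-- The identification for a group of large Fischer type. -/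
structure Frame (z : G) (Q : Subgroup (Subgroup.centralizer ({z} : Set G))) [Q.Normal] where
  rho : Subgroup.centralizer ({z} : Set G) →* Equiv.Perm Vec
  psi : Q → Vec
  ker_rho : rho.ker = Q
  rho_semi : ∀ h, rho h ∈ semiU
  psi_mul : ∀ a b, psi (a * b) = psi a + psi b
  psi_surj : Function.Surjective psi
  psi_ker : ∀ a, psi a = 0 ↔
    ((a : Subgroup.centralizer ({z} : Set G)) : G) = 1 ∨ ((a : Subgroup.centralizer ({z} : Set G)) : G) = z
  psi_norm : ∀ a, UnitF4.H (psi a) (psi a) = 0 ↔ a * a = 1
  psi_conj : ∀ (h : Subgroup.centralizer ({z} : Set G)) (a : Q),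
    psi ⟨h * a * h⁻¹, (inferInstance : Q.Normal).conj_mem _ a.2 h⟩ = rho h (psi a)
  big : Subgroup (Subgroup.centralizer ({z} : Set G))
  big_index : big.index = 2
  big_ge : Q ≤ big
  lin : Subgroup SUSix
  lin_eq : lin.map actHom = big.map rho
  lin_card : Nat.card lin = 9797760
  lin_center : Nat.card (Subgroup.center lin) = 3
  lin_quot : ∃ (K : Type) (_ : Field K) (_ : Fintype K),
    Fintype.card K = 9 ∧ Nonempty (↥lin ⧸ Subgroup.center ↥lin ≃* PSU 4 K 3)

end Cfsg.Agent.LargeFischer
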