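import Cfsg.Agent.LargeFischer.Ext
import Cfsg.Agent.LargeFischer.Frame
import Cfsg.Agent.LargeExtra.PairGroup
import Cfsg.Agent.LargeExtra.Large

/-!
The normal form of a frame, given that the triple cover of `PSU(4,9)` inside the special unitary group
of dimension six is unique up to semilinear isometries.
-/

set_option autoImplicit false

namespace Cfsg.Agent.LargeFischer

open Cfsg
open Cfsg.Agent.GFour25
open Cfsg.Agent.SporB.FischerU (Vec SUSix vecN enc)
open Cfsg.Agent.TTClass

/-- Every triple cover of the simple group in the special unitary group is a conjugate of `Kc`. -/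
def Classified : Prop :=
  ∀ X : Subgroup SUSix, Nat.card X = 9797760 → Nat.card (Subgroup.center X) = 3 →
    (∃ (K : Type) (_ : Field K) (_ : Fintype K),
      Fintype.card K = 9 ∧ Nonempty (↥X ⧸ Subgroup.center ↥X ≃* PSU 4 K 3)) →
    ∃ c ∈ semiU, (X.map actHom).map (MulAut.conj c).toMonoidHom = Kc

theorem card_eq_inf_mul {H K : Type*} [Group H] [Group K] (f : H →* K) (S : Subgroup H) :
    Nat.card S = Nat.card ↥(S ⊓ f.ker) * Nat.card ↥(S.map f) := by
  have h := (f.comp S.subtype).ker.card_mul_index
  rw [Subgroup.index_ker, MonoidHom.range_comp, Subgroup.range_subtype] at h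
  rw [← h]
  congr 1
  have e : (f.comp S.subtype).ker = (S ⊓ f.ker).subgroupOf S := by
    ext x
    simp [Subgroup.mem_subgroupOf]
  rw [e, Nat.card_congr (Subgroup.subgroupOfEquivOfLe inf_le_left).toEquiv]

theorem center_card_congr {A B : Type*} [Group A] [Group B] (e : A ≃* B) :
    Nat.card (Subgroup.center A) = Nat.card (Subgroup.center B) :=
  Nat.card_congr (Subgroup.centerCongr e).toEquiv

theorem center_map_congr {A B : Type*} [Group A] [Group B] (e : A ≃* B) :
    (Subgroup.center A).map e.toMonoidHom = Subgroup.center B := by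
  ext x
  constructor
  · rintro ⟨a, ha, rfl⟩
    refine Subgroup.mem_center_iff.2 fun y => ?_
    obtain ⟨y, rfl⟩ := e.surjective y
    show e y * e a = e a * e y
    rw [← map_mul, ← map_mul, Subgroup.mem_center_iff.1 ha y]
  · intro hx
    obtain ⟨a, rfl⟩ := e.surjective x
    refine ⟨a, Subgroup.mem_center_iff.2 fun y => e.injective ?_, rfl⟩
    rw [map_mul, map_mul, Subgroup.mem_center_iff.1 hx (e y)]

variable {G : Type*} [Group G] {z : G} {Q : Subgroup (Subgroup.centralizer ({z} : Set G))}

/-- The image of `Q` in the group. -/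
abbrev QG (Q : Subgroup (Subgroup.centralizer ({z} : Set G))) : Subgroup G :=
  Q.map (Subgroup.centralizer ({z} : Set G)).subtype

theorem mem_QG {a : Subgroup.centralizer ({z} : Set G)} : (a : G) ∈ QG Q ↔ a ∈ Q :=
  ⟨fun ⟨b, hb, e⟩ => by rwa [← Subtype.ext (e : (b : G) = a)], fun h => ⟨a, h, rfl⟩⟩

/-- The elementary facts about `Q`. -/
structure Base (z : G) (Q : Subgroup (Subgroup.centralizer ({z} : Set G))) : Prop where
  ci : LargeExtra.CentralInvolution (QG Q) z
  self : Subgroup.centralizer (QG Q : Set G) = Subgroup.zpowers z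
  norm : Subgroup.centralizer ({z} : Set G) ≤ Subgroup.normalizer (QG Q : Set G)
  card : Nat.card ↥(QG Q) = 2 ^ (2 * 6 + 1)

variable [Q.Normal] [Finite G]

theorem base_of (hF : IsOfLargeFischerTypeAt z Q) : Base z Q := by
  obtain ⟨⟨hz, hgF, hE, hcardQ, -⟩, -⟩ := hF
  obtain ⟨hci, hcent, hn⟩ := LargeExtra.centralInvolution_of_genFitting hz (Q := QG Q) (by rw [hgF])
    (LargeExtra.isExtraspecial_map_equiv hE
      (Q.equivMapOfInjective _ (Subgroup.centralizer ({z} : Set G)).subtype_injective))
  refine ⟨hci, le_antisymm hcent (Subgroup.zpowers_le.2 fun q hq => hci.comm q hq), hn, ?_⟩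
  rw [← Nat.card_congr
    (Q.equivMapOfInjective _ (Subgroup.centralizer ({z} : Set G)).subtype_injective).toEquiv, hcardQ]

omit [Finite G] in
theorem Frame.vec_eq (F : Frame z Q) {a b : Q} (h : F.psi a = F.psi b) :
    ((b : Subgroup.centralizer ({z} : Set G)) : G) = ((a : Subgroup.centralizer ({z} : Set G)) : G) ∨
      ((b : Subgroup.centralizer ({z} : Set G)) : G) =
        ((a : Subgroup.centralizer ({z} : Set G)) : G) * z := by
  have h0 : F.psi (a⁻¹ * b) = 0 := by
    have e := F.psi_mul a (a⁻¹ * b)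
    rw [mul_inv_cancel_left, ← h] at e
    exact left_eq_add.1 e
  rcases (F.psi_ker _).1 h0 with e | e
  · exact Or.inl (inv_mul_eq_one.1 e).symm
  · exact Or.inr (inv_mul_eq_iff_eq_mul.1 e)

/-- The normalised shape of a frame. -/
structure Frame.IsNormal (F : Frame z Q) : Prop where
  big_map : F.big.map F.rho = Kc
  Kc_le : Kc ≤ F.rho.range
  le_Kall : F.rho.range ≤ Kall
  card_Kc : Nat.card Kc = 9797760
  card_range : Nat.card F.rho.range = 2 * Nat.card Kc

omit [Finite G] in
/-- A frame can be moved so that the linear part is `Kc`. -/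
theorem Frame.exists_normal [Finite G] (F : Frame z Q) (hcl : Classified) :
    ∃ F' : Frame z Q, F'.IsNormal := by
  obtain ⟨c, hc, hcK⟩ := hcl F.lin F.lin_card F.lin_center F.lin_quot
  obtain ⟨b, hb⟩ := id hc
  have hc0 : c 0 = 0 := by
    have h := hb.1 0 0
    rw [add_zero] at h
    exact left_eq_add.1 h
  let cj : Equiv.Perm Vec →* Equiv.Perm Vec := (MulAut.conj c).toMonoidHom
  have hKc : (F.big.map F.rho).map cj = Kc := by rw [← F.lin_eq]; exact hcK
  let e1 : ↥F.lin ≃* ↥Kc :=
    ((F.lin.equivMapOfInjective actHom actHom_injective).trans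
      ((F.lin.map actHom).equivMapOfInjective cj (MulAut.conj c).injective)).trans
      (MulEquiv.subgroupCongr hcK)
  let e2 : ↥covU ≃* ↥Kc := covU.equivMapOfInjective actHom actHom_injective
  let e : ↥F.lin ≃* ↥covU := e1.trans e2.symm
  have hcard : Nat.card Kc = 9797760 := by rw [← F.lin_card]; exact (Nat.card_congr e1.toEquiv).symm
  let F' : Frame z Q :=
    { rho := cj.comp F.rho
      psi := fun a => c (F.psi a)
      ker_rho := by
        refine Eq.trans ?_ F.ker_rho
        ext h
        exact map_eq_one_iff cj (MulAut.conj c).injective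
      rho_semi := fun h => mul_mem (mul_mem hc (F.rho_semi h)) (inv_mem hc)
      psi_mul := fun a a' => by rw [F.psi_mul, hb.1]
      psi_surj := c.surjective.comp F.psi_surj
      psi_ker := fun a => Iff.trans ⟨fun h => c.injective (h.trans hc0.symm), fun h => by rw [h, hc0]⟩
        (F.psi_ker a)
      psi_norm := fun a => by rw [hb.2.2, F.psi_norm]
      psi_conj := fun h a => by
        rw [F.psi_conj]
        show c (F.rho h (F.psi a)) = c (F.rho h (c⁻¹ (c (F.psi a))))
        rw [← Equiv.Perm.mul_apply c⁻¹ c, inv_mul_cancel, Equiv.Perm.one_apply]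
      big := F.big
      big_index := F.big_index
      big_ge := F.big_ge
      lin := covU
      lin_eq := by
        rw [← Subgroup.map_map, hKc]
        rfl
      lin_card := by rw [← F.lin_card]; exact (Nat.card_congr e.toEquiv).symm
      lin_center := by rw [← center_card_congr e]; exact F.lin_center
      lin_quot := by
        obtain ⟨K, iK, iF, hK, ⟨q⟩⟩ := F.lin_quot
        exact ⟨K, iK, iF, hK,
          ⟨(QuotientGroup.congr _ _ e (center_map_congr e)).symm.trans q⟩⟩ }
  have hbm : F'.big.map F'.rho = Kc := by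
    show F.big.map (cj.comp F.rho) = Kc
    rw [← Subgroup.map_map, hKc]
  have hle : Kc ≤ F'.rho.range := hbm ▸ Subgroup.map_le_range _ _
  refine ⟨F', hbm, hle, ?_, hcard, ?_⟩
  · rintro _ ⟨h, rfl⟩
    refine normalizer_le (F'.rho_semi h) fun k hk => ?_
    rw [← hbm] at hk ⊢
    obtain ⟨m, hm, rfl⟩ := hk
    exact ⟨_, (Subgroup.normal_of_index_eq_two F'.big_index).conj_mem m hm h,
      by rw [map_mul, map_mul, map_inv]⟩
  · have h1 := card_eq_inf_mul F'.rho F'.big
    have h2 := card_eq_inf_mul F'.rho ⊤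
    rw [top_inf_eq, ← MonoidHom.range_eq_map, Subgroup.card_top, F'.ker_rho] at h2
    rw [hbm, F'.ker_rho, inf_eq_right.2 F'.big_ge] at h1
    have h3 := F'.big.card_mul_index
    rw [F'.big_index, h2, h1, mul_assoc] at h3
    rw [mul_comm 2]
    exact (Nat.eq_of_mul_eq_mul_left Nat.card_pos h3).symm

theorem normal_form (hcl : Classified) (F : Frame z Q) : ∃ F' : Frame z Q, F'.IsNormal :=
  F.exists_normal hcl

namespace Frame.IsNormal

variable {F : Frame z Q} (N : F.IsNormal)
include N

omit [Finite G] in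
theorem exists_ext : ∃ e : Equiv.Perm Vec, (e = actHom trn ∨ e = frob ∨ e = outE) ∧
    F.rho.range = Kc ⊔ Subgroup.zpowers e :=
  eq_ext_of_index_two N.Kc_le N.le_Kall N.card_range

omit [Finite G] in
theorem card_facts : Nat.card ↥(Kc ⊓ stabV Data.repU) = 25920 ∧
    Nat.card ↥(Kc ⊓ stabV Data.repW) = 5760 ∧
    Nat.card ↥(F.rho.range ⊓ stabV Data.repU) = 51840 ∧
    Nat.card ↥(F.rho.range ⊓ stabV Data.repW) = 11520 := by
  obtain ⟨a, b⟩ := card_stabs le_rfl Kc_le_Kall
  obtain ⟨c, d⟩ := card_stabs N.Kc_le N.le_Kall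
  have h := N.card_Kc
  have h' := N.card_range
  omega

end Frame.IsNormal

end Cfsg.Agent.LargeFischer
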