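import Cfsg.Agent.SUSixU43.Abelian
import Cfsg.Agent.SUSixU43.Ortho
import Cfsg.Agent.GFour25.Basic

/-!
`PSU₄(3)` does not act faithfully on an elementary abelian group of order at most `2 ^ 11`: its Sylow
3-subgroups have order `3 ^ 6` and no abelian subgroup of order `3 ^ 5`, unlike those of `GL₁₁(2)`.
-/

set_option autoImplicit false

namespace Cfsg.Agent.LargeFischer

open Cfsg.Agent.GFour25

/-- The ambient linear group. -/
abbrev Big : Type := GL (Fin 11) (ZMod 2)

theorem card_Big_factor : (Nat.card Big).factorization 3 = 6 := by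
  have h : Nat.card Big = 729 * (Nat.card Big / 729) ∧ ¬ 3 ∣ Nat.card Big / 729 := by
    rw [Matrix.card_GL_field, ZMod.card]
    norm_num [Fin.prod_univ_succ]
  obtain ⟨h1, h2⟩ := h
  rw [h1, Nat.factorization_mul (by norm_num) (by intro e; rw [e] at h2; exact h2 (dvd_zero 3)),
    Finsupp.add_apply, Nat.factorization_eq_zero_of_not_dvd h2, show (729 : ℕ) = 3 ^ 6 by norm_num,
    Nat.Prime.factorization_pow (by norm_num)]
  simp

/-- An elementary abelian 2-group of order at most `2 ^ 11` has its endomorphisms among the matrices. -/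
theorem exists_embedding {W : Type*} [AddCommGroup W] [Finite W] (h2 : ∀ v : W, v + v = 0)
    (hW : Nat.card W ≤ 2 ^ 11) :
    ∃ f : AddMonoid.End W →* Matrix (Fin 11) (Fin 11) (ZMod 2), Function.Injective f := by
  classical
  letI : Module (ZMod 2) W := AddCommGroup.zmodModule fun v => by rw [two_nsmul]; exact h2 v
  haveI : Fintype W := Fintype.ofFinite W
  set k := Module.finrank (ZMod 2) W with hk
  have hc : Nat.card W = 2 ^ k := by
    rw [Module.natCard_eq_pow_finrank (K := ZMod 2), Nat.card_zmod]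
  have hk11 : k ≤ 11 := (Nat.pow_le_pow_iff_right (by norm_num : 1 < 2)).1 (hc ▸ hW)
  let e : (W × (Fin (11 - k) → ZMod 2)) ≃ₗ[ZMod 2] (Fin 11 → ZMod 2) :=
    LinearEquiv.ofFinrankEq _ _ (by
      rw [Module.finrank_prod, Module.finrank_fin_fun, Module.finrank_fin_fun, ← hk]; omega)
  let ext : AddMonoid.End W →* Module.End (ZMod 2) (Fin 11 → ZMod 2) :=
    { toFun := fun g => e.toLinearMap ∘ₗ
        ((AddMonoidHom.toZModLinearMap 2 (g : W →+ W)).prodMap LinearMap.id) ∘ₗ e.symm.toLinearMap
      map_one' := LinearMap.ext fun x => e.apply_symm_apply x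
      map_mul' := fun g g' => LinearMap.ext fun x => by
        simp only [LinearMap.comp_apply, Module.End.mul_apply, LinearEquiv.coe_coe,
          LinearEquiv.symm_apply_apply]
        rfl }
  let mat : Module.End (ZMod 2) (Fin 11 → ZMod 2) →* Matrix (Fin 11) (Fin 11) (ZMod 2) :=
    { toFun := LinearMap.toMatrix'
      map_one' := LinearMap.toMatrix'_id
      map_mul' := LinearMap.toMatrix'_mul }
  refine ⟨mat.comp ext, fun g g' h => ?_⟩
  have h1 : ext g = ext g' := LinearMap.toMatrix'.injective h
  refine DFunLike.ext _ _ fun v => ?_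
  have h3 := congrArg (fun f : Module.End (ZMod 2) (Fin 11 → ZMod 2) => (e.symm (f (e (v, 0)))).1) h1
  simp [ext] at h3
  exact h3

/-- Injective actions give embeddings in `Big`. -/
theorem exists_hom {W : Type*} [AddCommGroup W] [Finite W] (h2 : ∀ v : W, v + v = 0)
    (hW : Nat.card W ≤ 2 ^ 11) {U : Type*} [Group U] (f : U →* AddMonoid.End W)
    (hf : Function.Injective f) : ∃ g : U →* Big, Function.Injective g := by
  obtain ⟨ι, hι⟩ := exists_embedding h2 hW
  exact ⟨(ι.comp f).toHomUnits, fun a b h => hf (hι (congrArg Units.val h))⟩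

/-- `(F₄)⁵ × F₂`. -/
abbrev Pad : Type := (Fin 5 → F4) × ZMod 2

/-- The scalings of the five coordinates. -/
def scale : (Fin 5 → F4ˣ) →* AddMonoid.End Pad where
  toFun c := AddMonoidHom.mk' (fun p => ((fun i => (c i : F4) * p.1 i, p.2) : Pad)) fun p q =>
    Prod.ext (funext fun i => mul_add _ _ _) rfl
  map_one' := DFunLike.ext _ _ fun p => Prod.ext (funext fun i => one_mul _) rfl
  map_mul' c d := DFunLike.ext _ _ fun p => Prod.ext (funext fun i => mul_assoc _ _ _) rfl

theorem scale_injective : Function.Injective scale := fun c d h => funext fun i => Units.ext (by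
  have h1 := congrArg Prod.fst (DFunLike.congr_fun h ((fun _ => 1, 0) : Pad))
  have h2 : (c i : F4) * 1 = d i * 1 := congrFun h1 i
  simpa using h2)

theorem card_torus : Nat.card (Fin 5 → F4ˣ) = 3 ^ 5 := by
  rw [Nat.card_fun, Nat.card_units, Nat.card_eq_fintype_card, card_F4, Nat.card_fin]

/-- A group of order `3 ^ 6` without abelian subgroups of order `3 ^ 5` does not embed in `Big`. -/
theorem not_embeds {P : Type*} [Group P] (hP : Nat.card P = 729)
    (hab : ∀ B : Subgroup P, (∀ x ∈ B, ∀ y ∈ B, x * y = y * x) → Nat.card B ≠ 243)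
    (f : P →* Big) : ¬ Function.Injective f := by
  intro hf
  haveI : Fact (Nat.Prime 3) := ⟨by norm_num⟩
  obtain ⟨τ, hinj⟩ := exists_hom (W := Pad) (by decide +kernel) (by
    rw [Nat.card_prod, Nat.card_fun, Nat.card_eq_fintype_card, card_F4, Nat.card_fin, Nat.card_zmod]
    norm_num) scale scale_injective
  let D := τ.range
  have hD : Nat.card D = 3 ^ 5 := by
    rw [← Nat.card_congr (MonoidHom.ofInjective hinj).toEquiv, card_torus]
  obtain ⟨S, hS⟩ := (IsPGroup.of_card hD).exists_le_sylow
  let R : Sylow 3 Big := Sylow.ofCard f.range (by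
    rw [card_Big_factor, ← Nat.card_congr (MonoidHom.ofInjective hf).toEquiv, hP]; norm_num)
  obtain ⟨g, hg⟩ := MulAction.exists_smul_eq Big S R
  let D' := D.map (MulAut.conj g).toMonoidHom
  have hle : D' ≤ f.range := by
    have h1 : ((g • S : Sylow 3 Big) : Subgroup Big) = f.range := by rw [hg]; rfl
    rw [← h1, Sylow.coe_subgroup_smul]
    exact Subgroup.map_mono hS
  have hcard : Nat.card (D'.comap f) = 243 := by
    rw [← Subgroup.card_map_of_injective hf, Subgroup.map_comap_eq_self hle,
      Subgroup.card_map_of_injective (MulAut.conj g).injective, hD]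
    norm_num
  refine hab _ (fun x hx y hy => hf ?_) hcard
  obtain ⟨_, ⟨a, rfl⟩, ha⟩ := hx
  obtain ⟨_, ⟨b, rfl⟩, hb⟩ := hy
  rw [map_mul, map_mul, ← ha, ← hb, ← map_mul, ← map_mul, ← map_mul, ← map_mul, mul_comm]

open SUSixU43 in
theorem grpA_cube {g : Equiv.Perm (Fin 126)} (hg : g ∈ grp chASub) : g ^ 3 = 1 := by
  induction hg using Subgroup.closure_induction with
  | mem x hx =>
    obtain ⟨i, hi, rfl⟩ := hx
    rw [chASub_eq.1] at hi
    have h10 : (i : ℕ) < 10 := by simp at hi; omega
    refine Equiv.ext fun y => ?_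
    simpa [pow_succ, Equiv.Perm.mul_apply, Fin.ext_iff, genP_look] using cube_gens i h10 y
  | one => exact one_pow 3
  | mul x y hx hy ex ey =>
    rw [(show Commute x y from comm_grpA hx hy).mul_pow, ex, ey, one_mul]
  | inv x hx ex => rw [inv_pow, ex, inv_one]

open SUSixU43 in
/-- A Sylow 3-subgroup of `PSU₄(3)`. -/
theorem exists_sylow_psu (K : Type) [Field K] [Fintype K] (hK : Fintype.card K = 9) :
    ∃ P : Subgroup (Cfsg.PSU 4 K 3), Nat.card P = 729 ∧
      ∀ B : Subgroup P, (∀ x ∈ B, ∀ y ∈ B, x * y = y * x) → Nat.card B ≠ 243 := by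
  obtain ⟨e⟩ := nonempty_grpK_equiv K hK
  have hle : grp chPSub ≤ grp chKSub := grp_mono (by decide +kernel)
  let j : grp chPSub →* Cfsg.PSU 4 K 3 := e.toMonoidHom.comp (Subgroup.inclusion hle)
  have hj : Function.Injective j := e.injective.comp (Subgroup.inclusion_injective hle)
  refine ⟨j.range, by rw [← Nat.card_congr (MonoidHom.ofInjective hj).toEquiv, card_grpP],
    fun B hB hcard => ?_⟩
  let k : grp chPSub ≃* j.range := MonoidHom.ofInjective hj
  let B' : Subgroup (Equiv.Perm (Fin 126)) := (B.comap k.toMonoidHom).map (grp chPSub).subtype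
  have hBP : B' ≤ grp chPSub := Subgroup.map_subtype_le _
  have hB' : ∀ x ∈ B', ∀ y ∈ B', x * y = y * x := by
    rintro _ ⟨x, hx, rfl⟩ _ ⟨y, hy, rfl⟩
    rw [← map_mul, ← map_mul]
    refine congrArg _ (k.injective ?_)
    rw [map_mul, map_mul]
    exact hB _ hx _ hy
  have hc : Nat.card B' = 243 := by
    rw [Subgroup.card_map_of_injective (Subgroup.subtype_injective _), ← hcard]
    exact Nat.card_congr
      { toFun := fun x => ⟨k x, x.2⟩
        invFun := fun y => ⟨k.symm y, by simp⟩
        left_inv := fun x => Subtype.ext (k.symm_apply_apply x)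
        right_inv := fun y => Subtype.ext (k.apply_symm_apply y) }
  haveI : Fact (Nat.Prime 3) := ⟨by norm_num⟩
  -- every element of `B'` lies in a subgroup of order 81 of `B'`, so in the abelian one
  have hsub : ∀ n, n ≤ 4 → ∀ H : Subgroup B', Nat.card H = 3 ^ n → H.map B'.subtype ≤ grp chASub := by
    intro n hn H hH
    obtain ⟨L, hL, hHL⟩ := Sylow.exists_subgroup_card_pow_prime_le (G := B') 3
      (n := n) (m := 4) (by rw [hc]; norm_num) H hH hn
    refine (Subgroup.map_mono hHL).trans (le_of_eq (eq_grpA ((Subgroup.map_subtype_le L).trans hBP) ?_ ?_))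
    · rw [Subgroup.card_map_of_injective (Subgroup.subtype_injective _), hL]; norm_num
    · exact fun x hx y hy => hB' x (Subgroup.map_subtype_le L hx) y (Subgroup.map_subtype_le L hy)
  have hall : ∀ x : B', (x : Equiv.Perm (Fin 126)) ∈ grp chASub := by
    intro x
    have hdvd : orderOf x ∣ 3 ^ 5 := by
      have := orderOf_dvd_natCard x
      rw [hc] at this
      exact this
    obtain ⟨n, hn, he⟩ := (Nat.dvd_prime_pow (by norm_num : Nat.Prime 3)).1 hdvd
    rcases Nat.lt_or_ge n 5 with h | h
    · exact hsub n (by omega) (Subgroup.zpowers x) (by rw [Nat.card_zpowers, he])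
        ⟨x, Subgroup.mem_zpowers x, rfl⟩
    · exfalso
      obtain rfl : n = 5 := by omega
      have h3 : orderOf (x ^ 3) = 81 := by
        rw [orderOf_pow' x (by norm_num), he]; norm_num
      have h1 := grpA_cube (hsub 4 le_rfl (Subgroup.zpowers (x ^ 3))
        (by rw [Nat.card_zpowers, h3]; norm_num) ⟨x ^ 3, Subgroup.mem_zpowers _, rfl⟩)
      have h9 : (x ^ 3) ^ 3 = 1 := Subtype.ext h1
      have := orderOf_dvd_of_pow_eq_one h9
      rw [h3] at this
      norm_num at this
  have := Subgroup.card_le_of_le (show B' ≤ grp chASub from fun x hx => hall ⟨x, hx⟩)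
  rw [hc, card_grpA] at this
  omega

/-- `PSU₄(3)` has no faithful action on an elementary abelian group of order at most `2 ^ 11`. -/
theorem no_faithful_action {W : Type*} [AddCommGroup W] [Finite W] (h2 : ∀ v : W, v + v = 0)
    (hW : Nat.card W ≤ 2 ^ 11) {U : Type*} [Group U] {K : Type} [Field K] [Fintype K]
    (hK : Fintype.card K = 9) (e : U ≃* Cfsg.PSU 4 K 3) (f : U →* AddMonoid.End W) :
    ¬ Function.Injective f := by
  intro hf
  obtain ⟨g, hg⟩ := exists_hom h2 hW f hf
  obtain ⟨P, hP, hab⟩ := exists_sylow_psu K hK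
  exact not_embeds hP hab (g.comp (e.symm.toMonoidHom.comp P.subtype))
    (hg.comp (e.symm.injective.comp (Subgroup.subtype_injective P)))

end Cfsg.Agent.LargeFischer
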