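import Cfsg.Agent.LargeFischer.Frame
import Cfsg.Agent.LargeFischer.Coords
import Cfsg.Agent.LargeFischer.SmallRep
import Cfsg.Agent.LargeExtra.Centralizer
import Cfsg.Agent.LargeExtra.Large
import Cfsg.Agent.Monster.ExtraForm

/-!
A group of large Fischer type has a frame: `Q` modulo its centre is the Hermitian space of dimension six
over the field with four elements, the elements of order 3 of `N` acting as scalars.
-/

set_option autoImplicit false

namespace Cfsg.Agent.LargeFischer

open Cfsg
open Cfsg.Agent.GFour25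
open Cfsg.Agent.SporB.FischerU (Vec SUSix)
open Cfsg.Agent.TTClass

section action

variable {H : Type*} [Group H] {W : Type*} [AddCommGroup W]

/-- The restriction of an action to an invariant subgroup. -/
def restrictAct (f : H →* (AddMonoid.End W)ˣ) (P : AddSubgroup W)
    (hP : ∀ h, ∀ u ∈ P, (f h : AddMonoid.End W) u ∈ P) : H →* AddMonoid.End P where
  toFun h := AddMonoidHom.mk' (fun u : P => (⟨(f h : AddMonoid.End W) u, hP h u u.2⟩ : P))
    fun u v => Subtype.ext (map_add (f h : AddMonoid.End W) (u : W) (v : W))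
  map_one' := DFunLike.ext _ _ fun u => Subtype.ext (by
    show (f 1 : AddMonoid.End W) (u : W) = (u : W)
    rw [map_one]; rfl)
  map_mul' h h' := DFunLike.ext _ _ fun u => Subtype.ext (by
    show (f (h * h') : AddMonoid.End W) (u : W) = (f h : AddMonoid.End W) ((f h' : AddMonoid.End W) u)
    rw [map_mul]; rfl)

theorem restrictAct_apply (f : H →* (AddMonoid.End W)ˣ) (P : AddSubgroup W)
    (hP : ∀ h, ∀ u ∈ P, (f h : AddMonoid.End W) u ∈ P) (h : H) (u : P) :
    (restrictAct f P hP h u : W) = (f h : AddMonoid.End W) u := rfl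

/-- An action transported to a group isomorphic to the module. -/
def conjPerm {V : Type*} [AddCommGroup V] (e : W ≃+ V) : (AddMonoid.End W)ˣ →* Equiv.Perm V where
  toFun u :=
    { toFun := fun x => e ((u : AddMonoid.End W) (e.symm x))
      invFun := fun x => e ((↑u⁻¹ : AddMonoid.End W) (e.symm x))
      left_inv := fun x => by
        simp only [AddEquiv.symm_apply_apply]
        rw [show (↑u⁻¹ : AddMonoid.End W) ((u : AddMonoid.End W) (e.symm x)) = e.symm x from
          DFunLike.congr_fun u.inv_mul (e.symm x), AddEquiv.apply_symm_apply]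
      right_inv := fun x => by
        simp only [AddEquiv.symm_apply_apply]
        rw [show (u : AddMonoid.End W) ((↑u⁻¹ : AddMonoid.End W) (e.symm x)) = e.symm x from
          DFunLike.congr_fun u.mul_inv (e.symm x), AddEquiv.apply_symm_apply] }
  map_one' := Equiv.ext fun x => by simp
  map_mul' u v := Equiv.ext fun x => by simp

theorem conjPerm_apply {V : Type*} [AddCommGroup V] (e : W ≃+ V) (u : (AddMonoid.End W)ˣ) (x : V) :
    conjPerm e u x = e ((u : AddMonoid.End W) (e.symm x)) := rfl

theorem conjPerm_injective {V : Type*} [AddCommGroup V] (e : W ≃+ V) :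
    Function.Injective (conjPerm e) := fun u v h => Units.ext (DFunLike.ext _ _ fun w => by
  have h1 := Equiv.Perm.ext_iff.1 h (e w)
  simpa [conjPerm_apply] using h1)

end action

/-- An element of order 3 of `N` acts without fixed points, commuting with `M`. -/
theorem exists_rotation {C : Type*} [Group C] [Finite C] {Q N M : Subgroup C} [Q.Normal] [hN : N.Normal]
    (hQ : Nat.card Q = 8192) (hQN : Q ≤ N) (hNM : N ≤ M) (hN3 : Nat.card N = 3 * Nat.card Q)
    {K : Type} [Field K] [Fintype K] (hK : Fintype.card K = 9) (e : M ⧸ N.subgroupOf M ≃* PSU 4 K 3)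
    {W : Type*} [AddCommGroup W] [Finite W] (h2 : ∀ v : W, v + v = 0) (hW : Nat.card W = 4096)
    (act : C →* (AddMonoid.End W)ˣ) (hker : ∀ h, act h = 1 ↔ h ∈ Q) :
    ∃ a : (AddMonoid.End W)ˣ,
      (∀ v, (a : AddMonoid.End W) ((a : AddMonoid.End W) v) + (a : AddMonoid.End W) v + v = 0) ∧
      (∀ h ∈ M, act h * a = a * act h) ∧
      (∀ h, act h * a = a * act h ∨ act h * a = a * a * act h) ∧
      ∀ n ∈ N, ∃ k : ℕ, act n = a ^ k := by
  classical
  haveI : Fact (Nat.Prime 3) := ⟨by norm_num⟩
  obtain ⟨hcardP, hsimp⟩ := SUSixU43.psu_facts K hK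
  haveI : IsSimpleGroup (M ⧸ N.subgroupOf M) := MulEquiv.isSimpleGroup e
  have hcardMN : Nat.card (M ⧸ N.subgroupOf M) = 3265920 := by rw [Nat.card_congr e.toEquiv, hcardP]
  -- an element of order 3
  obtain ⟨⟨x, hxN⟩, hx3'⟩ := exists_prime_orderOf_dvd_card' (G := N) 3 (by rw [hN3]; exact dvd_mul_right 3 _)
  have hx3 : orderOf x = 3 := by rw [← hx3', Subgroup.orderOf_mk]
  have hxQ : x ∉ Q := fun h => by
    have h1 := Q.orderOf_dvd_natCard h
    rw [hx3, hQ] at h1
    norm_num at h1
  obtain ⟨a, ha⟩ : ∃ a, a = act x := ⟨_, rfl⟩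
  have ha1 : a ≠ 1 := fun h => hxQ ((hker x).1 (ha ▸ h))
  have ha3 : a ^ 3 = 1 := by rw [ha, ← map_pow, ← hx3, pow_orderOf_eq_one, map_one]
  -- the action of N
  have hNpow : ∀ n ∈ N, ∃ k : ℕ, act n = a ^ k := by
    intro n hn
    have hcard3 : Nat.card (N ⧸ Q.subgroupOf N) = 3 := by
      have h1 := (Q.subgroupOf N).card_eq_card_quotient_mul_card_subgroup
      rw [Nat.card_congr (Subgroup.subgroupOfEquivOfLe hQN).toEquiv, hN3, hQ] at h1
      omega
    have hx1 : (QuotientGroup.mk ⟨x, hxN⟩ : N ⧸ Q.subgroupOf N) ≠ 1 := fun h => by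
      rw [QuotientGroup.eq_one_iff] at h
      exact hxQ h
    obtain ⟨k, hk⟩ := mem_powers_of_prime_card hcard3 hx1
      (g' := (QuotientGroup.mk ⟨n, hn⟩ : N ⧸ Q.subgroupOf N))
    refine ⟨k, ?_⟩
    simp only [← QuotientGroup.mk_pow, QuotientGroup.eq, Subgroup.mem_subgroupOf] at hk
    have h1 := (hker _).2 hk
    simp only [Subgroup.coe_mul, Subgroup.coe_inv, SubgroupClass.coe_pow, map_mul, map_inv,
      map_pow] at h1
    rw [ha]
    exact (inv_mul_eq_one.1 h1).symm
  have hconj : ∀ h, act h * a = a * act h ∨ act h * a = a * a * act h := by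
    intro h
    obtain ⟨k, hk⟩ := hNpow _ (hN.conj_mem x hxN h)
    rw [map_mul, map_mul, ← ha, map_inv, mul_inv_eq_iff_eq_mul, pow_eq_pow_mod k ha3] at hk
    have h3 : k % 3 = 0 ∨ k % 3 = 1 ∨ k % 3 = 2 := by omega
    rcases h3 with h0 | h1 | h2'
    · rw [h0, pow_zero, one_mul] at hk
      exact absurd (mul_eq_left.1 hk) ha1
    · rw [h1, pow_one] at hk
      exact Or.inl hk
    · rw [h2', pow_two] at hk
      exact Or.inr hk
  have hsq : ∀ h, act (h * h) * a = a * act (h * h) := by
    intro h
    rcases hconj h with e1 | e1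
    · rw [map_mul, mul_assoc, e1, ← mul_assoc, e1, mul_assoc]
    · rw [map_mul, mul_assoc, e1, ← mul_assoc, ← mul_assoc, e1, mul_assoc (a * a), e1]
      simp only [← mul_assoc]
      rw [show a * a * a * a = a ^ 3 * a by rw [pow_succ, pow_succ, pow_one], ha3, one_mul]
  -- M commutes with a
  have hM : ∀ h ∈ M, act h * a = a * act h := by
    let L : Subgroup M := (Subgroup.centralizer {a}).comap (act.comp M.subtype)
    have hL : ∀ m : M, m ∈ L ↔ act m * a = a * act m := fun m => Subgroup.mem_centralizer_singleton_iff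
    have hNL : N.subgroupOf M ≤ L := fun m hm => by
      obtain ⟨k, hk⟩ := hNpow _ (Subgroup.mem_subgroupOf.1 hm)
      rw [hL, hk, ← pow_succ, ← pow_succ']
    let L' : Subgroup (M ⧸ N.subgroupOf M) := L.map (QuotientGroup.mk' _)
    have hsq' : ∀ y : M ⧸ N.subgroupOf M, y * y ∈ L' := fun y => by
      obtain ⟨m, rfl⟩ := QuotientGroup.mk'_surjective _ y
      exact ⟨m * m, (hL _).2 (by simpa using hsq (m : C)), map_mul _ _ _⟩
    haveI : L'.Normal := ⟨fun l hl g => by
      have := mul_mem (mul_mem (hsq' (g * l)) (inv_mem hl)) (inv_mem (hsq' g))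
      rwa [show g * l * (g * l) * l⁻¹ * (g * g)⁻¹ = g * l * g⁻¹ by group] at this⟩
    obtain ⟨y, hy⟩ := exists_prime_orderOf_dvd_card' (G := M ⧸ N.subgroupOf M) 3 (by rw [hcardMN]; norm_num)
    rcases IsSimpleGroup.eq_bot_or_eq_top_of_normal L' inferInstance with h | h
    · have hyy : y ^ 2 = 1 := by rw [pow_two]; exact Subgroup.mem_bot.1 (h ▸ hsq' y)
      have := orderOf_dvd_of_pow_eq_one hyy
      rw [hy] at this
      norm_num at this
    · intro m hm
      obtain ⟨l, hl, hl'⟩ := (show QuotientGroup.mk' (N.subgroupOf M) ⟨m, hm⟩ ∈ L' from h ▸ Subgroup.mem_top _)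
      have := mul_mem hl (hNL (QuotientGroup.eq.1 hl'))
      rw [mul_inv_cancel_left] at this
      exact (hL _).1 this
  refine ⟨a, ?_, hM, hconj, hNpow⟩
  -- no fixed points
  let aE : AddMonoid.End W := (a : AddMonoid.End W)
  have a3 : ∀ v, aE (aE (aE v)) = v := fun v => by
    have := congrArg (fun u : (AddMonoid.End W)ˣ => (u : AddMonoid.End W) v) ha3
    simpa [pow_succ] using this
  let W0 : AddSubgroup W :=
    { carrier := {v | aE v = v}
      zero_mem' := map_zero aE
      add_mem' := fun {u v} (hu : aE u = u) (hv : aE v = v) => show aE (u + v) = u + v by rw [map_add, hu, hv]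
      neg_mem' := fun {u} (hu : aE u = u) => show aE (-u) = -u by rw [map_neg, hu] }
  let W1 : AddSubgroup W :=
    { carrier := {v | aE (aE v) + aE v + v = 0}
      zero_mem' := by simp
      add_mem' := fun {u v} (hu : aE (aE u) + aE u + u = 0) (hv : aE (aE v) + aE v + v = 0) =>
        show aE (aE (u + v)) + aE (u + v) + (u + v) = 0 by
          rw [map_add, map_add,
            show aE (aE u) + aE (aE v) + (aE u + aE v) + (u + v) =
              (aE (aE u) + aE u + u) + (aE (aE v) + aE v + v) by abel, hu, hv, add_zero]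
      neg_mem' := fun {u} (hu : aE (aE u) + aE u + u = 0) => by
        show aE (aE (-u)) + aE (-u) + -u = 0
        rw [map_neg, map_neg, show -aE (aE u) + -aE u + -u = -(aE (aE u) + aE u + u) by abel, hu,
          neg_zero] }
  have hPW0 : ∀ v, aE (aE v) + aE v + v ∈ W0 := fun v => by
    show aE (aE (aE v) + aE v + v) = aE (aE v) + aE v + v
    rw [map_add, map_add, a3]
    abel
  suffices hW0 : ∀ v ∈ W0, v = 0 from fun v => hW0 _ (hPW0 v)
  intro v0 hv0
  by_contra hne
  have hPv : ∀ u ∈ W0, aE (aE u) + aE u + u = u := fun u (hu : aE u = u) => by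
    rw [hu, hu, h2, zero_add]
  have hinter : ∀ u ∈ W0, u ∈ W1 → u = 0 := fun u hu (hu1 : aE (aE u) + aE u + u = 0) =>
    (hPv u hu).symm.trans hu1
  have hsplit : ∀ v, v + (aE (aE v) + aE v + v) ∈ W1 := fun v => by
    show aE (aE (v + (aE (aE v) + aE v + v))) + aE (v + (aE (aE v) + aE v + v)) +
      (v + (aE (aE v) + aE v + v)) = 0
    have h := hPv _ (hPW0 v)
    simp only [map_add] at h ⊢
    calc _ = (aE (aE v) + aE v + v) + (aE (aE (aE (aE v))) + aE (aE (aE v)) + aE (aE v) +
          (aE (aE (aE v)) + aE (aE v) + aE v) + (aE (aE v) + aE v + v)) := by abel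
      _ = 0 := by rw [h, h2]
  obtain ⟨v1, hv1⟩ : ∃ v1, v1 ∈ W1 ∧ v1 ≠ 0 := by
    by_contra hc
    push Not at hc
    refine ha1 (Units.ext (DFunLike.ext _ _ fun v => ?_))
    have h := hc _ (hsplit v)
    have hv : v = aE (aE v) + aE v + v :=
      (neg_eq_of_add_eq_zero_right (h2 v)).symm.trans (neg_eq_of_add_eq_zero_right h)
    have hP := hPW0 v
    rw [← hv] at hP
    have : aE v = v := hP
    simpa using this
  have hle : Nat.card W0 * Nat.card W1 ≤ 4096 := by
    rw [← hW, ← Nat.card_prod]
    refine Nat.card_le_card_of_injective (fun p : W0 × W1 => (p.1 : W) + p.2) fun p p' h => ?_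
    have h1 : (p.1 : W) - p'.1 = (p'.2 : W) - p.2 := by
      rw [sub_eq_sub_iff_add_eq_add, add_comm (p'.2 : W)]; exact h
    have h0 := hinter _ (sub_mem p.1.2 p'.1.2) (h1 ▸ sub_mem p'.2.2 p.2.2)
    refine Prod.ext (Subtype.ext (sub_eq_zero.1 h0)) (Subtype.ext ?_)
    exact (sub_eq_zero.1 (h1.symm.trans h0)).symm
  haveI : Nontrivial W0 := ⟨⟨⟨v0, hv0⟩, 0, fun h => hne (congrArg Subtype.val h)⟩⟩
  haveI : Nontrivial W1 := ⟨⟨⟨v1, hv1.1⟩, 0, fun h => hv1.2 (congrArg Subtype.val h)⟩⟩
  have c0 : 1 < Nat.card W0 := Finite.one_lt_card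
  have c1 : 1 < Nat.card W1 := Finite.one_lt_card
  have hW0le : Nat.card W0 ≤ 2 ^ 11 := by nlinarith
  have hW1le : Nat.card W1 ≤ 2 ^ 11 := by nlinarith
  have hcommE : ∀ m : M, ∀ v, (act m : AddMonoid.End W) (aE v) = aE ((act m : AddMonoid.End W) v) :=
    fun m v => DFunLike.congr_fun (congrArg Units.val (hM m m.2)) v
  have hP0 : ∀ m : M, ∀ u ∈ W0, ((act.comp M.subtype) m : AddMonoid.End W) u ∈ W0 :=
    fun m u (hu : aE u = u) => show aE _ = _ by
      rw [MonoidHom.comp_apply, Subgroup.coe_subtype, ← hcommE, hu]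
  have hP1 : ∀ m : M, ∀ u ∈ W1, ((act.comp M.subtype) m : AddMonoid.End W) u ∈ W1 :=
    fun m u (hu : aE (aE u) + aE u + u = 0) => show aE (aE _) + aE _ + _ = 0 by
      rw [MonoidHom.comp_apply, Subgroup.coe_subtype, ← hcommE, ← hcommE, ← map_add, ← map_add, hu,
        map_zero]
  let f0 := restrictAct (act.comp M.subtype) W0 hP0
  have hN0 : N.subgroupOf M ≤ f0.ker := fun m hm => by
    obtain ⟨k, hk⟩ := hNpow _ (Subgroup.mem_subgroupOf.1 hm)
    refine MonoidHom.mem_ker.2 (DFunLike.ext _ _ fun u => Subtype.ext ?_)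
    show (act m : AddMonoid.End W) u = u
    rw [hk]
    clear hk
    induction k with
    | zero => simp
    | succ k ih =>
      rw [pow_succ, Units.val_mul, AddMonoid.End.coe_mul, Function.comp_apply]
      exact (congrArg _ u.2).trans ih
  rcases IsSimpleGroup.eq_bot_or_eq_top_of_normal (QuotientGroup.lift _ f0 hN0).ker inferInstance with h | h
  · exact no_faithful_action (fun u : W0 => Subtype.ext (h2 u)) hW0le hK e _
      ((injective_iff_map_eq_one _).2 fun y hy => Subgroup.mem_bot.1 (h ▸ MonoidHom.mem_ker.2 hy))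
  · have htriv : ∀ m : M, ∀ u ∈ W0, (act m : AddMonoid.End W) u = u := fun m u hu => by
      have h1 : f0 m = 1 := MonoidHom.mem_ker.1 (h ▸ Subgroup.mem_top (QuotientGroup.mk m) :
        (QuotientGroup.mk m : M ⧸ N.subgroupOf M) ∈ (QuotientGroup.lift _ f0 hN0).ker)
      exact congrArg Subtype.val (DFunLike.congr_fun h1 ⟨u, hu⟩)
    let f1 := restrictAct (act.comp M.subtype) W1 hP1
    have hker1 : ∀ m : M, f1 m = 1 → (m : C) ∈ Q := fun m hm => by
      refine (hker _).1 (Units.ext (DFunLike.ext _ _ fun v => ?_))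
      have e1 := congrArg Subtype.val (DFunLike.congr_fun hm ⟨_, hsplit v⟩)
      have e0 := htriv m _ (hPW0 v)
      have ev : v = (v + (aE (aE v) + aE v + v)) + (aE (aE v) + aE v + v) := by
        rw [add_assoc, h2, add_zero]
      conv_lhs => rw [ev, map_add]
      rw [e0]
      refine Eq.trans (congrArg (· + _) ?_) ev.symm
      exact e1
    have hQ1 : Q.subgroupOf M ≤ f1.ker := fun m hm => by
      refine MonoidHom.mem_ker.2 (DFunLike.ext _ _ fun u => Subtype.ext ?_)
      show (act m : AddMonoid.End W) u = u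
      rw [(hker _).2 (Subgroup.mem_subgroupOf.1 hm)]
      rfl
    obtain ⟨g, hg⟩ := exists_hom (fun u : W1 => Subtype.ext (h2 u)) hW1le
      (QuotientGroup.lift _ f1 hQ1) ((injective_iff_map_eq_one _).2 fun y hy => by
        obtain ⟨m, rfl⟩ := QuotientGroup.mk_surjective y
        exact (QuotientGroup.eq_one_iff _).2 (Subgroup.mem_subgroupOf.2 (hker1 m hy)))
    have hcard : Nat.card (M ⧸ Q.subgroupOf M) = 9797760 := by
      have h1 := (N.subgroupOf M).card_eq_card_quotient_mul_card_subgroup
      have h2' := (Q.subgroupOf M).card_eq_card_quotient_mul_card_subgroup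
      rw [hcardMN, Nat.card_congr (Subgroup.subgroupOfEquivOfLe hNM).toEquiv, hN3, hQ] at h1
      rw [Nat.card_congr (Subgroup.subgroupOfEquivOfLe (hQN.trans hNM)).toEquiv, hQ] at h2'
      omega
    have hd : 9797760 ∣ Nat.card Big := hcard ▸ Subgroup.card_dvd_of_injective g hg
    have h7 : 3 ^ 7 ∣ Nat.card Big := (by norm_num : 3 ^ 7 ∣ 9797760).trans hd
    rw [Nat.Prime.pow_dvd_iff_le_factorization (by norm_num) Nat.card_pos.ne', card_Big_factor] at h7
    omega

theorem om_cases : ∀ c : F4, c = 0 ∨ c = 1 ∨ c = om ∨ c = om + 1 := by decide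

theorem twist_om : ∀ b : Bool, twist b om = (if b then om * om else om) ∧
    twist b (om + 1) = twist b om + 1 ∧ twist b 0 = 0 ∧ twist b 1 = 1 := by decide

/-- An additive map intertwining the scalar `ω` with a power of it is semilinear. -/
theorem semi_of_om {g : Vec → Vec} (hadd : ∀ x y, g (x + y) = g x + g y) (b : Bool)
    (hom : ∀ x, g (om • x) = twist b om • g x) : ∀ (c : F4) x, g (c • x) = twist b c • g x := by
  intro c x
  have h0 : g 0 = 0 := add_eq_left.1 (show g 0 + g 0 = g 0 by rw [← hadd, add_zero])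
  obtain ⟨-, h1, hz, ho⟩ := twist_om b
  rcases om_cases c with rfl | rfl | rfl | rfl
  · rw [hz, zero_smul, zero_smul, h0]
  · rw [ho, one_smul, one_smul]
  · exact hom x
  · rw [h1, add_smul, add_smul, one_smul, one_smul, hadd, hom]

/-- A linear isometry of determinant 1 is in the special unitary group. -/
theorem mem_range_actHom {g : Equiv.Perm Vec} (L : Vec →ₗ[F4] Vec) (hL : ∀ x, L x = g x)
    (hdet : LinearMap.det L = 1) (hn : ∀ x, UnitF4.H (g x) (g x) = UnitF4.H x x) :
    g ∈ actHom.range := by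
  have hH := herm_of_norm (g := g) (fun x y => by rw [← hL, ← hL, ← hL, map_add])
    (fun c x => by rw [← hL, ← hL, map_smul]) hn
  let A : Matrix.SpecialLinearGroup (Fin 6) F4 :=
    ⟨LinearMap.toMatrix' L, by rw [LinearMap.det_toMatrix', hdet]⟩
  have hA : ∀ x, (A : Matrix (Fin 6) (Fin 6) F4).mulVec x = g x := fun x =>
    (LinearMap.toMatrix'_mulVec L x).trans (hL x)
  have hmem : A ∈ SUSix := fun u v => by
    show Cfsg.hermForm 6 F4 2 ((A : Matrix (Fin 6) (Fin 6) F4).mulVec u)
      ((A : Matrix (Fin 6) (Fin 6) F4).mulVec v) = _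
    rw [hA, hA]
    exact hH u v
  exact ⟨⟨A, hmem⟩, Equiv.ext fun x => hA x⟩

/-- A group of large Fischer type has a frame. -/
theorem exists_frame {G : Type*} [Group G] [Finite G] {z : G}
    {Q : Subgroup (Subgroup.centralizer ({z} : Set G))} [Q.Normal]
    (hF : Cfsg.IsOfLargeFischerTypeAt z Q) : Nonempty (Frame z Q) := by
  classical
  obtain ⟨⟨hz, hgF, hE, hcardQ, -⟩, N, M, hNn, hMn, hQN, hNM, hN3, ⟨K, _, _, hK, ⟨e43⟩⟩, hMi⟩ := hF
  obtain ⟨hcardP, hsimp⟩ := SUSixU43.psu_facts K hK
  obtain ⟨hci, hcent, -⟩ := LargeExtra.centralInvolution_of_genFitting hz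
    (Q := Q.map (Subgroup.centralizer ({z} : Set G)).subtype) (by rw [hgF])
    (LargeExtra.isExtraspecial_map_equiv hE
      (Q.equivMapOfInjective _ (Subgroup.centralizer ({z} : Set G)).subtype_injective))
  have hS : LargeExtra.Setting z (Q.map (Subgroup.centralizer ({z} : Set G)).subtype) 6 := by
    refine ⟨hci, ?_, hcent.trans (Subgroup.zpowers_le.2 hci.mem), ?_⟩
    · rintro h hh _ ⟨q, hq, rfl⟩
      exact ⟨_, (inferInstance : Q.Normal).conj_mem q hq ⟨h, Subgroup.mem_centralizer_singleton_iff.2 hh⟩, rfl⟩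
    · rw [← Nat.card_congr
        (Q.equivMapOfInjective _ (Subgroup.centralizer ({z} : Set G)).subtype_injective).toEquiv, hcardQ]
  have hcz : ∀ q : Q, q ∈ Subgroup.center Q ↔
      ((q : Subgroup.centralizer ({z} : Set G)) : G) = 1 ∨ ((q : Subgroup.centralizer ({z} : Set G)) : G) = z := by
    intro q
    constructor
    · intro hq
      refine hci.of_central _ ⟨_, q.2, rfl⟩ ?_
      rintro _ ⟨r, hr, rfl⟩
      exact congrArg (fun x : Q => ((x : Subgroup.centralizer ({z} : Set G)) : G))
        (Subgroup.mem_center_iff.1 hq ⟨r, hr⟩)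
    · intro h
      refine Subgroup.mem_center_iff.2 fun r => Subtype.ext (Subtype.ext ?_)
      have hr := Subgroup.mem_centralizer_singleton_iff.1 (r : Subgroup.centralizer ({z} : Set G)).2
      show ((r : Subgroup.centralizer ({z} : Set G)) : G) * ((q : Subgroup.centralizer ({z} : Set G)) : G) = _
      rcases h with h | h
      · simp [h]
      · simp only [Subgroup.coe_mul, h, hr]
  -- the module
  have hcomm : ∀ u v : Q ⧸ Subgroup.center Q, u * v = v * u := by
    intro u v
    induction u using QuotientGroup.induction_on with | _ a => ?_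
    induction v using QuotientGroup.induction_on with | _ b => ?_
    rw [← QuotientGroup.mk_mul, ← QuotientGroup.mk_mul, QuotientGroup.eq]
    have h := Monster.extraspecial_center_mem hE b⁻¹ a⁻¹
    rwa [inv_inv, inv_inv, mul_assoc, ← mul_inv_rev] at h
  letI : CommGroup (Q ⧸ Subgroup.center Q) :=
    { (inferInstance : Group (Q ⧸ Subgroup.center Q)) with mul_comm := hcomm }
  let W := Additive (Q ⧸ Subgroup.center Q)
  let pr : Q → W := fun a => Additive.ofMul (QuotientGroup.mk a)
  have pr_surj : Function.Surjective pr := fun v => QuotientGroup.mk_surjective (Additive.toMul v)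
  have pr_add : ∀ a b, pr (a * b) = pr a + pr b := fun _ _ => rfl
  have pr_zero : ∀ a, pr a = 0 ↔ a ∈ Subgroup.center Q := fun a => QuotientGroup.eq_one_iff a
  have h2 : ∀ v : W, v + v = 0 := fun v => by
    obtain ⟨a, rfl⟩ := pr_surj v
    rw [← pr_add, pr_zero]
    exact Monster.extraspecial_sq_mem_center hE a
  have hW : Nat.card W = 4096 := by
    have h := (Subgroup.center Q).card_eq_card_quotient_mul_card_subgroup
    rw [hcardQ, hE.2, show 2 ^ (2 * 6 + 1) = 8192 by norm_num] at h
    show Nat.card (Q ⧸ Subgroup.center Q) = 4096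
    omega
  have hle : ∀ φ : MulAut Q, Subgroup.center Q ≤ (Subgroup.center Q).comap φ.toMonoidHom := fun φ q hq => by
    show φ q ∈ Subgroup.center Q
    rw [Monster.extraspecial_automorphism_fix hE φ hq]
    exact hq
  let actE : Subgroup.centralizer ({z} : Set G) →* AddMonoid.End W :=
    { toFun := fun h => MonoidHom.toAdditive (QuotientGroup.map (Subgroup.center Q) (Subgroup.center Q)
        (MulAut.conjNormal h : MulAut Q).toMonoidHom (hle _))
      map_one' := DFunLike.ext _ _ fun v => by
        obtain ⟨a, rfl⟩ := pr_surj v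
        show pr ((MulAut.conjNormal (1 : Subgroup.centralizer ({z} : Set G)) : MulAut Q) a) = pr a
        rw [map_one]; rfl
      map_mul' := fun h h' => DFunLike.ext _ _ fun v => by
        obtain ⟨a, rfl⟩ := pr_surj v
        show pr ((MulAut.conjNormal (h * h') : MulAut Q) a) = _
        rw [map_mul]; rfl }
  let act := actE.toHomUnits
  have hact : ∀ h a, (act h : AddMonoid.End W) (pr a) = pr ((MulAut.conjNormal h : MulAut Q) a) :=
    fun _ _ => rfl
  have hker : ∀ h, act h = 1 ↔ h ∈ Q := by
    intro h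
    constructor
    · intro h1
      obtain ⟨q, hq, hqe⟩ := hS.mem_of_commutator_center (d := (h : G))
        (Subgroup.mem_centralizer_singleton_iff.1 h.2) (by
          rintro _ ⟨r, hr, rfl⟩
          have h3 := (hact h ⟨r, hr⟩).symm
          rw [h1] at h3
          have h4 : ((MulAut.conjNormal h : MulAut Q) ⟨r, hr⟩) * (⟨r, hr⟩ : Q)⁻¹ ∈ Subgroup.center Q := by
            rw [← pr_zero, pr_add,
              show pr ((MulAut.conjNormal h : MulAut Q) ⟨r, hr⟩) = pr (⟨r, hr⟩ : Q) from h3,
              ← pr_add, mul_inv_cancel]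
            rfl
          have h5 := (hcz _).1 h4
          simp only [Subgroup.coe_mul, Subgroup.coe_inv, MulAut.conjNormal_apply] at h5
          exact h5)
      have : q = h := Subtype.ext hqe
      exact this ▸ hq
    · intro hh
      refine Units.ext (DFunLike.ext _ _ fun v => ?_)
      obtain ⟨a, rfl⟩ := pr_surj v
      rw [hact]
      have hc := Monster.extraspecial_center_mem hE ⟨h, hh⟩ a
      have he : (MulAut.conjNormal h : MulAut Q) a =
          (⟨h, hh⟩ * a * (⟨h, hh⟩ : Q)⁻¹ * a⁻¹) * a := Subtype.ext (by simp)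
      rw [he, pr_add, (pr_zero _).2 hc, zero_add]
      rfl
  -- the form
  obtain ⟨B, q, hq, -, hqadd, hBself, hBsymm, hnd, hinv⟩ :=
    Monster.exists_extraspecial_form hE (L := W) Additive.toMul (fun _ _ => rfl)
  have hqact : ∀ h v, q ((act h : AddMonoid.End W) v) = q v := fun h =>
    (hinv (MulAut.conjNormal h) (fun v => (act h : AddMonoid.End W) v) fun v a ha => by
      obtain rfl : v = pr a := ha
      exact hact h a).2
  have hQ8 : Nat.card Q = 8192 := by rw [hcardQ]; norm_num
  obtain ⟨a, hquad, haM, haC, haN⟩ := exists_rotation hQ8 hQN hNM hN3 hK e43 h2 hW act hker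
  let aW : W →+ W := (a : AddMonoid.End W)
  have hqa : ∀ v, q (aW v) = q v := by
    have hQd : ¬ 3 ∣ Nat.card Q := by rw [hQ8]; norm_num
    obtain ⟨n, hnN, hnQ⟩ : ∃ n ∈ N, n ∉ Q := by
      by_contra hc
      push Not at hc
      have := Subgroup.card_le_of_le (show N ≤ Q from hc)
      rw [hN3, hQ8] at this
      norm_num at this
    obtain ⟨k, hk⟩ := haN n hnN
    -- both nontrivial powers of the rotation come from elements of the centraliser
    have ha3 : a ^ 3 = 1 := Units.ext (DFunLike.ext _ _ fun v => by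
      have e1 := hquad v
      have e2 := hquad (aW v)
      show aW (aW (aW v)) = v
      rw [← sub_eq_zero]
      calc aW (aW (aW v)) - v = (aW (aW (aW v)) + aW (aW v) + aW v) - (aW (aW v) + aW v + v) := by abel
        _ = 0 := by rw [show aW (aW (aW v)) + aW (aW v) + aW v = 0 from e2,
              show aW (aW v) + aW v + v = 0 from e1, sub_zero])
    have hk' : a = act n ∨ a = act (n * n) := by
      rw [map_mul, hk, pow_eq_pow_mod k ha3]
      have h3 : k % 3 = 0 ∨ k % 3 = 1 ∨ k % 3 = 2 := by omega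
      rcases h3 with h0 | h1 | h2'
      · exfalso
        exact hnQ ((hker n).1 (by rw [hk, pow_eq_pow_mod k ha3, h0, pow_zero]))
      · exact Or.inl (by rw [h1, pow_one])
      · refine Or.inr ?_
        rw [h2', ← pow_add, show 2 + 2 = 3 + 1 from rfl, pow_add, ha3, one_mul, pow_one]
    intro v
    show q ((a : AddMonoid.End W) v) = q v
    rcases hk' with e1 | e1 <;> rw [e1] <;> exact hqact _ v
  have hSp : Space aW q B :=
    { two := h2, quad := hquad, q_add := hqadd, self := hBself, symm := hBsymm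
      nondeg := fun v hv => hnd (fun x => ⟨Additive.ofMul x, rfl⟩) v hv
      q_a := hqa }
  obtain ⟨e, he_a, he_q⟩ := exists_coords hW hSp
  have heq : ∀ x, UnitF4.H x x = mk4 (q (e.symm x)) 0 := fun x => by rw [← he_q, e.apply_symm_apply]
  -- the representation
  let rho : Subgroup.centralizer ({z} : Set G) →* Equiv.Perm Vec := (conjPerm e).comp act
  have rho_apply : ∀ h x, rho h x = e ((act h : AddMonoid.End W) (e.symm x)) := fun _ _ => rfl
  have rho_add : ∀ h x y, rho h (x + y) = rho h x + rho h y := fun h x y => by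
    simp only [rho_apply, map_add]
  have rho_norm : ∀ h x, UnitF4.H (rho h x) (rho h x) = UnitF4.H x x := fun h x => by
    rw [rho_apply, he_q, hqact, heq]
  have he_symm : ∀ x, e.symm (om • x) = aW (e.symm x) := fun x => by
    rw [AddEquiv.symm_apply_eq, he_a, e.apply_symm_apply]
  have rho_om : ∀ h, ∃ b : Bool, (act h * a = a * act h → b = false) ∧
      ∀ x, rho h (om • x) = twist b om • rho h x := by
    intro h
    by_cases hc : act h * a = a * act h
    · refine ⟨false, fun _ => rfl, fun x => ?_⟩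
      rw [(twist_om false).1, if_neg (by simp), rho_apply, rho_apply, he_symm, ← he_a]
      exact congrArg e (DFunLike.congr_fun (congrArg Units.val hc) (e.symm x))
    · refine ⟨true, fun h' => absurd h' hc, fun x => ?_⟩
      rw [(twist_om true).1, if_pos rfl, mul_smul, rho_apply, rho_apply, he_symm, ← he_a, ← he_a]
      exact congrArg e (DFunLike.congr_fun (congrArg Units.val ((haC h).resolve_left hc)) (e.symm x))
  have rho_semi : ∀ h, rho h ∈ semiU := fun h => by
    obtain ⟨b, -, hb⟩ := rho_om h
    exact ⟨b, rho_add h, semi_of_om (rho_add h) b hb, rho_norm h⟩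
  have rho_ker : rho.ker = Q := by
    ext h
    rw [MonoidHom.mem_ker, ← hker h]
    exact map_eq_one_iff _ (conjPerm_injective e)
  -- the linear part
  have rho_lin : ∀ m : M, ∀ (c : F4) x, rho m (c • x) = c • rho m x := fun m c x => by
    obtain ⟨b, hb0, hb⟩ := rho_om m
    obtain rfl := hb0 (haM m m.2)
    exact semi_of_om (rho_add _) false hb c x
  let Lm : M →* Module.End F4 Vec :=
    { toFun := fun m => { toFun := rho m, map_add' := rho_add m, map_smul' := rho_lin m }
      map_one' := LinearMap.ext fun x => by simp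
      map_mul' := fun m m' => LinearMap.ext fun x => by simp }
  let D : M →* F4ˣ := ((LinearMap.det : Module.End F4 Vec →* F4).comp Lm).toHomUnits
  haveI : IsSimpleGroup (M ⧸ N.subgroupOf M) := MulEquiv.isSimpleGroup e43
  have hcardMN : Nat.card (M ⧸ N.subgroupOf M) = 3265920 := by rw [Nat.card_congr e43.toEquiv, hcardP]
  have hDN : N.subgroupOf M ≤ D.ker := by
    intro m hm
    obtain ⟨k, hk⟩ := haN _ (Subgroup.mem_subgroupOf.1 hm)
    have hL : Lm m = om ^ k • LinearMap.id := LinearMap.ext fun x => by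
      show rho m x = om ^ k • x
      rw [rho_apply, hk]
      clear hk
      induction k generalizing x with
      | zero => simp
      | succ k ih =>
        rw [pow_succ, Units.val_mul, AddMonoid.End.coe_mul, Function.comp_apply, pow_succ, mul_smul,
          ← ih, he_symm]
        rfl
    refine MonoidHom.mem_ker.2 (Units.ext ?_)
    show LinearMap.det (Lm m) = 1
    rw [hL, LinearMap.det_smul, LinearMap.det_id, mul_one, Module.finrank_fin_fun, ← pow_mul, mul_comm,
      pow_mul, show om ^ 6 = 1 by decide, one_pow]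
  have hD : ∀ m, D m = 1 := by
    rcases IsSimpleGroup.eq_bot_or_eq_top_of_normal (QuotientGroup.lift _ D hDN).ker inferInstance with h | h
    · exfalso
      have := Nat.card_le_card_of_injective _ ((MonoidHom.ker_eq_bot_iff _).1 h)
      rw [hcardMN, Nat.card_units, Nat.card_eq_fintype_card, card_F4] at this
      norm_num at this
    · exact fun m => MonoidHom.mem_ker.1 (h ▸ Subgroup.mem_top (QuotientGroup.mk m) :
        (QuotientGroup.mk m : M ⧸ N.subgroupOf M) ∈ (QuotientGroup.lift _ D hDN).ker)
  have hrange : ∀ m : M, rho m ∈ actHom.range := fun m =>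
    mem_range_actHom (Lm m) (fun _ => rfl) (congrArg Units.val (hD m)) (rho_norm m)
  choose gM hgM using hrange
  let lin : Subgroup SUSix := (M.map rho).comap actHom
  have hMrange : M.map rho ≤ actHom.range := by
    rintro _ ⟨m, hm, rfl⟩
    exact ⟨gM ⟨m, hm⟩, hgM ⟨m, hm⟩⟩
  have hmem : ∀ m : M, gM m ∈ lin := fun m => ⟨m, m.2, (hgM m).symm⟩
  let π : M →* lin :=
    { toFun := fun m => ⟨gM m, hmem m⟩
      map_one' := Subtype.ext (actHom_injective (by simp [hgM]))
      map_mul' := fun m m' => Subtype.ext (actHom_injective (by simp [hgM])) }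
  have hπ : ∀ m : M, actHom (π m : SUSix) = rho m := fun m => hgM m
  have π_surj : Function.Surjective π := by
    rintro ⟨g, m, hm, hg⟩
    exact ⟨⟨m, hm⟩, Subtype.ext (actHom_injective ((hπ _).trans hg))⟩
  have π_ker : π.ker = Q.subgroupOf M := by
    ext m
    rw [MonoidHom.mem_ker, Subgroup.mem_subgroupOf]
    conv_rhs => rw [← rho_ker, MonoidHom.mem_ker, ← hπ m]
    rw [map_eq_one_iff _ actHom_injective]
    exact ⟨fun h => by rw [h]; rfl, fun h => Subtype.ext h⟩
  have hcl : Nat.card lin = 9797760 := by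
    rw [← Nat.card_congr (QuotientGroup.quotientKerEquivOfSurjective π π_surj).toEquiv,
      Nat.card_congr (QuotientGroup.quotientMulEquivOfEq π_ker).toEquiv]
    have h1 := (N.subgroupOf M).card_eq_card_quotient_mul_card_subgroup
    have h2' := (Q.subgroupOf M).card_eq_card_quotient_mul_card_subgroup
    rw [hcardMN, Nat.card_congr (Subgroup.subgroupOfEquivOfLe hNM).toEquiv, hN3, hQ8] at h1
    rw [Nat.card_congr (Subgroup.subgroupOfEquivOfLe (hQN.trans hNM)).toEquiv, hQ8] at h2'
    omega
  let φ : M →* lin ⧸ Subgroup.center lin := (QuotientGroup.mk' _).comp π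
  have hNφ : N.subgroupOf M ≤ φ.ker := by
    intro m hm
    obtain ⟨k, hk⟩ := haN _ (Subgroup.mem_subgroupOf.1 hm)
    refine MonoidHom.mem_ker.2 ((QuotientGroup.eq_one_iff _).2 (Subgroup.mem_center_iff.2 fun y => ?_))
    obtain ⟨m', rfl⟩ := π_surj y
    refine Subtype.ext (actHom_injective ?_)
    simp only [Subgroup.coe_mul, map_mul, hπ]
    show conjPerm e (act _) * conjPerm e (act _) = conjPerm e (act _) * conjPerm e (act _)
    refine (map_mul (conjPerm e) _ _).symm.trans ((congrArg _ ?_).trans (map_mul (conjPerm e) _ _))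
    rw [hk]
    exact Commute.pow_right (haM m' m'.2) k
  have hkerφ : φ.ker = N.subgroupOf M := by
    rcases IsSimpleGroup.eq_bot_or_eq_top_of_normal (QuotientGroup.lift _ φ hNφ).ker inferInstance with h | h
    · refine le_antisymm (fun m hm => ?_) hNφ
      exact (QuotientGroup.eq_one_iff _).1 ((MonoidHom.ker_eq_bot_iff _).1 h
        (show QuotientGroup.lift _ φ hNφ (QuotientGroup.mk m) = QuotientGroup.lift _ φ hNφ 1 by
          rw [map_one]; exact hm))
    · exfalso
      have hall : ∀ y : lin, y ∈ Subgroup.center lin := fun y => by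
        obtain ⟨m, rfl⟩ := π_surj y
        exact (QuotientGroup.eq_one_iff _).1 (MonoidHom.mem_ker.1 (h ▸ Subgroup.mem_top (QuotientGroup.mk m) :
          (QuotientGroup.mk m : M ⧸ N.subgroupOf M) ∈ (QuotientGroup.lift _ φ hNφ).ker))
      have hc : ∀ u v : M ⧸ N.subgroupOf M, u * v = v * u := by
        intro u v
        induction u using QuotientGroup.induction_on with | _ m => ?_
        induction v using QuotientGroup.induction_on with | _ m' => ?_
        rw [← QuotientGroup.mk_mul, ← QuotientGroup.mk_mul, QuotientGroup.eq, Subgroup.mem_subgroupOf]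
        refine hQN ?_
        rw [← Subgroup.mem_subgroupOf, ← π_ker, MonoidHom.mem_ker, map_mul, map_inv, map_mul, map_mul,
          inv_mul_eq_one]
        exact Subgroup.mem_center_iff.1 (hall (π m')) (π m)
      have hp : (Nat.card (M ⧸ N.subgroupOf M)).Prime := by
        letI : CommGroup (M ⧸ N.subgroupOf M) :=
          { (inferInstance : Group (M ⧸ N.subgroupOf M)) with mul_comm := hc }
        exact IsSimpleGroup.prime_card
      rw [hcardMN] at hp
      norm_num at hp
  have hφs : Function.Surjective φ := (QuotientGroup.mk'_surjective _).comp π_surj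
  let eq' : M ⧸ N.subgroupOf M ≃* lin ⧸ Subgroup.center lin :=
    (QuotientGroup.quotientMulEquivOfEq hkerφ.symm).trans (QuotientGroup.quotientKerEquivOfSurjective φ hφs)
  have hclc : Nat.card (Subgroup.center lin) = 3 := by
    have h := (Subgroup.center lin).card_eq_card_quotient_mul_card_subgroup
    rw [hcl, ← Nat.card_congr eq'.toEquiv, hcardMN] at h
    omega
  exact ⟨{
    rho := rho
    psi := fun a => e (pr a)
    ker_rho := rho_ker
    rho_semi := rho_semi
    psi_mul := fun a b => by rw [pr_add, map_add]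
    psi_surj := e.surjective.comp pr_surj
    psi_ker := fun a => by rw [AddEquiv.map_eq_zero_iff, pr_zero, hcz]
    psi_norm := fun a => by
      rw [he_q, mk4_zero, and_iff_left rfl, hq (pr a) a rfl, pow_two]
    psi_conj := fun h a => by
      rw [rho_apply, e.symm_apply_apply, hact]
      rfl
    big := M
    big_index := hMi
    big_ge := hQN.trans hNM
    lin := lin
    lin_eq := Subgroup.map_comap_eq_self hMrange
    lin_card := hcl
    lin_center := hclc
    lin_quot := ⟨K, _, _, hK, ⟨eq'.symm.trans e43⟩⟩ }⟩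

end Cfsg.Agent.LargeFischer
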