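import Cfsg.Agent.LargeFischer.Main
import Cfsg.Agent.LargeFischer.Setting

/-!
The statements on groups of large Fischer type, in terms of a normalised frame.
-/

set_option autoImplicit false

namespace Cfsg.Agent.LargeFischer

open Cfsg
open Cfsg.Agent.GFour25
open Cfsg.Agent.SporB.FischerU (Vec SUSix vecN enc)
open Cfsg.Agent.TTClass

variable {G : Type*} [Group G] [Finite G] {z : G}
  {Q : Subgroup (Subgroup.centralizer ({z} : Set G))} [Q.Normal] {F : Frame z Q}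

omit [Q.Normal] [Finite G] in
theorem involution_facts {x : Subgroup.centralizer ({z} : Set G)} (h : orderOf x = 2) :
    (x : G) ≠ 1 ∧ (x : G) * (x : G) = 1 := by
  refine ⟨fun e => ?_, ?_⟩
  · rw [show x = 1 from Subtype.ext e, orderOf_one] at h
    norm_num at h
  · have e := pow_orderOf_eq_one x
    rw [h, pow_two] at e
    exact congrArg Subtype.val e

theorem Frame.IsNormal.orbit_of_root (N : F.IsNormal) (B : Base z Q) {a b : Q}
    (ha1 : ((a : Subgroup.centralizer ({z} : Set G)) : G) ≠ 1)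
    (haz : ((a : Subgroup.centralizer ({z} : Set G)) : G) ≠ z)
    (ha2 : ((a : Subgroup.centralizer ({z} : Set G)) : G) * ((a : Subgroup.centralizer ({z} : Set G)) : G) = 1)
    (hb1 : ((b : Subgroup.centralizer ({z} : Set G)) : G) ≠ 1)
    (hbz : ((b : Subgroup.centralizer ({z} : Set G)) : G) ≠ z)
    (hb2 : ((b : Subgroup.centralizer ({z} : Set G)) : G) * ((b : Subgroup.centralizer ({z} : Set G)) : G) = 1)
    (hiff : IsRoot (F.psi a) ↔ IsRoot (F.psi b)) :
    ∃ h : Subgroup.centralizer ({z} : Set G),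
      h * (a : Subgroup.centralizer ({z} : Set G)) * h⁻¹ = (b : Subgroup.centralizer ({z} : Set G)) := by
  obtain ⟨ha, hb⟩ : (∃ r, (∃ k ∈ Kc, k (F.psi a) = vecN r) ∧ ∃ k ∈ Kc, k (F.psi b) = vecN r) ∧ True := by
    refine ⟨?_, trivial⟩
    rcases orbit_cases (F.psi_ne ha1 haz) (F.isotropic ha2) with ⟨r1, e1⟩ | ⟨r1, e1⟩ <;>
      rcases orbit_cases (F.psi_ne hb1 hbz) (F.isotropic hb2) with ⟨r2, e2⟩ | ⟨r2, e2⟩
    · exact ⟨_, e1, e2⟩
    · exact absurd (hiff.1 r1) r2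
    · exact absurd (hiff.2 r2) r1
    · exact ⟨_, e1, e2⟩
  obtain ⟨r, ⟨k, hk, hka⟩, l, hl, hlb⟩ := ha
  have hm : l⁻¹ * k ∈ F.rho.range := N.Kc_le (mul_mem (inv_mem hl) hk)
  obtain ⟨h, -, hh⟩ := F.exists_conj B hb1 hbz hm (a := a) (by
    rw [Equiv.Perm.mul_apply, hka, ← hlb]
    exact l.symm_apply_apply _)
  exact ⟨h, hh⟩

variable (hcl : Classified) (hF : IsOfLargeFischerTypeAt z Q)
include hcl hF

theorem exists_setup : ∃ F : Frame z Q, F.IsNormal := by
  obtain ⟨F⟩ := exists_frame hF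
  exact F.exists_normal hcl

/-- The normal form: the linear part is `Kc` and the whole image is `Ke`. -/
theorem exists_normal_frame : ∃ F : Frame z Q, F.IsNormal ∧ F.rho.range = Ke := by
  obtain ⟨F, N⟩ := exists_setup hcl hF
  exact ⟨F, N, N.range_eq (base_of hF) hF⟩

theorem conjugates_one_orbit (s t : G)
    (hsQ : ∃ hsc : s ∈ Subgroup.centralizer ({z} : Set G), (⟨s, hsc⟩ : Subgroup.centralizer ({z} : Set G)) ∈ Q)
    (htQ : ∃ htc : t ∈ Subgroup.centralizer ({z} : Set G), (⟨t, htc⟩ : Subgroup.centralizer ({z} : Set G)) ∈ Q)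
    (hs : IsConj z s) (ht : IsConj z t) (hs1 : s ≠ z) (ht1 : t ≠ z) :
    ∃ h ∈ Subgroup.centralizer ({z} : Set G), h * s * h⁻¹ = t := by
  obtain ⟨F, N⟩ := exists_setup hcl hF
  have B := base_of hF
  have key : ∀ w : G, IsConj z w → w ≠ 1 ∧ w * w = 1 ∧ ∃ g, g * z * g⁻¹ = w := by
    intro w hw
    obtain ⟨g, hg⟩ := isConj_iff.1 hw
    refine ⟨fun e => B.ci.ne_one (conj_eq_one_iff.1 (hg.trans e)), ?_, g, hg⟩
    rw [← hg, show g * z * g⁻¹ * (g * z * g⁻¹) = g * (z * z) * g⁻¹ by group, B.ci.sq]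
    group
  obtain ⟨hsc, hsQ⟩ := hsQ
  obtain ⟨htc, htQ⟩ := htQ
  obtain ⟨s1, s2, g, hg⟩ := key s hs
  obtain ⟨t1, t2, g', hg'⟩ := key t ht
  obtain ⟨h, hh⟩ := N.orbit_of_root B (a := ⟨_, hsQ⟩) (b := ⟨_, htQ⟩) s1 hs1 s2 t1 ht1 t2
    (iff_of_false (N.not_root B (a := ⟨_, hsQ⟩) hg hs1) (N.not_root B (a := ⟨_, htQ⟩) hg' ht1))
  exact ⟨h, h.2, congrArg Subtype.val hh⟩

theorem two_orbits : ∃ s t : Subgroup.centralizer ({z} : Set G), s ∈ Q ∧ t ∈ Q ∧ orderOf s = 2 ∧
    orderOf t = 2 ∧ (s : G) ≠ z ∧ (t : G) ≠ z ∧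
    (¬ ∃ h : Subgroup.centralizer ({z} : Set G), h * s * h⁻¹ = t) ∧
    ∀ x : Subgroup.centralizer ({z} : Set G), x ∈ Q → orderOf x = 2 → (x : G) ≠ z →
      (∃ h : Subgroup.centralizer ({z} : Set G), h * s * h⁻¹ = x) ∨
        ∃ h : Subgroup.centralizer ({z} : Set G), h * t * h⁻¹ = x := by
  obtain ⟨F, N⟩ := exists_setup hcl hF
  have B := base_of hF
  have lift : ∀ r : ℕ, vecN r ≠ 0 → UnitF4.H (vecN r) (vecN r) = 0 → ∃ a : Q, F.psi a = vecN r ∧
      orderOf (a : Subgroup.centralizer ({z} : Set G)) = 2 ∧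
      ((a : Subgroup.centralizer ({z} : Set G)) : G) ≠ 1 ∧
      ((a : Subgroup.centralizer ({z} : Set G)) : G) ≠ z := by
    intro r h0 hr
    obtain ⟨a, ha⟩ := F.psi_surj (vecN r)
    have hz := fun e => h0 (ha.symm.trans ((F.psi_ker a).2 e))
    refine ⟨a, ha, ?_, fun e => hz (Or.inl e), fun e => hz (Or.inr e)⟩
    refine orderOf_eq_prime ?_ fun e => hz (Or.inl (congrArg Subtype.val e))
    rw [pow_two]
    exact congrArg Subtype.val ((F.psi_norm a).1 (ha ▸ hr))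
  obtain ⟨a, hau, ha2, ha1, haz⟩ := lift Data.repU rep_props.1.1 rep_props.1.2.1
  obtain ⟨b, hbw, hb2, hb1, hbz⟩ := lift Data.repW rep_props.2.1 rep_props.2.2.1
  refine ⟨a, b, a.2, b.2, ha2, hb2, haz, hbz, ?_, fun x hx hx2 hxz => ?_⟩
  · rintro ⟨h, hh⟩
    have e := F.psi_of_conj hh
    rw [hau, hbw] at e
    have := Kall_le_rootStab (N.le_Kall ⟨h, rfl⟩) (vecN Data.repU)
    rw [e] at this
    exact rep_props.2.2.2 (this.2 rep_props.1.2.2)
  · obtain ⟨x1, xx⟩ := involution_facts hx2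
    by_cases hr : IsRoot (F.psi ⟨x, hx⟩)
    · exact Or.inl (N.orbit_of_root B (b := ⟨x, hx⟩) ha1 haz (involution_facts ha2).2 x1 hxz xx
        (iff_of_true (hau ▸ rep_props.1.2.2) hr))
    · exact Or.inr (N.orbit_of_root B (b := ⟨x, hx⟩) hb1 hbz (involution_facts hb2).2 x1 hxz xx
        (iff_of_false (hbw ▸ rep_props.2.2.2) hr))

omit hcl hF in
/-- The representation on the factor group. -/
theorem Frame.exists_rep (F : Frame z Q) :
    ∃ φ : Subgroup.centralizer ({z} : Set G) ⧸ Q →* Equiv.Perm Vec, Function.Injective φ ∧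
      ∀ S : Subgroup (Subgroup.centralizer ({z} : Set G)),
        (S.map (QuotientGroup.mk' Q)).map φ = S.map F.rho := by
  refine ⟨QuotientGroup.lift Q F.rho F.ker_rho.ge, ?_, fun S => ?_⟩
  · rw [← MonoidHom.ker_eq_bot_iff, eq_bot_iff]
    intro x hx
    induction x using QuotientGroup.induction_on with | _ h => ?_
    rw [Subgroup.mem_bot, QuotientGroup.eq_one_iff, ← SetLike.mem_coe]
    exact F.ker_rho ▸ (MonoidHom.mem_ker.2 hx : h ∈ F.rho.ker)
  · rw [Subgroup.map_map]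
    rfl

theorem stabilizer_structure (s : G)
    (hsQ : ∃ hsc : s ∈ Subgroup.centralizer ({z} : Set G), (⟨s, hsc⟩ : Subgroup.centralizer ({z} : Set G)) ∈ Q)
    (hs1 : s ≠ z) (g : G) (hg : g * z * g⁻¹ = s)
    (X E : Subgroup ((Subgroup.centralizer ({z} : Set G)) ⧸ Q))
    (hX : X = ((Subgroup.centralizer ({z} : Set G) ⊓ Subgroup.centralizer ({s} : Set G)).subgroupOf
      (Subgroup.centralizer ({z} : Set G))).map (QuotientGroup.mk' Q))
    (hE : E = ((((Q.map (Subgroup.centralizer ({z} : Set G)).subtype)).map (MulAut.conj g).toMonoidHom ⊓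
      Subgroup.centralizer ({z} : Set G)).subgroupOf (Subgroup.centralizer ({z} : Set G))).map
        (QuotientGroup.mk' Q)) :
    IsElementaryAbelian 2 (QG Q ⊓ (QG Q).map (MulAut.conj g).toMonoidHom) ∧
      Nat.card ↥(QG Q ⊓ (QG Q).map (MulAut.conj g).toMonoidHom) = 2 ^ 7 ∧
      E ≤ X ∧ (∀ x ∈ X, ∀ y ∈ E, x * y * x⁻¹ ∈ E) ∧ IsElementaryAbelian 2 E ∧ Nat.card E = 32 ∧
      ∃ _ : (E.subgroupOf X).Normal, Nonempty (↥X ⧸ E.subgroupOf X ≃* alternatingGroup (Fin 6)) := by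
  obtain ⟨F, N⟩ := exists_setup hcl hF
  have B := base_of hF
  obtain ⟨hsc, hsQ⟩ := hsQ
  set a : Q := ⟨_, hsQ⟩ with ha_def
  have hs' : g * z * g⁻¹ = ((a : Subgroup.centralizer ({z} : Set G)) : G) := hg
  obtain ⟨-, hD, hprod, -, -, -, -⟩ := F.other_facts B hs' hs1
  obtain ⟨k, hk, hkv⟩ := N.exists_move B hs' hs1
  obtain ⟨hle, hn, h2, h32⟩ := N.moved B hs' hs1 hk hkv
  have hR := N.range_eq B hF
  have hcards := N.card_facts
  rw [hR] at hle hn hcards
  obtain ⟨h32', hN, ⟨iso⟩⟩ := six_good hcards.2.1 hcards.2.2.2 _ hle hn h2 h32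
  obtain ⟨rep, hrep, hmap⟩ := F.exists_rep
  let φ := (MulAut.conj k).toMonoidHom.comp rep
  have hφ : Function.Injective φ := (MulAut.conj k).injective.comp hrep
  have hEφ : E.map φ = (F.other g).map (MulAut.conj k).toMonoidHom := by
    rw [← Subgroup.map_map, hE, hmap]
    rfl
  have hXφ : X.map φ = Ke ⊓ stabV Data.repW := by
    rw [← Subgroup.map_map, hX, hmap,
      show s = ((a : Subgroup.centralizer ({z} : Set G)) : G) from rfl,
      F.stab_image B (fun e => B.ci.ne_one (conj_eq_one_iff.1 (hs'.trans e))) hs1,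
      map_inf_stab (N.Kc_le hk), hkv, hR]
  have hEX : E ≤ X := (Subgroup.map_le_map_iff_of_injective hφ).1 (by rw [hEφ, hXφ]; exact hle)
  have hnorm : ∀ x ∈ X, ∀ y ∈ E, x * y * x⁻¹ ∈ E := fun x hx y hy => by
    refine (Subgroup.mem_map_iff_mem hφ).1 ?_
    rw [hEφ, map_mul, map_mul, map_inv]
    exact hn _ (hXφ ▸ ⟨x, hx, rfl⟩) _ (hEφ ▸ ⟨y, hy, rfl⟩)
  have hc : Nat.card E = 32 := by rw [← Subgroup.card_map_of_injective hφ, hEφ, h32']
  refine ⟨hD, ?_, hEX, hnorm, ?_, hc, ⟨fun y hy x => hnorm _ x.2 _ hy⟩, ?_⟩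
  · rw [show Nat.card ↥(F.other g) = 32 by
      rw [← Subgroup.card_map_of_injective (K := F.other g) (f := (MulAut.conj k).toMonoidHom)
        (MulAut.conj k).injective, h32']] at hprod
    show _ = 128
    omega
  · refine elementary_of_map φ hφ ?_
    rw [hEφ]
    obtain ⟨-, -, -, -, -, -, hel⟩ := F.other_facts B hs' hs1
    exact elementary_map _ hel
  · let e : ↥X ≃* ↥(Ke ⊓ stabV Data.repW) :=
      (X.equivMapOfInjective φ hφ).trans (MulEquiv.subgroupCongr hXφ)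
    haveI : (E.subgroupOf X).Normal := ⟨fun y hy x => hnorm _ x.2 _ hy⟩
    refine ⟨(QuotientGroup.congr _ _ e ?_).trans iso⟩
    ext x
    constructor
    · rintro ⟨y, hy, rfl⟩
      show φ (y : _) ∈ (F.other g).map (MulAut.conj k).toMonoidHom
      exact hEφ ▸ ⟨y, hy, rfl⟩
    · intro hx
      have hx' : (x : Equiv.Perm Vec) ∈ E.map φ := hEφ ▸ hx
      obtain ⟨y, hy, he⟩ := hx'
      exact ⟨⟨y, hEX hy⟩, hy, Subtype.ext he⟩

/-- The stabiliser of a non-conjugate involution maps onto a stabiliser in `Ke`. -/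
theorem noncentral_stabilizer (t : Subgroup.centralizer ({z} : Set G)) (htQ : t ∈ Q)
    (ht2 : orderOf t = 2) (ht : ¬ IsConj z (t : G)) (S : Subgroup (Subgroup.centralizer ({z} : Set G)))
    (hS : ∀ h : Subgroup.centralizer ({z} : Set G), h ∈ S ↔
      (h * t * h⁻¹ = t ∨ ((h * t * h⁻¹ : Subgroup.centralizer ({z} : Set G)) : G) = t * z)) :
    Nat.card ↥(Ke ⊓ stabV Data.repU) = 51840 ∧
      Nonempty (↥(S.map (QuotientGroup.mk' Q)) ≃* ↥(Ke ⊓ stabV Data.repU)) := by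
  obtain ⟨F, N⟩ := exists_setup hcl hF
  have B := base_of hF
  have hR := N.range_eq B hF
  obtain ⟨t1, tt⟩ := involution_facts ht2
  have htz : (t : G) ≠ z := fun e => ht (isConj_iff.2 ⟨1, by simp [e]⟩)
  set a : Q := ⟨t, htQ⟩ with ha
  have hroot : IsRoot (F.psi a) := by
    by_contra hn
    obtain ⟨g, b, hb, hbz⟩ := exists_other hF
    have hb1 : ((b : Subgroup.centralizer ({z} : Set G)) : G) ≠ 1 :=
      fun e => B.ci.ne_one (conj_eq_one_iff.1 (hb.trans e))
    have hbb : ((b : Subgroup.centralizer ({z} : Set G)) : G) * ((b : Subgroup.centralizer ({z} : Set G)) : G) = 1 := by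
      rw [← hb, show g * z * g⁻¹ * (g * z * g⁻¹) = g * (z * z) * g⁻¹ by group, B.ci.sq]
      group
    obtain ⟨h, hh⟩ := N.orbit_of_root B (b := a) hb1 hbz hbb t1 htz tt
      (iff_of_false (N.not_root B hb hbz) hn)
    refine ht (isConj_iff.2 ⟨(h : G) * g, ?_⟩)
    have he := congrArg Subtype.val hh
    simp only [Subgroup.coe_mul, Subgroup.coe_inv] at he
    rw [← hb] at he
    rw [← he]
    group
  obtain ⟨k, hk, hkv⟩ : ∃ k ∈ Kc, k (F.psi a) = vecN Data.repU := by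
    rcases orbit_cases (F.psi_ne (a := a) t1 htz) (F.isotropic (a := a) tt) with ⟨-, e⟩ | ⟨hn, -⟩
    · exact e
    · exact absurd hroot hn
  have hSρ : S.map F.rho = F.rho.range ⊓ MulAction.stabilizer (Equiv.Perm Vec) (F.psi a) := by
    ext x
    constructor
    · rintro ⟨h, hh, rfl⟩
      refine ⟨⟨h, rfl⟩, MulAction.mem_stabilizer_iff.2 ?_⟩
      rcases (hS h).1 hh with e | e
      · exact F.psi_of_conj (a := a) (b := a) e
      · show F.rho h (F.psi a) = F.psi a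
        rw [← F.psi_conj]
        have h0 := (F.psi_ker (⟨h * t * h⁻¹, (inferInstance : Q.Normal).conj_mem t htQ h⟩ * a⁻¹)).2
          (Or.inr (by
            simp only [Subgroup.coe_mul, Subgroup.coe_inv] at e ⊢
            rw [e]
            show (t : G) * z * (t : G)⁻¹ = z
            rw [show (t : G) * z = z * t from Subgroup.mem_centralizer_singleton_iff.1 t.2,
              mul_inv_cancel_right]))
        have e2 := F.psi_mul (⟨h * t * h⁻¹, (inferInstance : Q.Normal).conj_mem t htQ h⟩ * a⁻¹) a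
        rw [inv_mul_cancel_right, h0, zero_add] at e2
        exact e2
    · rintro ⟨⟨h, rfl⟩, hs⟩
      refine ⟨h, (hS h).2 ?_, rfl⟩
      have e := MulAction.mem_stabilizer_iff.1 hs
      change F.rho h (F.psi a) = F.psi a at e
      rw [← F.psi_conj] at e
      rcases F.vec_eq e.symm with e | e
      · exact Or.inl (Subtype.ext e)
      · exact Or.inr e
  have hc := N.card_facts.2.2.1
  rw [hR] at hc
  obtain ⟨rep, hrep, hmap⟩ := F.exists_rep
  have himg : (S.map (QuotientGroup.mk' Q)).map ((MulAut.conj k).toMonoidHom.comp rep) =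
      Ke ⊓ stabV Data.repU := by
    rw [← Subgroup.map_map, hmap, hSρ, map_inf_stab (N.Kc_le hk), hkv, hR]
  exact ⟨hc, ⟨(Subgroup.equivMapOfInjective _ _ ((MulAut.conj k).injective.comp hrep)).trans
    (MulEquiv.subgroupCongr himg)⟩⟩

end Cfsg.Agent.LargeFischer
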