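import Cfsg.Agent.LargeFischer.CenterComm
import Cfsg.Agent.LargeFischer.Normal
import Cfsg.Agent.LargeFischer.Results
import Cfsg.Agent.LargeFischer.ThreeCore

/-!
A normalised frame as data in the ambient group, and the absence of a complement to `⟨z⟩` in the
centraliser of a lift of the scalar.
-/

set_option autoImplicit false

namespace Cfsg.Agent.LargeFischer

open Cfsg
open Cfsg.Agent.GFour25
open Cfsg.Agent.SporB.FischerU (Vec)
open Cfsg.Agent.TTClass

variable {G : Type*} [Group G] [Finite G] {z : G}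
  {Q : Subgroup (Subgroup.centralizer ({z} : Set G))} [Q.Normal]

/-- A normalised frame gives a model. -/
theorem exists_model (F : Frame z Q) (N : F.IsNormal) (hKe : F.rho.range = Ke) (B : Base z Q) :
    ∃ M : Center.Model z, M.QG = QG Q ∧
      ∀ a : Subgroup.centralizer ({z} : Set G), M.rh a = F.rho a := by
  classical
  let rh : G → Equiv.Perm Vec := fun g =>
    if h : g ∈ Subgroup.centralizer ({z} : Set G) then F.rho ⟨g, h⟩ else 1
  let ps : G → Vec := fun g =>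
    if h : ∃ hg : g ∈ Subgroup.centralizer ({z} : Set G), (⟨g, hg⟩ : Subgroup.centralizer ({z} : Set G)) ∈ Q then
      F.psi ⟨⟨g, h.1⟩, h.2⟩ else 0
  have hrh : ∀ a : Subgroup.centralizer ({z} : Set G), rh a = F.rho a := fun a => dif_pos a.2
  have hps : ∀ a : Q, ps ((a : Subgroup.centralizer ({z} : Set G)) : G) = F.psi a := fun a =>
    dif_pos ⟨a.1.2, a.2⟩
  have hH : ∀ {a : G}, Commute a z → ∃ b : Subgroup.centralizer ({z} : Set G), (b : G) = a := fun ha =>
    ⟨⟨_, Subgroup.mem_centralizer_singleton_iff.2 ha⟩, rfl⟩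
  have hQ : ∀ {a : G}, a ∈ QG Q → ∃ b : Q, ((b : Subgroup.centralizer ({z} : Set G)) : G) = a := by
    rintro a ⟨b, hb, rfl⟩
    exact ⟨⟨b, hb⟩, rfl⟩
  refine ⟨⟨QG Q, rh, ps, B.ci, B.self.le, B.norm, B.card.trans (by norm_num), ?_, ?_, ?_, ?_, ?_, ?_, ?_,
    ?_, ?_, N.card_Kc, ?_⟩, rfl, hrh⟩
  · intro a b ha hb
    obtain ⟨a, rfl⟩ := hH ha
    obtain ⟨b, rfl⟩ := hH hb
    rw [← Subgroup.coe_mul, hrh, hrh, hrh, map_mul]
  · intro a ha
    obtain ⟨a, rfl⟩ := hH ha
    rw [hrh, F.rho_eq_one, mem_QG]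
  · intro a ha
    obtain ⟨a, rfl⟩ := hH ha
    rw [hrh, ← hKe]
    exact ⟨a, rfl⟩
  · intro k hk
    rw [← hKe] at hk
    obtain ⟨a, rfl⟩ := hk
    exact ⟨a, Subgroup.mem_centralizer_singleton_iff.1 a.2, hrh a⟩
  · intro a b ha hb
    obtain ⟨a, rfl⟩ := hQ ha
    obtain ⟨b, rfl⟩ := hQ hb
    rw [← Subgroup.coe_mul, ← Subgroup.coe_mul, hps, hps, hps, F.psi_mul]
  · intro a ha
    obtain ⟨a, rfl⟩ := hQ ha
    rw [hps, F.psi_ker]
  · intro x
    obtain ⟨a, rfl⟩ := F.psi_surj x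
    exact ⟨_, ⟨a.1, a.2, rfl⟩, hps a⟩
  · intro a ha
    obtain ⟨a, rfl⟩ := hQ ha
    rw [hps, F.psi_norm]
    exact ⟨fun h => congrArg (fun q : Q => ((q : Subgroup.centralizer ({z} : Set G)) : G)) h,
      fun h => Subtype.ext (Subtype.ext h)⟩
  · intro h a hh ha
    obtain ⟨h, rfl⟩ := hH hh
    obtain ⟨a, rfl⟩ := hQ ha
    rw [hrh, hps, ← F.psi_conj,
      ← hps ⟨h * a * h⁻¹, (inferInstance : Q.Normal).conj_mem _ a.2 h⟩]
    rfl
  · have h1 : (F.big.map F.rho.rangeRestrict).index ≤ 2 :=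
      Nat.le_of_dvd (by norm_num) (F.big_index ▸ F.big.index_map_dvd F.rho.rangeRestrict_surjective)
    have h2 := Subgroup.card_mul_index (F.big.map F.rho.rangeRestrict)
    have h3 : Nat.card ↥(F.big.map F.rho.rangeRestrict) = Nat.card Kc := by
      refine (Nat.card_congr (Subgroup.equivMapOfInjective (F.big.map F.rho.rangeRestrict)
        F.rho.range.subtype F.rho.range.subtype_injective).toEquiv).trans ?_
      rw [← N.big_map, Subgroup.map_map]
      rfl
    rw [h3] at h2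
    rw [← hKe, ← h2, mul_comm 2]
    exact Nat.mul_le_mul_left _ h1

/-- The centraliser of a lift of the scalar has no complement to `⟨z⟩`. -/
theorem no_complement (hF : IsOfLargeFischerTypeAt z Q) (F : Frame z Q) (N : F.IsNormal)
    (hKe : F.rho.range = Ke) (x : Subgroup.centralizer ({z} : Set G))
    (C1 : Subgroup (Subgroup.centralizer ({z} : Set G))) (hx : F.rho x = scal)
    (hc : ∀ c ∈ C1, c * x = x * c) (hinj : ∀ c ∈ C1, F.rho c = 1 → c = 1)
    (hmap : C1.map F.rho = Kc) : False := by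
  obtain ⟨M, hMQ, hrh⟩ := exists_model F N hKe (base_of hF)
  obtain ⟨g, a, hga, hne⟩ := exists_other hF
  have hs : g * z * g⁻¹ ∈ M.QG := by rw [hMQ, hga]; exact mem_QG.2 a.2
  obtain ⟨m, -, hg⟩ := M.exists_std hs (hga ▸ hne)
  refine M.false_of_complement hg (x := (x : G)) (Subgroup.mem_centralizer_singleton_iff.1 x.2)
    (fun v => by rw [hrh, hx]; rfl) (C1.map (Subgroup.centralizer ({z} : Set G)).subtype) ?_ ?_ ?_ ?_
  · rintro _ ⟨c, -, rfl⟩
    exact Subgroup.mem_centralizer_singleton_iff.1 c.2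
  · rintro _ ⟨c, hcC, rfl⟩
    exact congrArg Subtype.val (hc c hcC)
  · rintro _ ⟨c, hcC, rfl⟩ h
    rw [Subgroup.coe_subtype, hrh] at h
    rw [hinj c hcC h, map_one]
  · intro k hk
    rw [← hmap] at hk
    obtain ⟨c, hcC, rfl⟩ := hk
    exact ⟨c, ⟨c, hcC, rfl⟩, hrh c⟩

end Cfsg.Agent.LargeFischer
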