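import Cfsg.Agent.LargeFischer.Normal
import Cfsg.Agent.SUSixU43.Lift

/-!
The triple covers of `PSU(4,3)` inside the special unitary group of dimension six are conjugate to
the concrete one under semilinear isometries.
-/

set_option autoImplicit false
set_option maxRecDepth 100000

namespace Cfsg.Agent.LargeFischer

open Cfsg
open Cfsg.Agent.GFour25
open Cfsg.Agent.SporB.FischerU (Vec SUSix pointHom pt idx)
open Cfsg.Agent.TTClass
open Cfsg.Agent.SUSixU43 (genG GK GKd cover dP dFun)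

/-! ### The concrete cover is the first of the three -/

theorem root_eq {c : ℕ} (hc : c < 126) :
    root c = SUSixU43.o1 ⟨c % 126, Nat.mod_lt _ (Nat.succ_pos _)⟩ := by
  apply Fin.ext
  show Nat.mod (SchurBound.getN 16 SUSixU43.o1N c) 693 =
    SchurBound.getN 16 SUSixU43.o1N (c % 126) % 693
  rw [Nat.mod_eq_of_lt hc]
  rfl

theorem pointHom_genU {i : ℕ} (hi : i < 10) : pointHom (genU i) = genG ⟨i, by omega⟩ := by
  obtain ⟨h1, h2⟩ := SUSixU43.pairs_lt ⟨i, hi⟩
  rw [genG, if_pos hi, genU, map_pow, map_mul, SUSixU43.tq, SUSixU43.tq, ← root_eq h1, ← root_eq h2]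
  rfl

theorem sub_all : ∀ i : Fin 11, (i : ℕ) < 10 → (i : ℕ) ∈ SUSixU43.chKSub := by decide +kernel

theorem map_covU : covU.map pointHom = GK := by
  refine le_antisymm ?_ (SUSixU43.grpG_le fun i hi => ?_)
  · rw [covU, MonoidHom.map_closure, Subgroup.closure_le]
    rintro _ ⟨_, ⟨i, hi, rfl⟩, rfl⟩
    rw [pointHom_genU hi]
    exact SUSixU43.genG_mem _ (sub_all _ hi)
  · have h10 : (i : ℕ) < 10 := SUSixU43.sub_facts.2.1 _ hi
    exact ⟨genU i, genU_mem h10, pointHom_genU h10⟩

/-- A product of generators which is scalar. -/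
noncomputable def scalU : SUSix := genU 0 * (genU 1 * (genU 1 * (genU 3 * (genU 4 * genU 4))))

theorem scal_moves : ∀ k : Fin 693,
    SUSixU43.moveG 0 (SUSixU43.moveG 1 (SUSixU43.moveG 1
      (SUSixU43.moveG 3 (SUSixU43.moveG 4 (SUSixU43.moveG 4 k))))) = k := by
  decide +kernel

theorem scalU_ker : scalU ∈ pointHom.ker := by
  rw [MonoidHom.mem_ker, scalU]
  simp only [map_mul]
  rw [pointHom_genU (i := 0) (by norm_num), pointHom_genU (i := 1) (by norm_num),
    pointHom_genU (i := 3) (by norm_num), pointHom_genU (i := 4) (by norm_num)]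
  refine Equiv.ext fun k => ?_
  simp only [Equiv.Perm.mul_apply, SUSixU43.genG_apply]
  exact scal_moves k

/-- The effect of a generator on vectors. -/
noncomputable def gA (i : ℕ) (x : Vec) : Vec :=
  tvA (pr i).1 (tvA (pr i).2 (tvA (pr i).1 (tvA (pr i).2 x)))

theorem scal_witness :
    gA 0 (gA 1 (gA 1 (gA 3 (gA 4 (gA 4 (SporB.FischerU.vecN 1)))))) 0 ≠ SporB.FischerU.vecN 1 0 := by
  decide +kernel

theorem scalU_ne_one : scalU ≠ 1 := by
  intro h
  have h2 := congrArg (fun s => actHom s (SporB.FischerU.vecN 1) 0) h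
  simp only [scalU, map_mul, map_one, Equiv.Perm.mul_apply, act_genU, Equiv.Perm.one_apply] at h2
  exact scal_witness h2

theorem covU_eq : covU = cover 0 := by
  have hker : pointHom.ker ≤ covU := by
    have hle : Subgroup.zpowers scalU ≤ pointHom.ker := Subgroup.zpowers_le.2 scalU_ker
    have hdvd := Subgroup.card_dvd_of_le hle
    rw [SUSixU43.card_ker_pointHom] at hdvd
    have heq : Subgroup.zpowers scalU = pointHom.ker := by
      refine Subgroup.eq_of_le_of_card_ge hle ?_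
      rw [SUSixU43.card_ker_pointHom]
      rcases (Nat.dvd_prime Nat.prime_three).1 hdvd with h | h
      · exact absurd (Subgroup.zpowers_eq_bot.1 (Subgroup.card_eq_one.1 h)) scalU_ne_one
      · exact h.ge
    rw [← heq]
    exact Subgroup.zpowers_le.2 <| mul_mem (genU_mem (by norm_num)) <| mul_mem (genU_mem (by norm_num)) <|
      mul_mem (genU_mem (by norm_num)) <| mul_mem (genU_mem (by norm_num)) <|
        mul_mem (genU_mem (by norm_num)) (genU_mem (by norm_num))
  have h0 : GKd 0 = GK := by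
    rw [GKd, SUSixU43.fK, SUSixU43.conjHom_range, Subgroup.range_subtype]
    ext x
    simp
  rw [cover, h0, ← map_covU, Subgroup.comap_map_eq_self hker]

/-! ### The diagonal isometry -/

/-- The entries of the diagonal isometry. -/
def dEnt (i : Fin 6) : F4 := if i = 0 then ⟨false, true⟩ else 1

theorem dEnt_cube : ∀ i, dEnt i * dEnt i ^ 2 = 1 ∧ dEnt i ^ 2 * dEnt i = 1 := by decide +kernel

/-- The diagonal isometry of the vectors. -/
def dV : Equiv.Perm Vec where
  toFun x i := dEnt i * x i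
  invFun x i := dEnt i ^ 2 * x i
  left_inv x := funext fun i => by
    show dEnt i ^ 2 * (dEnt i * x i) = x i
    rw [← mul_assoc, (dEnt_cube i).2, one_mul]
  right_inv x := funext fun i => by
    show dEnt i * (dEnt i ^ 2 * x i) = x i
    rw [← mul_assoc, (dEnt_cube i).1, one_mul]

theorem dV_apply (x : Vec) (i : Fin 6) : dV x i = dEnt i * x i := rfl

theorem dV_iso (x y : Vec) : UnitF4.H (dV x) (dV y) = UnitF4.H x y := by
  simp only [UnitF4.H, Cfsg.hermForm, dV_apply, mul_pow]
  refine Finset.sum_congr rfl fun i _ => ?_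
  rw [mul_mul_mul_comm, (dEnt_cube i).1, one_mul]

theorem dV_add (x y : Vec) : dV (x + y) = dV x + dV y := funext fun i => mul_add _ _ _

theorem dV_smul (c : F4) (x : Vec) : dV (c • x) = c • dV x := funext fun i => mul_left_comm _ _ _

theorem dV_semi : IsSemi false dV := ⟨dV_add, fun c x => dV_smul c x, fun x => dV_iso x x⟩

theorem dV_zero : dV 0 = 0 := funext fun _ => mul_zero _

theorem idx_dV_pt : ∀ k : Fin 693, idx (fun i => dEnt i * pt k i) = dFun k := by decide +kernel

theorem dEnt_prod : (∏ i, dEnt i) * (∏ i, dEnt i ^ 2) = 1 := by decide +kernel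

theorem exists_dConj (s : SUSix) : ∃ t : SUSix,
    actHom t = dV * actHom s * dV⁻¹ ∧ pointHom t = dP * pointHom s * dP⁻¹ := by
  let M : Matrix (Fin 6) (Fin 6) F4 :=
    Matrix.diagonal dEnt * SUSixU43.mS s * Matrix.diagonal fun i => dEnt i ^ 2
  have hdet : M.det = 1 := by
    simp only [M, Matrix.det_mul, Matrix.det_diagonal, s.1.2, mul_one, dEnt_prod]
  have hact : ∀ x : Vec, M.mulVec x = dV (UnitF4.act s (dV⁻¹ x)) := by
    intro x
    funext i
    rw [dV_apply]
    simp only [M, ← Matrix.mulVec_mulVec, Matrix.mulVec_diagonal]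
    refine congrArg (dEnt i * ·) ?_
    exact congrFun (congrArg (SUSixU43.mS s).mulVec (funext fun j => Matrix.mulVec_diagonal _ _ j)) i
  have hmem : (⟨M, hdet⟩ : Matrix.SpecialLinearGroup (Fin 6) F4) ∈ Cfsg.SU 6 F4 2 := by
    intro u v
    show UnitF4.H (M.mulVec u) (M.mulVec v) = UnitF4.H u v
    rw [hact, hact, dV_iso, UnitF4.act_iso, ← dV_iso (dV⁻¹ u), ← Equiv.Perm.mul_apply,
      ← Equiv.Perm.mul_apply, mul_inv_cancel, Equiv.Perm.one_apply, Equiv.Perm.one_apply]
  refine ⟨⟨⟨M, hdet⟩, hmem⟩, Equiv.ext fun x => hact x, Equiv.ext fun k => ?_⟩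
  obtain ⟨k, rfl⟩ := dP.surjective k
  rw [Equiv.Perm.mul_apply, Equiv.Perm.mul_apply, SUSixU43.inv_app]
  show pointHom _ (dFun k) = dFun (pointHom s k)
  have hd : ∀ l : Fin 693, ∃ c : F4, c ≠ 0 ∧ dV (pt l) = c • pt (dFun l) := by
    intro l
    obtain ⟨hl, hl0⟩ := SporB.FischerU.pt_isotropic l
    obtain ⟨c, hc, e⟩ := SporB.FischerU.pt_spec (dV (pt l))
      (fun h => hl0 (dV.injective (h.trans dV_zero.symm))) (by rw [dV_iso]; exact hl)
    refine ⟨c, hc, e.trans ?_⟩
    rw [show idx (dV (pt l)) = dFun l from idx_dV_pt l]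
  obtain ⟨c, hc, ec⟩ := hd k
  obtain ⟨a, ha, ea⟩ := SUSixU43.act_pt s k
  obtain ⟨b, hb, eb⟩ := hd (pointHom s k)
  set t : SUSix := ⟨⟨M, hdet⟩, hmem⟩
  have e1 : c • UnitF4.act t (pt (dFun k)) = (a * b) • pt (dFun (pointHom s k)) := by
    rw [← UnitF4.act_smul, ← ec]
    show M.mulVec (dV (pt k)) = _
    rw [hact, SUSixU43.inv_app, ea, dV_smul, eb, smul_smul]
  rw [SporB.FischerU.pointHom_apply, SporB.FischerU.moveFun]
  have e2 : UnitF4.act t (pt (dFun k)) = (c⁻¹ * (a * b)) • pt (dFun (pointHom s k)) := by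
    rw [← smul_smul, ← e1, smul_smul, inv_mul_cancel₀ hc, one_smul]
  rw [e2, SporB.FischerU.idx_smul_pt _ _ (mul_ne_zero (inv_ne_zero hc) (mul_ne_zero ha hb))]

theorem exists_dConj_pow : ∀ (n : ℕ) (s : SUSix), ∃ t : SUSix,
    actHom t = dV ^ n * actHom s * (dV ^ n)⁻¹ ∧ pointHom t = dP ^ n * pointHom s * (dP ^ n)⁻¹
  | 0, s => ⟨s, by simp, by simp⟩
  | n + 1, s => by
    obtain ⟨t, h1, h2⟩ := exists_dConj_pow n s
    obtain ⟨u, h3, h4⟩ := exists_dConj t
    exact ⟨u, by rw [h3, h1, pow_succ']; group, by rw [h4, h2, pow_succ']; group⟩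

theorem card_cover (i : Fin 3) : Nat.card (cover i) = 3 * 3265920 := by
  rw [card_eq_inf_mul pointHom (cover i), inf_eq_right.2 (SUSixU43.ker_le_cover i),
    SUSixU43.map_cover, SUSixU43.card_ker_pointHom, SUSixU43.card_GKd]

theorem Kc_conj (i : Fin 3) :
    Kc.map (MulAut.conj (dV ^ (i : ℕ))).toMonoidHom = (cover i).map actHom := by
  refine Subgroup.eq_of_le_of_card_ge ?_ ?_
  · rintro _ ⟨_, ⟨s, hs, rfl⟩, rfl⟩
    obtain ⟨t, h1, h2⟩ := exists_dConj_pow i s
    refine ⟨t, ?_, h1⟩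
    show pointHom t ∈ GKd i
    rw [h2]
    exact ⟨⟨pointHom s, map_covU ▸ ⟨s, hs, rfl⟩⟩, rfl⟩
  · rw [Kc, SUSixU43.card_map_injective (MulAut.conj (dV ^ (i : ℕ))).toMonoidHom (MulEquiv.injective _),
      SUSixU43.card_map_injective actHom actHom_injective,
      SUSixU43.card_map_injective actHom actHom_injective, covU_eq, card_cover, card_cover]

/-- The triple covers are unique up to semilinear isometries. -/
theorem classified : Classified := by
  rintro X - hZ ⟨K, iK, iF, hK, hq⟩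
  obtain ⟨g, i, hg⟩ := SUSixU43.cover_classify hK X hZ hq
  refine ⟨(dV ^ (i : ℕ))⁻¹ * actHom g,
    mul_mem (inv_mem (pow_mem (show dV ∈ semiU from ⟨false, dV_semi⟩) _))
      (show actHom g ∈ semiU from ⟨false, actHom_semi g⟩), ?_⟩
  have h1 : (X.map actHom).map (MulAut.conj (actHom g)).toMonoidHom = (cover i).map actHom := by
    rw [← hg, Subgroup.map_map, Subgroup.map_map]
    congr 1
    ext s x
    simp
  have h2 : (MulAut.conj ((dV ^ (i : ℕ))⁻¹ * actHom g)).toMonoidHom =
      (MulAut.conj (dV ^ (i : ℕ))⁻¹).toMonoidHom.comp (MulAut.conj (actHom g)).toMonoidHom := by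
    ext p : 1
    simp [mul_assoc]
  rw [h2, ← Subgroup.map_map, h1, ← Kc_conj, Subgroup.map_map]
  convert Subgroup.map_id Kc
  ext p : 1
  simp

end Cfsg.Agent.LargeFischer
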