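import Cfsg.Agent.LargeFischer.Norm

/-!
The three extensions of index two of the cover inside its normaliser.
-/

set_option autoImplicit false
set_option maxRecDepth 100000

namespace Cfsg.Agent.LargeFischer

open Cfsg.Agent.CosetCert Cfsg.Agent.GFour25
open Cfsg.Agent.SporB.FischerU (Vec SUSix vecN enc vecN_enc enc_lt)
open Cfsg.Agent.TTClass

/-- The conjugation table entry of an involution and a generator. -/
noncomputable def conjEntry (e i : ℕ) : Bool :=
  Data.conjW.any fun p => Nat.beq p.1 e && Nat.beq p.2.1 i && inK p.2.2 &&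
    allB (fun j => Nat.ble 12 j ||
      Nat.beq (appC (eN e) (appC (eN i) (col (eN e) j))) (col (eN p.2.2) j)) 4 0

/-- The check of the relations of the outer involutions. -/
noncomputable def relOK : Bool :=
  allB (fun i => Nat.ble 10 i || (conjEntry 21 i && conjEntry 22 i)) 4 0 &&
    isProd (eN 20) (eN 21) (eN 21) && isProd (eN 20) (eN 22) (eN 22) &&
    isProd (eN 23) (eN 21) (eN 22)

theorem relOK_true : relOK = true := by decide +kernel

theorem isEl_triple {a i c : ℕ} {g h : Equiv.Perm Vec} (hg : IsEl a g) (hh : IsEl i h)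
    (hs : g ∈ semiU) (hs' : h ∈ semiU)
    (hc : allB (fun j => Nat.ble 12 j ||
      Nat.beq (appC (eN a) (appC (eN i) (col (eN a) j))) (col (eN c) j)) 4 0 = true) :
    IsEl c (g * h * g) := by
  obtain ⟨b, hb⟩ := mul_mem (mul_mem hs hs') hs
  refine isEl_of_basis hb (allB_of fun j hj => ?_)
  have h1 := allB_spec_zero hc (by norm_num : 12 ≤ 2 ^ 4) hj
  rw [Bool.or_eq_true] at h1
  rcases h1 with h1 | h1
  · exact absurd (Nat.le_of_ble_eq_true h1) (not_le.2 hj)
  have e1 : g (vecN (Nat.shiftLeft 1 j)) = vecN (col (eN a) j) := by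
    rw [hg, lin, enc_vecN (shl_lt hj)]
    congr 1
    interval_cases j <;> simp [appC, term, Nat.shiftLeft_eq, Nat.testBit_eq_decide_div_mod_eq]
  show enc (g (h (g (vecN (Nat.shiftLeft 1 j))))) = _
  rw [e1, hh, hg, enc_lin, enc_lin, enc_vecN (col_lt _ _), Nat.eq_of_beq_eq_true h1]

theorem conj_gen {a : ℕ} {g : Equiv.Perm Vec} (hg : IsEl a g) (hs : g ∈ semiU)
    (hsq : g * g = 1) (h : ∀ i < 10, conjEntry a i = true) :
    ∀ k ∈ Kc, g * k * g⁻¹ ∈ Kc := by
  have hinv : g⁻¹ = g := inv_eq_of_mul_eq_one_left hsq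
  have hle : Kc ≤ Kc.comap (MulAut.conj g).toMonoidHom := by
    conv_lhs => rw [Kc, covU, MonoidHom.map_closure]
    rw [Subgroup.closure_le]
    rintro _ ⟨_, ⟨i, hi, rfl⟩, rfl⟩
    obtain ⟨p, -, hp⟩ := List.any_eq_true.1 (h i hi)
    simp only [Bool.and_eq_true] at hp
    obtain ⟨⟨-, hK⟩, hc⟩ := hp
    have hK' := el_mem_Kc hK
    rw [inK, Bool.and_eq_true] at hK
    show g * actHom (genU i) * g⁻¹ ∈ Kc
    rw [hinv, (isEl_triple hg (isEl_gen hi) hs ⟨false, actHom_semi _⟩ hc).unique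
      (el_spec (Nat.blt_eq.mp hK.1)).2]
    exact hK'
  exact fun k hk => hle hk

theorem outer_facts :
    (actHom trn * actHom trn = 1 ∧ ∀ k ∈ Kc, actHom trn * k * (actHom trn)⁻¹ ∈ Kc) ∧
      (frob * frob = 1 ∧ ∀ k ∈ Kc, frob * k * frob⁻¹ ∈ Kc) ∧
      actHom trn * frob = outE := by
  have h := relOK_true
  simp only [relOK, Bool.and_eq_true] at h
  obtain ⟨⟨⟨h1, h2⟩, h3⟩, h4⟩ := h
  have hgen : ∀ i < 10, conjEntry 21 i = true ∧ conjEntry 22 i = true := fun i hi => by
    have h5 := allB_spec_zero h1 (by norm_num : 10 ≤ 2 ^ 4) hi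
    rw [Bool.or_eq_true] at h5
    rcases h5 with h5 | h5
    · exact absurd (Nat.le_of_ble_eq_true h5) (not_le.2 hi)
    · rwa [Bool.and_eq_true] at h5
  have t2 := (isEl_mul h2 isEl_trn isEl_trn).unique isEl_one
  have f2 := (isEl_mul h3 isEl_frob isEl_frob).unique isEl_one
  exact ⟨⟨t2, conj_gen isEl_trn ⟨_, actHom_semi _⟩ t2 fun i hi => (hgen i hi).1⟩,
    ⟨f2, conj_gen isEl_frob ⟨_, frob_semi⟩ f2 fun i hi => (hgen i hi).2⟩,
    (isEl_mul h4 isEl_trn isEl_frob).unique isEl_outE⟩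

/-- The four coset representatives. -/
noncomputable def outSet : Set (Equiv.Perm Vec) := {1, actHom trn, frob, outE}

theorem mem_Kall_iff {g : Equiv.Perm Vec} (h : g ∈ Kall) : ∃ k ∈ Kc, ∃ e ∈ outSet, g = k * e := by
  obtain ⟨⟨t2, ht⟩, ⟨f2, hf⟩, htf⟩ := outer_facts
  have hft : frob * actHom trn = outE := rfl
  have htf' : actHom trn * frob = frob * actHom trn := htf.trans hft.symm
  rw [Kall, Kc, covU, MonoidHom.map_closure, ← Subgroup.closure_union] at h
  induction h using Subgroup.closure_induction_left with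
  | one => exact ⟨1, one_mem _, 1, by simp [outSet], by simp⟩
  | mul_left x hx y _ ih =>
    obtain ⟨k, hk, e, he, rfl⟩ := ih
    rcases hx with ⟨u, hu, rfl⟩ | hx
    · exact ⟨_, mul_mem ⟨u, Subgroup.subset_closure hu, rfl⟩ hk, e, he, (mul_assoc _ _ _).symm⟩
    · rcases hx with rfl | rfl
      · refine ⟨_, ht k hk, actHom trn * e, ?_, by group⟩
        rcases he with rfl | rfl | rfl | rfl
        · simp [outSet]
        · simp [outSet, t2]
        · simp [outSet, htf]
        · simp [outSet, ← htf, ← mul_assoc, t2]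
      · refine ⟨_, hf k hk, frob * e, ?_, by group⟩
        rcases he with rfl | rfl | rfl | rfl
        · simp [outSet]
        · simp [outSet, hft]
        · simp [outSet, f2]
        · simp [outSet, ← hft, ← mul_assoc, f2]
  | inv_mul_cancel x hx y _ ih =>
    obtain ⟨k, hk, e, he, rfl⟩ := ih
    rcases hx with ⟨u, hu, rfl⟩ | hx
    · exact ⟨_, mul_mem (inv_mem ⟨u, Subgroup.subset_closure hu, rfl⟩) hk, e, he, (mul_assoc _ _ _).symm⟩
    · have hinv : x⁻¹ = x := by
        rcases hx with rfl | rfl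
        · exact inv_eq_of_mul_eq_one_left t2
        · exact inv_eq_of_mul_eq_one_left f2
      rcases hx with rfl | rfl <;> rw [hinv]
      · refine ⟨_, ht k hk, actHom trn * e, ?_, by group⟩
        rcases he with rfl | rfl | rfl | rfl
        · simp [outSet]
        · simp [outSet, t2]
        · simp [outSet, htf]
        · simp [outSet, ← htf, ← mul_assoc, t2]
      · refine ⟨_, hf k hk, frob * e, ?_, by group⟩
        rcases he with rfl | rfl | rfl | rfl
        · simp [outSet]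
        · simp [outSet, hft]
        · simp [outSet, f2]
        · simp [outSet, ← hft, ← mul_assoc, f2]

theorem eq_ext_of_index_two {R : Subgroup (Equiv.Perm Vec)} (h1 : Kc ≤ R) (h2 : R ≤ Kall)
    (hc : Nat.card R = 2 * Nat.card Kc) :
    ∃ e : Equiv.Perm Vec, (e = actHom trn ∨ e = frob ∨ e = outE) ∧
      R = Kc ⊔ Subgroup.zpowers e := by
  obtain ⟨g, hg, hgK⟩ : ∃ g ∈ R, g ∉ Kc := by
    by_contra hne
    push Not at hne
    have := Subgroup.card_le_of_le (show R ≤ Kc from hne)
    have hpos : 0 < Nat.card Kc := Nat.card_pos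
    omega
  obtain ⟨k, hk, e, he, rfl⟩ := mem_Kall_iff (h2 hg)
  have heR : e ∈ R := by
    have := mul_mem (inv_mem (h1 hk)) hg
    rwa [inv_mul_cancel_left] at this
  have heK : e ∉ Kc := fun h => hgK (mul_mem hk h)
  refine ⟨e, ?_, ?_⟩
  · rcases he with rfl | rfl | rfl | rfl
    · exact absurd (one_mem _) heK
    · exact Or.inl rfl
    · exact Or.inr (Or.inl rfl)
    · exact Or.inr (Or.inr rfl)
  have hle : Kc ⊔ Subgroup.zpowers e ≤ R := sup_le h1 (Subgroup.zpowers_le.2 heR)
  refine (Subgroup.eq_of_le_of_card_ge hle ?_).symm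
  obtain ⟨m, hm⟩ := Subgroup.card_dvd_of_le (le_sup_left : Kc ≤ Kc ⊔ Subgroup.zpowers e)
  have hne : Nat.card ↥(Kc ⊔ Subgroup.zpowers e) ≠ Nat.card Kc := fun h => heK (by
    rw [Subgroup.eq_of_le_of_card_ge (le_sup_left : Kc ≤ Kc ⊔ Subgroup.zpowers e) h.le]
    exact Subgroup.mem_sup_right (Subgroup.mem_zpowers e))
  have hpos : 0 < Nat.card ↥(Kc ⊔ Subgroup.zpowers e) := Nat.card_pos
  rw [hc, hm]
  rw [hm] at hne hpos
  rcases m with _ | _ | m
  · omega
  · exact absurd (mul_one _) hne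
  · nlinarith

end Cfsg.Agent.LargeFischer
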