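import Cfsg.Agent.LargeFischer.Six
import Cfsg.Agent.LargeFischer.Ext

/-!
The line through a vector of the second orbit, its perpendicular space and its stabiliser, on codes.
-/

set_option autoImplicit false
set_option maxRecDepth 100000

namespace Cfsg.Agent.LargeFischer.Eight

open Cfsg.Agent.CosetCert Cfsg.Agent.GFour25
open Cfsg.Agent.SporB.FischerU (Vec SUSix vecN enc vecN_enc enc_lt)
open Cfsg.Agent.TTClass

/-- The code of the second multiple. -/
def w2 : ℕ := scC om Data.repW

/-- A code on the line. -/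
def onLine (v : ℕ) : Bool :=
  Nat.beq v 0 || Nat.beq v 1360 || Nat.beq v 2720 || Nat.beq v 4080

/-- The commutation test on codes. -/
def cm (x y : ℕ) : Bool := qC (x ^^^ y) == (qC x == qC y)

/-- A code perpendicular to the line. -/
def perpC (v : ℕ) : Bool := cm v 1360 && cm v 2720

/-- A basis of the perpendicular space. -/
def basisP : List ℕ := [1, 2, 4, 8, 80, 160, 272, 544, 1040, 2080]

theorem base_facts :
    Data.repW = 1360 ∧ scC om 1360 = 2720 ∧
      perpC 1360 = true ∧ perpC 2720 = true ∧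
      cm 32 1360 = false ∧ cm 32 2720 = true ∧ cm 16 1360 = true ∧ cm 16 2720 = false ∧
      perpC 1 = true ∧ perpC 2 = true ∧ cm 1 2 = false ∧ basisP.all perpC = true ∧
      appC (eN 23) 1360 = 1360 ∧ appC (eN 23) 2720 ≠ 2720 := by decide +kernel

/-- The properties of the codes on the line. -/
noncomputable def lineOK : Bool :=
  allB (fun v => !(onLine v) ||
    (qC v && perpC v && (Nat.beq v 0 || !(rootR v)) && onLine (appC (eN 23) v) &&
      cm 1360 v && cm 2720 v)) 12 0

theorem lineOK_true : lineOK = true := by decide +kernel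

theorem line_count : cntB onLine 12 0 = 4 := by decide +kernel

theorem perp_count : cntB perpC 12 0 = 1024 := by decide +kernel

theorem rad_ok :
    allB (fun v => !(perpC v) || onLine v || !(basisP.all fun b => cm v b)) 12 0 = true := by
  decide +kernel

theorem fix_ok :
    allB (fun v => !(Nat.beq (appC (eN 10) v) v && Nat.beq (appC (eN 630) v) v) || onLine v)
      12 0 = true := by
  decide +kernel

theorem ord_ok :
    allB (fun v => Nat.beq (appC (eN 10) (appC (eN 10) (appC (eN 10) v))) v &&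
      Nat.beq (appC (eN 630) (appC (eN 630) (appC (eN 630) v))) v) 12 0 = true := by
  decide +kernel

theorem shift_ok : ∀ a : Fin 16,
    allB (fun v => !(perpC v) || onLine (appC (eN (SixAct.iK a)) v ^^^ v)) 12 0 = true := by
  decide +kernel

theorem moved_ok : ∀ a : Fin 16, a ≠ 0 →
    basisP.any (fun b => !(Nat.beq (appC (eN (SixAct.iK a)) b) b)) = true := by
  decide +kernel

/-- Two coded maps fail to commute on a basis code. -/
noncomputable def noComm (e : ℕ → ℕ) (u : ℕ) : Bool :=
  (List.range 12).any fun j => !(Nat.beq (e (appC (eN u) (Nat.shiftLeft 1 j)))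
    (appC (eN u) (e (Nat.shiftLeft 1 j))))

theorem cent_ok : ∀ a : Fin 16,
    (a = 0 ∨ noComm (appC (eN (SixAct.iK a))) 10 = true ∨
      noComm (appC (eN (SixAct.iK a))) 630 = true) ∧
    (noComm (fun v => appC (eN (SixAct.iK a)) (appC (eN 23) v)) 10 = true ∨
      noComm (fun v => appC (eN (SixAct.iK a)) (appC (eN 23) v)) 630 = true) := by
  decide +kernel

theorem gens_ok : SixAct.Good 10 (SixAct.p0 1) ∧ SixAct.Good 630 (SixAct.p0 5) :=
  ⟨SixAct.good0 1, SixAct.good0 5⟩

theorem code_lt : ∀ v, onLine v = true → v < 4096 := by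
  intro v h
  simp only [onLine, Bool.or_eq_true] at h
  rcases h with ((h | h) | h) | h <;> rw [Nat.eq_of_beq_eq_true h] <;> norm_num

theorem vec_w2 : vecN 2720 = om • vecN Data.repW := by
  rw [← base_facts.2.1, scC, vecN_enc, base_facts.1]

theorem line_spec {v : ℕ} (hv : v < 4096) (h : onLine v = true) :
    qC v = true ∧ perpC v = true ∧ (v = 0 ∨ ¬ IsRoot (vecN v)) ∧
      onLine (appC (eN 23) v) = true ∧ cm 1360 v = true ∧ cm 2720 v = true := by
  have h1 := allB_spec_zero lineOK_true (by norm_num : 4096 ≤ 2 ^ 12) hv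
  rw [h, Bool.not_true, Bool.false_or] at h1
  simp only [Bool.and_eq_true, Bool.or_eq_true] at h1
  obtain ⟨⟨⟨⟨⟨a, b⟩, c⟩, d⟩, e⟩, f⟩ := h1
  refine ⟨a, b, ?_, d, e, f⟩
  rcases c with c | c
  · exact Or.inl (Nat.eq_of_beq_eq_true c)
  · refine Or.inr ?_
    rw [IsRoot, enc_vecN hv]
    simpa using c

/-- An element of the line, as a vector. -/
def InLine (x : Vec) : Prop := onLine (enc x) = true

theorem inLine_cases {x : Vec} (h : InLine x) :
    x = 0 ∨ x = vecN Data.repW ∨ x = vecN 2720 ∨ x = vecN Data.repW + vecN 2720 := by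
  rw [← vecN_enc x, base_facts.1, ← vecN_xor]
  unfold InLine at h
  simp only [onLine, Bool.or_eq_true] at h
  rcases h with ((h | h) | h) | h <;> rw [Nat.eq_of_beq_eq_true h]
  · exact Or.inl vecN_zero
  · exact Or.inr (Or.inl rfl)
  · exact Or.inr (Or.inr (Or.inl rfl))
  · exact Or.inr (Or.inr (Or.inr rfl))

theorem inLine_w : InLine (vecN Data.repW) ∧ InLine (vecN 2720) := by
  constructor <;> (rw [InLine, enc_vecN (by decide)]; decide)

/-- A linear map fixing the vector fixes its line. -/
theorem fix_line {g : Equiv.Perm Vec} (hg : IsSemi false g)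
    (hw : g (vecN Data.repW) = vecN Data.repW) {x : Vec} (hx : InLine x) : g x = x := by
  have h2 : g (vecN 2720) = vecN 2720 := by
    rw [vec_w2, hg.2.1, hw]
    rfl
  rcases inLine_cases hx with rfl | rfl | rfl | rfl
  · have := hg.1 0 0
    rw [add_zero] at this
    exact left_eq_add.1 this
  · exact hw
  · exact h2
  · rw [hg.1, hw, h2]

theorem outE_facts :
    outE (vecN Data.repW) = vecN Data.repW ∧ outE (vecN 2720) ≠ vecN 2720 ∧
      ∀ x, InLine x → InLine (outE x) := by
  obtain ⟨hw, -, -, -, -, -, -, -, -, -, -, -, h1, h2⟩ := base_facts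
  refine ⟨?_, fun h => h2 ?_, fun x hx => ?_⟩
  · rw [isEl_outE, lin, hw, enc_vecN (by norm_num), h1]
  · rw [isEl_outE, lin, enc_vecN (by norm_num)] at h
    have := congrArg enc h
    rwa [enc_vecN (appC_lt _ _), enc_vecN (by norm_num)] at this
  · rw [InLine, isEl_outE, enc_lin]
    exact (line_spec (enc_lt x) hx).2.2.2.1

theorem good_lt {i : ℕ} {σ : Equiv.Perm (Fin 6)} (h : SixAct.Good i σ) : i < Data.numE := by
  have h1 := h.1
  rw [inK, Bool.and_eq_true] at h1
  exact Nat.blt_eq.mp h1.1

/-- The two generators: members of the stabiliser of order dividing three with the line as the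
common fixed space. -/
theorem gen_facts :
    (el 10 ∈ Kc ⊓ stabV Data.repW ∧ el 10 ^ 3 = 1) ∧
      (el 630 ∈ Kc ⊓ stabV Data.repW ∧ el 630 ^ 3 = 1) ∧
        ∀ x, el 10 x = x → el 630 x = x → InLine x := by
  have h10 := good_lt gens_ok.1
  have h630 := good_lt gens_ok.2
  refine ⟨⟨(SixAct.good_spec gens_ok.1).1.1, ?_⟩, ⟨(SixAct.good_spec gens_ok.2).1.1, ?_⟩,
    fun x ha hb => ?_⟩
  · refine Equiv.ext fun x => ?_
    have h := allB_spec_zero ord_ok (by norm_num : 4096 ≤ 2 ^ 12) (enc_lt x)
    rw [Bool.and_eq_true] at h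
    rw [pow_succ, pow_two, Equiv.Perm.mul_apply, Equiv.Perm.mul_apply, Equiv.Perm.one_apply]
    conv_lhs => rw [← vecN_enc x]
    rw [el_apply h10 _ (enc_lt x), el_apply h10 _ (appC_lt _ _), el_apply h10 _ (appC_lt _ _),
      Nat.eq_of_beq_eq_true h.1, vecN_enc]
  · refine Equiv.ext fun x => ?_
    have h := allB_spec_zero ord_ok (by norm_num : 4096 ≤ 2 ^ 12) (enc_lt x)
    rw [Bool.and_eq_true] at h
    rw [pow_succ, pow_two, Equiv.Perm.mul_apply, Equiv.Perm.mul_apply, Equiv.Perm.one_apply]
    conv_lhs => rw [← vecN_enc x]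
    rw [el_apply h630 _ (enc_lt x), el_apply h630 _ (appC_lt _ _), el_apply h630 _ (appC_lt _ _),
      Nat.eq_of_beq_eq_true h.2, vecN_enc]
  · have h := allB_spec_zero fix_ok (by norm_num : 4096 ≤ 2 ^ 12) (enc_lt x)
    rw [(el_spec h10).2] at ha
    rw [(el_spec h630).2] at hb
    have ea := congrArg enc ha
    have eb := congrArg enc hb
    rw [enc_lin] at ea eb
    rw [ea, eb, Nat.beq_refl, Bool.and_self, Bool.not_true, Bool.false_or] at h
    exact h

theorem el20 : el 20 = 1 :=
  el_eq (good_lt (SixAct.goodK 0)) isEl_one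

/-- A member of the inner stabiliser fixing the six sets is one of the sixteen named elements. -/
theorem exists_iK (hK : Nat.card ↥(Kc ⊓ stabV Data.repW) = 5760) {k : Equiv.Perm Vec}
    (hk : k ∈ Kc ⊓ stabV Data.repW) (hm : SixAct.Maps k 1) :
    ∃ a, k = el (SixAct.iK a) := by
  let Fm : (Fin 6 × Fin 5 × Fin 4 × Fin 3) × Fin 16 → ↥(Kc ⊓ stabV Data.repW) := fun q =>
    ⟨SixAct.tE q.1 * el (SixAct.iK q.2),
      mul_mem (SixAct.tE_spec q.1).1.1 (SixAct.good_spec (SixAct.goodK q.2)).1.1⟩
  have hmaps : ∀ q, SixAct.Maps (Fm q : Equiv.Perm Vec) (SixAct.tP q.1) := fun q => by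
    have := SixAct.maps_mul (SixAct.tE_spec q.1).2 (SixAct.good_spec (SixAct.goodK q.2)).2
    rwa [mul_one] at this
  have hinj : Function.Injective Fm := by
    rintro ⟨t, a⟩ ⟨t', b⟩ h
    have e : SixAct.tE t * el (SixAct.iK a) = SixAct.tE t' * el (SixAct.iK b) :=
      congrArg Subtype.val h
    obtain rfl := SixAct.tP_inj (SixAct.maps_unique (hmaps (t, a))
      (show SixAct.Maps (Fm (t, a) : Equiv.Perm Vec) (SixAct.tP t') by
        rw [show (Fm (t, a) : Equiv.Perm Vec) = Fm (t', b) from e]; exact hmaps (t', b)))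
    rw [SixAct.el_iK_inj (mul_left_cancel e)]
  have hb : Function.Bijective Fm :=
    (Nat.bijective_iff_injective_and_card Fm).2
      ⟨hinj, by rw [hK]; simp [Nat.card_prod]⟩
  obtain ⟨⟨t, a⟩, hq⟩ := hb.2 ⟨k, hk⟩
  have hq' : SixAct.tE t * el (SixAct.iK a) = k := congrArg Subtype.val hq
  have h0 : SixAct.tP (0, 0, 0, 0) = 1 := by decide +kernel
  have ht : t = (0, 0, 0, 0) := by
    refine SixAct.tP_inj ?_
    rw [h0]
    have := hmaps (t, a)
    rw [show (Fm (t, a) : Equiv.Perm Vec) = k from hq'] at this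
    exact SixAct.maps_unique this hm
  subst ht
  refine ⟨a, ?_⟩
  rw [← hq', SixAct.tE, show SixAct.i0 0 = 20 from rfl, show SixAct.i1 0 = 20 from rfl,
    show SixAct.i2 0 = 20 from rfl, show SixAct.i3 0 = 20 from rfl, el20]
  simp

theorem el_iK_zero : el (SixAct.iK 0) = 1 := el20

theorem noComm_spec {g : Equiv.Perm Vec} {e : ℕ → ℕ} {u : ℕ} (hu : u < Data.numE)
    (hg : ∀ v < 4096, g (vecN v) = vecN (e v)) (he : ∀ v, e v < 4096)
    (h : noComm e u = true) : g * el u ≠ el u * g := by
  rw [noComm, List.any_eq_true] at h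
  obtain ⟨j, hj, hne⟩ := h
  have hj' : Nat.shiftLeft 1 j < 4096 := shl_lt (List.mem_range.1 hj)
  intro hcomm
  have e1 := congrArg enc (Equiv.Perm.ext_iff.1 hcomm (vecN (Nat.shiftLeft 1 j)))
  rw [Equiv.Perm.mul_apply, Equiv.Perm.mul_apply, el_apply hu _ hj', hg _ (appC_lt _ _), hg _ hj',
    el_apply hu _ (he _), enc_vecN (he _), enc_vecN (appC_lt _ _)] at e1
  rw [e1, Nat.beq_refl] at hne
  exact absurd hne (by simp)

/-- Only the identity among the 32 candidates commutes with both generators. -/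
theorem cent_trivial (a : Fin 16) {g : Equiv.Perm Vec}
    (hg : g = el (SixAct.iK a) ∨ g = el (SixAct.iK a) * outE)
    (h1 : g * el 10 = el 10 * g) (h2 : g * el 630 = el 630 * g) : g = 1 := by
  have ha := good_lt (SixAct.goodK a)
  rcases hg with rfl | rfl
  · rcases (cent_ok a).1 with rfl | h | h
    · exact el_iK_zero
    · exact absurd h1 (noComm_spec (good_lt gens_ok.1) (el_apply ha) (fun _ => appC_lt _ _) h)
    · exact absurd h2 (noComm_spec (good_lt gens_ok.2) (el_apply ha) (fun _ => appC_lt _ _) h)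
  · have hv : ∀ v < 4096, (el (SixAct.iK a) * outE) (vecN v) =
        vecN (appC (eN (SixAct.iK a)) (appC (eN 23) v)) := fun v hv => by
      rw [Equiv.Perm.mul_apply, isEl_outE, lin, enc_vecN hv, el_apply ha _ (appC_lt _ _)]
    rcases (cent_ok a).2 with h | h
    · exact absurd h1 (noComm_spec (good_lt gens_ok.1) hv (fun _ => appC_lt _ _) h)
    · exact absurd h2 (noComm_spec (good_lt gens_ok.2) hv (fun _ => appC_lt _ _) h)

/-- A named element of the kernel moves a perpendicular vector into its translate by the line. -/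
theorem shift_line (a : Fin 16) {x : Vec} (hx : perpC (enc x) = true) :
    InLine (el (SixAct.iK a) x + x) := by
  have h := allB_spec_zero (shift_ok a) (by norm_num : 4096 ≤ 2 ^ 12) (enc_lt x)
  rw [hx, Bool.not_true, Bool.false_or] at h
  have e : el (SixAct.iK a) x + x =
      vecN (appC (eN (SixAct.iK a)) (enc x) ^^^ enc x) := by
    rw [(el_spec (good_lt (SixAct.goodK a))).2, lin, vecN_xor, vecN_enc]
  rw [InLine, e, enc_vecN (Nat.xor_lt_two_pow (n := 12) (appC_lt _ _) (enc_lt x))]
  exact h

/-- A named element of the kernel fixing the perpendicular space is trivial. -/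
theorem moved (a : Fin 16)
    (h : ∀ x : Vec, perpC (enc x) = true → el (SixAct.iK a) x = x) : el (SixAct.iK a) = 1 := by
  by_cases ha : a = 0
  · rw [ha]; exact el_iK_zero
  exfalso
  have h1 := moved_ok a ha
  rw [List.any_eq_true] at h1
  obtain ⟨b, hb, hne⟩ := h1
  have hbl : b < 4096 := by
    have : ∀ c ∈ basisP, c < 4096 := by decide
    exact this b hb
  have hp := List.all_eq_true.1 base_facts.2.2.2.2.2.2.2.2.2.2.2.1 b hb
  have e := congrArg enc (h (vecN b) (by rwa [enc_vecN hbl]))
  rw [el_apply (good_lt (SixAct.goodK a)) _ hbl, enc_vecN (appC_lt _ _), enc_vecN hbl] at e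
  rw [e, Nat.beq_refl] at hne
  exact absurd hne (by simp)

/-- A perpendicular vector commuting with all perpendicular vectors is on the line. -/
theorem rad_line {x : Vec} (hx : perpC (enc x) = true)
    (h : ∀ y : Vec, perpC (enc y) = true → cm (enc x) (enc y) = true) : InLine x := by
  have h1 := allB_spec_zero rad_ok (by norm_num : 4096 ≤ 2 ^ 12) (enc_lt x)
  have hall : (basisP.all fun b => cm (enc x) b) = true := by
    rw [List.all_eq_true]
    intro b hb
    have hbl : b < 4096 := by
      have : ∀ c ∈ basisP, c < 4096 := by decide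
      exact this b hb
    have hp := List.all_eq_true.1 base_facts.2.2.2.2.2.2.2.2.2.2.2.1 b hb
    have h2 := h (vecN b) (by rwa [enc_vecN hbl])
    rwa [enc_vecN hbl] at h2
  rw [hx, hall, Bool.not_true, Bool.false_or, Bool.or_false] at h1
  exact h1

theorem card_stabs_W :
    Nat.card Kc = 9797760 → Nat.card Ke = 19595520 →
      Nat.card ↥(Kc ⊓ stabV Data.repW) = 5760 ∧ Nat.card ↥(Ke ⊓ stabV Data.repW) = 11520 ∧
        Nat.card ↥(Ke ⊓ stabV Data.repU) = 51840 := by
  intro h1 h2
  have a := card_stabs le_rfl Kc_le_Kall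
  have b := card_stabs Kc_le_Ke Ke_le_Kall
  rw [h1] at a
  rw [h2] at b
  omega

end Cfsg.Agent.LargeFischer.Eight
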