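import Cfsg.Agent.LargeFischer.Frame
import Cfsg.Agent.LargeFischer.EightModel

/-!
A frame read inside the ambient group: the coordinates of an element of `Q`, commutation and squares
in terms of them, and counting of preimages.
-/

set_option autoImplicit false

namespace Cfsg.Agent.LargeFischer

open Cfsg
open Cfsg.Agent.CosetCert Cfsg.Agent.GFour25
open Cfsg.Agent.SporB.FischerU (Vec SUSix vecN enc vecN_enc enc_lt)
open Cfsg.Agent.TTClass

namespace Eight

variable {G : Type*} [Group G]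

/-- The image of a subgroup under conjugation. -/
abbrev conjS (g : G) (S : Subgroup G) : Subgroup G := S.map (MulAut.conj g).toMonoidHom

theorem mem_conjS {g x : G} {S : Subgroup G} : x ∈ conjS g S ↔ g⁻¹ * x * g ∈ S := by
  constructor
  · rintro ⟨y, hy, rfl⟩
    simpa [MulAut.conj_apply, mul_assoc] using hy
  · intro h
    exact ⟨_, h, by simp [MulAut.conj_apply, mul_assoc]⟩

theorem conj_mem_conjS {g x : G} {S : Subgroup G} (h : x ∈ S) : g * x * g⁻¹ ∈ conjS g S :=
  ⟨x, h, rfl⟩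

variable {z : G} {Q : Subgroup (Subgroup.centralizer ({z} : Set G))} [Q.Normal]

/-- The subgroup in the ambient group. -/
abbrev Qg (Q : Subgroup (Subgroup.centralizer ({z} : Set G))) : Subgroup G :=
  Q.map (Subgroup.centralizer ({z} : Set G)).subtype

theorem mem_Qg {a : G} :
    a ∈ Qg Q ↔ ∃ q : Q, ((q : Subgroup.centralizer ({z} : Set G)) : G) = a :=
  ⟨fun ⟨c, hc, e⟩ => ⟨⟨c, hc⟩, e⟩, fun ⟨q, e⟩ => ⟨q, q.2, e⟩⟩

omit [Q.Normal] in
theorem Qg_le : Qg Q ≤ Subgroup.centralizer ({z} : Set G) := Subgroup.map_subtype_le Q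

omit [Q.Normal] in
theorem mem_cen {z x : G} : x ∈ Subgroup.centralizer ({z} : Set G) ↔ x * z = z * x :=
  Subgroup.mem_centralizer_singleton_iff

theorem conj_Qg {h a : G} (hh : h ∈ Subgroup.centralizer ({z} : Set G)) (ha : a ∈ Qg Q) :
    h * a * h⁻¹ ∈ Qg Q := by
  obtain ⟨c, hc, rfl⟩ := ha
  exact ⟨⟨h, hh⟩ * c * ⟨h, hh⟩⁻¹, (inferInstance : Q.Normal).conj_mem _ hc ⟨h, hh⟩, by simp⟩

theorem conjS_Qg {h : G} (hh : h ∈ Subgroup.centralizer ({z} : Set G)) :
    conjS h (Qg Q) = Qg Q := by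
  refine le_antisymm ?_ fun a ha => ?_
  · rintro _ ⟨a, ha, rfl⟩
    exact conj_Qg hh ha
  · rw [mem_conjS]
    simpa using conj_Qg (inv_mem hh) ha

end Eight

namespace Frame

open Eight

variable {G : Type*} [Group G] {z : G} {Q : Subgroup (Subgroup.centralizer ({z} : Set G))}
  [Q.Normal] (F : Frame z Q)

open scoped _root_.Classical in
/-- The coordinates of an element of `Q`, on the ambient group. -/
noncomputable def pv (a : G) : Vec :=
  if h : ∃ q : Q, ((q : Subgroup.centralizer ({z} : Set G)) : G) = a then F.psi h.choose else 0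

open scoped _root_.Classical in
/-- The action, on the ambient group. -/
noncomputable def rg (x : G) : Equiv.Perm Vec :=
  if h : x ∈ Subgroup.centralizer ({z} : Set G) then F.rho ⟨x, h⟩ else 1

theorem pv_coe (q : Q) : F.pv ((q : Subgroup.centralizer ({z} : Set G)) : G) = F.psi q := by
  have h : ∃ q' : Q, ((q' : Subgroup.centralizer ({z} : Set G)) : G) =
      ((q : Subgroup.centralizer ({z} : Set G)) : G) := ⟨q, rfl⟩
  rw [pv, dif_pos h]
  exact congrArg F.psi (Subtype.ext (Subtype.ext h.choose_spec))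

theorem rg_coe (c : Subgroup.centralizer ({z} : Set G)) : F.rg c = F.rho c := by
  rw [rg, dif_pos c.2]

theorem rg_mul {x y : G} (hx : x ∈ Subgroup.centralizer ({z} : Set G))
    (hy : y ∈ Subgroup.centralizer ({z} : Set G)) : F.rg (x * y) = F.rg x * F.rg y := by
  rw [show x * y = ((⟨x, hx⟩ * ⟨y, hy⟩ : Subgroup.centralizer ({z} : Set G)) : G) from rfl, rg_coe,
    map_mul, ← rg_coe, ← rg_coe]

theorem rg_inv {x : G} (hx : x ∈ Subgroup.centralizer ({z} : Set G)) :
    F.rg x⁻¹ = (F.rg x)⁻¹ := by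
  rw [show x⁻¹ = (((⟨x, hx⟩ : Subgroup.centralizer ({z} : Set G))⁻¹ :
    Subgroup.centralizer ({z} : Set G)) : G) from rfl, rg_coe, map_inv, ← rg_coe]

theorem rg_pow {x : G} (hx : x ∈ Subgroup.centralizer ({z} : Set G)) (n : ℕ) :
    F.rg (x ^ n) = F.rg x ^ n := by
  rw [show x ^ n = (((⟨x, hx⟩ : Subgroup.centralizer ({z} : Set G)) ^ n :
    Subgroup.centralizer ({z} : Set G)) : G) from rfl, rg_coe, map_pow, ← rg_coe]

theorem rg_one : F.rg 1 = 1 := by
  rw [show (1 : G) = ((1 : Subgroup.centralizer ({z} : Set G)) : G) from rfl, rg_coe, map_one]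

theorem rg_eq_one {x : G} (hx : x ∈ Subgroup.centralizer ({z} : Set G)) :
    F.rg x = 1 ↔ x ∈ Qg Q := by
  rw [rg, dif_pos hx, ← MonoidHom.mem_ker, F.ker_rho]
  exact ⟨fun h => ⟨_, h, rfl⟩, fun ⟨c, hc, e⟩ => by rwa [show (⟨x, hx⟩ : Subgroup.centralizer
    ({z} : Set G)) = c from Subtype.ext e.symm]⟩

theorem rg_mem_range {x : G} (hx : x ∈ Subgroup.centralizer ({z} : Set G)) :
    F.rg x ∈ F.rho.range := by
  rw [rg, dif_pos hx]
  exact ⟨_, rfl⟩

theorem exists_rg {k : Equiv.Perm Vec} (hk : k ∈ F.rho.range) :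
    ∃ x ∈ Subgroup.centralizer ({z} : Set G), F.rg x = k := by
  obtain ⟨c, rfl⟩ := hk
  exact ⟨c, c.2, F.rg_coe c⟩

theorem rg_add {x : G} (hx : x ∈ Subgroup.centralizer ({z} : Set G)) (u v : Vec) :
    F.rg x (u + v) = F.rg x u + F.rg x v := by
  rw [rg, dif_pos hx]
  obtain ⟨b, hb⟩ := F.rho_semi ⟨x, hx⟩
  exact hb.1 u v

theorem pv_mul {a b : G} (ha : a ∈ Qg Q) (hb : b ∈ Qg Q) : F.pv (a * b) = F.pv a + F.pv b := by
  obtain ⟨q, rfl⟩ := mem_Qg.1 ha
  obtain ⟨r, rfl⟩ := mem_Qg.1 hb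
  rw [pv_coe, pv_coe, ← F.psi_mul, ← pv_coe]
  rfl

theorem pv_eq_zero {a : G} (ha : a ∈ Qg Q) : F.pv a = 0 ↔ a = 1 ∨ a = z := by
  obtain ⟨q, rfl⟩ := mem_Qg.1 ha
  rw [pv_coe, F.psi_ker]

theorem pv_one : F.pv 1 = 0 := (F.pv_eq_zero (one_mem _)).2 (Or.inl rfl)

theorem pv_inv {a : G} (ha : a ∈ Qg Q) : F.pv a⁻¹ = F.pv a := by
  have h := F.pv_mul ha (inv_mem ha)
  rw [mul_inv_cancel, pv_one] at h
  exact (neg_eq_of_add_eq_zero_right h.symm).symm.trans (by
    funext i
    show -(F.pv a i) = F.pv a i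
    generalize F.pv a i = c; revert c; decide)

theorem pv_surj (v : Vec) : ∃ a ∈ Qg Q, F.pv a = v := by
  obtain ⟨q, rfl⟩ := F.psi_surj v
  exact ⟨_, mem_Qg.2 ⟨q, rfl⟩, F.pv_coe q⟩

theorem pv_conj {h a : G} (hh : h ∈ Subgroup.centralizer ({z} : Set G)) (ha : a ∈ Qg Q) :
    F.pv (h * a * h⁻¹) = F.rg h (F.pv a) := by
  obtain ⟨q, rfl⟩ := mem_Qg.1 ha
  rw [pv_coe, rg, dif_pos hh, ← F.psi_conj, ← pv_coe]
  rfl

theorem qC_pv {a : G} (ha : a ∈ Qg Q) : qC (enc (F.pv a)) = true ↔ a * a = 1 := by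
  obtain ⟨q, rfl⟩ := mem_Qg.1 ha
  rw [pv_coe, qC_enc, decide_eq_true_iff, F.psi_norm, Subtype.ext_iff, Subtype.ext_iff]
  rfl

include F in
theorem sq_mem {a : G} (ha : a ∈ Qg Q) : a * a = 1 ∨ a * a = z := by
  refine (F.pv_eq_zero (mul_mem ha ha)).1 ?_
  rw [F.pv_mul ha ha]
  funext i
  show F.pv a i + F.pv a i = 0
  generalize F.pv a i = c; revert c; decide

include F in
theorem comm_mem {a b : G} (ha : a ∈ Qg Q) (hb : b ∈ Qg Q) :
    a * b * a⁻¹ * b⁻¹ = 1 ∨ a * b * a⁻¹ * b⁻¹ = z := by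
  refine (F.pv_eq_zero (mul_mem (mul_mem (mul_mem ha hb) (inv_mem ha)) (inv_mem hb))).1 ?_
  rw [F.pv_mul (mul_mem (mul_mem ha hb) (inv_mem ha)) (inv_mem hb),
    F.pv_mul (mul_mem ha hb) (inv_mem ha), F.pv_mul ha hb, F.pv_inv ha, F.pv_inv hb]
  funext i
  show F.pv a i + F.pv b i + F.pv a i + F.pv b i = 0
  generalize F.pv a i = c; generalize F.pv b i = d; revert c d; decide

variable [Finite G]

include F in
theorem z_mem (hQ : Nat.card Q = 8192) : z ∈ Qg Q := by
  by_contra hz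
  have hinj : Function.Injective F.psi := by
    intro q r h
    have h1 : F.psi (q * r⁻¹) = 0 := by
      have e := F.psi_mul (q * r⁻¹) r
      rw [inv_mul_cancel_right, h] at e
      exact right_eq_add.1 e
    rcases (F.psi_ker _).1 h1 with h2 | h2
    · exact mul_inv_eq_one.1 (Subtype.ext (Subtype.ext h2))
    · exact absurd (mem_Qg.2 ⟨_, h2⟩) hz
  haveI : Finite Q := inferInstance
  have hc := Nat.card_le_card_of_injective _ hinj
  rw [hQ] at hc
  have : Nat.card Vec ≤ 4096 := by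
    rw [← Nat.card_fin 4096]
    exact Nat.card_le_card_of_injective (fun x => (⟨enc x, enc_lt x⟩ : Fin 4096)) fun x y h => by
      have e := congrArg Fin.val h
      simp only at e
      rw [← vecN_enc x, e, vecN_enc]
  omega

omit [Finite G] in
/-- Commutation is read off from squares. -/
theorem commute_iff (hz : z ≠ 1) {a b : G} (ha : a ∈ Qg Q) (hb : b ∈ Qg Q) :
    a * b = b * a ↔ Eight.cm (enc (F.pv a)) (enc (F.pv b)) = true := by
  have hzc : ∀ x ∈ Qg Q, x * z = z * x := fun x hx => mem_cen.1 (Qg_le hx)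
  have hxor : enc (F.pv a) ^^^ enc (F.pv b) = enc (F.pv (a * b)) := by
    rw [F.pv_mul ha hb]
    conv_rhs => rw [← vecN_enc (F.pv a), ← vecN_enc (F.pv b), ← vecN_xor]
    rw [enc_vecN (Nat.xor_lt_two_pow (n := 12) (enc_lt _) (enc_lt _))]
  rw [Eight.cm, hxor, beq_iff_eq]
  have hA := F.qC_pv ha
  have hB := F.qC_pv hb
  have hAB := F.qC_pv (mul_mem ha hb)
  -- the square of the product
  have key : (a * b) * (a * b) = a * a * (b * b) * (a * b * a⁻¹ * b⁻¹)⁻¹ := by
    rcases F.comm_mem ha hb with h | h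
    · have e : a * b = b * a := by
        rwa [mul_inv_eq_one, mul_inv_eq_iff_eq_mul] at h
      rw [h, inv_one, mul_one, mul_assoc, ← mul_assoc b a b, ← e, mul_assoc, mul_assoc]
    · have e : a * b = z * (b * a) := by
        rw [← h]; group
      have zz : z⁻¹ * (a * a * (b * b)) = (a * a * (b * b)) * z⁻¹ := by
        have hm : a * a * (b * b) ∈ Qg Q := mul_mem (mul_mem ha ha) (mul_mem hb hb)
        rw [inv_mul_eq_iff_eq_mul, ← mul_assoc z, ← hzc _ hm, mul_inv_cancel_right]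
      rw [h, ← zz]
      have e2 : b * a = z⁻¹ * (a * b) := by rw [e]; group
      calc a * b * (a * b) = a * (b * a) * b := by group
        _ = (a * z⁻¹) * (a * b) * b := by rw [e2]; group
        _ = z⁻¹ * (a * a * (b * b)) := by
          rw [show a * z⁻¹ = z⁻¹ * a by
            rw [eq_inv_mul_iff_mul_eq, ← mul_assoc, ← hzc a ha, mul_inv_cancel_right]]
          group
  have hiff : a * b = b * a ↔ a * b * a⁻¹ * b⁻¹ = 1 := by
    rw [mul_inv_eq_one, mul_inv_eq_iff_eq_mul]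
  rw [hiff]
  have hz2 : ∀ x : G, x = 1 ∨ x = z → (x⁻¹ = 1 ↔ x = 1) := fun x _ => inv_eq_one
  rcases F.comm_mem ha hb with h | h
  · rw [h, inv_one, mul_one] at key
    refine ⟨fun _ => ?_, fun _ => h⟩
    rw [Bool.eq_iff_iff, hAB, beq_iff_eq, Bool.eq_iff_iff, hA, hB, key]
    rcases F.sq_mem ha with e1 | e1 <;> rcases F.sq_mem hb with e2 | e2
    · simp [e1, e2]
    · simp [e1, e2, hz]
    · simp [e1, e2, hz]
    · have hz1 : z * z = 1 := by
        have := F.sq_mem (a := a * a) (mul_mem ha ha)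
        rw [e1] at this
        rcases this with h' | h'
        · exact h'
        · exact absurd (mul_eq_left.1 h') hz
      simp [e1, e2, hz, hz1]
  · refine ⟨fun h' => absurd (h ▸ h') hz, fun hq => ?_⟩
    exfalso
    rw [h] at key
    rw [Bool.eq_iff_iff, hAB, beq_iff_eq, Bool.eq_iff_iff, hA, hB, key] at hq
    rcases F.sq_mem ha with e1 | e1 <;> rcases F.sq_mem hb with e2 | e2
    · simp [e1, e2, hz] at hq
    · simp [e1, e2, hz] at hq
    · simp [e1, e2, hz] at hq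
    · have hz1 : z * z = 1 := by
        have := F.sq_mem (a := a * a) (mul_mem ha ha)
        rw [e1] at this
        rcases this with h' | h'
        · exact h'
        · exact absurd (mul_eq_left.1 h') hz
      simp [e1, e2, hz, hz1] at hq

/-- A preimage of a set of vectors has twice as many elements. -/
theorem card_pre (hQ : Nat.card Q = 8192) (hz : z ≠ 1) (A : Subgroup G) (S : Set Vec) (n : ℕ)
    (hS : S.ncard = n) (hA : ∀ a, a ∈ A ↔ a ∈ Qg Q ∧ F.pv a ∈ S) : Nat.card A = 2 * n := by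
  let f : A →* Multiplicative Vec :=
    MonoidHom.mk' (fun a => Multiplicative.ofAdd (F.pv a)) fun a b => by
      rw [← ofAdd_add, ← F.pv_mul ((hA _).1 a.2).1 ((hA _).1 b.2).1]
      rfl
  have hr : Nat.card f.range = n := by
    rw [← hS, ← Nat.card_coe_set_eq]
    refine Nat.card_congr (Equiv.subtypeEquiv Multiplicative.toAdd fun x => ?_)
    constructor
    · rintro ⟨a, rfl⟩
      exact ((hA _).1 a.2).2
    · intro hx
      obtain ⟨a, ha, hax⟩ := F.pv_surj x.toAdd
      refine ⟨⟨a, (hA a).2 ⟨ha, ?_⟩⟩, ?_⟩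
      · rw [hax]; exact hx
      · show Multiplicative.ofAdd (F.pv a) = x
        rw [hax]
        rfl
  have h0 : (0 : Vec) ∈ S := by
    have := ((hA 1).1 (one_mem _)).2
    rwa [F.pv_one] at this
  have hzA : z ∈ A := (hA z).2 ⟨F.z_mem hQ, by
    rw [(F.pv_eq_zero (F.z_mem hQ)).2 (Or.inr rfl)]; exact h0⟩
  have hk : Nat.card f.ker = 2 := by
    rw [Nat.card_eq_two_iff]
    refine ⟨1, ⟨⟨z, hzA⟩, ?_⟩, ?_, ?_⟩
    · rw [MonoidHom.mem_ker]
      exact congrArg Multiplicative.ofAdd ((F.pv_eq_zero (F.z_mem hQ)).2 (Or.inr rfl))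
    · intro h
      exact hz (congrArg (fun x : f.ker => ((x : A) : G)) h).symm
    · refine Set.eq_univ_iff_forall.2 fun ⟨a, ha⟩ => ?_
      have e : F.pv a = 0 := MonoidHom.mem_ker.1 ha
      rcases (F.pv_eq_zero ((hA _).1 a.2).1).1 e with h | h
      · exact Or.inl (Subtype.ext (Subtype.ext h))
      · exact Or.inr (Subtype.ext (Subtype.ext h))
  rw [← Subgroup.card_mul_index f.ker, Subgroup.index_ker, hk, hr]

end Frame

end Cfsg.Agent.LargeFischer
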