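import Cfsg.Agent.LargeFischer.EightFrame

/-!
The elementary group of order eight in a group of large Fischer type: its position in `Q` and in a
conjugate of `Q`.
-/

set_option autoImplicit false
set_option maxRecDepth 100000

namespace Cfsg.Agent.LargeFischer.Eight

open Cfsg
open Cfsg.Agent.CosetCert Cfsg.Agent.GFour25
open Cfsg.Agent.SporB.FischerU (Vec SUSix vecN enc vecN_enc enc_lt)
open Cfsg.Agent.TTClass

/-- What is known of the conjugates of `z` in `Q`, in a normalised frame. -/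
structure Setup {G : Type*} [Group G] (z : G) (Q : Subgroup (Subgroup.centralizer ({z} : Set G)))
    [Q.Normal] where
  F : Frame z Q
  big_eq : F.big.map F.rho = Kc
  range_eq : F.rho.range = Ke
  ord : orderOf z = 2
  cardQ : Nat.card Q = 8192
  g : G
  s : G
  hg : g * z * g⁻¹ = s
  hsQ : s ∈ Qg Q
  hw : F.pv s = vecN Data.repW
  inter_card : Nat.card ↥(Qg Q ⊓ conjS g (Qg Q)) = 128
  image_card : ∀ (f : ↥(conjS g (Qg Q) ⊓ Subgroup.centralizer ({z} : Set G)) →* Equiv.Perm Vec),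
    (∀ x, f x = F.rg x) → Nat.card f.range = 32
  trans : ∀ a b : G, a ∈ Qg Q → b ∈ Qg Q → IsConj z a → IsConj z b → a ≠ z → b ≠ z →
    ∃ h ∈ Subgroup.centralizer ({z} : Set G), h * a * h⁻¹ = b

section general

variable {G : Type*} [Group G]

theorem conjS_mul (a b : G) (S : Subgroup G) : conjS (a * b) S = conjS a (conjS b S) := by
  rw [conjS, conjS, conjS, Subgroup.map_map]
  congr 1
  ext x
  simp [MulAut.conj_apply, mul_assoc]

theorem card_conjS (a : G) (S : Subgroup G) : Nat.card ↥(conjS a S) = Nat.card S :=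
  Nat.card_congr (S.equivMapOfInjective _ (MulAut.conj a).injective).symm.toEquiv

theorem conjS_eq_of_le [Finite G] {a : G} {S : Subgroup G} (h : ∀ x ∈ S, a * x * a⁻¹ ∈ S) :
    conjS a S = S :=
  Subgroup.eq_of_le_of_card_ge (by rintro _ ⟨x, hx, rfl⟩; exact h x hx) (card_conjS a S).ge

theorem mem_norm_of_le [Finite G] {a : G} {S : Subgroup G} (h : ∀ x ∈ S, a * x * a⁻¹ ∈ S) :
    a ∈ Subgroup.normalizer (S : Set G) := by
  rw [Subgroup.mem_normalizer_iff]
  intro x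
  refine ⟨h x, fun hx => ?_⟩
  rw [← conjS_eq_of_le h] at hx
  obtain ⟨y, hy, hyx⟩ := hx
  rwa [show y = x from (MulAut.conj a).injective hyx] at hy

theorem half_pow {x : G} (h : Odd (orderOf x)) : (x ^ ((orderOf x + 1) / 2)) * (x ^ ((orderOf x + 1) / 2)) = x := by
  obtain ⟨c, hc⟩ := h
  rw [← pow_add, show (orderOf x + 1) / 2 + (orderOf x + 1) / 2 = orderOf x + 1 by omega, pow_succ,
    pow_orderOf_eq_one, one_mul]

/-- An element of odd order whose square commutes with an element commutes with it. -/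
theorem comm_of_sq {x a : G} (h : Odd (orderOf x)) (hsq : x * x * a = a * (x * x)) :
    x * a = a * x := by
  obtain ⟨c, hc⟩ := h
  have h1 : Commute (x * x) a := hsq
  have h2 := h1.pow_left (c + 1)
  have e : (x * x) ^ (c + 1) = x := by
    rw [← pow_two, ← pow_mul, show 2 * (c + 1) = orderOf x + 1 by omega, pow_succ,
      pow_orderOf_eq_one, one_mul]
  rwa [e] at h2

end general

theorem scal_line {x : Vec} (hx : InLine x) : InLine (om • x) := by
  have h : ∀ v : ℕ, onLine v = true → v < 4096 → onLine (scC om v) = true := by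
    intro v h _
    simp only [onLine, Bool.or_eq_true] at h
    rcases h with ((h | h) | h) | h <;> rw [Nat.eq_of_beq_eq_true h] <;> decide +kernel
  have h1 := h _ hx (enc_lt x)
  rwa [scC, vecN_enc] at h1

/-- The order of the semilinear extension, from a normalised frame. -/
theorem card_Ke_of {G : Type*} [Group G] {z : G}
    {Q : Subgroup (Subgroup.centralizer ({z} : Set G))} [Q.Normal] (F : Frame z Q)
    (hbig : F.big.map F.rho = Kc) (hrange : F.rho.range = Ke) (h1 : Nat.card Kc = 9797760) :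
    Nat.card Ke = 19595520 := by
  have hle : F.rho.ker ≤ F.big := by
    intro c hc
    by_contra hcb
    have hm : F.rho c ∈ F.big.map F.rho := ⟨1, one_mem _, by rw [map_one, MonoidHom.mem_ker.1 hc]⟩
    -- the whole centraliser would map into the cover
    have hall : F.rho.range ≤ F.big.map F.rho := by
      rintro _ ⟨x, rfl⟩
      by_cases hx : x ∈ F.big
      · exact ⟨x, hx, rfl⟩
      · refine ⟨x * c, ?_, by rw [map_mul, MonoidHom.mem_ker.1 hc, mul_one]⟩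
        show x * c ∈ F.big
        rw [Subgroup.mul_mem_iff_of_index_two F.big_index]
        exact ⟨fun h' => absurd h' hx, fun h' => absurd h' hcb⟩
    rw [hrange, hbig] at hall
    have hmem : outE ∈ Kc := hall (Subgroup.mem_sup_right (Subgroup.mem_zpowers _))
    exact outE_facts.2.1 (fix_line (Kc_linear hmem) outE_facts.1 inLine_w.2)
  have hmap := F.big.index_map_eq (f := F.rho.rangeRestrict)
    F.rho.rangeRestrict_surjective (by rwa [MonoidHom.ker_rangeRestrict])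
  rw [F.big_index] at hmap
  have hc := Subgroup.card_mul_index (F.big.map F.rho.rangeRestrict)
  rw [hmap] at hc
  have e : Nat.card ↥(F.big.map F.rho.rangeRestrict) = 9797760 := by
    rw [← h1, ← hbig,
      Nat.card_congr ((F.big.map F.rho.rangeRestrict).equivMapOfInjective
        F.rho.range.subtype Subtype.val_injective).toEquiv, Subgroup.map_map,
      MonoidHom.subtype_comp_rangeRestrict]
  rw [e, hrange] at hc
  omega


namespace Setup

variable {G : Type*} [Group G] {z : G} {Q : Subgroup (Subgroup.centralizer ({z} : Set G))}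
  [Q.Normal] (D : Setup z Q)

/-- The conjugate of `Q`. -/
def Qs : Subgroup G := conjS D.g (Qg Q)

/-- The centraliser of both involutions. -/
def Cb : Subgroup G := Subgroup.centralizer ({z} : Set G) ⊓ Subgroup.centralizer ({D.s} : Set G)

/-- Generated by the elements of odd order of the centraliser of both involutions. -/
def U : Subgroup G := Subgroup.closure {x | x ∈ D.Cb ∧ Odd (orderOf x)}

/-- The group of order eight. -/
def V : Subgroup G := Qg Q ⊓ Subgroup.centralizer (D.U : Set G)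

include D in
theorem z_ne : z ≠ 1 := fun h => by
  have := D.ord
  rw [h, orderOf_one] at this
  omega

include D in
theorem z_sq : z * z = 1 := by
  have h := pow_orderOf_eq_one z
  rwa [D.ord, pow_two] at h

theorem s_mem_C : D.s ∈ Subgroup.centralizer ({z} : Set G) := Qg_le D.hsQ

theorem s_ne_z : D.s ≠ z := fun h => by
  have e := D.hw
  have hq := D.hsQ
  rw [h] at e hq
  rw [(D.F.pv_eq_zero hq).2 (Or.inr rfl)] at e
  exact rep_props.2.1 e.symm

theorem mem_Cs_conj {x : G} (hx : x ∈ Subgroup.centralizer ({z} : Set G)) :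
    D.g * x * D.g⁻¹ ∈ Subgroup.centralizer ({D.s} : Set G) := by
  rw [mem_cen] at hx ⊢
  rw [← D.hg]
  simp only [mul_assoc, inv_mul_cancel_left]
  rw [← mul_assoc x, hx, mul_assoc]

theorem of_mem_Cs {x : G} (hx : x ∈ Subgroup.centralizer ({D.s} : Set G)) :
    D.g⁻¹ * x * D.g ∈ Subgroup.centralizer ({z} : Set G) := by
  refine mem_cen.2 ?_
  have hx' := mem_cen.1 hx
  calc D.g⁻¹ * x * D.g * z = D.g⁻¹ * (x * (D.g * z * D.g⁻¹)) * D.g := by group
    _ = D.g⁻¹ * (D.s * x) * D.g := by rw [D.hg, hx']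
    _ = z * (D.g⁻¹ * x * D.g) := by rw [← D.hg]; group

theorem Qs_le : D.Qs ≤ Subgroup.centralizer ({D.s} : Set G) := by
  rintro _ ⟨a, ha, rfl⟩
  exact D.mem_Cs_conj (Qg_le ha)

theorem conjS_Qs {x : G} (hx : x ∈ Subgroup.centralizer ({D.s} : Set G)) :
    conjS x D.Qs = D.Qs := by
  rw [Qs, ← conjS_mul, show x * D.g = D.g * (D.g⁻¹ * x * D.g) by group, conjS_mul,
    conjS_Qg (D.of_mem_Cs hx)]

/-- The action restricted to a subgroup of the centraliser. -/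
noncomputable def rgHom (S : Subgroup G) (hS : S ≤ Subgroup.centralizer ({z} : Set G)) :
    S →* Equiv.Perm Vec :=
  MonoidHom.mk' (fun x => D.F.rg x) fun x y => D.F.rg_mul (hS x.2) (hS y.2)

theorem card_rgHom (S : Subgroup G) (hS : S ≤ Subgroup.centralizer ({z} : Set G)) :
    Nat.card S = Nat.card (D.rgHom S hS).range * Nat.card ↥(S ⊓ Qg Q) := by
  have e : (D.rgHom S hS).ker = (S ⊓ Qg Q).subgroupOf S := by
    ext x
    rw [MonoidHom.mem_ker, Subgroup.mem_subgroupOf, Subgroup.mem_inf]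
    exact ⟨fun h => ⟨x.2, (D.F.rg_eq_one (hS x.2)).1 h⟩, fun h => (D.F.rg_eq_one (hS x.2)).2 h.2⟩
  rw [← Subgroup.card_mul_index (D.rgHom S hS).ker, Subgroup.index_ker, mul_comm, e,
    Nat.card_congr (Subgroup.subgroupOfEquivOfLe inf_le_left).toEquiv]

include D in
theorem z_mem_Qg [Finite G] : z ∈ Qg Q := D.F.z_mem D.cardQ

theorem card_Qg (D : Setup z Q) : Nat.card ↥(Qg Q) = 8192 := by
  rw [← D.cardQ]
  exact Nat.card_congr (Q.equivMapOfInjective _ Subtype.val_injective).symm.toEquiv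

theorem card_Qs : Nat.card ↥D.Qs = 8192 := by rw [Qs, card_conjS, D.card_Qg]

theorem commute_iff {a b : G} (ha : a ∈ Qg Q) (hb : b ∈ Qg Q) :
    a * b = b * a ↔ cm (enc (D.F.pv a)) (enc (D.F.pv b)) = true :=
  D.F.commute_iff D.z_ne ha hb

theorem conj_cases {x a : G} (hx : x ∈ Subgroup.centralizer ({z} : Set G)) (ha : a ∈ Qg Q)
    (h : D.F.rg x (D.F.pv a) = D.F.pv a) : x * a * x⁻¹ = a ∨ x * a * x⁻¹ = a * z := by
  have hm := conj_Qg hx ha
  have h0 : D.F.pv (a⁻¹ * (x * a * x⁻¹)) = 0 := by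
    rw [D.F.pv_mul (inv_mem ha) hm, D.F.pv_inv ha, D.F.pv_conj hx ha, h]
    funext i
    show D.F.pv a i + D.F.pv a i = 0
    generalize D.F.pv a i = c; revert c; decide
  rcases (D.F.pv_eq_zero (mul_mem (inv_mem ha) hm)).1 h0 with e | e
  · exact Or.inl (inv_mul_eq_one.1 e).symm
  · exact Or.inr (inv_mul_eq_iff_eq_mul.1 e)

theorem twist_conj {x a : G} (hx : x ∈ Qg Q) (ha : a ∈ Qg Q)
    (h : cm (enc (D.F.pv x)) (enc (D.F.pv a)) = false) : x * a * x⁻¹ = a * z := by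
  rcases D.conj_cases (Qg_le hx) ha (by rw [(D.F.rg_eq_one (Qg_le hx)).2 hx]; rfl) with e | e
  · rw [mul_inv_eq_iff_eq_mul] at e
    rw [(D.commute_iff hx ha).1 e] at h
    exact absurd h (by decide)
  · exact e

theorem fix_of_comm {x a : G} (hx : x ∈ Subgroup.centralizer ({z} : Set G)) (ha : a ∈ Qg Q)
    (h : x * a = a * x) : D.F.rg x (D.F.pv a) = D.F.pv a := by
  rw [← D.F.pv_conj hx ha, h, mul_inv_cancel_right]

theorem fix_w {x : G} (hx : x ∈ D.Cb) : D.F.rg x (vecN Data.repW) = vecN Data.repW := by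
  rw [← D.hw]
  exact D.fix_of_comm hx.1 D.hsQ (mem_cen.1 hx.2)

theorem rg_mem_stab {x : G} (hx : x ∈ D.Cb) : D.F.rg x ∈ Ke ⊓ stabV Data.repW :=
  ⟨D.range_eq ▸ D.F.rg_mem_range hx.1, D.fix_w hx⟩

/-- An element of the image fixing the vector comes from the centraliser of both involutions. -/
theorem exists_lift {k : Equiv.Perm Vec} (hk : k ∈ Ke) (hw : k (vecN Data.repW) = vecN Data.repW) :
    ∃ x ∈ D.Cb, D.F.rg x = k := by
  obtain ⟨x, hx, rfl⟩ := D.F.exists_rg (D.range_eq.symm ▸ hk)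
  rcases D.conj_cases hx D.hsQ (by rw [D.hw]; exact hw) with e | e
  · exact ⟨x, ⟨hx, mem_cen.2 (mul_inv_eq_iff_eq_mul.1 e)⟩, rfl⟩
  · obtain ⟨q, hq, hqv⟩ := D.F.pv_surj (vecN 32)
    have hq' : q * D.s * q⁻¹ = D.s * z := D.twist_conj hq D.hsQ (by
      rw [hqv, D.hw, enc_vecN (by norm_num), enc_vecN repW_lt, base_facts.1]
      exact base_facts.2.2.2.2.1)
    have hqx : x * q ∈ Subgroup.centralizer ({z} : Set G) := mul_mem hx (Qg_le hq)
    refine ⟨x * q, ⟨hqx, mem_cen.2 (mul_inv_eq_iff_eq_mul.1 ?_)⟩, by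
      rw [D.F.rg_mul hx (Qg_le hq), (D.F.rg_eq_one (Qg_le hq)).2 hq, mul_one]⟩
    calc x * q * D.s * (x * q)⁻¹ = x * (q * D.s * q⁻¹) * x⁻¹ := by group
      _ = x * D.s * x⁻¹ * (x * z * x⁻¹) := by rw [hq']; group
      _ = D.s := by
        rw [e, mem_cen.1 hx, mul_inv_cancel_right, mul_assoc, D.z_sq, mul_one]

include D in
theorem range_cases {k : Equiv.Perm Vec} (hk : k ∈ Ke) : k ∈ Kc ∨ k * outE⁻¹ ∈ Kc := by
  rw [← D.range_eq] at hk
  obtain ⟨c, rfl⟩ := hk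
  have ho : outE ∈ D.F.rho.range := by
    rw [D.range_eq]
    exact Subgroup.mem_sup_right (Subgroup.mem_zpowers _)
  obtain ⟨c0, hc0⟩ := ho
  have h0 : c0 ∉ D.F.big := fun h => by
    have hm : outE ∈ Kc := D.big_eq ▸ ⟨c0, h, hc0⟩
    exact outE_facts.2.1 (fix_line (Kc_linear hm) outE_facts.1 inLine_w.2)
  by_cases h : c ∈ D.F.big
  · exact Or.inl (D.big_eq ▸ ⟨c, h, rfl⟩)
  · refine Or.inr (D.big_eq ▸ ⟨c * c0⁻¹, ?_, by rw [map_mul, map_inv, hc0]⟩)
    show c * c0⁻¹ ∈ D.F.big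
    rw [Subgroup.mul_mem_iff_of_index_two D.F.big_index, inv_mem_iff]
    exact ⟨fun h' => absurd h' h, fun h' => absurd h' h0⟩

include D in
theorem card_groups : Nat.card Kc = 9797760 ∧ Nat.card Ke = 19595520 := by
  have h1 : Nat.card Kc = 9797760 := by
    rw [← D.big_eq, ← D.F.lin_eq, ← D.F.lin_card]
    exact Nat.card_congr (D.F.lin.equivMapOfInjective _ actHom_injective).symm.toEquiv
  exact ⟨h1, card_Ke_of D.F D.big_eq D.range_eq h1⟩

include D in
theorem card_stab :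
    Nat.card ↥(Kc ⊓ stabV Data.repW) = 5760 ∧ Nat.card ↥(Ke ⊓ stabV Data.repW) = 11520 :=
  ⟨(card_stabs_W D.card_groups.1 D.card_groups.2).1, (card_stabs_W D.card_groups.1 D.card_groups.2).2.1⟩

variable [Finite G]

theorem z_mem_Qs : z ∈ D.Qs := by
  set z' := D.g⁻¹ * z * D.g with hz'
  have hzs : z ∈ Subgroup.centralizer ({D.s} : Set G) :=
    mem_cen.2 (mem_cen.1 D.s_mem_C).symm
  have hzC : z' ∈ Subgroup.centralizer ({z} : Set G) := D.of_mem_Cs hzs
  suffices h : z' ∈ Qg Q by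
    have := conj_mem_conjS (g := D.g) h
    rwa [hz', show D.g * (D.g⁻¹ * z * D.g) * D.g⁻¹ = z by group] at this
  rw [← D.F.rg_eq_one hzC]
  obtain ⟨k, hk⟩ : ∃ k, k = D.F.rg z' := ⟨_, rfl⟩
  rw [← hk]
  obtain ⟨b, hb⟩ : k ∈ semiU := by
    obtain ⟨c, hc⟩ : ∃ c, D.F.rho c = k := ⟨⟨z', hzC⟩, by rw [hk, ← Frame.rg_coe]⟩
    exact hc ▸ D.F.rho_semi c
  -- a large subgroup of Q is centralised
  let T : Subgroup G := conjS D.g⁻¹ (D.Qs ⊓ Subgroup.centralizer ({z} : Set G))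
  have hT : Nat.card T = 4096 := by
    have e0 : Nat.card (D.rgHom (D.Qs ⊓ Subgroup.centralizer ({z} : Set G)) inf_le_right).range = 32 :=
      D.image_card _ fun _ => rfl
    rw [card_conjS, D.card_rgHom _ inf_le_right, e0]
    have e : D.Qs ⊓ Subgroup.centralizer ({z} : Set G) ⊓ Qg Q = Qg Q ⊓ conjS D.g (Qg Q) :=
      le_antisymm (fun x hx => ⟨hx.2, hx.1.1⟩) fun x hx => ⟨⟨hx.2, Qg_le hx.1⟩, hx.1⟩
    rw [e, D.inter_card]
  let W0 : Subgroup G :=
    { carrier := {a | a ∈ Qg Q ∧ k (D.F.pv a) = D.F.pv a}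
      one_mem' := ⟨one_mem _, by rw [D.F.pv_one, hk, ← D.F.pv_one, ← D.F.pv_conj hzC (one_mem _)]; simp⟩
      mul_mem' := fun {a c} ha hc => ⟨mul_mem ha.1 hc.1, by
        rw [D.F.pv_mul ha.1 hc.1, hb.1, ha.2, hc.2]⟩
      inv_mem' := fun {a} ha => ⟨inv_mem ha.1, by rw [D.F.pv_inv ha.1, ha.2]⟩ }
  have hTW : T ≤ W0 := by
    rintro _ ⟨x, ⟨hx, hxz⟩, rfl⟩
    have hxQ : D.g⁻¹ * x * D.g ∈ Qg Q := mem_conjS.1 hx
    show _ ∧ _
    simp only [MulEquiv.coe_toMonoidHom, MulAut.conj_apply, inv_inv]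
    refine ⟨hxQ, ?_⟩
    rw [hk]
    refine D.fix_of_comm hzC hxQ ?_
    rw [hz']
    simp only [mul_assoc, mul_inv_cancel_left]
    rw [← mul_assoc z, ← mem_cen.1 hxz, mul_assoc]
  by_contra hne
  have hW : W0 ≤ Qg Q := fun a ha => ha.1
  have hidx : (W0.subgroupOf (Qg Q)).index = 2 := by
    have h1 := Subgroup.card_mul_index (W0.subgroupOf (Qg Q))
    rw [Nat.card_congr (Subgroup.subgroupOfEquivOfLe hW).toEquiv, D.card_Qg] at h1
    have h2 := Subgroup.card_le_of_le hTW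
    rw [hT] at h2
    have h3 : (W0.subgroupOf (Qg Q)).index ≠ 1 := by
      rw [ne_eq, Subgroup.index_eq_one, Subgroup.subgroupOf_eq_top]
      intro hall
      refine hne (Equiv.ext fun v => ?_)
      obtain ⟨a, ha, rfl⟩ := D.F.pv_surj v
      exact (hall ha).2
    have h4 : (W0.subgroupOf (Qg Q)).index ≠ 0 := Subgroup.index_ne_zero_of_finite
    by_contra h5
    have : 3 ≤ (W0.subgroupOf (Qg Q)).index := by omega
    nlinarith
  have key : ∀ u v : Vec, (k u = u ↔ k v = v) → k (u + v) = u + v := by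
    intro u v huv
    obtain ⟨a, ha, rfl⟩ := D.F.pv_surj u
    obtain ⟨c, hc, rfl⟩ := D.F.pv_surj v
    have h1 : (⟨a * c, mul_mem ha hc⟩ : Qg Q) ∈ W0.subgroupOf (Qg Q) := by
      rw [show (⟨a * c, mul_mem ha hc⟩ : Qg Q) = ⟨a, ha⟩ * ⟨c, hc⟩ from rfl,
        Subgroup.mul_mem_iff_of_index_two hidx]
      exact ⟨fun h => ⟨hc, huv.1 h.2⟩, fun h => ⟨ha, huv.2 h.2⟩⟩
    rw [← D.F.pv_mul ha hc]
    exact h1.2
  have h0 : k 0 = 0 := by
    have := hb.1 0 0
    rw [add_zero] at this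
    exact left_eq_add.1 this
  cases b
  · refine hne (Equiv.ext fun v => ?_)
    show k v = v
    have hlin : ∀ (c : F4) x, k x = x → k (c • x) = c • x := fun c x hx => by
      rw [hb.2.1, hx]; rfl
    by_contra hv
    have hov : k (om • v) ≠ om • v := fun h => hv (by
      have := hlin (om ^ 2) _ h
      rwa [← mul_smul, show om ^ 2 * om = 1 by decide, one_smul] at this)
    have h2 := key (om • v) v ⟨fun h => absurd h hov, fun h => absurd h hv⟩
    have h3 : (om + 1) • v = om • v + v := by rw [add_smul, one_smul]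
    rw [← h3] at h2
    have := hlin om _ h2
    rw [← mul_smul, show om * (om + 1) = 1 by decide, one_smul] at this
    exact hv this
  · classical
    obtain ⟨i, j, hij, he⟩ := Fintype.exists_ne_map_eq_of_card_lt
      (fun i : Fin 5 => (decide (k (vecN i) = vecN i), decide (k (om • vecN i) = om • vecN i)))
      (by simp)
    simp only [Prod.mk.injEq, decide_eq_decide] at he
    have e1 := key _ _ he.1
    have e2 := key _ _ he.2
    rw [← smul_add, hb.2.1, e1] at e2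
    have hnz : vecN (i : ℕ) + vecN (j : ℕ) ≠ 0 := by
      rw [← vecN_xor]
      intro h
      have hlt : (i : ℕ) ^^^ (j : ℕ) < 4096 := Nat.xor_lt_two_pow (n := 12) (by omega) (by omega)
      have h1 := congrArg enc h
      rw [enc_vecN hlt, enc_zero, Nat.xor_eq_zero_iff] at h1
      exact hij (Fin.ext h1)
    obtain ⟨l, hl⟩ := Function.ne_iff.1 hnz
    have h2 := congrFun e2 l
    simp only [Pi.smul_apply, smul_eq_mul] at h2
    exact absurd (mul_right_cancel₀ hl h2) (by decide)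

theorem conj_exists : ∃ n : G, n * D.s * n⁻¹ = z ∧ n * z * n⁻¹ = D.s ∧
    conjS n (Qg Q) = D.Qs ∧ conjS n D.Qs = Qg Q := by
  have hz : D.g⁻¹ * z * D.g ∈ Qg Q := mem_conjS.1 D.z_mem_Qs
  have hne : D.g⁻¹ * z * D.g ≠ z := fun h => D.s_ne_z (calc
    D.s = D.g * z * D.g⁻¹ := D.hg.symm
    _ = D.g * (D.g⁻¹ * z * D.g) * D.g⁻¹ := by rw [h]
    _ = z := by group)
  obtain ⟨h, hh, he⟩ := D.trans D.s (D.g⁻¹ * z * D.g) D.hsQ hz
    (isConj_iff.2 ⟨D.g, D.hg⟩) (isConj_iff.2 ⟨D.g⁻¹, by rw [inv_inv]⟩) D.s_ne_z hne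
  have e1 : D.g * h * D.s * (D.g * h)⁻¹ = z := by
    rw [show D.g * h * D.s * (D.g * h)⁻¹ = D.g * (h * D.s * h⁻¹) * D.g⁻¹ by group, he]
    group
  have e2 : D.g * h * z * (D.g * h)⁻¹ = D.s := by
    rw [show D.g * h * z * (D.g * h)⁻¹ = D.g * (h * z * h⁻¹) * D.g⁻¹ by group, mem_cen.1 hh,
      mul_inv_cancel_right, D.hg]
  have e3 : conjS (D.g * h) (Qg Q) = D.Qs := by rw [conjS_mul, conjS_Qg hh]; rfl
  refine ⟨D.g * h, e1, e2, e3, ?_⟩
  rw [← e3, ← conjS_mul]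
  refine conjS_Qg (mem_cen.2 (mul_inv_eq_iff_eq_mul.1 ?_))
  rw [show D.g * h * (D.g * h) * z * (D.g * h * (D.g * h))⁻¹ =
    D.g * h * (D.g * h * z * (D.g * h)⁻¹) * (D.g * h)⁻¹ by group, e2, e1]

/-- The element swapping the two involutions. -/
noncomputable def n : G := D.conj_exists.choose

theorem n_spec : D.n * D.s * D.n⁻¹ = z ∧ D.n * z * D.n⁻¹ = D.s ∧
    conjS D.n (Qg Q) = D.Qs ∧ conjS D.n D.Qs = Qg Q :=
  D.conj_exists.choose_spec

theorem n_Cb {x : G} (hx : x ∈ D.Cb) : D.n * x * D.n⁻¹ ∈ D.Cb := by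
  obtain ⟨h1, h2, -, -⟩ := D.n_spec
  have a := mem_cen.1 hx.1
  have b := mem_cen.1 hx.2
  refine ⟨mem_cen.2 ?_, mem_cen.2 ?_⟩
  · calc D.n * x * D.n⁻¹ * z = D.n * x * D.n⁻¹ * (D.n * D.s * D.n⁻¹) := by rw [h1]
      _ = D.n * (x * D.s) * D.n⁻¹ := by group
      _ = (D.n * D.s * D.n⁻¹) * (D.n * x * D.n⁻¹) := by rw [b]; group
      _ = z * (D.n * x * D.n⁻¹) := by rw [h1]
  · calc D.n * x * D.n⁻¹ * D.s = D.n * x * D.n⁻¹ * (D.n * z * D.n⁻¹) := by rw [h2]
      _ = D.n * (x * z) * D.n⁻¹ := by group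
      _ = (D.n * z * D.n⁻¹) * (D.n * x * D.n⁻¹) := by rw [a]; group
      _ = D.s * (D.n * x * D.n⁻¹) := by rw [h2]

theorem n_U {x : G} (hx : x ∈ D.U) : D.n * x * D.n⁻¹ ∈ D.U := by
  have : D.U ≤ D.U.comap (MulAut.conj D.n).toMonoidHom := by
    conv_lhs => rw [U]
    rw [Subgroup.closure_le]
    rintro y ⟨hy, ho⟩
    refine Subgroup.subset_closure ⟨D.n_Cb hy, ?_⟩
    rwa [orderOf_injective _ (MulAut.conj D.n).injective y]
  exact this hx

theorem U_le : D.U ≤ D.Cb := (Subgroup.closure_le _).2 fun _ h => h.1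

theorem exists_odd {k : Equiv.Perm Vec} (hk : k ∈ Kc) (hw : k (vecN Data.repW) = vecN Data.repW)
    (h3 : k ^ 3 = 1) : ∃ u ∈ D.U, D.F.rg u = k := by
  obtain ⟨x, hx, rfl⟩ := D.exists_lift (Kc_le_Ke hk) hw
  obtain ⟨e, m, hm, he⟩ := Nat.exists_eq_two_pow_mul_odd (orderOf_pos x).ne'
  refine ⟨x ^ (4 ^ e), Subgroup.subset_closure ⟨pow_mem hx _, ?_⟩, ?_⟩
  · refine Odd.of_dvd_nat hm (orderOf_dvd_of_pow_eq_one ?_)
    rw [← pow_mul, show 4 ^ e * m = orderOf x * 2 ^ e by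
      rw [he, show (4 : ℕ) ^ e = 2 ^ e * 2 ^ e by rw [← mul_pow]; norm_num]; ring, pow_mul, pow_orderOf_eq_one,
      one_pow]
  · rw [D.F.rg_pow hx.1, ← Nat.mod_add_div (4 ^ e) 3, pow_add, pow_mul _ 3, h3, one_pow, mul_one,
      Nat.pow_mod, show 4 % 3 = 1 from rfl, one_pow, show 1 % 3 = 1 from rfl, pow_one]

theorem odd_fix_line {x : G} (hx : x ∈ D.Cb) (ho : Odd (orderOf x)) {v : Vec} (hv : InLine v) :
    D.F.rg x v = v := by
  have hy : x ^ ((orderOf x + 1) / 2) ∈ D.Cb := pow_mem hx _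
  obtain ⟨b, hb⟩ := Kall_le_semiU (Ke_le_Kall (D.range_eq ▸ D.F.rg_mem_range hy.1))
  have h2 : IsSemi false (D.F.rg x) := by
    have := hb.mul hb
    rwa [Bool.xor_self, ← D.F.rg_mul hy.1 hy.1, half_pow ho] at this
  exact fix_line h2 (D.fix_w hx) hv

theorem mem_V {a : G} : a ∈ D.V ↔ a ∈ Qg Q ∧ InLine (D.F.pv a) := by
  constructor
  · intro ha
    refine ⟨ha.1, ?_⟩
    obtain ⟨⟨g1, p1⟩, ⟨g2, p2⟩, hfix⟩ := gen_facts
    obtain ⟨u, hu, e1⟩ := D.exists_odd g1.1 g1.2 p1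
    obtain ⟨v, hv, e2⟩ := D.exists_odd g2.1 g2.2 p2
    refine hfix _ ?_ ?_
    · rw [← e1]
      exact D.fix_of_comm (D.U_le hu).1 ha.1 (Subgroup.mem_centralizer_iff.1 ha.2 u hu)
    · rw [← e2]
      exact D.fix_of_comm (D.U_le hv).1 ha.1 (Subgroup.mem_centralizer_iff.1 ha.2 v hv)
  · rintro ⟨ha, hl⟩
    refine ⟨ha, ?_⟩
    have hle : D.U ≤ Subgroup.centralizer ({a} : Set G) := by
      rw [U, Subgroup.closure_le]
      rintro x ⟨hx, ho⟩
      rw [SetLike.mem_coe, mem_cen]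
      refine comm_of_sq ho ?_
      rcases D.conj_cases hx.1 ha (D.odd_fix_line hx ho hl) with e | e
      · have e' := mul_inv_eq_iff_eq_mul.1 e
        rw [mul_assoc, e', ← mul_assoc, e', mul_assoc]
      · refine mul_inv_eq_iff_eq_mul.1 ?_
        rw [show x * x * a * (x * x)⁻¹ = x * (x * a * x⁻¹) * x⁻¹ by group, e,
          show x * (a * z) * x⁻¹ = (x * a * x⁻¹) * (x * z * x⁻¹) by group, e, mem_cen.1 hx.1,
          mul_inv_cancel_right, mul_assoc, D.z_sq, mul_one]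
    exact Subgroup.mem_centralizer_iff.2 fun x hx => mem_cen.1 (hle hx)

theorem s_mem_V : D.s ∈ D.V := D.mem_V.2 ⟨D.hsQ, by rw [D.hw]; exact inLine_w.1⟩

theorem z_mem_V : z ∈ D.V := D.mem_V.2 ⟨D.z_mem_Qg, by
  rw [(D.F.pv_eq_zero D.z_mem_Qg).2 (Or.inr rfl), InLine, enc_zero]
  rfl⟩

theorem V_sq {a : G} (ha : a ∈ D.V) : a * a = 1 :=
  (D.F.qC_pv ha.1).1 (line_spec (enc_lt _) (D.mem_V.1 ha).2).1

theorem V_comm {a b : G} (ha : a ∈ D.V) (hb : b ∈ D.V) : a * b = b * a := by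
  have h := D.V_sq (mul_mem ha hb)
  rw [mul_eq_one_iff_eq_inv, mul_inv_rev, inv_eq_of_mul_eq_one_right (D.V_sq ha),
    inv_eq_of_mul_eq_one_right (D.V_sq hb)] at h
  exact h

theorem V_elementary : Cfsg.IsElementaryAbelian 2 D.V :=
  ⟨⟨⟨fun a b => Subtype.ext (D.V_comm a.2 b.2)⟩⟩, fun a ha => by rw [pow_two]; exact D.V_sq ha⟩

theorem card_V : Nat.card D.V = 8 :=
  D.F.card_pre D.cardQ D.z_ne D.V {x | InLine x} 4
    (by
      rw [← line_count]
      exact ncard_eq_cnt fun m hm => by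
        show onLine (enc (vecN m)) = true ↔ _
        rw [enc_vecN hm])
    fun a => D.mem_V

theorem image_cases {x : G} (hx : x ∈ D.Qs) (hxz : x ∈ Subgroup.centralizer ({z} : Set G)) :
    ∃ a, D.F.rg x = el (SixAct.iK a) ∨ D.F.rg x = el (SixAct.iK a) * outE := by
  open SixAct in
  obtain ⟨hK, hX⟩ := D.card_stab
  have hsub : D.Qs ⊓ Subgroup.centralizer ({z} : Set G) ≤ D.Cb := fun y hy => ⟨hy.2, D.Qs_le hy.1⟩
  set f := D.rgHom (D.Qs ⊓ Subgroup.centralizer ({z} : Set G)) inf_le_right with hf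
  have hE : f.range ≤ Ke ⊓ stabV Data.repW := by
    rintro _ ⟨y, rfl⟩
    exact D.rg_mem_stab (hsub y.2)
  have hn : ∀ u ∈ Ke ⊓ stabV Data.repW, ∀ y ∈ f.range, u * y * u⁻¹ ∈ f.range := by
    rintro u ⟨hu, hus⟩ _ ⟨y, rfl⟩
    obtain ⟨c, hc, rfl⟩ := D.exists_lift hu hus
    have hy1 : c * (y : G) * c⁻¹ ∈ D.Qs := by
      have := conj_mem_conjS (g := c) y.2.1
      rwa [D.conjS_Qs hc.2] at this
    have hy2 : c * (y : G) * c⁻¹ ∈ Subgroup.centralizer ({z} : Set G) :=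
      mul_mem (mul_mem hc.1 y.2.2) (inv_mem hc.1)
    refine ⟨⟨_, hy1, hy2⟩, ?_⟩
    show D.F.rg (c * (y : G) * c⁻¹) = _
    rw [D.F.rg_mul (mul_mem hc.1 y.2.2) (inv_mem hc.1), D.F.rg_mul hc.1 y.2.2, D.F.rg_inv hc.1]
    rfl
  have h2 : IsPGroup 2 ↥f.range := by
    have hQs : IsPGroup 2 ↥D.Qs := IsPGroup.of_card (n := 13) (by rw [D.card_Qs]; norm_num)
    exact (hQs.to_le inf_le_left).of_surjective f.rangeRestrict f.rangeRestrict_surjective
  obtain ⟨hm, hfw, -⟩ := ext_checks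
  have hMo : Maps outE 1 := maps_isEl isEl_outE hm
  have hs : outE ∈ stabV Data.repW := fix_repW isEl_outE hfw
  have hT : Ke ⊓ stabV Data.repW ≤ setStab ⊤ := by
    rw [show Ke = Kc ⊔ Subgroup.zpowers outE from rfl, eq_sup hK hX hs outE_not_mem]
    exact sup_le ((stab_le_alt hK).trans (setStab_mono le_top))
      (Subgroup.zpowers_le.2 ⟨1, Subgroup.mem_top _, hMo⟩)
  have hker := le_ker hT (inf_le_inf_right _ Kc_le_Ke) hE hn h2
  have hmem : D.F.rg x ∈ f.range := ⟨⟨x, hx, hxz⟩, rfl⟩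
  have h1 := hker (show (⟨D.F.rg x, hE hmem⟩ : ↥(Ke ⊓ stabV Data.repW)) ∈
    f.range.subgroupOf (Ke ⊓ stabV Data.repW) from hmem)
  obtain ⟨σ, -, hσ⟩ := hT (hE hmem)
  rw [MonoidHom.mem_ker, MonoidHom.comp_apply,
    phi_eq (g := Subgroup.inclusion hT ⟨D.F.rg x, hE hmem⟩) hσ] at h1
  subst h1
  rcases D.range_cases (hE hmem).1 with h | h
  · obtain ⟨a, ha⟩ := exists_iK hK ⟨h, (hE hmem).2⟩ hσ
    exact ⟨a, Or.inl ha⟩
  · have hoi : outE⁻¹ ∈ setStab (⊥ : Subgroup (Equiv.Perm (Fin 6))) :=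
      inv_mem ⟨1, one_mem _, hMo⟩
    obtain ⟨τ, hτ, hτm⟩ := hoi
    rw [Subgroup.mem_bot] at hτ
    subst hτ
    have hmm : Maps (D.F.rg x * outE⁻¹) 1 := by
      have := maps_mul hσ hτm
      rwa [mul_one] at this
    obtain ⟨a, ha⟩ := exists_iK hK ⟨h, Subgroup.mul_mem _ (hE hmem).2 (Subgroup.inv_mem _ hs)⟩ hmm
    exact ⟨a, Or.inr (by rw [← ha, inv_mul_cancel_right])⟩

theorem conj_V_eq : conjS D.n D.V = D.Qs ⊓ Subgroup.centralizer (D.U : Set G) := by
  have hfix : conjS D.n D.U = D.U := conjS_eq_of_le fun x hx => D.n_U hx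
  refine le_antisymm ?_ ?_
  · rintro _ ⟨a, ha, rfl⟩
    refine ⟨D.n_spec.2.2.1 ▸ conj_mem_conjS ha.1, Subgroup.mem_centralizer_iff.2 fun x hx => ?_⟩
    rw [SetLike.mem_coe, ← hfix] at hx
    obtain ⟨y, hy, rfl⟩ := hx
    have := Subgroup.mem_centralizer_iff.1 ha.2 y hy
    show MulAut.conj D.n y * MulAut.conj D.n a = MulAut.conj D.n a * MulAut.conj D.n y
    rw [← map_mul, ← map_mul, this]
  · intro y hy
    refine mem_conjS.2 ⟨?_, Subgroup.mem_centralizer_iff.2 fun x hx => ?_⟩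
    · have h := hy.1
      rw [← D.n_spec.2.2.1] at h
      exact mem_conjS.1 h
    · have := Subgroup.mem_centralizer_iff.1 hy.2 _ (D.n_U hx)
      calc x * (D.n⁻¹ * y * D.n) = D.n⁻¹ * (D.n * x * D.n⁻¹ * y) * D.n := by group
        _ = D.n⁻¹ * y * D.n * x := by rw [this]; group

theorem n_norm : conjS D.n D.V = D.V := by
  refine Subgroup.eq_of_le_of_card_ge ?_ (card_conjS _ _).ge
  intro y hy
  have hy' := D.conj_V_eq ▸ hy
  refine ⟨?_, hy'.2⟩
  have hyz : y ∈ Subgroup.centralizer ({z} : Set G) := by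
    obtain ⟨a, ha, rfl⟩ := hy
    refine mem_cen.2 ?_
    calc D.n * a * D.n⁻¹ * z = D.n * a * D.n⁻¹ * (D.n * D.s * D.n⁻¹) := by rw [D.n_spec.1]
      _ = D.n * (a * D.s) * D.n⁻¹ := by group
      _ = (D.n * D.s * D.n⁻¹) * (D.n * a * D.n⁻¹) := by rw [D.V_comm ha D.s_mem_V]; group
      _ = z * (D.n * a * D.n⁻¹) := by rw [D.n_spec.1]
  obtain ⟨a, ha⟩ := D.image_cases hy'.1 hyz
  refine (D.F.rg_eq_one hyz).1 (cent_trivial a ha ?_ ?_)
  · obtain ⟨⟨g1, p1⟩, -, -⟩ := gen_facts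
    obtain ⟨u, hu, e1⟩ := D.exists_odd g1.1 g1.2 p1
    rw [← e1, ← D.F.rg_mul hyz (D.U_le hu).1, ← D.F.rg_mul (D.U_le hu).1 hyz,
      Subgroup.mem_centralizer_iff.1 hy'.2 u hu]
  · obtain ⟨-, ⟨g2, p2⟩, -⟩ := gen_facts
    obtain ⟨u, hu, e2⟩ := D.exists_odd g2.1 g2.2 p2
    rw [← e2, ← D.F.rg_mul hyz (D.U_le hu).1, ← D.F.rg_mul (D.U_le hu).1 hyz,
      Subgroup.mem_centralizer_iff.1 hy'.2 u hu]

theorem V_le_Qs : D.V ≤ D.Qs := by
  rw [← D.n_norm, D.conj_V_eq]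
  exact inf_le_left

theorem n_mem : D.n ∈ Subgroup.normalizer (D.V : Set G) :=
  mem_norm_of_le fun x hx => D.n_norm ▸ conj_mem_conjS hx

end Setup

end Cfsg.Agent.LargeFischer.Eight
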