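import Cfsg.Agent.LargeFischer.EightTop

/-!
The local subgroup of an elementary group of order eight, from a normalised frame, the transitivity
on the conjugates of `z` in `Q` and the structure of the centraliser of two of them.
-/

set_option autoImplicit false
set_option maxRecDepth 100000

namespace Cfsg.Agent.LargeFischer.Eight

open Cfsg
open Cfsg.Agent.CosetCert Cfsg.Agent.GFour25
open Cfsg.Agent.SporB.FischerU (Vec SUSix vecN enc vecN_enc enc_lt)
open Cfsg.Agent.TTClass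

namespace Setup

variable {G : Type*} [Group G] {z : G} {Q : Subgroup (Subgroup.centralizer ({z} : Set G))}
  [Q.Normal] (D : Setup z Q) [Finite G]

theorem exists_coord : Nonempty (Multiplicative (Fin 3 → ZMod 2) ≃* D.V) := by
  let zV : D.V := ⟨z, D.z_mem_V⟩
  let sV : D.V := ⟨D.s, D.s_mem_V⟩
  let tV : D.V := ⟨D.t, D.t_mem_V⟩
  have hsq : ∀ x : D.V, x * x = 1 := fun x => Subtype.ext (D.V_sq x.2)
  have hc : ∀ x y : D.V, Commute x y := fun x y => Subtype.ext (D.V_comm x.2 y.2)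
  have hp : ∀ (x : D.V) (a b : ZMod 2), x ^ (a + b).val = x ^ a.val * x ^ b.val := by
    intro x a b
    have h1 : ∀ a b : ZMod 2, a.val + b.val = (a + b).val ∨
        a.val + b.val = (a + b).val + 2 := by decide
    rw [← pow_add]
    rcases h1 a b with h | h <;> rw [h]
    rw [pow_add, pow_two, hsq, mul_one]
  let f : Multiplicative (Fin 3 → ZMod 2) →* D.V :=
    MonoidHom.mk' (fun v => zV ^ (v.toAdd 0).val * sV ^ (v.toAdd 1).val * tV ^ (v.toAdd 2).val)
      fun v w => by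
        simp only [toAdd_mul, Pi.add_apply, hp]
        haveI : Std.Commutative (α := ↥D.V) (· * ·) := ⟨fun x y => hc x y⟩
        ac_rfl
  have hle : D.V ≤ f.range.map D.V.subtype := by
    refine D.V_le_closure.trans ((Subgroup.closure_le _).2 ?_)
    have e1 : (1 : ZMod 2).val = 1 := rfl
    have e0 : (0 : ZMod 2).val = 0 := rfl
    rintro y (rfl | rfl | rfl)
    · exact ⟨zV, ⟨Multiplicative.ofAdd ![1, 0, 0], by simp [f, e1, e0]⟩, rfl⟩
    · exact ⟨sV, ⟨Multiplicative.ofAdd ![0, 1, 0], by simp [f, e1, e0]⟩, rfl⟩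
    · exact ⟨tV, ⟨Multiplicative.ofAdd ![0, 0, 1], by simp [f, e1, e0]⟩, rfl⟩
  have hs : Function.Surjective f := fun x => by
    obtain ⟨y, hy, hyx⟩ := hle x.2
    obtain ⟨v, rfl⟩ := hy
    exact ⟨v, Subtype.ext hyx⟩
  exact ⟨MulEquiv.ofBijective f ((Nat.bijective_iff_surjective_and_card f).2 ⟨hs, by
    rw [D.card_V]; simp⟩)⟩

/-- The normaliser. -/
abbrev L : Subgroup G := Subgroup.normalizer (D.V : Set G)

theorem exists_rep : ∃ ρ : D.L →* Matrix.SpecialLinearGroup (Fin 3) (ZMod 2),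
    Function.Surjective ρ ∧ ρ.ker = D.K.subgroupOf D.L := by
  obtain ⟨e⟩ := D.exists_coord
  obtain ⟨f, hf⟩ := aut_to_SL e
  let ρ : D.L →* Matrix.SpecialLinearGroup (Fin 3) (ZMod 2) := f.comp D.V.normalizerMonoidHom
  have hk : ρ.ker = D.K.subgroupOf D.L := by
    ext l
    rw [MonoidHom.mem_ker, MonoidHom.comp_apply, map_eq_one_iff f hf, ← MonoidHom.mem_ker,
      D.V.normalizerMonoidHom_ker]
    rfl
  refine ⟨ρ, MonoidHom.range_eq_top.1 (eq_top_of_fortytwo ?_), hk⟩
  -- two steps of orbit counting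
  have hKL : Nat.card ↥(D.K.subgroupOf D.L) = Nat.card D.K :=
    Nat.card_congr (Subgroup.subgroupOfEquivOfLe D.K_le_norm).toEquiv
  have hc := Subgroup.card_mul_index ρ.ker
  rw [Subgroup.index_ker, hk, hKL] at hc
  have hmem : ∀ {l : G}, l ∈ D.L → ∀ x ∈ D.V, l * x * l⁻¹ ∈ D.V := fun hl x hx =>
    (Subgroup.mem_normalizer_iff.1 hl x).1 hx
  have h7 := card_orbit_conj D.L z ((D.V : Set G) \ {1}) fun b => by
    constructor
    · rintro ⟨hb, hb1⟩
      by_cases hbz : b = z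
      · exact ⟨1, one_mem _, by rw [hbz]; simp⟩
      obtain ⟨h, hh, rfl⟩ := D.exists_trans hb hb1 hbz
      refine ⟨h * D.n, mul_mem hh.1 D.n_mem, ?_⟩
      calc h * D.n * z * (h * D.n)⁻¹ = h * (D.n * z * D.n⁻¹) * h⁻¹ := by group
        _ = h * D.s * h⁻¹ := by rw [D.n_spec.2.1]
    · rintro ⟨l, hl, rfl⟩
      exact ⟨hmem hl z D.z_mem_V, fun h => D.z_ne (conj_eq_one_iff.1 h)⟩
  have h6 := card_orbit_conj (D.L ⊓ Subgroup.centralizer ({z} : Set G)) D.s
      ((D.V : Set G) \ {1, z}) fun b => by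
    constructor
    · rintro ⟨hb, hb1⟩
      simp only [Set.mem_insert_iff, Set.mem_singleton_iff, not_or] at hb1
      exact D.exists_trans hb hb1.1 hb1.2
    · rintro ⟨l, hl, rfl⟩
      refine ⟨hmem hl.1 D.s D.s_mem_V, ?_⟩
      simp only [Set.mem_insert_iff, Set.mem_singleton_iff, not_or]
      refine ⟨fun h => ?_, fun h => D.s_ne_z ?_⟩
      · have := D.hw
        rw [conj_eq_one_iff.1 h, D.F.pv_one] at this
        exact rep_props.2.1 this.symm
      · have hlz := mem_cen.1 hl.2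
        have e : l * D.s * l⁻¹ = l * z * l⁻¹ := by rw [h, hlz, mul_inv_cancel_right]
        exact mul_left_cancel (mul_right_cancel e)
  have hV : (D.V : Set G).ncard = 8 := by rw [← Nat.card_coe_set_eq]; exact D.card_V
  rw [Set.ncard_sdiff (Set.singleton_subset_iff.2 (one_mem D.V)), Set.ncard_singleton, hV] at h7
  rw [Set.ncard_sdiff (Set.insert_subset (one_mem D.V) (Set.singleton_subset_iff.2 D.z_mem_V)),
    Set.ncard_pair (Ne.symm D.z_ne), hV] at h6
  have hKle : D.K ≤ D.L ⊓ Subgroup.centralizer ({z} : Set G) ⊓ Subgroup.centralizer ({D.s} : Set G) :=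
    fun x hx => ⟨⟨D.K_le_norm hx, D.K_le_C hx⟩, (D.K_le hx).2⟩
  obtain ⟨m, hm⟩ := Subgroup.card_dvd_of_le hKle
  rw [hm] at h6
  rw [h6, ← hc] at h7
  refine ⟨m, Nat.eq_of_mul_eq_mul_left (show 0 < Nat.card D.K from Nat.card_pos) ?_⟩
  rw [h7]
  ring

include D in
theorem main : ∃ V : Subgroup G, Cfsg.IsElementaryAbelian 2 V ∧ Nat.card V = 8 ∧ z ∈ V ∧
    ∃ R : Subgroup G, R = (Cfsg.pCore 2 ↥(Subgroup.normalizer (V : Set G))).map
      (Subgroup.normalizer (V : Set G)).subtype ∧ Cfsg.IsSpecial 2 ↥R ∧ Nat.card R = 2 ^ 15 ∧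
      (Subgroup.center ↥R).map R.subtype = V ∧
      ∃ _ : (R.subgroupOf (Subgroup.normalizer (V : Set G))).Normal,
        Nonempty (↥(Subgroup.normalizer (V : Set G)) ⧸ R.subgroupOf (Subgroup.normalizer (V : Set G)) ≃*
          Matrix.SpecialLinearGroup (Fin 3) (ZMod 2) × ↥(alternatingGroup (Fin 6))) := by
  haveI : Fact (Nat.Prime 2) := ⟨Nat.prime_two⟩
  haveI hsimp := sl_three_facts.2
  obtain ⟨ρ, hρ, hρk⟩ := D.exists_rep
  haveI hKn : (D.K.subgroupOf D.L).Normal := hρk ▸ MonoidHom.normal_ker ρ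
  have hRL : D.R ≤ D.L := D.R_le_K.trans D.K_le_norm
  have hRn : (D.R.subgroupOf D.L).Normal := ⟨fun x hx g => D.conj_R g.2 hx⟩
  refine ⟨D.V, D.V_elementary, D.card_V, D.z_mem_V, D.R, ?_, D.special.1, D.card_R, D.special.2, hRn, ?_⟩
  · -- the largest normal 2-subgroup
    have h1 : Cfsg.pCore 2 ↥D.L = D.R.subgroupOf D.L := by
      refine le_antisymm (Cores.pCore_le fun P hP hP2 => ?_)
        (Cores.le_pCore hRn (D.R_two.of_equiv (Subgroup.subgroupOfEquivOfLe hRL).symm))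
      have hPK : P ≤ D.K.subgroupOf D.L := by
        rcases (hP.map ρ hρ).eq_bot_or_eq_top with hb | ht
        · rw [← hρk]
          exact (Subgroup.map_eq_bot_iff P).1 hb
        · exfalso
          obtain ⟨k, hk⟩ := (hP2.map ρ).exists_card_eq
          rw [ht, Subgroup.card_top, sl_three_facts.1] at hk
          have := Nat.prime_seven.dvd_of_dvd_pow (show 7 ∣ 2 ^ k from hk ▸ (by norm_num : 7 ∣ 168))
          norm_num at this
      intro x hx
      refine D.two_le_R (P := P.map D.L.subtype) ?_ ?_ (hP2.map _) ⟨x, hx, rfl⟩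
      · rintro _ ⟨y, hy, rfl⟩
        exact hPK hy
      · rintro u hu _ ⟨y, hy, rfl⟩
        exact ⟨⟨u, D.K_le_norm hu⟩ * y * ⟨u, D.K_le_norm hu⟩⁻¹, hP.conj_mem y hy _, rfl⟩
    show D.R = (Cfsg.pCore 2 ↥D.L).map D.L.subtype
    rw [h1, Subgroup.subgroupOf_map_subtype, inf_eq_left.2 hRL]
  -- the quotient
  let conjK : D.L → D.K → D.K := fun l k => ⟨(l : G) * k * (l : G)⁻¹, D.conj_K l.2 k.2⟩
  let Cc : Subgroup D.L :=
    { carrier := {l | ∀ k : D.K, D.phiK (conjK l k) = D.phiK k}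
      one_mem' := fun k => congrArg D.phiK (Subtype.ext (by simp [conjK]))
      mul_mem' := fun {a b} ha hb k => by
        rw [show conjK (a * b) k = conjK a (conjK b k) from
          Subtype.ext (by simp [conjK, mul_assoc]), ha, hb]
      inv_mem' := fun {a} ha k => by
        have := ha (conjK a⁻¹ k)
        rw [show conjK a (conjK a⁻¹ k) = k from Subtype.ext (by simp [conjK, mul_assoc])] at this
        exact this.symm }
  have hker : ∀ k : D.K, D.phiK k = 1 ↔ (k : G) ∈ D.R := fun k => by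
    constructor
    · exact fun h => ⟨k, MonoidHom.mem_ker.2 h, rfl⟩
    · rintro ⟨y, hy, e⟩
      rw [← show y = k from Subtype.ext e]
      exact MonoidHom.mem_ker.1 hy
  haveI : Cc.Normal := ⟨fun l hl g k => by
    set k' := conjK g⁻¹ k with hk'
    have e : conjK (g * l * g⁻¹) k = conjK g (conjK l k') :=
      Subtype.ext (by simp [conjK, hk', mul_assoc])
    have e2 : k = conjK g k' := Subtype.ext (by simp [conjK, hk', mul_assoc])
    have hr : D.phiK ((conjK l k') * k'⁻¹) = 1 := by rw [map_mul, map_inv, hl k', mul_inv_cancel]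
    have hr' : D.phiK (conjK g ((conjK l k') * k'⁻¹)) = 1 :=
      (hker _).2 (D.conj_R g.2 ((hker _).1 hr))
    rw [e, e2]
    rw [show conjK g ((conjK l k') * k'⁻¹) = conjK g (conjK l k') * (conjK g k')⁻¹ from
      Subtype.ext (by simp [conjK, mul_assoc]), map_mul, map_inv, mul_inv_eq_one] at hr'
    exact hr'⟩
  let f : ↥(D.K.subgroupOf D.L) →* alternatingGroup (Fin 6) :=
    (D.phiK.comp (Subgroup.subgroupOfEquivOfLe D.K_le_norm).toMonoidHom).codRestrict _ fun x => by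
      rw [← D.phiK_range]
      exact ⟨_, rfl⟩
  have hf : Function.Surjective f := fun σ => by
    obtain ⟨k, hk⟩ : (σ : Equiv.Perm (Fin 6)) ∈ D.phiK.range := D.phiK_range.ge σ.2
    refine ⟨⟨⟨k, D.K_le_norm k.2⟩, k.2⟩, Subtype.ext ?_⟩
    rw [← hk]
    rfl
  -- an outer element centralising the alternating quotient
  obtain ⟨hw, hmove, hline⟩ := outE_facts
  obtain ⟨h, hh, hhe⟩ := D.exists_lift (Subgroup.mem_sup_right (Subgroup.mem_zpowers _)) hw
  have hhL : h ∈ D.L := mem_norm_of_le fun b hb => D.mem_V.2 ⟨conj_Qg hh.1 hb.1, by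
    rw [D.F.pv_conj hh.1 hb.1, hhe]
    exact hline _ (D.mem_V.1 hb).2⟩
  have hhC : (⟨h, hhL⟩ : D.L) ∈ Cc := fun k => by
    have hm : SixAct.Maps outE 1 := SixAct.maps_isEl isEl_outE SixAct.ext_checks.1
    have ho : outE ∈ SixAct.setStab (⊥ : Subgroup (Equiv.Perm (Fin 6))) := ⟨1, one_mem _, hm⟩
    obtain ⟨τ, hτ, hτm⟩ := inv_mem ho
    rw [Subgroup.mem_bot] at hτ
    subst hτ
    have hk := D.phiK_maps k
    have hconj : SixAct.Maps (D.F.rg (h * (k : G) * h⁻¹)) (D.phiK k) := by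
      rw [D.F.rg_mul (mul_mem hh.1 (D.K_le_C k.2)) (inv_mem hh.1), D.F.rg_mul hh.1 (D.K_le_C k.2),
        D.F.rg_inv hh.1, hhe]
      have := SixAct.maps_mul (SixAct.maps_mul hm hk) hτm
      rwa [one_mul, mul_one] at this
    exact SixAct.maps_unique (D.phiK_maps (conjK ⟨h, hhL⟩ k)) hconj
  have hCne : Cc.map ρ ≠ ⊥ := fun hb => by
    have h1 : (⟨h, hhL⟩ : D.L) ∈ ρ.ker := (Subgroup.map_eq_bot_iff Cc).1 hb hhC
    rw [hρk] at h1
    have h2 := D.rg_K (show h ∈ D.K from h1)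
    rw [hhe] at h2
    exact SixAct.outE_not_mem h2
  have hCtop : Cc.map ρ = ⊤ := ((Subgroup.Normal.map inferInstance ρ hρ).eq_bot_or_eq_top).resolve_left hCne
  refine quotient_equiv_prod (D.K.subgroupOf D.L) Cc (D.R.subgroupOf D.L) ρ hρ hρk f hf ?_ ?_ ?_
  · intro l
    constructor
    · intro hl
      exact ⟨D.R_le_K hl, Subtype.ext ((hker ⟨l, D.R_le_K hl⟩).2 hl)⟩
    · rintro ⟨hl, e⟩
      exact (hker ⟨l, hl⟩).1 (congrArg Subtype.val e)
  · rintro l ⟨hlC, hlK⟩
    have hlK' : (l : G) ∈ D.K := hlK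
    refine (hker ⟨l, hlK'⟩).1 ?_
    have hc : ∀ σ ∈ alternatingGroup (Fin 6), D.phiK ⟨l, hlK'⟩ * σ = σ * D.phiK ⟨l, hlK'⟩ := by
      intro σ hσ
      rw [← D.phiK_range] at hσ
      obtain ⟨k, rfl⟩ := hσ
      have := hlC k
      rw [show conjK l k = ⟨l, hlK'⟩ * k * ⟨l, hlK'⟩⁻¹ from Subtype.ext rfl, map_mul, map_mul,
        map_inv, mul_inv_eq_iff_eq_mul] at this
      exact this
    exact SixAct.alt_centralizer _ (hc _ (Equiv.Perm.mem_alternatingGroup.2 SixAct.gens_even.1))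
      (hc _ (Equiv.Perm.mem_alternatingGroup.2 SixAct.gens_even.2))
  · rw [eq_top_iff]
    intro l _
    obtain ⟨c, hc, hce⟩ := (show ρ l ∈ Cc.map ρ from hCtop ▸ Subgroup.mem_top _)
    have hk : c⁻¹ * l ∈ D.K.subgroupOf D.L := by
      rw [← hρk, MonoidHom.mem_ker, map_mul, map_inv, hce, inv_mul_cancel]
    have := Subgroup.mul_mem_sup hc hk
    rwa [mul_inv_cancel_left] at this

end Setup

section setup

variable {G : Type*} [Group G] [Finite G] {z : G}
  {Q : Subgroup (Subgroup.centralizer ({z} : Set G))} [Q.Normal]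

omit [Finite G] in
theorem card_map_quot (F : Frame z Q) (S : Subgroup (Subgroup.centralizer ({z} : Set G))) :
    Nat.card (S.map (QuotientGroup.mk' Q)) = Nat.card (S.map F.rho) := by
  have hle : Q ≤ F.rho.ker := F.ker_rho.ge
  have hinj : Function.Injective (QuotientGroup.lift Q F.rho hle) := by
    rw [← MonoidHom.ker_eq_bot_iff, eq_bot_iff]
    intro x hx
    obtain ⟨c, rfl⟩ := QuotientGroup.mk'_surjective Q x
    rw [MonoidHom.mem_ker, QuotientGroup.mk'_apply, QuotientGroup.lift_mk] at hx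
    rw [Subgroup.mem_bot]
    exact (QuotientGroup.eq_one_iff c).2 (F.ker_rho.le hx)
  have e : S.map F.rho = (S.map (QuotientGroup.mk' Q)).map (QuotientGroup.lift Q F.rho hle) := by
    rw [Subgroup.map_map]
    rfl
  rw [e]
  exact Nat.card_congr ((S.map (QuotientGroup.mk' Q)).equivMapOfInjective _ hinj).toEquiv

/-- The setting of the conjugates in a normalised frame. -/
theorem exists_setup (hF : Cfsg.IsOfLargeFischerTypeAt z Q)
    (hnorm : ∃ F : Frame z Q, F.big.map F.rho = Kc ∧ F.rho.range = Ke)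
    (htrans : ∀ s t : G, s ∈ Qg Q → t ∈ Qg Q → IsConj z s → IsConj z t → s ≠ z → t ≠ z →
      ∃ h ∈ Subgroup.centralizer ({z} : Set G), h * s * h⁻¹ = t)
    (hstruct : ∀ s g : G, s ∈ Qg Q → s ≠ z → g * z * g⁻¹ = s →
      ∀ X E : Subgroup ((Subgroup.centralizer ({z} : Set G)) ⧸ Q),
        X = ((Subgroup.centralizer ({z} : Set G) ⊓ Subgroup.centralizer ({s} : Set G)).subgroupOf
          (Subgroup.centralizer ({z} : Set G))).map (QuotientGroup.mk' Q) →
        E = ((conjS g (Qg Q) ⊓ Subgroup.centralizer ({z} : Set G)).subgroupOf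
          (Subgroup.centralizer ({z} : Set G))).map (QuotientGroup.mk' Q) →
        Nat.card ↥(Qg Q ⊓ conjS g (Qg Q)) = 2 ^ 7 ∧ E ≤ X ∧ Nat.card E = 32 ∧
          ∃ _ : (E.subgroupOf X).Normal, Nonempty (↥X ⧸ E.subgroupOf X ≃* alternatingGroup (Fin 6))) :
    Nonempty (Setup z Q) := by
  obtain ⟨F, hbig, hrange⟩ := hnorm
  obtain ⟨⟨hord, -, -, hcard, g0, ⟨hq, hqQ⟩, hne⟩, -⟩ := hF
  have hQ8 : Nat.card Q = 8192 := by rw [hcard]; norm_num
  have hz1 : z ≠ 1 := fun h => by rw [h, orderOf_one] at hord; omega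
  have hzz : z * z = 1 := by
    have h := pow_orderOf_eq_one z
    rwa [hord, pow_two] at h
  have hs0 : g0 * z * g0⁻¹ ∈ Qg Q := ⟨_, hqQ, rfl⟩
  set s0 := g0 * z * g0⁻¹ with hs0e
  have hsq : s0 * s0 = 1 := by
    rw [hs0e, show g0 * z * g0⁻¹ * (g0 * z * g0⁻¹) = g0 * (z * z) * g0⁻¹ by group, hzz]
    group
  have hv0 : F.pv s0 ≠ 0 := fun h => by
    rcases (F.pv_eq_zero hs0).1 h with e | e
    · exact hz1 (conj_eq_one_iff.1 e)
    · exact hne e
  have hiso : UnitF4.H (F.pv s0) (F.pv s0) = 0 := by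
    have h := (F.qC_pv hs0).2 hsq
    rwa [qC_enc, decide_eq_true_iff] at h
  have move : ∀ r : ℕ, (∃ k ∈ Kc, k (F.pv s0) = vecN r) → vecN r ≠ 0 →
      ∃ s g, g * z * g⁻¹ = s ∧ s ∈ Qg Q ∧ s ≠ z ∧ F.pv s = vecN r := by
    rintro r ⟨k, hk, hkr⟩ hr0
    obtain ⟨h, hh, hhe⟩ := F.exists_rg (hrange.symm ▸ Kc_le_Ke hk)
    refine ⟨h * s0 * h⁻¹, h * g0, by rw [hs0e]; group, conj_Qg hh hs0, fun e => hr0 ?_, ?_⟩
    · have e2 : F.pv (h * s0 * h⁻¹) = vecN r := by rw [F.pv_conj hh hs0, hhe, hkr]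
      rw [e] at e2
      rw [← e2, (F.pv_eq_zero (F.z_mem hQ8)).2 (Or.inr rfl)]
    · rw [F.pv_conj hh hs0, hhe, hkr]
  rcases orbit_cases hv0 hiso with ⟨-, hk⟩ | ⟨-, hk⟩
  · -- the first orbit has too large a stabiliser
    exfalso
    obtain ⟨s, g, hg, hsQ, hsz, hw⟩ := move _ hk rep_props.1.1
    obtain ⟨-, hle, hE, hN, ⟨e⟩⟩ := hstruct s g hsQ hsz hg _ _ rfl rfl
    haveI := hN
    have hX := Subgroup.card_mul_index (((conjS g (Qg Q) ⊓ Subgroup.centralizer ({z} : Set G)).subgroupOf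
      (Subgroup.centralizer ({z} : Set G))).map (QuotientGroup.mk' Q) |>.subgroupOf
      (((Subgroup.centralizer ({z} : Set G) ⊓ Subgroup.centralizer ({s} : Set G)).subgroupOf
          (Subgroup.centralizer ({z} : Set G))).map (QuotientGroup.mk' Q)))
    rw [Subgroup.index_eq_card, Nat.card_congr e.toEquiv, SixAct.card_alt6,
      Nat.card_congr (Subgroup.subgroupOfEquivOfLe hle).toEquiv, hE, card_map_quot F] at hX
    have hcK : Nat.card Ke = 19595520 := by
      have h1 : Nat.card Kc = 9797760 := by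
        rw [← hbig, ← F.lin_eq, ← F.lin_card]
        exact Nat.card_congr (F.lin.equivMapOfInjective _ actHom_injective).symm.toEquiv
      exact card_Ke_of F hbig hrange h1
    have hU := (card_stabs Kc_le_Ke Ke_le_Kall).1
    rw [hcK] at hU
    have hsub : Ke ⊓ stabV Data.repU ≤ ((Subgroup.centralizer ({z} : Set G) ⊓
        Subgroup.centralizer ({s} : Set G)).subgroupOf (Subgroup.centralizer ({z} : Set G))).map F.rho := by
      rintro k ⟨hk1, hk2⟩
      obtain ⟨x, hx, rfl⟩ := F.exists_rg (hrange.symm ▸ hk1)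
      have hm := conj_Qg hx hsQ
      have h0 : F.pv (s⁻¹ * (x * s * x⁻¹)) = 0 := by
        rw [F.pv_mul (inv_mem hsQ) hm, F.pv_inv hsQ, F.pv_conj hx hsQ, hw,
          show F.rg x (vecN Data.repU) = vecN Data.repU from hk2]
        funext i
        show vecN Data.repU i + vecN Data.repU i = 0
        generalize vecN Data.repU i = c; revert c; decide
      have fin : ∀ y : G, y ∈ Subgroup.centralizer ({z} : Set G) → y * s * y⁻¹ = s →
          F.rg y ∈ ((Subgroup.centralizer ({z} : Set G) ⊓ Subgroup.centralizer ({s} : Set G)).subgroupOf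
            (Subgroup.centralizer ({z} : Set G))).map F.rho := fun y hy e =>
        ⟨⟨y, hy⟩, ⟨hy, mem_cen.2 (mul_inv_eq_iff_eq_mul.1 e)⟩, (F.rg_coe ⟨y, hy⟩).symm⟩
      rcases (F.pv_eq_zero (mul_mem (inv_mem hsQ) hm)).1 h0 with e | e
      · exact fin x hx (inv_mul_eq_one.1 e).symm
      obtain ⟨q, hq, hqv⟩ := F.pv_surj (vecN 512)
      have hqC : q ∈ Subgroup.centralizer ({z} : Set G) := Qg_le hq
      have hne2 : q * s ≠ s * q := fun h => by
        have h2 := (F.commute_iff hz1 hq hsQ).1 h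
        rw [hqv, hw, enc_vecN (by norm_num), enc_vecN repU_lt] at h2
        revert h2
        decide +kernel
      have hq' : q * s * q⁻¹ = s * z := by
        have hm' := conj_Qg hqC hsQ
        have h1 : F.pv (s⁻¹ * (q * s * q⁻¹)) = 0 := by
          rw [F.pv_mul (inv_mem hsQ) hm', F.pv_inv hsQ, F.pv_conj hqC hsQ, (F.rg_eq_one hqC).2 hq]
          funext i
          show F.pv s i + F.pv s i = 0
          generalize F.pv s i = c; revert c; decide
        rcases (F.pv_eq_zero (mul_mem (inv_mem hsQ) hm')).1 h1 with e' | e'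
        · exact absurd (mul_inv_eq_iff_eq_mul.1 (inv_mul_eq_one.1 e').symm) hne2
        · exact inv_mul_eq_iff_eq_mul.1 e'
      have hxq : F.rg x = F.rg (x * q) := by
        rw [F.rg_mul hx hqC, (F.rg_eq_one hqC).2 hq, mul_one]
      rw [hxq]
      refine fin _ (mul_mem hx hqC) ?_
      calc x * q * s * (x * q)⁻¹ = x * (q * s * q⁻¹) * x⁻¹ := by group
        _ = x * s * x⁻¹ * (x * z * x⁻¹) := by rw [hq']; group
        _ = s := by
          rw [inv_mul_eq_iff_eq_mul.1 e, mem_cen.1 hx, mul_inv_cancel_right, mul_assoc, hzz, mul_one]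
    have := Subgroup.card_le_of_le hsub
    omega
  · obtain ⟨s, g, hg, hsQ, hsz, hw⟩ := move _ hk rep_props.2.1
    obtain ⟨hi, -, hE, -⟩ := hstruct s g hsQ hsz hg _ _ rfl rfl
    refine ⟨{ F := F, big_eq := hbig, range_eq := hrange, ord := hord, cardQ := hQ8, g := g, s := s,
              hg := hg, hsQ := hsQ, hw := hw, inter_card := by rw [hi]; norm_num,
              image_card := fun f hf => ?_, trans := htrans }⟩
    rw [← hE, card_map_quot F]
    congr! 2
    ext k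
    constructor
    · rintro ⟨x, rfl⟩
      refine ⟨⟨x, x.2.2⟩, x.2, ?_⟩
      rw [hf, ← F.rg_coe]
    · rintro ⟨c, hc, rfl⟩
      exact ⟨⟨c, hc⟩, by rw [hf, F.rg_coe]⟩

/-- The elementary group of order eight and its local subgroup. -/
theorem eight_local (hF : Cfsg.IsOfLargeFischerTypeAt z Q)
    (hnorm : ∃ F : Frame z Q, F.big.map F.rho = Kc ∧ F.rho.range = Ke)
    (htrans : ∀ s t : G, s ∈ Qg Q → t ∈ Qg Q → IsConj z s → IsConj z t → s ≠ z → t ≠ z →
      ∃ h ∈ Subgroup.centralizer ({z} : Set G), h * s * h⁻¹ = t)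
    (hstruct : ∀ s g : G, s ∈ Qg Q → s ≠ z → g * z * g⁻¹ = s →
      ∀ X E : Subgroup ((Subgroup.centralizer ({z} : Set G)) ⧸ Q),
        X = ((Subgroup.centralizer ({z} : Set G) ⊓ Subgroup.centralizer ({s} : Set G)).subgroupOf
          (Subgroup.centralizer ({z} : Set G))).map (QuotientGroup.mk' Q) →
        E = ((conjS g (Qg Q) ⊓ Subgroup.centralizer ({z} : Set G)).subgroupOf
          (Subgroup.centralizer ({z} : Set G))).map (QuotientGroup.mk' Q) →
        Nat.card ↥(Qg Q ⊓ conjS g (Qg Q)) = 2 ^ 7 ∧ E ≤ X ∧ Nat.card E = 32 ∧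
          ∃ _ : (E.subgroupOf X).Normal, Nonempty (↥X ⧸ E.subgroupOf X ≃* alternatingGroup (Fin 6))) :
    ∃ V : Subgroup G, Cfsg.IsElementaryAbelian 2 V ∧ Nat.card V = 8 ∧ z ∈ V ∧
    ∃ R : Subgroup G, R = (Cfsg.pCore 2 ↥(Subgroup.normalizer (V : Set G))).map
      (Subgroup.normalizer (V : Set G)).subtype ∧ Cfsg.IsSpecial 2 ↥R ∧ Nat.card R = 2 ^ 15 ∧
      (Subgroup.center ↥R).map R.subtype = V ∧
      ∃ _ : (R.subgroupOf (Subgroup.normalizer (V : Set G))).Normal,
        Nonempty (↥(Subgroup.normalizer (V : Set G)) ⧸ R.subgroupOf (Subgroup.normalizer (V : Set G)) ≃*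
          Matrix.SpecialLinearGroup (Fin 3) (ZMod 2) × ↥(alternatingGroup (Fin 6))) := by
  obtain ⟨D⟩ := exists_setup hF hnorm htrans hstruct
  exact D.main

end setup

end Cfsg.Agent.LargeFischer.Eight
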