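import Cfsg.Agent.LargeFischer.EightLocal
import Cfsg.Agent.LargeFischer.EightQuot
import Cfsg.Agent.Cores.Basic
import Cfsg.Agent.PGroup.Frattini

/-!
The normaliser of the elementary group of order eight in a group of large Fischer type.
-/

set_option autoImplicit false
set_option maxRecDepth 100000

namespace Cfsg.Agent.LargeFischer.Eight

open Cfsg
open Cfsg.Agent.CosetCert Cfsg.Agent.GFour25
open Cfsg.Agent.SporB.FischerU (Vec SUSix vecN enc vecN_enc enc_lt)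
open Cfsg.Agent.TTClass

namespace Setup

variable {G : Type*} [Group G] {z : G} {Q : Subgroup (Subgroup.centralizer ({z} : Set G))}
  [Q.Normal] (D : Setup z Q) [Finite G]

/-- The centraliser of the group of order eight. -/
def K : Subgroup G := Subgroup.centralizer (D.V : Set G)

theorem K_le_C : D.K ≤ Subgroup.centralizer ({z} : Set G) := fun x hx =>
  mem_cen.2 ((Subgroup.mem_centralizer_iff.1 hx z D.z_mem_V).symm)

theorem K_le : D.K ≤ D.Cb := fun x hx =>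
  ⟨D.K_le_C hx, mem_cen.2 ((Subgroup.mem_centralizer_iff.1 hx D.s D.s_mem_V).symm)⟩

/-- The third generator. -/
noncomputable def t : G := (D.F.pv_surj (vecN 2720)).choose

theorem t_spec : D.t ∈ Qg Q ∧ D.F.pv D.t = vecN 2720 := (D.F.pv_surj (vecN 2720)).choose_spec

theorem t_mem_V : D.t ∈ D.V := D.mem_V.2 ⟨D.t_spec.1, by rw [D.t_spec.2]; exact inLine_w.2⟩

theorem eq_or_eq_mul {a b : G} (ha : a ∈ Qg Q) (hb : b ∈ Qg Q) (h : D.F.pv a = D.F.pv b) :
    a = b ∨ a = b * z := by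
  have h0 : D.F.pv (b⁻¹ * a) = 0 := by
    rw [D.F.pv_mul (inv_mem hb) ha, D.F.pv_inv hb, h]
    funext i
    show D.F.pv b i + D.F.pv b i = 0
    generalize D.F.pv b i = c; revert c; decide
  rcases (D.F.pv_eq_zero (mul_mem (inv_mem hb) ha)).1 h0 with e | e
  · exact Or.inl (inv_mul_eq_one.1 e).symm
  · exact Or.inr (inv_mul_eq_iff_eq_mul.1 e)

theorem V_le_closure : D.V ≤ Subgroup.closure {z, D.s, D.t} := by
  intro a ha
  have hz : z ∈ Subgroup.closure {z, D.s, D.t} := Subgroup.subset_closure (by simp)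
  have hs : D.s ∈ Subgroup.closure {z, D.s, D.t} := Subgroup.subset_closure (by simp)
  have ht : D.t ∈ Subgroup.closure {z, D.s, D.t} := Subgroup.subset_closure (by simp)
  have key : ∀ b ∈ Subgroup.closure {z, D.s, D.t}, b ∈ Qg Q → D.F.pv a = D.F.pv b →
      a ∈ Subgroup.closure {z, D.s, D.t} := fun b hb hbQ e => by
    rcases D.eq_or_eq_mul ha.1 hbQ e with rfl | rfl
    · exact hb
    · exact mul_mem hb hz
  rcases inLine_cases (D.mem_V.1 ha).2 with e | e | e | e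
  · exact key 1 (one_mem _) (one_mem _) (by rw [e, D.F.pv_one])
  · exact key _ hs D.hsQ (by rw [e, D.hw])
  · exact key _ ht D.t_spec.1 (by rw [e, D.t_spec.2])
  · exact key _ (mul_mem hs ht) (mul_mem D.hsQ D.t_spec.1)
      (by rw [e, D.F.pv_mul D.hsQ D.t_spec.1, D.hw, D.t_spec.2])

theorem mem_K {x : G} :
    x ∈ D.K ↔ x * z = z * x ∧ x * D.s = D.s * x ∧ x * D.t = D.t * x := by
  constructor
  · intro hx
    have h := Subgroup.mem_centralizer_iff.1 hx
    exact ⟨(h z D.z_mem_V).symm, (h _ D.s_mem_V).symm, (h _ D.t_mem_V).symm⟩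
  · rintro ⟨h1, h2, h3⟩
    have hle : Subgroup.closure {z, D.s, D.t} ≤ Subgroup.centralizer ({x} : Set G) := by
      rw [Subgroup.closure_le]
      rintro y (rfl | rfl | rfl)
      · exact mem_cen.2 h1.symm
      · exact mem_cen.2 h2.symm
      · exact mem_cen.2 h3.symm
    exact Subgroup.mem_centralizer_iff.2 fun y hy => mem_cen.1 (hle (D.V_le_closure hy))

theorem rg_K {x : G} (hx : x ∈ D.K) : D.F.rg x ∈ Kc ⊓ stabV Data.repW := by
  have hs := D.rg_mem_stab (D.K_le hx)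
  refine ⟨?_, hs.2⟩
  rcases D.range_cases hs.1 with h | h
  · exact h
  exfalso
  have ht := D.fix_of_comm (D.K_le_C hx) D.t_spec.1 (D.mem_K.1 hx).2.2
  rw [D.t_spec.2] at ht
  have hw := D.fix_w (D.K_le hx)
  have e : D.F.rg x = D.F.rg x * outE⁻¹ * outE := by group
  have hlw : (D.F.rg x * outE⁻¹) (vecN Data.repW) = vecN Data.repW := by
    rw [e, Equiv.Perm.mul_apply, outE_facts.1] at hw
    exact hw
  rw [e, Equiv.Perm.mul_apply, fix_line (Kc_linear h) hlw (outE_facts.2.2 _ inLine_w.2)] at ht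
  exact outE_facts.2.1 ht

theorem exists_K {k : Equiv.Perm Vec} (hk : k ∈ Kc ⊓ stabV Data.repW) :
    ∃ x ∈ D.K, D.F.rg x = k := by
  obtain ⟨x, hx, rfl⟩ := D.exists_lift (Kc_le_Ke hk.1) hk.2
  have hz := mem_cen.1 hx.1
  have hs := mem_cen.1 hx.2
  have hfix : D.F.rg x (D.F.pv D.t) = D.F.pv D.t := by
    rw [D.t_spec.2]
    exact fix_line (Kc_linear hk.1) hk.2 inLine_w.2
  rcases D.conj_cases hx.1 D.t_spec.1 hfix with e | e
  · exact ⟨x, D.mem_K.2 ⟨hz, hs, mul_inv_eq_iff_eq_mul.1 e⟩, rfl⟩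
  obtain ⟨q, hq, hqv⟩ := D.F.pv_surj (vecN 16)
  have hq' : q * D.t * q⁻¹ = D.t * z := D.twist_conj hq D.t_spec.1 (by
    rw [hqv, D.t_spec.2, enc_vecN (by norm_num), enc_vecN (by norm_num)]
    exact base_facts.2.2.2.2.2.2.2.1)
  have hqs : q * D.s = D.s * q := (D.commute_iff hq D.hsQ).2 (by
    rw [hqv, D.hw, enc_vecN (by norm_num), enc_vecN repW_lt, base_facts.1]
    exact base_facts.2.2.2.2.2.2.1)
  have hqz := mem_cen.1 (Qg_le hq)
  refine ⟨x * q, D.mem_K.2 ⟨?_, ?_, mul_inv_eq_iff_eq_mul.1 ?_⟩, by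
    rw [D.F.rg_mul hx.1 (Qg_le hq), (D.F.rg_eq_one (Qg_le hq)).2 hq, mul_one]⟩
  · rw [mul_assoc, hqz, ← mul_assoc, hz, mul_assoc]
  · rw [mul_assoc, hqs, ← mul_assoc, hs, mul_assoc]
  · calc x * q * D.t * (x * q)⁻¹ = x * (q * D.t * q⁻¹) * x⁻¹ := by group
      _ = x * D.t * x⁻¹ * (x * z * x⁻¹) := by rw [hq']; group
      _ = D.t := by rw [e, hz, mul_inv_cancel_right, mul_assoc, D.z_sq, mul_one]

/-- The part in `Q`. -/
def A : Subgroup G := Qg Q ⊓ D.K

theorem mem_A {a : G} : a ∈ D.A ↔ a ∈ Qg Q ∧ perpC (enc (D.F.pv a)) = true := by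
  refine and_congr_right fun ha => ?_
  show a ∈ D.K ↔ _
  rw [D.mem_K, perpC, Bool.and_eq_true]
  have h1 := D.commute_iff ha D.hsQ
  have h2 := D.commute_iff ha D.t_spec.1
  rw [D.hw, enc_vecN repW_lt, base_facts.1] at h1
  rw [D.t_spec.2, enc_vecN (by norm_num)] at h2
  rw [h1, h2]
  exact and_iff_right (mem_cen.1 (Qg_le ha))

theorem card_A : Nat.card D.A = 2048 :=
  D.F.card_pre D.cardQ D.z_ne D.A {x | perpC (enc x) = true} 1024
    (by
      rw [← perp_count]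
      exact ncard_eq_cnt fun m hm => by
        show perpC (enc (vecN m)) = true ↔ _
        rw [enc_vecN hm])
    fun a => D.mem_A

include D in
theorem stab_le_top : Kc ⊓ stabV Data.repW ≤ SixAct.setStab ⊤ :=
  (SixAct.stab_le_alt D.card_stab.1).trans (SixAct.setStab_mono le_top)

/-- The action of the centraliser on the six sets. -/
noncomputable def phiK : D.K →* Equiv.Perm (Fin 6) :=
  SixAct.phi.comp ((D.rgHom D.K D.K_le_C).codRestrict _ fun x => D.stab_le_top (D.rg_K x.2))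

theorem phiK_maps (x : D.K) : SixAct.Maps (D.F.rg x) (D.phiK x) :=
  (Subtype.prop ((D.rgHom D.K D.K_le_C).codRestrict (SixAct.setStab ⊤)
    (fun x => D.stab_le_top (D.rg_K x.2)) x)).choose_spec.2

theorem phiK_range : D.phiK.range = alternatingGroup (Fin 6) := by
  refine le_antisymm ?_ fun σ hσ => ?_
  · rintro _ ⟨x, rfl⟩
    obtain ⟨σ, hσ, hm⟩ := SixAct.stab_le_alt D.card_stab.1 (D.rg_K x.2)
    rwa [SixAct.maps_unique (D.phiK_maps x) hm]
  · obtain ⟨⟨k, hk⟩, hks⟩ := SixAct.alt_le_range D.stab_le_top le_rfl hσ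
    obtain ⟨x, hx, hxe⟩ := D.exists_K hk
    refine ⟨⟨x, hx⟩, ?_⟩
    rw [← hks]
    refine SixAct.maps_unique (D.phiK_maps ⟨x, hx⟩) ?_
    show SixAct.Maps (D.F.rg x) _
    rw [hxe]
    exact (Subgroup.inclusion D.stab_le_top ⟨k, hk⟩).2.choose_spec.2

/-- The kernel. -/
noncomputable def R : Subgroup G := D.phiK.ker.map D.K.subtype

theorem R_le_K : D.R ≤ D.K := Subgroup.map_subtype_le _

theorem mem_R {x : G} : x ∈ D.R ↔ x ∈ D.K ∧ SixAct.Maps (D.F.rg x) 1 := by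
  constructor
  · rintro ⟨y, hy, rfl⟩
    refine ⟨y.2, ?_⟩
    have := D.phiK_maps y
    rwa [MonoidHom.mem_ker.1 hy] at this
  · rintro ⟨hx, hm⟩
    exact ⟨⟨x, hx⟩, MonoidHom.mem_ker.2 (SixAct.maps_unique (D.phiK_maps ⟨x, hx⟩) hm), rfl⟩

theorem card_R : Nat.card D.R = 2 ^ 15 := by
  have hr : (D.rgHom D.K D.K_le_C).range = Kc ⊓ stabV Data.repW := by
    refine le_antisymm ?_ fun k hk => ?_
    · rintro _ ⟨x, rfl⟩; exact D.rg_K x.2
    · obtain ⟨x, hx, rfl⟩ := D.exists_K hk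
      exact ⟨⟨x, hx⟩, rfl⟩
  have hK := D.card_rgHom D.K D.K_le_C
  rw [hr, D.card_stab.1, inf_comm, show Nat.card ↥(Qg Q ⊓ D.K) = 2048 from D.card_A] at hK
  have h := Subgroup.card_mul_index D.phiK.ker
  rw [Subgroup.index_ker, D.phiK_range, SixAct.card_alt6, hK] at h
  have e : Nat.card D.R = Nat.card D.phiK.ker :=
    (Nat.card_congr (D.phiK.ker.equivMapOfInjective _ Subtype.val_injective).toEquiv).symm
  rw [e]
  omega

theorem conj_K {l x : G} (hl : l ∈ Subgroup.normalizer (D.V : Set G)) (hx : x ∈ D.K) :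
    l * x * l⁻¹ ∈ D.K := by
  refine Subgroup.mem_centralizer_iff.2 fun a ha => ?_
  have ha' : l⁻¹ * a * l ∈ D.V := by
    have := (Subgroup.mem_normalizer_iff.1 (inv_mem hl) a).1 ha
    rwa [inv_inv] at this
  have h := Subgroup.mem_centralizer_iff.1 hx _ ha'
  calc a * (l * x * l⁻¹) = l * (l⁻¹ * a * l * x) * l⁻¹ := by group
    _ = l * x * l⁻¹ * a := by rw [h]; group

theorem K_le_norm : D.K ≤ Subgroup.normalizer (D.V : Set G) := fun x hx =>
  mem_norm_of_le fun a ha => by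
    rwa [← Subgroup.mem_centralizer_iff.1 hx a ha, mul_inv_cancel_right]

theorem two_le_R {P : Subgroup G} (hP : P ≤ D.K) (hn : ∀ x ∈ D.K, ∀ y ∈ P, x * y * x⁻¹ ∈ P)
    (h2 : IsPGroup 2 ↥P) : P ≤ D.R := by
  intro y hy
  have hb : (P.subgroupOf D.K).map D.phiK = ⊥ :=
    SixAct.two_eq_bot _ ((h2.of_equiv (Subgroup.subgroupOfEquivOfLe hP).symm).map D.phiK)
      fun a ha p hp => by
        rw [← D.phiK_range] at ha
        obtain ⟨x, rfl⟩ := ha
        obtain ⟨w, hw, rfl⟩ := Subgroup.mem_map.1 hp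
        exact Subgroup.mem_map.2 ⟨x * w * x⁻¹, hn _ x.2 _ hw, by simp⟩
  have h1 : D.phiK ⟨y, hP hy⟩ ∈ (P.subgroupOf D.K).map D.phiK :=
    Subgroup.mem_map_of_mem _ (show (⟨y, hP hy⟩ : D.K) ∈ P.subgroupOf D.K from hy)
  rw [hb, Subgroup.mem_bot] at h1
  exact ⟨⟨y, hP hy⟩, MonoidHom.mem_ker.2 h1, rfl⟩

theorem R_two : IsPGroup 2 ↥D.R := IsPGroup.of_card D.card_R

theorem R_normal_K {x y : G} (hx : x ∈ D.K) (hy : y ∈ D.R) : x * y * x⁻¹ ∈ D.R := by
  unfold R at hy ⊢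
  obtain ⟨w, hw, rfl⟩ := Subgroup.mem_map.1 hy
  have hn := (MonoidHom.normal_ker D.phiK).conj_mem w hw ⟨x, hx⟩
  exact Subgroup.mem_map.2 ⟨_, hn, rfl⟩

theorem conj_R {l x : G} (hl : l ∈ Subgroup.normalizer (D.V : Set G)) (hx : x ∈ D.R) :
    l * x * l⁻¹ ∈ D.R := by
  refine D.two_le_R (P := conjS l D.R) ?_ ?_ ?_ (conj_mem_conjS hx)
  · rintro _ ⟨y, hy, rfl⟩
    exact D.conj_K hl (D.R_le_K hy)
  · intro u hu y hy
    rw [mem_conjS] at hy ⊢
    have hu' : l⁻¹ * u * l ∈ D.K := by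
      have := D.conj_K (inv_mem hl) hu
      rwa [inv_inv] at this
    have := D.R_normal_K hu' hy
    rwa [show l⁻¹ * (u * y * u⁻¹) * l =
      l⁻¹ * u * l * (l⁻¹ * y * l) * (l⁻¹ * u * l)⁻¹ by group]
  · exact IsPGroup.of_card ((card_conjS l D.R).trans D.card_R)

theorem A_le_R : D.A ≤ D.R := fun a ha => D.mem_R.2 ⟨ha.2, by
  rw [(D.F.rg_eq_one (Qg_le ha.1)).2 ha.1]
  exact SixAct.maps_one⟩

/-- The part in the conjugate. -/
noncomputable def B : Subgroup G := conjS D.n D.A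

theorem B_eq : D.B = D.Qs ⊓ D.K := by
  refine le_antisymm ?_ ?_
  · rintro _ ⟨a, ha, rfl⟩
    exact ⟨D.n_spec.2.2.1 ▸ conj_mem_conjS ha.1, D.conj_K D.n_mem ha.2⟩
  · intro y hy
    refine mem_conjS.2 ⟨?_, ?_⟩
    · have h := hy.1
      rw [← D.n_spec.2.2.1] at h
      exact mem_conjS.1 h
    · have := D.conj_K (inv_mem D.n_mem) hy.2
      rwa [inv_inv] at this

theorem B_le_R : D.B ≤ D.R := by
  rw [D.B_eq]
  refine D.two_le_R inf_le_right ?_ ?_
  · intro x hx y hy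
    have hxs := D.K_le hx
    refine ⟨?_, Subgroup.mul_mem _ (Subgroup.mul_mem _ hx hy.2) (Subgroup.inv_mem _ hx)⟩
    have := conj_mem_conjS (g := x) hy.1
    rwa [D.conjS_Qs hxs.2] at this
  · exact (IsPGroup.of_card (n := 13) (by rw [D.card_Qs]; norm_num) : IsPGroup 2 ↥D.Qs).to_le inf_le_left

theorem R_img {r : G} (hr : r ∈ D.R) : ∃ a, D.F.rg r = el (SixAct.iK a) :=
  exists_iK D.card_stab.1 (D.rg_K (D.R_le_K hr)) (D.mem_R.1 hr).2

theorem R_split {r : G} (hr : r ∈ D.R) : ∃ a ∈ D.A, ∃ b ∈ D.B, r = a * b := by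
  have hB : D.B ≤ Subgroup.centralizer ({z} : Set G) := fun x hx => D.K_le_C (D.R_le_K (D.B_le_R hx))
  set f := D.rgHom D.B hB with hf
  have hc := D.card_rgHom D.B hB
  have hB2 : Nat.card D.B = 2048 := (card_conjS _ _).trans D.card_A
  have hi : Nat.card ↥(D.B ⊓ Qg Q) ≤ 128 := by
    rw [← D.inter_card]
    refine Subgroup.card_le_of_le fun x hx => ⟨hx.2, ?_⟩
    have := hx.1
    rw [D.B_eq] at this
    exact this.1
  rw [hB2, ← hf] at hc
  have h16 : 16 ≤ Nat.card f.range := by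
    by_contra hlt
    have : Nat.card f.range * Nat.card ↥(D.B ⊓ Qg Q) ≤ 15 * 128 := Nat.mul_le_mul (by omega) hi
    omega
  have hex : ∀ u : f.range, ∃ a, (u : Equiv.Perm Vec) = el (SixAct.iK a) := by
    rintro ⟨_, b, rfl⟩
    exact D.R_img (D.B_le_R b.2)
  choose F hF using hex
  have hinj : Function.Injective F := fun u v e => Subtype.ext (by rw [hF u, hF v, e])
  have hbij : Function.Bijective F := (Nat.bijective_iff_injective_and_card F).2 ⟨hinj, by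
    have := Nat.card_le_card_of_injective F hinj
    simp only [Nat.card_fin] at this ⊢
    omega⟩
  obtain ⟨a, ha⟩ := D.R_img hr
  obtain ⟨⟨u, b, hbu⟩, hu⟩ := hbij.2 a
  have e : D.F.rg b = D.F.rg r := by
    rw [ha, ← hu, ← hF]
    exact hbu
  refine ⟨r * (b : G)⁻¹, ⟨?_, ?_⟩, b, b.2, by group⟩
  · have hbC := hB b.2
    have hrC := D.K_le_C (D.R_le_K hr)
    show r * (b : G)⁻¹ ∈ Qg Q
    rw [← D.F.rg_eq_one (mul_mem hrC (inv_mem hbC)), D.F.rg_mul hrC (inv_mem hbC),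
      D.F.rg_inv hbC, e, mul_inv_cancel]
  · exact Subgroup.mul_mem _ (D.R_le_K hr) (Subgroup.inv_mem _ (D.R_le_K (D.B_le_R b.2)))

theorem sq_A {a : G} (ha : a ∈ D.A) : a * a ∈ D.V := by
  rcases D.F.sq_mem ha.1 with e | e <;> rw [e]
  · exact one_mem _
  · exact D.z_mem_V

theorem comm_A {a b : G} (ha : a ∈ D.A) (hb : b ∈ D.A) : a * b * a⁻¹ * b⁻¹ ∈ D.V := by
  rcases D.F.comm_mem ha.1 hb.1 with e | e <;> rw [e]
  · exact one_mem _
  · exact D.z_mem_V

theorem n_conj_V {x : G} (hx : x ∈ D.V) : D.n * x * D.n⁻¹ ∈ D.V :=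
  D.n_norm ▸ conj_mem_conjS hx

theorem sq_B {b : G} (hb : b ∈ D.B) : b * b ∈ D.V := by
  obtain ⟨a, ha, rfl⟩ := hb
  rw [← map_mul]
  exact D.n_conj_V (D.sq_A ha)

theorem comm_B {a b : G} (ha : a ∈ D.B) (hb : b ∈ D.B) : a * b * a⁻¹ * b⁻¹ ∈ D.V := by
  obtain ⟨x, hx, rfl⟩ := ha
  obtain ⟨y, hy, rfl⟩ := hb
  rw [← map_inv, ← map_inv, ← map_mul, ← map_mul, ← map_mul]
  exact D.n_conj_V (D.comm_A hx hy)

theorem comm_BA {a b : G} (ha : a ∈ D.A) (hb : b ∈ D.B) : b * a * b⁻¹ * a⁻¹ ∈ D.V := by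
  have hbC := D.K_le_C (D.R_le_K (D.B_le_R hb))
  have hm := conj_Qg hbC ha.1
  refine D.mem_V.2 ⟨mul_mem hm (inv_mem ha.1), ?_⟩
  obtain ⟨k, hk⟩ := D.R_img (D.B_le_R hb)
  rw [D.F.pv_mul hm (inv_mem ha.1), D.F.pv_inv ha.1, D.F.pv_conj hbC ha.1, hk]
  exact shift_line k (D.mem_A.1 ha).2

theorem V_le_A : D.V ≤ D.A := fun a ha =>
  ⟨ha.1, Subgroup.mem_centralizer_iff.2 fun _ hb => D.V_comm hb ha⟩

theorem V_le_R : D.V ≤ D.R := D.V_le_A.trans D.A_le_R

theorem V_central {a r : G} (ha : a ∈ D.V) (hr : r ∈ D.R) : a * r = r * a :=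
  Subgroup.mem_centralizer_iff.1 (D.R_le_K hr) a ha

instance V_normal : (D.V.subgroupOf D.R).Normal :=
  ⟨fun x hx g => by
    rw [Subgroup.mem_subgroupOf] at hx ⊢
    rw [Subgroup.coe_mul, Subgroup.coe_mul, Subgroup.coe_inv, ← D.V_central hx g.2,
      mul_inv_cancel_right]
    exact hx⟩

theorem quot_elementary :
    (∀ u v : ↥D.R ⧸ D.V.subgroupOf D.R, u * v = v * u) ∧
      ∀ u : ↥D.R ⧸ D.V.subgroupOf D.R, u * u = 1 := by
  let pr := QuotientGroup.mk' (D.V.subgroupOf D.R)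
  have hpr : ∀ x : D.R, (x : G) ∈ D.V → pr x = 1 := fun x hx => (QuotientGroup.eq_one_iff x).2 hx
  let IsGen : D.R → Prop := fun x => (x : G) ∈ D.A ∨ (x : G) ∈ D.B
  have gcomm : ∀ x y : D.R, IsGen x → IsGen y → pr x * pr y = pr y * pr x := by
    intro x y hx hy
    have h : pr (x * y * x⁻¹ * y⁻¹) = 1 := by
      refine hpr _ ?_
      simp only [Subgroup.coe_mul, Subgroup.coe_inv]
      rcases hx with hx | hx <;> rcases hy with hy | hy
      · exact D.comm_A hx hy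
      · have := inv_mem (D.comm_BA hx hy)
        rwa [show ((y : G) * x * (y : G)⁻¹ * (x : G)⁻¹)⁻¹ = x * y * (x : G)⁻¹ * (y : G)⁻¹ by group] at this
      · exact D.comm_BA hy hx
      · exact D.comm_B hx hy
    rw [map_mul, map_mul, map_mul, map_inv, map_inv, mul_inv_eq_one, mul_inv_eq_iff_eq_mul] at h
    exact h
  have hdec : ∀ u : ↥D.R ⧸ D.V.subgroupOf D.R, ∃ x y : D.R, (x : G) ∈ D.A ∧ (y : G) ∈ D.B ∧
      u = pr x * pr y := by
    intro u
    obtain ⟨r, rfl⟩ := QuotientGroup.mk'_surjective _ u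
    obtain ⟨a, ha, b, hb, e⟩ := D.R_split r.2
    exact ⟨⟨a, D.A_le_R ha⟩, ⟨b, D.B_le_R hb⟩, ha, hb,
      by rw [← map_mul]; exact congrArg pr (Subtype.ext e)⟩
  constructor
  · intro u v
    obtain ⟨x, y, hx, hy, rfl⟩ := hdec u
    obtain ⟨x', y', hx', hy', rfl⟩ := hdec v
    have c1 : Commute (pr x) (pr x') := gcomm _ _ (Or.inl hx) (Or.inl hx')
    have c2 : Commute (pr x) (pr y') := gcomm _ _ (Or.inl hx) (Or.inr hy')
    have c3 : Commute (pr y) (pr x') := gcomm _ _ (Or.inr hy) (Or.inl hx')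
    have c4 : Commute (pr y) (pr y') := gcomm _ _ (Or.inr hy) (Or.inr hy')
    exact ((c1.mul_right c2).mul_left (c3.mul_right c4))
  · intro u
    obtain ⟨x, y, hx, hy, rfl⟩ := hdec u
    have c : Commute (pr y) (pr x) := gcomm _ _ (Or.inr hy) (Or.inl hx)
    have h1 : pr x * pr x = 1 := by rw [← map_mul]; exact hpr _ (D.sq_A hx)
    have h2 : pr y * pr y = 1 := by rw [← map_mul]; exact hpr _ (D.sq_B hy)
    calc pr x * pr y * (pr x * pr y) = pr x * (pr y * pr x) * pr y := by simp only [mul_assoc]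
      _ = pr x * pr x * (pr y * pr y) := by rw [c.eq]; simp only [mul_assoc]
      _ = 1 := by rw [h1, h2, one_mul]

theorem exists_trans {a : G} (ha : a ∈ D.V) (h1 : a ≠ 1) (hz : a ≠ z) :
    ∃ h ∈ Subgroup.normalizer (D.V : Set G) ⊓ Subgroup.centralizer ({z} : Set G),
      h * D.s * h⁻¹ = a := by
  obtain ⟨hQ, hl⟩ := D.mem_V.1 ha
  have hne : D.F.pv a ≠ 0 := fun h => by
    rcases (D.F.pv_eq_zero hQ).1 h with e | e
    · exact h1 e
    · exact hz e
  have hiso : UnitF4.H (D.F.pv a) (D.F.pv a) = 0 := by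
    have := (line_spec (enc_lt _) hl).1
    rwa [qC_enc, decide_eq_true_iff] at this
  have hnr : ¬ IsRoot (D.F.pv a) := by
    rcases (line_spec (enc_lt _) hl).2.2.1 with e | e
    · exact absurd (by rw [← vecN_enc (D.F.pv a), e, vecN_zero]) hne
    · rwa [vecN_enc] at e
  obtain ⟨k, hk, hka⟩ : ∃ k ∈ Kc, k (D.F.pv a) = vecN Data.repW := by
    rcases orbit_cases hne hiso with ⟨hr, -⟩ | ⟨-, h⟩
    · exact absurd hr hnr
    · exact h
  obtain ⟨x, hx, hxe⟩ := D.F.exists_rg (D.range_eq.symm ▸ Kc_le_Ke (inv_mem hk))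
  have hkw : k⁻¹ (vecN Data.repW) = D.F.pv a := by rw [← hka]; exact k.symm_apply_apply _
  have hmap : ∀ v, InLine v → InLine (k⁻¹ v) := by
    have hlin := Kc_linear (inv_mem hk)
    have h0 : k⁻¹ (0 : Vec) = 0 := by
      have := hlin.1 0 0
      rw [add_zero] at this
      exact left_eq_add.1 this
    have hadd : ∀ u v : Vec, InLine u → InLine v → InLine (u + v) := by
      intro u v hu hv
      obtain ⟨p, hp, rfl⟩ := D.F.pv_surj u
      obtain ⟨q, hq, rfl⟩ := D.F.pv_surj v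
      rw [← D.F.pv_mul hp hq]
      exact (D.mem_V.1 (mul_mem (D.mem_V.2 ⟨hp, hu⟩) (D.mem_V.2 ⟨hq, hv⟩))).2
    have h2 : InLine (k⁻¹ (vecN 2720)) := by
      rw [vec_w2, hlin.2.1, show twist false om = om from rfl, hkw]
      exact scal_line hl
    intro v hv
    rcases inLine_cases hv with rfl | rfl | rfl | rfl
    · rw [h0, InLine, enc_zero]; rfl
    · rwa [hkw]
    · exact h2
    · rw [hlin.1]
      exact hadd _ _ (hkw ▸ hl) h2
  have hnorm : ∀ y ∈ Subgroup.centralizer ({z} : Set G), D.F.rg y = k⁻¹ →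
      y ∈ Subgroup.normalizer (D.V : Set G) := fun y hy hye => mem_norm_of_le fun b hb =>
    D.mem_V.2 ⟨conj_Qg hy hb.1, by
      rw [D.F.pv_conj hy hb.1, hye]
      exact hmap _ (D.mem_V.1 hb).2⟩
  have hxs : D.F.pv (x * D.s * x⁻¹) = D.F.pv a := by
    rw [D.F.pv_conj hx D.hsQ, D.hw, hxe, hkw]
  rcases D.eq_or_eq_mul (conj_Qg hx D.hsQ) hQ hxs with e | e
  · exact ⟨x, ⟨hnorm x hx hxe, hx⟩, e⟩
  obtain ⟨q, hq, hqv⟩ := D.F.pv_surj (vecN 32)
  have hq' : q * D.s * q⁻¹ = D.s * z := D.twist_conj hq D.hsQ (by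
    rw [hqv, D.hw, enc_vecN (by norm_num), enc_vecN repW_lt, base_facts.1]
    exact base_facts.2.2.2.2.1)
  have hxq : x * q ∈ Subgroup.centralizer ({z} : Set G) := mul_mem hx (Qg_le hq)
  refine ⟨x * q, ⟨hnorm _ hxq ?_, hxq⟩, ?_⟩
  · rw [D.F.rg_mul hx (Qg_le hq), (D.F.rg_eq_one (Qg_le hq)).2 hq, mul_one, hxe]
  · calc x * q * D.s * (x * q)⁻¹ = x * (q * D.s * q⁻¹) * x⁻¹ := by group
      _ = x * D.s * x⁻¹ * (x * z * x⁻¹) := by rw [hq']; group
      _ = a := by rw [e, mem_cen.1 hx, mul_inv_cancel_right, mul_assoc, D.z_sq, mul_one]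

theorem V_le_commutator : D.V ≤ ⁅D.R, D.R⁆ := by
  have hinv : ∀ {l x : G}, l ∈ Subgroup.normalizer (D.V : Set G) → x ∈ ⁅D.R, D.R⁆ →
      l * x * l⁻¹ ∈ ⁅D.R, D.R⁆ := fun {l x} hl hx => by
    have e : conjS l D.R = D.R := conjS_eq_of_le fun y hy => D.conj_R hl hy
    have := conj_mem_conjS (g := l) hx
    rwa [conjS, Subgroup.map_commutator, ← conjS, e] at this
  have hz : z ∈ ⁅D.R, D.R⁆ := by
    obtain ⟨a, ha, hav⟩ := D.F.pv_surj (vecN 1)
    obtain ⟨b, hb, hbv⟩ := D.F.pv_surj (vecN 2)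
    have hA : a ∈ D.A := D.mem_A.2 ⟨ha, by
      rw [hav, enc_vecN (by norm_num)]; exact base_facts.2.2.2.2.2.2.2.2.1⟩
    have hB : b ∈ D.A := D.mem_A.2 ⟨hb, by
      rw [hbv, enc_vecN (by norm_num)]; exact base_facts.2.2.2.2.2.2.2.2.2.1⟩
    have hm : a * b * a⁻¹ * b⁻¹ ∈ ⁅D.R, D.R⁆ :=
      Subgroup.commutator_mem_commutator (D.A_le_R hA) (D.A_le_R hB)
    rcases D.F.comm_mem ha hb with e | e
    · exfalso
      rw [mul_inv_eq_one, mul_inv_eq_iff_eq_mul] at e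
      have h := (D.commute_iff ha hb).1 e
      rw [hav, hbv, enc_vecN (by norm_num), enc_vecN (by norm_num),
        base_facts.2.2.2.2.2.2.2.2.2.2.1] at h
      exact absurd h (by decide)
    · rwa [e] at hm
  intro a ha
  by_cases h1 : a = 1
  · rw [h1]; exact one_mem _
  by_cases h2 : a = z
  · rwa [h2]
  obtain ⟨h, hh, rfl⟩ := D.exists_trans ha h1 h2
  refine hinv hh.1 ?_
  rw [← D.n_spec.2.1]
  exact hinv D.n_mem hz

theorem special : Cfsg.IsSpecial 2 ↥D.R ∧ (Subgroup.center ↥D.R).map D.R.subtype = D.V := by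
  haveI : Fact (Nat.Prime 2) := ⟨Nat.prime_two⟩
  obtain ⟨hc, hsq⟩ := D.quot_elementary
  have hcen : Subgroup.center ↥D.R = D.V.subgroupOf D.R := by
    refine le_antisymm (fun r hr => ?_) fun r hr => ?_
    · have hcomm : ∀ a ∈ D.A, (r : G) * a = a * r := fun a ha =>
        (congrArg Subtype.val (Subgroup.mem_center_iff.1 hr ⟨a, D.A_le_R ha⟩)).symm
      have hrC := D.K_le_C (D.R_le_K r.2)
      obtain ⟨k, hk⟩ := D.R_img r.2
      have h1 : D.F.rg r = 1 := by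
        rw [hk]
        refine moved k fun v hv => ?_
        obtain ⟨a, ha, rfl⟩ := D.F.pv_surj v
        rw [← hk]
        exact D.fix_of_comm hrC ha (hcomm a (D.mem_A.2 ⟨ha, hv⟩))
      have hrQ : (r : G) ∈ Qg Q := (D.F.rg_eq_one hrC).1 h1
      have hrA : (r : G) ∈ D.A := ⟨hrQ, D.R_le_K r.2⟩
      refine D.mem_V.2 ⟨hrQ, rad_line (D.mem_A.1 hrA).2 fun v hv => ?_⟩
      obtain ⟨a, ha, rfl⟩ := D.F.pv_surj v
      exact (D.commute_iff hrQ ha).1 (hcomm a (D.mem_A.2 ⟨ha, hv⟩))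
    · exact Subgroup.mem_center_iff.2 fun x => Subtype.ext (D.V_central hr x.2).symm
  have hle : commutator ↥D.R ≤ D.V.subgroupOf D.R :=
    (Subgroup.Normal.quotient_commutative_iff_commutator_le).1 ⟨⟨hc⟩⟩
  have hge : D.V.subgroupOf D.R ≤ commutator ↥D.R := by
    intro r hr
    have h := D.V_le_commutator hr
    have e : (commutator ↥D.R).map D.R.subtype = ⁅D.R, D.R⁆ := by
      rw [commutator_def, Subgroup.map_commutator, ← MonoidHom.range_eq_map, Subgroup.range_subtype]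
    rw [← e] at h
    obtain ⟨y, hy, hyr⟩ := h
    rwa [show r = y from Subtype.ext hyr.symm]
  refine ⟨⟨D.R_two, ?_, ?_⟩, ?_⟩
  · rw [hcen]
    refine le_antisymm (PGroup.frattini_le_of_commutator_le_of_pow_mem Nat.prime_two hle fun x => ?_)
      (hge.trans (PGroup.commutator_le_frattini D.R_two))
    have := hsq (QuotientGroup.mk x)
    rw [pow_two]
    exact (QuotientGroup.eq_one_iff _).1 this
  · rw [hcen]; exact le_antisymm hle hge
  · rw [hcen, Subgroup.subgroupOf_map_subtype, inf_eq_left]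
    exact D.V_le_R

end Setup

end Cfsg.Agent.LargeFischer.Eight
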