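import Cfsg.Agent.LargeFischer.Classify
import Cfsg.Agent.LargeFischer.ThreeCore

/-!
The semilinear extension of the triple cover: order, normal subgroups, and no normal 2-subgroup.
-/

set_option autoImplicit false

namespace Cfsg.Agent.LargeFischer

open Cfsg
open Cfsg.Agent.GFour25
open Cfsg.Agent.SporB.FischerU (Vec SUSix)
open Cfsg.Agent.TTClass

theorem card_Kc' : Nat.card Kc = 9797760 := by
  rw [Kc, SUSixU43.card_map_injective actHom actHom_injective, covU_eq, card_cover]

theorem outE_semi : IsSemi true outE := frob_semi.mul (actHom_semi trn)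

theorem outE_sq : outE * outE = 1 := by
  obtain ⟨⟨t2, -⟩, ⟨f2, -⟩, htf⟩ := outer_facts
  calc outE * outE = outE * (actHom trn * frob) := by rw [htf]
    _ = frob * (actHom trn * actHom trn) * frob := by rw [outE]; group
    _ = 1 := by rw [t2, mul_one, f2]

theorem outE_conj {k : Equiv.Perm Vec} (hk : k ∈ Kc) : outE * k * outE⁻¹ ∈ Kc := by
  obtain ⟨⟨-, ht⟩, ⟨-, hf⟩, -⟩ := outer_facts
  rw [show outE * k * outE⁻¹ = frob * (actHom trn * k * (actHom trn)⁻¹) * frob⁻¹ by rw [outE]; group]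
  exact hf _ (ht k hk)

theorem outE_scal (h : scal * outE = outE * scal) : False := by
  have hne := scal_ne_one
  refine hne (Equiv.ext fun x => ?_)
  obtain ⟨y, rfl⟩ := outE.surjective x
  have e := DFunLike.congr_fun h y
  rw [Equiv.Perm.mul_apply, Equiv.Perm.mul_apply, scal_apply, scal_apply, outE_semi.2.1] at e
  have e2 : (om + twist true om) • outE y = 0 := by
    rw [add_smul, ← e]
    funext i
    show om • outE y i + om • outE y i = 0
    exact (by decide : ∀ a : F4, a + a = 0) _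
  have hone : om + twist true om = 1 := by decide
  rw [hone, one_smul] at e2
  rw [scal_apply, e2, smul_zero]
  rfl

theorem outE_not_mem : outE ∉ Kc := fun h => outE_scal (scal_commute (Kc_linear h))

theorem mem_Ke {g : Equiv.Perm Vec} (h : g ∈ Ke) : g ∈ Kc ∨ ∃ k ∈ Kc, g = k * outE := by
  let S : Subgroup (Equiv.Perm Vec) :=
    { carrier := {g | g ∈ Kc ∨ ∃ k ∈ Kc, g = k * outE}
      one_mem' := Or.inl (one_mem _)
      mul_mem' := by
        rintro a b (ha | ⟨k, hk, rfl⟩) (hb | ⟨l, hl, rfl⟩)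
        · exact Or.inl (mul_mem ha hb)
        · exact Or.inr ⟨a * l, mul_mem ha hl, (mul_assoc _ _ _).symm⟩
        · exact Or.inr ⟨k * (outE * b * outE⁻¹), mul_mem hk (outE_conj hb), by group⟩
        · refine Or.inl ?_
          rw [show k * outE * (l * outE) = k * (outE * l * outE⁻¹) * (outE * outE) by group, outE_sq, mul_one]
          exact mul_mem hk (outE_conj hl)
      inv_mem' := by
        rintro a (ha | ⟨k, hk, rfl⟩)
        · exact Or.inl (inv_mem ha)
        · refine Or.inr ⟨outE * k⁻¹ * outE⁻¹, outE_conj (inv_mem hk), ?_⟩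
          rw [inv_mul_cancel_right, mul_inv_rev, inv_eq_of_mul_eq_one_left outE_sq] }
  have : Ke ≤ S := sup_le (fun x hx => Or.inl hx)
    (Subgroup.zpowers_le.2 (Or.inr ⟨1, one_mem _, (one_mul _).symm⟩))
  exact this h

theorem index_Kc : (Kc.subgroupOf Ke).index = 2 := by
  rw [Subgroup.index_eq_two_iff]
  refine ⟨⟨outE, Subgroup.mem_sup_right (Subgroup.mem_zpowers _)⟩, fun b => ?_⟩
  simp only [Subgroup.mem_subgroupOf, Subgroup.coe_mul]
  rcases mem_Ke b.2 with hb | ⟨k, hk, hb⟩
  · exact Or.inr ⟨hb, fun h => outE_not_mem ((Kc.mul_mem_cancel_left hb).1 h)⟩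
  · refine Or.inl ⟨?_, fun h => ?_⟩
    · rw [hb, mul_assoc, outE_sq, mul_one]; exact hk
    · rw [hb] at h
      exact outE_not_mem ((Kc.mul_mem_cancel_left hk).1 h)

theorem card_Ke : Nat.card Ke = 2 * 9797760 := by
  have h := Subgroup.card_mul_index (Kc.subgroupOf Ke)
  rw [index_Kc, Nat.card_congr (Subgroup.subgroupOfEquivOfLe Kc_le_Ke).toEquiv, card_Kc'] at h
  omega

theorem scal_cube : scal ^ 3 = 1 := Equiv.ext fun x => by
  rw [pow_succ, pow_two]
  simp only [Equiv.Perm.mul_apply, scal_apply, smul_smul]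
  rw [show om * (om * om) = 1 by decide, one_smul]
  rfl

theorem orderOf_scal : orderOf scal = 3 :=
  haveI := Fact.mk Nat.prime_three
  orderOf_eq_prime scal_cube scal_ne_one

theorem scal_central {k : Equiv.Perm Vec} (hk : k ∈ Kc) : scal * k = k * scal := scal_commute (Kc_linear hk)

theorem outE_scal_conj : outE * scal * outE⁻¹ = scal⁻¹ := by
  rw [mul_inv_eq_iff_eq_mul, eq_inv_mul_iff_mul_eq]
  refine Equiv.ext fun x => ?_
  simp only [Equiv.Perm.mul_apply, scal_apply, outE_semi.2.1, smul_smul]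
  rw [show om * twist true om = 1 by decide, one_smul]

instance scalN_normal : ((Subgroup.zpowers scal).subgroupOf Ke).Normal := by
  refine ⟨fun a ha g => ?_⟩
  rw [Subgroup.mem_subgroupOf] at ha ⊢
  obtain ⟨i, hi⟩ := Subgroup.mem_zpowers_iff.1 ha
  simp only [Subgroup.coe_mul, InvMemClass.coe_inv, ← hi]
  rcases mem_Ke g.2 with hg | ⟨k, hk, hg⟩
  · refine ⟨i, ?_⟩
    show scal ^ i = _
    rw [← ((show Commute scal (g : Equiv.Perm Vec) from scal_central hg).zpow_left i).eq,
      mul_inv_cancel_right]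
  · refine ⟨-i, ?_⟩
    show scal ^ (-i) = _
    have e : outE * scal ^ i * outE⁻¹ = scal ^ (-i) := by
      rw [← MulAut.conj_apply, map_zpow, MulAut.conj_apply, outE_scal_conj, inv_zpow, zpow_neg]
    rw [hg, show k * outE * scal ^ i * (k * outE)⁻¹ = k * (outE * scal ^ i * outE⁻¹) * k⁻¹ by group, e,
      ← ((show Commute scal k from scal_central hk).zpow_left (-i)).eq, mul_inv_cancel_right]

/-- The map of the cover onto `PSU(4,9)`. -/
theorem exists_Kc_quot {F9 : Type} [Field F9] [Fintype F9] (hF9 : Fintype.card F9 = 9) :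
    ∃ f : Kc →* PSU 4 F9 3, Function.Surjective f ∧
      ∀ k : Kc, f k = 1 ↔ (k : Equiv.Perm Vec) ∈ Subgroup.zpowers scal := by
  obtain ⟨hcen, ⟨e⟩⟩ := SUSixU43.cover_facts hF9 0
  let e1 : SUSixU43.cover 0 ≃* Kc :=
    (MulEquiv.subgroupCongr covU_eq).symm.trans (covU.equivMapOfInjective actHom actHom_injective)
  refine ⟨e.toMonoidHom.comp ((QuotientGroup.mk' _).comp e1.symm.toMonoidHom),
    e.surjective.comp ((QuotientGroup.mk'_surjective _).comp e1.symm.surjective), fun k => ?_⟩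
  have hzc : (Subgroup.zpowers scal).subgroupOf Kc = Subgroup.center Kc := by
    have hc : Nat.card (Subgroup.center Kc) = 3 := by rw [← center_card_congr e1, hcen]
    refine Subgroup.eq_of_le_of_card_ge (fun x hx => Subgroup.mem_center_iff.2 fun y => Subtype.ext ?_) ?_
    · obtain ⟨i, hi⟩ := Subgroup.mem_zpowers_iff.1 (Subgroup.mem_subgroupOf.1 hx)
      simp only [Subgroup.coe_mul, ← hi]
      exact (((show Commute scal (y : Equiv.Perm Vec) from scal_central y.2).zpow_left i).eq).symm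
    · rw [hc, Nat.card_congr (Subgroup.subgroupOfEquivOfLe (Subgroup.zpowers_le.2 scal_mem)).toEquiv,
        Nat.card_zpowers, orderOf_scal]
  rw [← Subgroup.mem_subgroupOf, hzc, ← center_map_congr e1]
  show e (QuotientGroup.mk (e1.symm k)) = 1 ↔ _
  rw [map_eq_one_iff e e.injective, QuotientGroup.eq_one_iff, Subgroup.mem_map_equiv]

theorem no_two_normal {F9 : Type} [Field F9] [Fintype F9] (hF9 : Fintype.card F9 = 9)
    (N : Subgroup Ke) (hN : N.Normal) (h2 : IsPGroup 2 N) : N = ⊥ := by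
  haveI : Fact (Nat.Prime 2) := ⟨Nat.prime_two⟩
  obtain ⟨f, hf, hker⟩ := exists_Kc_quot hF9
  obtain ⟨hsimple, hcard⟩ := SUSixU43.simple_facts hF9
  haveI := hsimple
  let ι : Kc →* Ke := Subgroup.inclusion Kc_le_Ke
  have h2' : IsPGroup 2 ↥(N.comap ι) := h2.comap_of_injective ι (Subgroup.inclusion_injective _)
  have hbot : (N.comap ι).map f = ⊥ := by
    refine (IsSimpleGroup.eq_bot_or_eq_top_of_normal _ ((hN.comap ι).map f hf)).resolve_right fun h => ?_
    obtain ⟨n, hn⟩ := IsPGroup.iff_card.1 (h2'.map f)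
    rw [h, Subgroup.card_top, hcard] at hn
    have : 3 ∣ 2 ^ n := hn ▸ ⟨1088640, rfl⟩
    exact absurd ((Nat.prime_dvd_prime_iff_eq Nat.prime_three Nat.prime_two).1
      (Nat.prime_three.dvd_of_dvd_pow this)) (by norm_num)
  have hKN : ∀ k : Kc, ι k ∈ N → k = 1 := by
    intro k hk
    obtain ⟨n, hn⟩ := h2 ⟨ι k, hk⟩
    have h1 : (k : Equiv.Perm Vec) ^ 2 ^ n = 1 :=
      congrArg (fun x : N => ((x : Ke) : Equiv.Perm Vec)) hn
    have hz : (k : Equiv.Perm Vec) ∈ Subgroup.zpowers scal :=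
      (hker k).1 (Subgroup.mem_bot.1 (hbot ▸ ⟨k, hk, rfl⟩))
    exact Subtype.ext (orderOf_eq_one_iff.1 (Nat.eq_one_of_dvd_coprimes
      (Nat.Coprime.pow_left n (by norm_num : Nat.Coprime 2 3)) (orderOf_dvd_of_pow_eq_one h1)
      ((Subgroup.orderOf_dvd_natCard _ hz).trans (by rw [Nat.card_zpowers, orderOf_scal]))))
  rw [Subgroup.eq_bot_iff_forall]
  intro x hx
  rcases mem_Ke x.2 with hxK | ⟨k, hk, hxk⟩
  · have := hKN ⟨x, hxK⟩ hx
    exact Subtype.ext (congrArg (fun y : Kc => (y : Equiv.Perm Vec)) this)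
  · exfalso
    let s : Ke := ⟨scal, Kc_le_Ke scal_mem⟩
    have hcmem : s * x * s⁻¹ * x⁻¹ ∈ N := mul_mem (hN.conj_mem x hx s) (inv_mem hx)
    have hcK : ((s * x * s⁻¹ * x⁻¹ : Ke) : Equiv.Perm Vec) ∈ Kc := by
      simp only [Subgroup.coe_mul, InvMemClass.coe_inv, hxk]
      rw [show scal * (k * outE) * scal⁻¹ * (k * outE)⁻¹ =
        scal * k * (outE * scal⁻¹ * outE⁻¹) * k⁻¹ by group]
      exact mul_mem (mul_mem (mul_mem scal_mem hk) (outE_conj (inv_mem scal_mem))) (inv_mem hk)
    have e := congrArg (fun y : Kc => (y : Equiv.Perm Vec)) (hKN ⟨_, hcK⟩ hcmem)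
    simp only [Subgroup.coe_mul, InvMemClass.coe_inv, OneMemClass.coe_one, hxk] at e
    change scal * (k * outE) * scal⁻¹ * (k * outE)⁻¹ = 1 at e
    refine outE_scal (mul_left_cancel (a := k) ?_)
    calc k * (scal * outE) = scal * (k * outE) := by rw [← mul_assoc, ← scal_central hk, mul_assoc]
      _ = (scal * (k * outE) * scal⁻¹ * (k * outE)⁻¹) * (k * outE) * scal := by group
      _ = k * (outE * scal) := by rw [e, one_mul, mul_assoc]

end Cfsg.Agent.LargeFischer
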