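import Cfsg.Agent.LargeFischer.Orbits
import Cfsg.Agent.LargeFischer.LinesData
import Cfsg.Agent.S0288

/-!
The stabiliser of the first representative in the semilinear extension acts on twenty-seven sets of
vectors as the isometry group of the elliptic quadratic form of dimension six acts on singular vectors.
-/

set_option autoImplicit false
set_option maxRecDepth 100000

namespace Cfsg.Agent.LargeFischer

open Cfsg.Agent.CosetCert Cfsg.Agent.GFour25
open Cfsg.Agent.SporB.FischerU (Vec vecN enc vecN_enc enc_lt)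
open Cfsg.Agent.TTClass
open scoped Matrix

namespace LineAct

/-- The index type of the orthogonal space. -/
abbrev I6 : Type := (Fin 2 ⊕ Fin 2) ⊕ Fin 2

/-- The orthogonal space. -/
abbrev V6 : Type := I6 → ZMod 2

/-- The form. -/
abbrev q6 : V6 → ZMod 2 := Cfsg.quadFormMinus 2 (ZMod 2) 1 1

/-- The six positions. -/
def pos : I6 → Fin 6 := Sum.elim (Sum.elim ![0, 1] ![2, 3]) ![4, 5]

/-- A vector from its bits. -/
def vec6 (n : ℕ) : V6 := fun i => if Nat.testBit n (pos i).val then 1 else 0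

/-- The bits of a vector. -/
def enc6 (v : V6) : ℕ :=
  (v (.inl (.inl 0))).val + 2 * (v (.inl (.inl 1))).val + 4 * (v (.inl (.inr 0))).val +
    8 * (v (.inl (.inr 1))).val + 16 * (v (.inr 0)).val + 32 * (v (.inr 1)).val

theorem vec6_table : ∀ a b c d e f : ZMod 2,
    let n := a.val + 2 * b.val + 4 * c.val + 8 * d.val + 16 * e.val + 32 * f.val
    n < 64 ∧ vec6 n (.inl (.inl 0)) = a ∧ vec6 n (.inl (.inl 1)) = b ∧ vec6 n (.inl (.inr 0)) = c ∧
      vec6 n (.inl (.inr 1)) = d ∧ vec6 n (.inr 0) = e ∧ vec6 n (.inr 1) = f := by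
  decide +kernel

theorem vec6_surj (v : V6) : ∃ n < 64, vec6 n = v := by
  obtain ⟨h, e1, e2, e3, e4, e5, e6⟩ := vec6_table (v (.inl (.inl 0))) (v (.inl (.inl 1)))
    (v (.inl (.inr 0))) (v (.inl (.inr 1))) (v (.inr 0)) (v (.inr 1))
  refine ⟨_, h, funext fun i => ?_⟩
  rcases i with (i | i) | i <;> fin_cases i
  · exact e1
  · exact e2
  · exact e3
  · exact e4
  · exact e5
  · exact e6

/-- The codes of one of the twenty-seven sets. -/
def lineL (k : Fin 27) : List ℕ := Data.lineSets.getD k.val []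

/-- The singular vector of a set. -/
def sv (k : Fin 27) : V6 := vec6 (Data.lineVec.getD k.val 0)

theorem lineL_lt : ∀ k : Fin 27, ∀ v ∈ lineL k, v < 4096 := by decide +kernel

theorem lineL_card : ∀ k : Fin 27, (lineL k).toFinset.card = 15 := by decide +kernel

theorem lineL_inter : ∀ a b : Fin 27, a ≠ b → ((lineL a).toFinset ∩ (lineL b).toFinset).card < 15 := by
  decide +kernel

/-- The permutation sends each set into the one named by `σ`. -/
def Maps (g : Equiv.Perm Vec) (σ : Fin 27 → Fin 27) : Prop :=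
  ∀ k, ∀ v ∈ lineL k, enc (g (vecN v)) ∈ lineL (σ k)

theorem maps_unique {g : Equiv.Perm Vec} {σ τ : Fin 27 → Fin 27} (hs : Maps g σ) (ht : Maps g τ) :
    σ = τ := by
  refine funext fun k => ?_
  by_contra hne
  have hinj : Set.InjOn (fun v => enc (g (vecN v))) ↑(lineL k).toFinset := by
    intro a ha b hb e
    simp only [List.coe_toFinset] at ha hb
    have e' := g.injective (by simpa [vecN_enc] using congrArg vecN e)
    rw [← enc_vecN (lineL_lt k a ha), ← enc_vecN (lineL_lt k b hb), e']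
  have hsub : (lineL k).toFinset.image (fun v => enc (g (vecN v))) ⊆
      (lineL (σ k)).toFinset ∩ (lineL (τ k)).toFinset := by
    intro x hx
    rw [Finset.mem_image] at hx
    obtain ⟨v, hv, rfl⟩ := hx
    rw [List.mem_toFinset] at hv
    rw [Finset.mem_inter, List.mem_toFinset, List.mem_toFinset]
    exact ⟨hs k v hv, ht k v hv⟩
  have h1 := Finset.card_le_card hsub
  rw [Finset.card_image_of_injOn hinj, lineL_card] at h1
  exact absurd h1 (not_le.2 (lineL_inter _ _ hne))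

/-- The isometry group. -/
abbrev O6 : Subgroup (Matrix.GeneralLinearGroup I6 (ZMod 2)) := Cfsg.isometryGroup (ZMod 2) q6

/-- An isometry induces the action of `g` on the sets. -/
def Rel (g : Equiv.Perm Vec) (M : O6) : Prop :=
  ∃ σ : Fin 27 → Fin 27, Maps g σ ∧ ∀ k, (M.1.1 : Matrix I6 I6 (ZMod 2)) *ᵥ sv k = sv (σ k)

theorem rel_one : Rel 1 1 := by
  refine ⟨id, fun k v hv => ?_, fun k => ?_⟩
  · rw [Equiv.Perm.one_apply, enc_vecN (lineL_lt k v hv)]
    exact hv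
  · show (1 : Matrix I6 I6 (ZMod 2)) *ᵥ sv k = sv k
    rw [Matrix.one_mulVec]

theorem rel_mul {g h : Equiv.Perm Vec} {M N : O6} : Rel g M → Rel h N → Rel (g * h) (M * N) := by
  rintro ⟨σ, hg, hM⟩ ⟨τ, hh, hN⟩
  refine ⟨σ ∘ τ, fun k v hv => ?_, fun k => ?_⟩
  · have h1 := hg (τ k) _ (hh k v hv)
    rw [vecN_enc] at h1
    simpa [Equiv.Perm.mul_apply] using h1
  · show ((M.1.1 : Matrix I6 I6 (ZMod 2)) * N.1.1) *ᵥ sv k = sv (σ (τ k))
    rw [← Matrix.mulVec_mulVec, hN, hM]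

/-- The bits of the six basis vectors as combinations of the singular vectors. -/
def comb : Fin 6 → List (Fin 27) := ![[0], [1], [4], [3], [9, 3, 1], [10, 4, 1, 0]]

theorem comb_ok : ∀ j : Fin 6, ((comb j).map sv).sum = vec6 (2 ^ j.val) := by decide +kernel

theorem rel_unique {g : Equiv.Perm Vec} {M N : O6} : Rel g M → Rel g N → M = N := by
  rintro ⟨σ, hs, hM⟩ ⟨τ, ht, hN⟩
  obtain rfl := maps_unique hs ht
  refine Subtype.ext (Units.ext (Matrix.ext fun i j => ?_))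
  have key : ∀ l : List (Fin 27), (M.1.1 : Matrix I6 I6 (ZMod 2)) *ᵥ (l.map sv).sum =
      (N.1.1 : Matrix I6 I6 (ZMod 2)) *ᵥ (l.map sv).sum := by
    intro l
    induction l with
    | nil => simp
    | cons a l ih => rw [List.map_cons, List.sum_cons, Matrix.mulVec_add, Matrix.mulVec_add, ih, hM, hN]
  have hcol : ∀ j : I6, vec6 (2 ^ (pos j).val) = Pi.single j 1 := by decide +kernel
  have h := congrFun (key (comb (pos j))) i
  rw [comb_ok, hcol, Matrix.mulVec_single_one, Matrix.mulVec_single_one] at h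
  exact h

/-- The matrix determined by a permutation of the sets. -/
def matOf (σ : Fin 27 → Fin 27) : Matrix I6 I6 (ZMod 2) :=
  Matrix.of fun i j => ((comb (pos j)).map (fun k => sv (σ k))).sum i

/-- The conditions on a named element of the stabiliser. -/
abbrev Good (i : ℕ) (σ : Fin 27 → Fin 27) : Prop :=
  inE i = true ∧ appC (eN i) Data.repU = Data.repU ∧
    (∀ k, ∀ v ∈ lineL k, appC (eN i) v ∈ lineL (σ k)) ∧
    (∀ k, matOf σ *ᵥ sv k = sv (σ k)) ∧
    ∀ n : Fin 64, q6 (matOf σ *ᵥ vec6 n.val) = q6 (vec6 n.val) ∧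
      (matOf σ *ᵥ vec6 n.val = 0 → n.val = 0)

set_option maxHeartbeats 2000000 in
open LinesData in
theorem good_all : (∀ a, Good (idx0 a) (sig0 a)) ∧ (∀ a, Good (idx1 a) (sig1 a)) ∧
    (∀ a, Good (idx2 a) (sig2 a)) ∧ (∀ a, Good (idx3 a) (sig3 a)) ∧
    (∀ a, Good (idx4 a) (sig4 a)) ∧ ∀ a, Good (idx5 a) (sig5 a) := by
  refine ⟨?_, ?_, ?_, ?_, ?_, ?_⟩ <;> decide +kernel

/-- Elements that act on the sets as isometries. -/
noncomputable def actStab : Subgroup (Equiv.Perm Vec) where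
  carrier := {g | ∃ M, Rel g M}
  one_mem' := ⟨1, rel_one⟩
  mul_mem' := fun ⟨_, h⟩ ⟨_, h'⟩ => ⟨_, rel_mul h h'⟩
  inv_mem' := by
    intro g hg
    have hp : ∀ m : ℕ, ∃ M, Rel (g ^ m) M := by
      intro m
      induction m with
      | zero => exact ⟨1, by rw [pow_zero]; exact rel_one⟩
      | succ m ih =>
        obtain ⟨M, h1⟩ := hg
        obtain ⟨N, h2⟩ := ih
        exact ⟨N * M, by rw [pow_succ]; exact rel_mul h2 h1⟩
    have e : g⁻¹ = g ^ (orderOf g - 1) := by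
      apply inv_eq_of_mul_eq_one_right
      rw [← pow_succ', Nat.sub_add_cancel (orderOf_pos g), pow_orderOf_eq_one]
    show ∃ M, Rel g⁻¹ M
    rw [e]
    exact hp _

/-- The isometry induced. -/
noncomputable def theta : ↥actStab →* O6 :=
  MonoidHom.mk' (fun g => g.2.choose) fun a b =>
    rel_unique (a * b).2.choose_spec (rel_mul a.2.choose_spec b.2.choose_spec)

theorem good_spec {i : ℕ} {σ : Fin 27 → Fin 27} (h : Good i σ) :
    el i ∈ Ke ⊓ stabV Data.repU ⊓ actStab ∧ Maps (el i) σ := by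
  obtain ⟨hK, hf, hm, hsv, hq⟩ := h
  have hi : i < Data.numE := by
    rw [inE, Bool.and_eq_true] at hK
    exact Nat.blt_eq.mp hK.1
  have hg := (el_spec hi).2
  have hM : Maps (el i) σ := fun k v hv => by
    rw [hg, enc_lin, enc_vecN (lineL_lt k v hv)]
    exact hm k v hv
  have hfix : el i ∈ stabV Data.repU := by
    rw [MulAction.mem_stabilizer_iff, Equiv.Perm.smul_def, hg, lin, enc_vecN repU_lt, hf]
  have hinj : Function.Injective (matOf σ).mulVec := by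
    intro x y e
    obtain ⟨n, hn, hv⟩ := vec6_surj (x - y)
    have h0 : matOf σ *ᵥ vec6 n = 0 := by rw [hv, Matrix.mulVec_sub, e, sub_self]
    have := (hq ⟨n, hn⟩).2 h0
    rw [show n = 0 from this] at hv
    have h6 : vec6 0 = 0 := funext fun i => by simp [vec6]
    exact sub_eq_zero.1 (hv.symm.trans h6)
  obtain ⟨u, hu⟩ := Matrix.mulVec_injective_iff_isUnit.1 hinj
  have hiso : u ∈ O6 := fun x _ => by
    obtain ⟨n, hn, rfl⟩ := vec6_surj x
    show q6 ((u : Matrix I6 I6 (ZMod 2)) *ᵥ vec6 n) = q6 (vec6 n)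
    rw [hu]
    exact (hq ⟨n, hn⟩).1
  refine ⟨⟨⟨el_mem_Ke hK, hfix⟩, ⟨⟨u, hiso⟩, σ, hM, fun k => ?_⟩⟩, hM⟩
  show (u : Matrix I6 I6 (ZMod 2)) *ᵥ sv k = sv (σ k)
  rw [hu]
  exact hsv k

/-- The tuples of transversal positions. -/
abbrev Tup : Type := Fin 27 × Fin 10 × Fin 8 × Fin 4 × Fin 3 × Fin 2

open LinesData in
/-- A product along the levels. -/
noncomputable def tE (t : Tup) : Equiv.Perm Vec :=
  el (idx0 t.1) * (el (idx1 t.2.1) * (el (idx2 t.2.2.1) * (el (idx3 t.2.2.2.1) *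
    (el (idx4 t.2.2.2.2.1) * el (idx5 t.2.2.2.2.2)))))

open LinesData in
/-- Its action on the sets. -/
def tS (t : Tup) : Fin 27 → Fin 27 :=
  sig0 t.1 ∘ (sig1 t.2.1 ∘ (sig2 t.2.2.1 ∘ (sig3 t.2.2.2.1 ∘ (sig4 t.2.2.2.2.1 ∘ sig5 t.2.2.2.2.2))))

theorem maps_comp {g h : Equiv.Perm Vec} {σ τ : Fin 27 → Fin 27} (hg : Maps g σ) (hh : Maps h τ) :
    Maps (g * h) (σ ∘ τ) := fun k v hv => by
  have h1 := hg (τ k) _ (hh k v hv)
  rw [vecN_enc] at h1
  simpa [Equiv.Perm.mul_apply] using h1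

theorem tE_spec (t : Tup) : tE t ∈ Ke ⊓ stabV Data.repU ⊓ actStab ∧ Maps (tE t) (tS t) := by
  obtain ⟨g0, g1, g2, g3, g4, g5⟩ := good_all
  obtain ⟨a0, b0⟩ := good_spec (g0 t.1)
  obtain ⟨a1, b1⟩ := good_spec (g1 t.2.1)
  obtain ⟨a2, b2⟩ := good_spec (g2 t.2.2.1)
  obtain ⟨a3, b3⟩ := good_spec (g3 t.2.2.2.1)
  obtain ⟨a4, b4⟩ := good_spec (g4 t.2.2.2.2.1)
  obtain ⟨a5, b5⟩ := good_spec (g5 t.2.2.2.2.2)
  exact ⟨mul_mem a0 (mul_mem a1 (mul_mem a2 (mul_mem a3 (mul_mem a4 a5)))),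
    maps_comp b0 (maps_comp b1 (maps_comp b2 (maps_comp b3 (maps_comp b4 b5))))⟩

theorem peel {n : ℕ} (S : Fin n → Fin 27 → Fin 27) (b : Fin 27)
    (h1 : ∀ i j, S i b = S j b → i = j) (h2 : ∀ i, Function.Injective (S i)) {i j : Fin n}
    {x y : Fin 27 → Fin 27} (e : S i ∘ x = S j ∘ y) (hx : x b = b) (hy : y b = b) :
    i = j ∧ x = y := by
  have e0 := congrFun e b
  simp only [Function.comp_apply, hx, hy] at e0
  obtain rfl := h1 i j e0
  exact ⟨rfl, funext fun k => h2 i (congrFun e k)⟩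

open LinesData in
theorem tS_inj : Function.Injective tS := by
  rintro ⟨a0, a1, a2, a3, a4, a5⟩ ⟨c0, c1, c2, c3, c4, c5⟩ h
  have u0 : (∀ i j, sig0 i 0 = sig0 j 0 → i = j) ∧ ∀ i x y, sig0 i x = sig0 i y → x = y := by decide +kernel
  have u1 : (∀ i j, sig1 i 1 = sig1 j 1 → i = j) ∧ (∀ i x y, sig1 i x = sig1 i y → x = y) ∧
      ∀ i, sig1 i 0 = 0 := by decide +kernel
  have u2 : (∀ i j, sig2 i 3 = sig2 j 3 → i = j) ∧ (∀ i x y, sig2 i x = sig2 i y → x = y) ∧
      ∀ i, sig2 i 0 = 0 ∧ sig2 i 1 = 1 := by decide +kernel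
  have u3 : (∀ i j, sig3 i 4 = sig3 j 4 → i = j) ∧ (∀ i x y, sig3 i x = sig3 i y → x = y) ∧
      ∀ i, sig3 i 0 = 0 ∧ sig3 i 1 = 1 ∧ sig3 i 3 = 3 := by decide +kernel
  have u4 : (∀ i j, sig4 i 9 = sig4 j 9 → i = j) ∧ (∀ i x y, sig4 i x = sig4 i y → x = y) ∧
      ∀ i, sig4 i 0 = 0 ∧ sig4 i 1 = 1 ∧ sig4 i 3 = 3 ∧ sig4 i 4 = 4 := by decide +kernel
  have u5 : (∀ i j, sig5 i 10 = sig5 j 10 → i = j) ∧
      ∀ i, sig5 i 0 = 0 ∧ sig5 i 1 = 1 ∧ sig5 i 3 = 3 ∧ sig5 i 4 = 4 ∧ sig5 i 9 = 9 := by decide +kernel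
  simp only [tS] at h
  obtain ⟨rfl, h0⟩ := peel sig0 0 u0.1 (fun i _ _ => u0.2 i _ _) h
    (by simp [u1.2.2, (u2.2.2 _).1, (u3.2.2 _).1, (u4.2.2 _).1, (u5.2 _).1])
    (by simp [u1.2.2, (u2.2.2 _).1, (u3.2.2 _).1, (u4.2.2 _).1, (u5.2 _).1])
  obtain ⟨rfl, h1⟩ := peel sig1 1 u1.1 (fun i _ _ => u1.2.1 i _ _) h0
    (by simp [(u2.2.2 _).2, (u3.2.2 _).2.1, (u4.2.2 _).2.1, (u5.2 _).2.1])
    (by simp [(u2.2.2 _).2, (u3.2.2 _).2.1, (u4.2.2 _).2.1, (u5.2 _).2.1])
  obtain ⟨rfl, h2⟩ := peel sig2 3 u2.1 (fun i _ _ => u2.2.1 i _ _) h1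
    (by simp [(u3.2.2 _).2.2, (u4.2.2 _).2.2.1, (u5.2 _).2.2.1])
    (by simp [(u3.2.2 _).2.2, (u4.2.2 _).2.2.1, (u5.2 _).2.2.1])
  obtain ⟨rfl, h3⟩ := peel sig3 4 u3.1 (fun i _ _ => u3.2.1 i _ _) h2
    (by simp [(u4.2.2 _).2.2.2, (u5.2 _).2.2.2.1])
    (by simp [(u4.2.2 _).2.2.2, (u5.2 _).2.2.2.1])
  obtain ⟨rfl, h4⟩ := peel sig4 9 u4.1 (fun i _ _ => u4.2.1 i _ _) h3 (u5.2 _).2.2.2.2 (u5.2 _).2.2.2.2
  obtain rfl := u5.1 _ _ (congrFun h4 10)
  rfl

theorem card_O6 : Nat.card O6 = 51840 := by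
  have h := Cfsg.Agent.S0288.result (F := ZMod 2) (q := 2) (by simp) 3 (by norm_num) 1 1 (by decide)
  rw [show (3 : ℕ) - 1 = 2 from rfl] at h
  rw [h]
  decide

end LineAct

open LineAct in
/-- The stabiliser of the first representative in `Ke` is the orthogonal group. -/
theorem stabU_iso (hcard : Nat.card ↥(Ke ⊓ stabV Data.repU) = 51840) :
    Nonempty (↥(Ke ⊓ stabV Data.repU) ≃*
      Cfsg.isometryGroup (ZMod 2) (Cfsg.quadFormMinus 2 (ZMod 2) 1 1)) := by
  classical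
  let f : Tup → ↥(Ke ⊓ stabV Data.repU) := fun t => ⟨tE t, (tE_spec t).1.1⟩
  have hf : Function.Injective f := fun s t e =>
    tS_inj (maps_unique (tE_spec s).2 (by
      rw [show tE s = tE t from congrArg Subtype.val e]
      exact (tE_spec t).2))
  have hT : Nat.card Tup = 51840 := by simp
  have hfb : Function.Bijective f :=
    (Nat.bijective_iff_injective_and_card f).2 ⟨hf, by rw [hT, hcard]⟩
  have hle : Ke ⊓ stabV Data.repU ≤ actStab := fun g hg => by
    obtain ⟨t, ht⟩ := hfb.2 ⟨g, hg⟩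
    rw [show g = tE t from (congrArg Subtype.val ht).symm]
    exact (tE_spec t).1.2
  let ψ := theta.comp (Subgroup.inclusion hle)
  have hinj : Function.Injective ψ := by
    refine (injective_iff_map_eq_one ψ).2 fun x hx => ?_
    obtain ⟨t, rfl⟩ := hfb.2 x
    obtain ⟨u, hu⟩ := hfb.2 1
    have h1 : Rel (tE t) 1 := hx ▸ (hle (f t).2).choose_spec
    obtain ⟨σ, hσ, hσ1⟩ := h1
    have hσt := maps_unique hσ (tE_spec t).2
    have hσid : σ = id := funext fun k => by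
      have e : sv (σ k) = sv k := by rw [← hσ1]; simp
      exact (show ∀ a b, sv a = sv b → a = b by decide +kernel) _ _ e
    have hu' : tE u = 1 := congrArg Subtype.val hu
    have hun : tS u = id := maps_unique (tE_spec u).2 (by
      rw [hu']
      intro k v hv
      rw [Equiv.Perm.one_apply, enc_vecN (lineL_lt k v hv)]
      exact hv)
    rw [← hu]
    exact congrArg f (tS_inj ((hσt.symm.trans hσid).trans hun.symm))
  exact ⟨MulEquiv.ofBijective ψ
    ((Nat.bijective_iff_injective_and_card ψ).2 ⟨hinj, by rw [hcard, card_O6]⟩)⟩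

end Cfsg.Agent.LargeFischer
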