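import Cfsg.Agent.LargeFischer.Orbits

/-!
The stabiliser of a vector of the second orbit acts on six sets of vectors: the image is
alternating or symmetric of degree six, so normal 2-subgroups lie in the kernel.
-/

set_option autoImplicit false
set_option maxRecDepth 100000

namespace Cfsg.Agent.LargeFischer

open Cfsg.Agent.CosetCert Cfsg.Agent.GFour25
open Cfsg.Agent.SporB.FischerU (Vec vecN enc vecN_enc enc_lt)
open Cfsg.Agent.TTClass

namespace SixAct

/-- A permutation of six points given by its table and the inverse table. -/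
def p6 (f g : Fin 6 → Fin 6) (h1 : ∀ x, g (f x) = x := by decide)
    (h2 : ∀ x, f (g x) = x := by decide) : Equiv.Perm (Fin 6) := ⟨f, g, h1, h2⟩

/-- The codes of one of the six sets. -/
def sixL (k : Fin 6) : List ℕ := Data.sixSets.getD k.val []

theorem sixL_lt : ∀ k : Fin 6, ∀ v ∈ sixL k, v < 4096 := by decide +kernel

theorem sixL_card : ∀ k : Fin 6, (sixL k).toFinset.card = 30 := by decide +kernel

theorem sixL_inter : ∀ a b : Fin 6, a ≠ b → ((sixL a).toFinset ∩ (sixL b).toFinset).card < 30 := by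
  decide +kernel

/-- The permutation sends each set into the one named by `σ`. -/
def Maps (g : Equiv.Perm Vec) (σ : Equiv.Perm (Fin 6)) : Prop :=
  ∀ k, ∀ v ∈ sixL k, enc (g (vecN v)) ∈ sixL (σ k)

theorem maps_one : Maps 1 1 := fun k v hv => by
  rw [Equiv.Perm.one_apply, Equiv.Perm.one_apply, enc_vecN (sixL_lt k v hv)]
  exact hv

theorem maps_mul {g h : Equiv.Perm Vec} {σ τ : Equiv.Perm (Fin 6)} (hg : Maps g σ) (hh : Maps h τ) :
    Maps (g * h) (σ * τ) := fun k v hv => by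
  have h1 := hg (τ k) _ (hh k v hv)
  rw [vecN_enc] at h1
  simpa [Equiv.Perm.mul_apply] using h1

theorem maps_unique {g : Equiv.Perm Vec} {σ τ : Equiv.Perm (Fin 6)} (hs : Maps g σ) (ht : Maps g τ) :
    σ = τ := by
  refine Equiv.ext fun k => ?_
  by_contra hne
  have hinj : Set.InjOn (fun v => enc (g (vecN v))) ↑(sixL k).toFinset := by
    intro a ha b hb e
    simp only [List.coe_toFinset] at ha hb
    have e' := g.injective (by simpa [vecN_enc] using congrArg vecN e)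
    rw [← enc_vecN (sixL_lt k a ha), ← enc_vecN (sixL_lt k b hb), e']
  have hsub : (sixL k).toFinset.image (fun v => enc (g (vecN v))) ⊆
      (sixL (σ k)).toFinset ∩ (sixL (τ k)).toFinset := by
    intro x hx
    rw [Finset.mem_image] at hx
    obtain ⟨v, hv, rfl⟩ := hx
    rw [List.mem_toFinset] at hv
    rw [Finset.mem_inter, List.mem_toFinset, List.mem_toFinset]
    exact ⟨hs k v hv, ht k v hv⟩
  have h1 := Finset.card_le_card hsub
  rw [Finset.card_image_of_injOn hinj, sixL_card] at h1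
  exact absurd h1 (not_le.2 (sixL_inter _ _ hne))

theorem maps_isEl {i : ℕ} {g : Equiv.Perm Vec} {σ : Equiv.Perm (Fin 6)} (hg : IsEl i g)
    (h : ∀ k, ∀ v ∈ sixL k, appC (eN i) v ∈ sixL (σ k)) : Maps g σ := fun k v hv => by
  rw [hg, enc_lin, enc_vecN (sixL_lt k v hv)]
  exact h k v hv

/-- The permutations of vectors inducing a member of `P` on the six sets. -/
def setStab (P : Subgroup (Equiv.Perm (Fin 6))) : Subgroup (Equiv.Perm Vec) where
  carrier := {g | ∃ σ ∈ P, Maps g σ}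
  one_mem' := ⟨1, one_mem _, maps_one⟩
  mul_mem' := fun ⟨σ, h1, h2⟩ ⟨τ, h3, h4⟩ => ⟨σ * τ, mul_mem h1 h3, maps_mul h2 h4⟩
  inv_mem' := by
    intro g hg
    have hp : ∀ m : ℕ, ∃ σ ∈ P, Maps (g ^ m) σ := by
      intro m
      induction m with
      | zero => exact ⟨1, one_mem _, by rw [pow_zero]; exact maps_one⟩
      | succ m ih =>
        obtain ⟨σ, h1, h2⟩ := hg
        obtain ⟨τ, h3, h4⟩ := ih
        exact ⟨τ * σ, mul_mem h3 h1, by rw [pow_succ]; exact maps_mul h4 h2⟩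
    have e : g⁻¹ = g ^ (orderOf g - 1) := by
      apply inv_eq_of_mul_eq_one_right
      rw [← pow_succ', Nat.sub_add_cancel (orderOf_pos g), pow_orderOf_eq_one]
    show ∃ σ ∈ P, Maps g⁻¹ σ
    rw [e]
    exact hp _

theorem setStab_mono {P R : Subgroup (Equiv.Perm (Fin 6))} (h : P ≤ R) : setStab P ≤ setStab R :=
  fun _ ⟨σ, h1, h2⟩ => ⟨σ, h h1, h2⟩

/-- The action on the six sets. -/
noncomputable def phi : ↥(setStab ⊤) →* Equiv.Perm (Fin 6) :=
  MonoidHom.mk' (fun g => g.2.choose) fun a b =>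
    maps_unique (a * b).2.choose_spec.2 (maps_mul a.2.choose_spec.2 b.2.choose_spec.2)

theorem phi_eq {g : ↥(setStab ⊤)} {σ : Equiv.Perm (Fin 6)} (h : Maps g σ) : phi g = σ :=
  maps_unique g.2.choose_spec.2 h

/-- The named elements of the first level. -/
def i0 : Fin 6 → ℕ := ![20, 10, 628, 618, 623, 630]

/-- Their permutations of the six sets. -/
def p0 : Fin 6 → Equiv.Perm (Fin 6) :=
  ![1,
    p6 ![1, 2, 0, 3, 4, 5] ![2, 0, 1, 3, 4, 5],
    p6 ![2, 4, 3, 1, 0, 5] ![4, 3, 0, 2, 1, 5],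
    p6 ![3, 2, 4, 1, 0, 5] ![4, 3, 1, 0, 2, 5],
    p6 ![4, 0, 2, 3, 1, 5] ![1, 4, 2, 3, 0, 5],
    p6 ![5, 2, 3, 1, 0, 4] ![4, 3, 1, 2, 5, 0]]

/-- The named elements of the second level. -/
def i1 : Fin 5 → ℕ := ![20, 615, 647, 636, 651]

/-- Their permutations of the six sets. -/
def p1 : Fin 5 → Equiv.Perm (Fin 6) :=
  ![1,
    p6 ![0, 2, 3, 1, 4, 5] ![0, 3, 1, 2, 4, 5],
    p6 ![0, 3, 2, 4, 1, 5] ![0, 4, 2, 1, 3, 5],
    p6 ![0, 4, 3, 2, 1, 5] ![0, 4, 3, 2, 1, 5],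
    p6 ![0, 5, 4, 2, 1, 3] ![0, 4, 3, 5, 2, 1]]

/-- The named elements of the third level. -/
def i2 : Fin 4 → ℕ := ![20, 666, 654, 656]

/-- Their permutations of the six sets. -/
def p2 : Fin 4 → Equiv.Perm (Fin 6) :=
  ![1,
    p6 ![0, 1, 3, 5, 4, 2] ![0, 1, 5, 2, 4, 3],
    p6 ![0, 1, 4, 3, 5, 2] ![0, 1, 5, 3, 2, 4],
    p6 ![0, 1, 5, 3, 2, 4] ![0, 1, 4, 3, 5, 2]]

/-- The named elements of the fourth level. -/
def i3 : Fin 3 → ℕ := ![20, 8, 662]

/-- Their permutations of the six sets. -/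
def p3 : Fin 3 → Equiv.Perm (Fin 6) :=
  ![1,
    p6 ![0, 1, 2, 4, 5, 3] ![0, 1, 2, 5, 3, 4],
    p6 ![0, 1, 2, 5, 3, 4] ![0, 1, 2, 4, 5, 3]]

/-- The named elements fixing the six sets. -/
def iK : Fin 16 → ℕ :=
  ![20, 679, 674, 672, 680, 677, 682, 670, 44, 683, 684, 685, 686, 687, 665, 660]

/-- The conditions on a named element of the stabiliser. -/
abbrev Good (i : ℕ) (σ : Equiv.Perm (Fin 6)) : Prop :=
  inK i = true ∧ appC (eN i) Data.repW = Data.repW ∧ Equiv.Perm.sign σ = 1 ∧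
    ∀ k, ∀ v ∈ sixL k, appC (eN i) v ∈ sixL (σ k)

theorem good0 : ∀ a, Good (i0 a) (p0 a) := by decide +kernel
theorem good1 : ∀ a, Good (i1 a) (p1 a) := by decide +kernel
theorem good2 : ∀ a, Good (i2 a) (p2 a) := by decide +kernel
theorem good3 : ∀ a, Good (i3 a) (p3 a) := by decide +kernel
theorem goodK : ∀ a, Good (iK a) 1 := by decide +kernel

theorem fix_repW {i : ℕ} {g : Equiv.Perm Vec} (hg : IsEl i g)
    (h : appC (eN i) Data.repW = Data.repW) : g ∈ stabV Data.repW := by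
  rw [MulAction.mem_stabilizer_iff, Equiv.Perm.smul_def, hg, lin, enc_vecN repW_lt, h]

theorem good_spec {i : ℕ} {σ : Equiv.Perm (Fin 6)} (h : Good i σ) :
    el i ∈ Kc ⊓ stabV Data.repW ⊓ setStab (alternatingGroup (Fin 6)) ∧ Maps (el i) σ := by
  obtain ⟨hK, hf, hs, hm⟩ := h
  have hi : i < Data.numE := by
    rw [inK, Bool.and_eq_true] at hK
    exact Nat.blt_eq.mp hK.1
  have hM := maps_isEl (el_spec hi).2 hm
  exact ⟨⟨⟨el_mem_Kc hK, fix_repW (el_spec hi).2 hf⟩, σ, Equiv.Perm.mem_alternatingGroup.2 hs, hM⟩,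
    hM⟩

/-- A product along the levels. -/
noncomputable def tE (t : Fin 6 × Fin 5 × Fin 4 × Fin 3) : Equiv.Perm Vec :=
  el (i0 t.1) * el (i1 t.2.1) * el (i2 t.2.2.1) * el (i3 t.2.2.2)

/-- Its permutation of the six sets. -/
def tP (t : Fin 6 × Fin 5 × Fin 4 × Fin 3) : Equiv.Perm (Fin 6) :=
  p0 t.1 * p1 t.2.1 * p2 t.2.2.1 * p3 t.2.2.2

theorem tE_spec (t : Fin 6 × Fin 5 × Fin 4 × Fin 3) :
    tE t ∈ Kc ⊓ stabV Data.repW ⊓ setStab (alternatingGroup (Fin 6)) ∧ Maps (tE t) (tP t) := by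
  have h0 := good_spec (good0 t.1)
  have h1 := good_spec (good1 t.2.1)
  have h2 := good_spec (good2 t.2.2.1)
  have h3 := good_spec (good3 t.2.2.2)
  exact ⟨mul_mem (mul_mem (mul_mem h0.1 h1.1) h2.1) h3.1,
    maps_mul (maps_mul (maps_mul h0.2 h1.2) h2.2) h3.2⟩

theorem level_facts :
    (∀ a b, p0 a 0 = p0 b 0 → a = b) ∧ (∀ a b, p1 a 1 = p1 b 1 → a = b) ∧
    (∀ a b, p2 a 2 = p2 b 2 → a = b) ∧ (∀ a b, p3 a 3 = p3 b 3 → a = b) ∧
    (∀ a, p1 a 0 = 0) ∧ (∀ a, p2 a 0 = 0 ∧ p2 a 1 = 1) ∧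
    (∀ a, p3 a 0 = 0 ∧ p3 a 1 = 1 ∧ p3 a 2 = 2) := by decide +kernel

theorem tP_inj : Function.Injective tP := by
  rintro ⟨a, b, c, d⟩ ⟨a', b', c', d'⟩ h
  obtain ⟨f0, f1, f2, f3, g1, g2, g3⟩ := level_facts
  simp only [tP, mul_assoc] at h
  have e0 := Equiv.Perm.ext_iff.1 h 0
  simp only [Equiv.Perm.mul_apply, g1, (g2 _).1, (g3 _).1] at e0
  obtain rfl := f0 _ _ e0
  replace h := mul_left_cancel h
  have e1 := Equiv.Perm.ext_iff.1 h 1
  simp only [Equiv.Perm.mul_apply, (g2 _).2, (g3 _).2.1] at e1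
  obtain rfl := f1 _ _ e1
  replace h := mul_left_cancel h
  have e2 := Equiv.Perm.ext_iff.1 h 2
  simp only [Equiv.Perm.mul_apply, (g3 _).2.2] at e2
  obtain rfl := f2 _ _ e2
  replace h := mul_left_cancel h
  obtain rfl := f3 _ _ (Equiv.Perm.ext_iff.1 h 3)
  rfl

theorem iK_sep : ∀ a b : Fin 16, a ≠ b →
    ∃ j : Fin 12, appC (eN (iK a)) (Nat.shiftLeft 1 j.val) ≠ appC (eN (iK b)) (Nat.shiftLeft 1 j.val) := by
  decide +kernel

theorem el_iK_inj {a b : Fin 16} (h : el (iK a) = el (iK b)) : a = b := by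
  by_contra hne
  obtain ⟨j, hj⟩ := iK_sep a b hne
  have hi : ∀ c, iK c < Data.numE := fun c => by
    have h1 := (goodK c).1
    rw [inK, Bool.and_eq_true] at h1
    exact Nat.blt_eq.mp h1.1
  have hv : Nat.shiftLeft 1 j.val < 4096 := shl_lt j.2
  have e := congrArg enc (Equiv.Perm.ext_iff.1 h (vecN (Nat.shiftLeft 1 j.val)))
  rw [el_apply (hi a) _ hv, el_apply (hi b) _ hv, enc_vecN (appC_lt _ _), enc_vecN (appC_lt _ _)] at e
  exact hj e

/-- The inner stabiliser acts by even permutations. -/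
theorem stab_le_alt (hK : Nat.card ↥(Kc ⊓ stabV Data.repW) = 5760) :
    Kc ⊓ stabV Data.repW ≤ setStab (alternatingGroup (Fin 6)) := by
  let F : (Fin 6 × Fin 5 × Fin 4 × Fin 3) × Fin 16 →
      ↥(Kc ⊓ stabV Data.repW ⊓ setStab (alternatingGroup (Fin 6))) :=
    fun q => ⟨tE q.1 * el (iK q.2), mul_mem (tE_spec q.1).1 (good_spec (goodK q.2)).1⟩
  have hF : Function.Injective F := by
    rintro ⟨t, a⟩ ⟨t', b⟩ h
    have h' : tE t * el (iK a) = tE t' * el (iK b) := congrArg Subtype.val h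
    have m1 := maps_mul (tE_spec t).2 (good_spec (goodK a)).2
    rw [h'] at m1
    have e := maps_unique m1 (maps_mul (tE_spec t').2 (good_spec (goodK b)).2)
    rw [mul_one, mul_one] at e
    obtain rfl := tP_inj e
    rw [el_iK_inj (mul_left_cancel h')]
  have hc := Nat.card_le_card_of_injective F hF
  simp only [Nat.card_prod, Nat.card_fin] at hc
  have he := Subgroup.eq_of_le_of_card_ge (inf_le_left :
    Kc ⊓ stabV Data.repW ⊓ setStab (alternatingGroup (Fin 6)) ≤ Kc ⊓ stabV Data.repW) (by omega)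
  rw [← he]
  exact inf_le_right

theorem card_alt6 : Nat.card (alternatingGroup (Fin 6)) = 360 := by
  rw [nat_card_alternatingGroup, Nat.card_fin]; rfl

/-- The image of a group containing the inner stabiliser contains the alternating group. -/
theorem alt_le_range {X : Subgroup (Equiv.Perm Vec)} (hX : X ≤ setStab ⊤)
    (hle : Kc ⊓ stabV Data.repW ≤ X) :
    alternatingGroup (Fin 6) ≤ (phi.comp (Subgroup.inclusion hX)).range := by
  let F : Fin 6 × Fin 5 × Fin 4 × Fin 3 →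
      ↥(alternatingGroup (Fin 6) ⊓ (phi.comp (Subgroup.inclusion hX)).range) :=
    fun t => ⟨tP t, by
      obtain ⟨σ, hσ, hm⟩ := (tE_spec t).1.2
      rw [maps_unique (tE_spec t).2 hm]
      exact hσ, ⟨⟨tE t, hle (tE_spec t).1.1⟩, phi_eq (tE_spec t).2⟩⟩
  have hc := Nat.card_le_card_of_injective F fun a b h => tP_inj (congrArg Subtype.val h)
  simp only [Nat.card_prod, Nat.card_fin] at hc
  have he := Subgroup.eq_of_le_of_card_ge (inf_le_left :
    alternatingGroup (Fin 6) ⊓ (phi.comp (Subgroup.inclusion hX)).range ≤ alternatingGroup (Fin 6))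
    (by rw [card_alt6]; omega)
  intro x hx
  rw [← he] at hx
  exact hx.2

/-- Two generators of the alternating group. -/
def c3 : Equiv.Perm (Fin 6) := p6 ![1, 2, 0, 3, 4, 5] ![2, 0, 1, 3, 4, 5]

/-- Two generators of the alternating group. -/
def c5 : Equiv.Perm (Fin 6) := p6 ![0, 2, 3, 4, 5, 1] ![0, 5, 1, 2, 3, 4]

theorem alt_centralizer : ∀ p : Equiv.Perm (Fin 6), p * c3 = c3 * p → p * c5 = c5 * p → p = 1 := by
  decide +kernel

theorem gens_even : Equiv.Perm.sign c3 = 1 ∧ Equiv.Perm.sign c5 = 1 := by decide +kernel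

/-- No non-trivial 2-subgroup is normalised by the alternating group. -/
theorem two_eq_bot (P : Subgroup (Equiv.Perm (Fin 6))) (hP : IsPGroup 2 P)
    (hn : ∀ a ∈ alternatingGroup (Fin 6), ∀ p ∈ P, a * p * a⁻¹ ∈ P) : P = ⊥ := by
  have : IsSimpleGroup (alternatingGroup (Fin 6)) := alternatingGroup.isSimpleGroup (by simp)
  have hN : (P.subgroupOf (alternatingGroup (Fin 6))).Normal := ⟨fun p hp a => hn a a.2 p hp⟩
  rcases hN.eq_bot_or_eq_top with hb | ht
  · rw [eq_bot_iff]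
    intro p hp
    have key : ∀ a ∈ alternatingGroup (Fin 6), p * a = a * p := by
      intro a ha
      have hA : a * p * a⁻¹ * p⁻¹ ∈ alternatingGroup (Fin 6) := by
        rw [Equiv.Perm.mem_alternatingGroup, map_mul, map_mul, map_mul, map_inv, map_inv,
          Equiv.Perm.mem_alternatingGroup.1 ha]
        simp
      have hPm : (⟨_, hA⟩ : ↥(alternatingGroup (Fin 6))) ∈ P.subgroupOf (alternatingGroup (Fin 6)) :=
        mul_mem (hn a ha p hp) (inv_mem hp)
      rw [hb, Subgroup.mem_bot] at hPm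
      have e : a * p * a⁻¹ * p⁻¹ = 1 := congrArg Subtype.val hPm
      rw [mul_inv_eq_one, mul_inv_eq_iff_eq_mul] at e
      exact e.symm
    exact alt_centralizer p (key _ (Equiv.Perm.mem_alternatingGroup.2 gens_even.1))
      (key _ (Equiv.Perm.mem_alternatingGroup.2 gens_even.2))
  · exfalso
    have hle : alternatingGroup (Fin 6) ≤ P := Subgroup.subgroupOf_eq_top.1 ht
    have hd := Subgroup.card_dvd_of_le hle
    obtain ⟨n, hn2⟩ := hP.exists_card_eq
    rw [card_alt6, hn2] at hd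
    have h5 := Nat.prime_five.dvd_of_dvd_pow (dvd_trans (by norm_num : (5 : ℕ) ∣ 360) hd)
    norm_num at h5

/-- Normal 2-subgroups lie in the kernel of the action on the six sets. -/
theorem le_ker {X E : Subgroup (Equiv.Perm Vec)} (hX : X ≤ setStab ⊤)
    (hle : Kc ⊓ stabV Data.repW ≤ X) (hE : E ≤ X) (hn : ∀ x ∈ X, ∀ y ∈ E, x * y * x⁻¹ ∈ E)
    (h2 : IsPGroup 2 ↥E) : E.subgroupOf X ≤ (phi.comp (Subgroup.inclusion hX)).ker := by
  set f := phi.comp (Subgroup.inclusion hX) with hf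
  have hp : IsPGroup 2 ↥((E.subgroupOf X).map f) :=
    (h2.of_equiv (Subgroup.subgroupOfEquivOfLe hE).symm).map f
  have hb : (E.subgroupOf X).map f = ⊥ := two_eq_bot _ hp fun a ha p hp => by
    obtain ⟨x, rfl⟩ := alt_le_range hX hle ha
    obtain ⟨y, hy, rfl⟩ := Subgroup.mem_map.1 hp
    exact Subgroup.mem_map.2 ⟨x * y * x⁻¹, hn _ x.2 _ hy, by simp [f]⟩
  intro y hy
  rw [MonoidHom.mem_ker, ← Subgroup.mem_bot, ← hb]
  exact Subgroup.mem_map_of_mem _ hy

theorem eq_sup {e : Equiv.Perm Vec} (hK : Nat.card ↥(Kc ⊓ stabV Data.repW) = 5760)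
    (hX : Nat.card ↥((Kc ⊔ Subgroup.zpowers e) ⊓ stabV Data.repW) = 11520)
    (hs : e ∈ stabV Data.repW) (hne : e ∉ Kc ⊓ stabV Data.repW) :
    (Kc ⊔ Subgroup.zpowers e) ⊓ stabV Data.repW = Kc ⊓ stabV Data.repW ⊔ Subgroup.zpowers e := by
  have h1 : Kc ⊓ stabV Data.repW ⊔ Subgroup.zpowers e ≤
      (Kc ⊔ Subgroup.zpowers e) ⊓ stabV Data.repW :=
    sup_le (inf_le_inf_right _ le_sup_left)
      (Subgroup.zpowers_le.2 ⟨Subgroup.mem_sup_right (Subgroup.mem_zpowers _), hs⟩)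
  refine (Subgroup.eq_of_le_of_card_ge h1 ?_).symm
  obtain ⟨c, hc⟩ := Subgroup.card_dvd_of_le
    (le_sup_left : Kc ⊓ stabV Data.repW ≤ Kc ⊓ stabV Data.repW ⊔ Subgroup.zpowers e)
  rw [hK] at hc
  have hp : 0 < Nat.card ↥(Kc ⊓ stabV Data.repW ⊔ Subgroup.zpowers e) := Nat.card_pos
  by_contra hcon
  rw [hX, hc] at hcon
  have hc1 : c = 1 := by
    rw [hc] at hp
    omega
  apply hne
  have e1 := Subgroup.eq_of_le_of_card_ge
    (le_sup_left : Kc ⊓ stabV Data.repW ≤ Kc ⊓ stabV Data.repW ⊔ Subgroup.zpowers e)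
    (by rw [hK, hc, hc1])
  rw [e1]
  exact Subgroup.mem_sup_right (Subgroup.mem_zpowers _)

theorem ext_checks :
    (∀ k, ∀ v ∈ sixL k, appC (eN 23) v ∈ sixL ((1 : Equiv.Perm (Fin 6)) k)) ∧
      appC (eN 23) Data.repW = Data.repW ∧
    (∀ k, ∀ v ∈ sixL k, appC (eN 21) v ∈ sixL (Equiv.swap (0 : Fin 6) 1 k)) ∧
      appC (eN 21) Data.repW = Data.repW ∧
    (∀ k, ∀ v ∈ sixL k, appC (eN 22) v ∈ sixL (Equiv.swap (0 : Fin 6) 1 k)) ∧
      appC (eN 22) Data.repW = Data.repW ∧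
    Equiv.Perm.sign (Equiv.swap (0 : Fin 6) 1) ≠ 1 ∧
    scC om Data.repW ≠ scC (twist true om) Data.repW := by decide +kernel

theorem outE_not_mem : outE ∉ Kc ⊓ stabV Data.repW := by
  rintro ⟨hK, hs⟩
  have h1 := (Kc_linear hK).2.1 om (vecN Data.repW)
  have h2 := (frob_semi.mul (actHom_semi trn)).2.1 om (vecN Data.repW)
  have hw : outE (vecN Data.repW) = vecN Data.repW := hs
  rw [show frob * actHom trn = outE from rfl, hw] at h2
  rw [hw] at h1
  apply ext_checks.2.2.2.2.2.2.2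
  unfold scC
  exact congrArg enc ((show twist false om = om from rfl) ▸ h1.symm.trans h2)

end SixAct

open SixAct in
/-- In the semilinear extension a large normal 2-subgroup of the stabiliser is the kernel of the
action on six sets, with alternating quotient. -/
theorem six_good (hK : Nat.card ↥(Kc ⊓ stabV Data.repW) = 5760)
    (hX : Nat.card ↥(Ke ⊓ stabV Data.repW) = 11520) (E : Subgroup (Equiv.Perm Vec))
    (hE : E ≤ Ke ⊓ stabV Data.repW)
    (hn : ∀ x ∈ Ke ⊓ stabV Data.repW, ∀ y ∈ E, x * y * x⁻¹ ∈ E)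
    (h2 : IsPGroup 2 ↥E) (h32 : 32 ≤ Nat.card E) :
    Nat.card E = 32 ∧ ∃ _ : (E.subgroupOf (Ke ⊓ stabV Data.repW)).Normal,
      Nonempty (↥(Ke ⊓ stabV Data.repW) ⧸ E.subgroupOf (Ke ⊓ stabV Data.repW) ≃*
        alternatingGroup (Fin 6)) := by
  obtain ⟨hm, hf, -⟩ := ext_checks
  have hMo : Maps outE 1 := maps_isEl isEl_outE hm
  have hs : outE ∈ stabV Data.repW := fix_repW isEl_outE hf
  have hA : Ke ⊓ stabV Data.repW ≤ setStab (alternatingGroup (Fin 6)) := by
    rw [show Ke = Kc ⊔ Subgroup.zpowers outE from rfl, eq_sup hK hX hs outE_not_mem]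
    exact sup_le (stab_le_alt hK) (Subgroup.zpowers_le.2 ⟨1, one_mem _, hMo⟩)
  have hT : Ke ⊓ stabV Data.repW ≤ setStab ⊤ := hA.trans (setStab_mono le_top)
  have hle : Kc ⊓ stabV Data.repW ≤ Ke ⊓ stabV Data.repW := inf_le_inf_right _ Kc_le_Ke
  have hR : (phi.comp (Subgroup.inclusion hT)).range = alternatingGroup (Fin 6) := by
    refine le_antisymm ?_ (alt_le_range hT hle)
    rintro _ ⟨x, rfl⟩
    obtain ⟨σ, hσ, hσm⟩ := hA x.2
    rw [MonoidHom.comp_apply, phi_eq (g := Subgroup.inclusion hT x) hσm]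
    exact hσ
  have hk := Subgroup.card_mul_index (phi.comp (Subgroup.inclusion hT)).ker
  rw [Subgroup.index_ker, hR, card_alt6, hX] at hk
  have hker := le_ker hT hle hE hn h2
  have hEc : Nat.card ↥(E.subgroupOf (Ke ⊓ stabV Data.repW)) = Nat.card E :=
    Nat.card_congr (Subgroup.subgroupOfEquivOfLe hE).toEquiv
  have hd := Subgroup.card_le_of_le hker
  have he : E.subgroupOf (Ke ⊓ stabV Data.repW) = (phi.comp (Subgroup.inclusion hT)).ker :=
    Subgroup.eq_of_le_of_card_ge hker (by omega)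
  have hN : (E.subgroupOf (Ke ⊓ stabV Data.repW)).Normal := ⟨fun y hy x => hn _ x.2 _ hy⟩
  exact ⟨by omega, hN, ⟨((QuotientGroup.quotientMulEquivOfEq he).trans
    (QuotientGroup.quotientKerEquivRange _)).trans (MulEquiv.subgroupCongr hR)⟩⟩

open SixAct in
/-- In the other two extensions normal 2-subgroups of the stabiliser have order at most 16. -/
theorem six_bad (hK : Nat.card ↥(Kc ⊓ stabV Data.repW) = 5760)
    (e : Equiv.Perm Vec) (he : e = actHom trn ∨ e = frob)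
    (hX : Nat.card ↥((Kc ⊔ Subgroup.zpowers e) ⊓ stabV Data.repW) = 11520)
    (E : Subgroup (Equiv.Perm Vec)) (hE : E ≤ (Kc ⊔ Subgroup.zpowers e) ⊓ stabV Data.repW)
    (hn : ∀ x ∈ (Kc ⊔ Subgroup.zpowers e) ⊓ stabV Data.repW, ∀ y ∈ E, x * y * x⁻¹ ∈ E)
    (h2 : IsPGroup 2 ↥E) : Nat.card E ≤ 16 := by
  obtain ⟨-, -, hm21, hf21, hm22, hf22, hodd, -⟩ := ext_checks
  have hM : Maps e (Equiv.swap 0 1) ∧ e ∈ stabV Data.repW := by
    rcases he with rfl | rfl
    · exact ⟨maps_isEl isEl_trn hm21, fix_repW isEl_trn hf21⟩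
    · exact ⟨maps_isEl isEl_frob hm22, fix_repW isEl_frob hf22⟩
  have hne : e ∉ Kc ⊓ stabV Data.repW := fun h => by
    obtain ⟨σ, hσ, hσm⟩ := stab_le_alt hK h
    rw [maps_unique hσm hM.1, Equiv.Perm.mem_alternatingGroup] at hσ
    exact hodd hσ
  have hT : (Kc ⊔ Subgroup.zpowers e) ⊓ stabV Data.repW ≤ setStab ⊤ := by
    rw [eq_sup hK hX hM.2 hne]
    exact sup_le ((stab_le_alt hK).trans (setStab_mono le_top))
      (Subgroup.zpowers_le.2 ⟨_, Subgroup.mem_top _, hM.1⟩)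
  have hle : Kc ⊓ stabV Data.repW ≤ (Kc ⊔ Subgroup.zpowers e) ⊓ stabV Data.repW :=
    inf_le_inf_right _ le_sup_left
  have hR : 720 ≤ Nat.card ↥(phi.comp (Subgroup.inclusion hT)).range := by
    have hA := alt_le_range hT hle
    obtain ⟨c, hc⟩ := Subgroup.card_dvd_of_le hA
    rw [card_alt6] at hc
    have hpos : 0 < Nat.card ↥(phi.comp (Subgroup.inclusion hT)).range := Nat.card_pos
    by_contra hcon
    have hc1 : c = 1 := by omega
    have heq := Subgroup.eq_of_le_of_card_ge hA (by rw [card_alt6, hc, hc1])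
    have hmem : Equiv.swap 0 1 ∈ (phi.comp (Subgroup.inclusion hT)).range :=
      ⟨⟨e, Subgroup.mem_sup_right (Subgroup.mem_zpowers _), hM.2⟩, phi_eq hM.1⟩
    rw [← heq, Equiv.Perm.mem_alternatingGroup] at hmem
    exact hodd hmem
  have hk := Subgroup.card_mul_index (phi.comp (Subgroup.inclusion hT)).ker
  rw [Subgroup.index_ker, hX] at hk
  have hEc : Nat.card ↥(E.subgroupOf ((Kc ⊔ Subgroup.zpowers e) ⊓ stabV Data.repW)) = Nat.card E :=
    Nat.card_congr (Subgroup.subgroupOfEquivOfLe hE).toEquiv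
  have hd := Subgroup.card_le_of_le (le_ker hT hle hE hn h2)
  rw [hEc] at hd
  nlinarith [hk, hR, hd]

end Cfsg.Agent.LargeFischer
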