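import Cfsg.Agent.LargeFischer.Pairs
import Cfsg.Agent.LargeFischer.Six
import Cfsg.Agent.LargeFischer.SylU

/-!
The orbits of the centraliser on the involutions of `Q`, and the shape of the centraliser of a conjugate
of the central involution in `Q`.
-/

set_option autoImplicit false

namespace Cfsg.Agent.LargeFischer

open Cfsg
open Cfsg.Agent.GFour25
open Cfsg.Agent.SporB.FischerU (Vec SUSix vecN enc)
open Cfsg.Agent.TTClass

theorem isPGroup_of_elementary {H : Type*} [Group H] {E : Subgroup H}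
    (h : IsElementaryAbelian 2 E) : IsPGroup 2 ↥E :=
  fun g => ⟨1, Subtype.ext (by simpa using h.2 g g.2)⟩

theorem elementary_map {H K : Type*} [Group H] [Group K] (f : H →* K) {E : Subgroup H}
    (h : IsElementaryAbelian 2 E) : IsElementaryAbelian 2 (E.map f) := by
  refine ⟨⟨⟨?_⟩⟩, ?_⟩
  · rintro ⟨_, x, hx, rfl⟩ ⟨_, y, hy, rfl⟩
    refine Subtype.ext ?_
    show f x * f y = f y * f x
    rw [← map_mul, ← map_mul]
    exact congrArg f (congrArg Subtype.val (h.1.is_comm.comm ⟨x, hx⟩ ⟨y, hy⟩))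
  · rintro _ ⟨x, hx, rfl⟩
    rw [← map_pow, h.2 x hx, map_one]

theorem elementary_of_map {H K : Type*} [Group H] [Group K] (f : H →* K) (hf : Function.Injective f)
    {E : Subgroup H} (h : IsElementaryAbelian 2 (E.map f)) : IsElementaryAbelian 2 E := by
  refine ⟨⟨⟨fun x y => Subtype.ext (hf ?_)⟩⟩, fun x hx => hf ?_⟩
  · show f (x * y : H) = f (y * x : H)
    rw [map_mul, map_mul]
    exact congrArg Subtype.val (h.1.is_comm.comm ⟨f x, x, x.2, rfl⟩ ⟨f y, y, y.2, rfl⟩)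
  · rw [map_pow, map_one]
    exact h.2 _ ⟨x, hx, rfl⟩

/-- Moving the stabiliser of a vector. -/
theorem map_inf_stab {R : Subgroup (Equiv.Perm Vec)} {k : Equiv.Perm Vec} (hk : k ∈ R) (v : Vec) :
    (R ⊓ MulAction.stabilizer (Equiv.Perm Vec) v).map (MulAut.conj k).toMonoidHom =
      R ⊓ MulAction.stabilizer (Equiv.Perm Vec) (k v) := by
  ext x
  constructor
  · rintro ⟨y, ⟨hy, hs⟩, rfl⟩
    refine ⟨R.mul_mem (R.mul_mem hk hy) (R.inv_mem hk), MulAction.mem_stabilizer_iff.2 ?_⟩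
    show k (y (k⁻¹ (k v))) = k v
    rw [show k⁻¹ (k v) = v from k.symm_apply_apply v]
    exact congrArg k (MulAction.mem_stabilizer_iff.1 hs)
  · rintro ⟨hx, hs⟩
    refine ⟨k⁻¹ * x * k, ⟨R.mul_mem (R.mul_mem (R.inv_mem hk) hx) hk, MulAction.mem_stabilizer_iff.2 ?_⟩, ?_⟩
    · show k⁻¹ (x (k v)) = v
      rw [show x (k v) = k v from MulAction.mem_stabilizer_iff.1 hs]
      exact k.symm_apply_apply v
    · show k * (k⁻¹ * x * k) * k⁻¹ = x
      group

variable {G : Type*} [Group G] [Finite G] {z : G}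
  {Q : Subgroup (Subgroup.centralizer ({z} : Set G))} [Q.Normal] {F : Frame z Q}

/-- The image of a conjugate of `Q`, moved to a representative vector. -/
theorem Frame.IsNormal.moved (N : F.IsNormal) (B : Base z Q) {g : G} {a : Q}
    (ha : g * z * g⁻¹ = ((a : Subgroup.centralizer ({z} : Set G)) : G))
    (hne : ((a : Subgroup.centralizer ({z} : Set G)) : G) ≠ z) {k : Equiv.Perm Vec} (hk : k ∈ Kc)
    {r : ℕ} (hr : k (F.psi a) = vecN r) :
    (F.other g).map (MulAut.conj k).toMonoidHom ≤ F.rho.range ⊓ stabV r ∧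
      (∀ x ∈ F.rho.range ⊓ stabV r, ∀ y ∈ (F.other g).map (MulAut.conj k).toMonoidHom,
        x * y * x⁻¹ ∈ (F.other g).map (MulAut.conj k).toMonoidHom) ∧
      IsPGroup 2 ↥((F.other g).map (MulAut.conj k).toMonoidHom) ∧
      32 ≤ Nat.card ↥((F.other g).map (MulAut.conj k).toMonoidHom) := by
  obtain ⟨-, -, -, h32, hle, hn, hel⟩ := F.other_facts B ha hne
  have e := map_inf_stab (N.Kc_le hk) (F.psi a)
  rw [hr] at e
  refine ⟨e ▸ Subgroup.map_mono hle, ?_, isPGroup_of_elementary (elementary_map _ hel), ?_⟩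
  · rw [← e]
    rintro _ ⟨x, hx, rfl⟩ _ ⟨y, hy, rfl⟩
    exact ⟨_, hn x hx y hy, by simp only [map_mul, map_inv]⟩
  · rwa [Subgroup.card_map_of_injective (MulAut.conj k).injective]

/-- The vector of a conjugate of `z` in `Q` is no root. -/
theorem Frame.IsNormal.not_root (N : F.IsNormal) (B : Base z Q) {g : G} {a : Q}
    (ha : g * z * g⁻¹ = ((a : Subgroup.centralizer ({z} : Set G)) : G))
    (hne : ((a : Subgroup.centralizer ({z} : Set G)) : G) ≠ z) : ¬ IsRoot (F.psi a) := by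
  intro hroot
  obtain ⟨⟨h0, hiso⟩, -⟩ := F.other_facts B ha hne
  obtain ⟨k, hk, hkv⟩ : ∃ k ∈ Kc, k (F.psi a) = vecN Data.repU := by
    rcases orbit_cases h0 hiso with ⟨-, e⟩ | ⟨hn, -⟩
    · exact e
    · exact absurd hroot hn
  obtain ⟨hle, hn, h2, h32⟩ := N.moved B ha hne hk hkv
  set E := (F.other g).map (MulAut.conj k).toMonoidHom
  have hnc : ∀ x ∈ Kc ⊓ stabV Data.repU, ∀ y ∈ E ⊓ Kc, x * y * x⁻¹ ∈ E ⊓ Kc := fun x hx y hy =>
    ⟨hn x ⟨N.Kc_le hx.1, hx.2⟩ y hy.1, Kc.mul_mem (Kc.mul_mem hx.1 hy.2) (Kc.inv_mem hx.1)⟩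
  have hsmall := small_two_normal N.card_facts.1 (E ⊓ Kc) (fun y hy => ⟨hy.2, (hle hy.1).2⟩) hnc
    (h2.to_le inf_le_left)
  have hidx : Kc.relIndex E ≤ 2 := by
    refine (Subgroup.relIndex_le_of_le_right (hle.trans inf_le_left) ?_).trans (le_of_eq ?_)
    · exact Subgroup.index_ne_zero_of_finite
    · have h := Subgroup.card_mul_index (Kc.subgroupOf F.rho.range)
      rw [Nat.card_congr (Subgroup.subgroupOfEquivOfLe N.Kc_le).toEquiv, N.card_range,
        mul_comm 2 (Nat.card Kc)] at h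
      exact Nat.eq_of_mul_eq_mul_left Nat.card_pos h
  have hc := Subgroup.card_mul_index (Kc.subgroupOf E)
  rw [show Kc.subgroupOf E = (E ⊓ Kc).subgroupOf E by ext x; simp [Subgroup.mem_subgroupOf],
    Nat.card_congr (Subgroup.subgroupOfEquivOfLe (inf_le_left : E ⊓ Kc ≤ E)).toEquiv] at hc
  have : Nat.card ↥(E ⊓ Kc) * Kc.relIndex E ≤ 15 * 2 := Nat.mul_le_mul (by omega) hidx
  rw [show ((E ⊓ Kc).subgroupOf E).index = Kc.relIndex E by
    rw [← Subgroup.inf_relIndex_right, inf_comm]; rfl] at hc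
  omega

/-- A conjugate of `z` in `Q` can be moved to the representative of the second orbit. -/
theorem Frame.IsNormal.exists_move (N : F.IsNormal) (B : Base z Q) {g : G} {a : Q}
    (ha : g * z * g⁻¹ = ((a : Subgroup.centralizer ({z} : Set G)) : G))
    (hne : ((a : Subgroup.centralizer ({z} : Set G)) : G) ≠ z) :
    ∃ k ∈ Kc, k (F.psi a) = vecN Data.repW := by
  obtain ⟨⟨h0, hiso⟩, -⟩ := F.other_facts B ha hne
  rcases orbit_cases h0 hiso with ⟨hr, -⟩ | ⟨-, e⟩
  · exact absurd hr (N.not_root B ha hne)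
  · exact e

/-- Some conjugate of `z` other than `z` lies in `Q`. -/
theorem exists_other (hF : IsOfLargeFischerTypeAt z Q) : ∃ (g : G) (a : Q),
    g * z * g⁻¹ = ((a : Subgroup.centralizer ({z} : Set G)) : G) ∧
      ((a : Subgroup.centralizer ({z} : Set G)) : G) ≠ z := by
  obtain ⟨⟨-, -, -, -, g, ⟨hq, hgQ⟩, hne⟩, -⟩ := hF
  exact ⟨g, ⟨_, hgQ⟩, rfl, hne⟩

/-- The image of the centraliser is `Ke`. -/
theorem Frame.IsNormal.range_eq (N : F.IsNormal) (B : Base z Q) (hF : IsOfLargeFischerTypeAt z Q) :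
    F.rho.range = Ke := by
  obtain ⟨e, he, hR⟩ := N.exists_ext
  rcases he with he | he | he
  rotate_left 2
  · rw [hR, he]; rfl
  all_goals
    exfalso
    obtain ⟨g, a, ha, hne⟩ := exists_other hF
    obtain ⟨k, hk, hkv⟩ := N.exists_move B ha hne
    obtain ⟨hle, hn, h2, h32⟩ := N.moved B ha hne hk hkv
    have hX := N.card_facts.2.2.2
    rw [hR] at hle hn hX
    have := six_bad N.card_facts.2.1 e (by simp [he]) hX _ hle hn h2
    omega

end Cfsg.Agent.LargeFischer
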