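import Cfsg.Agent.AbstractGolay.Basic
import Cfsg.Agent.Leech.Basic
import Cfsg.Agent.Golay.Octads
import Cfsg.Agent.Golay.MathieuSimple
import Cfsg.Agent.Golay.M24
import Cfsg.Agent.S0407

/-!
A group acting on an elementary abelian group of order `2^11` and preserving the 276 products of two
out of 24 marked elements, with no short relations among these, acts through the Mathieu group `M₂₄`.
-/

set_option autoImplicit false

namespace Cfsg.Agent.LargeFischer.MatCode

open Cfsg Finset symmDiff
open scoped Pointwise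
open Cfsg.Agent.AbstractGolay (word support₂_word word_support₂ word_add hammingNorm_eq_card
  card_symmDiff_add)

/-- Twenty-four marked elements of an elementary abelian group of order `2^11`. -/
structure Config (V : Type*) [CommGroup V] where
  f : Fin 24 → V
  sq : ∀ v : V, v * v = 1
  zero : f 0 = 1
  small : ∀ S : Finset (Fin 24), S.Nonempty → Even S.card → S.card ≤ 6 → ∏ i ∈ S, f i ≠ 1
  gen : Subgroup.closure (Set.range f) = ⊤
  card : Nat.card V = 2 ^ 11

variable {V : Type*} [CommGroup V] (D : Config V)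

namespace Config

/-- The product of the marked elements of a set. -/
def prod (S : Finset (Fin 24)) : V := ∏ i ∈ S, D.f i

/-- The products of two marked elements. -/
def pairs : Set V := {v | ∃ a b, a ≠ b ∧ D.f a * D.f b = v}

theorem prod_symmDiff (S T : Finset (Fin 24)) : D.prod (S ∆ T) = D.prod S * D.prod T := by
  have h1 : Disjoint (S \ T) (T \ S) := disjoint_sdiff_sdiff
  have e1 : D.prod S = D.prod (S \ T) * D.prod (S ∩ T) := by
    rw [prod, prod, prod, ← Finset.prod_union (Finset.disjoint_sdiff_inter S T),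
      Finset.sdiff_union_inter]
  have e2 : D.prod T = D.prod (T \ S) * D.prod (S ∩ T) := by
    rw [prod, prod, prod, Finset.inter_comm S T, ← Finset.prod_union (Finset.disjoint_sdiff_inter T S),
      Finset.sdiff_union_inter]
  rw [e1, e2, mul_mul_mul_comm, D.sq, mul_one, prod, prod, prod, ← Finset.prod_union h1]
  rfl

theorem prod_pair {a b : Fin 24} (h : a ≠ b) : D.prod {a, b} = D.f a * D.f b :=
  Finset.prod_pair h

theorem pair_inj {a b c d : Fin 24} (hab : a ≠ b) (hcd : c ≠ d)
    (h : D.f a * D.f b = D.f c * D.f d) : ({a, b} : Finset (Fin 24)) = {c, d} := by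
  by_contra hne
  have h2 := card_symmDiff_add ({a, b} : Finset (Fin 24)) {c, d}
  rw [Finset.card_pair hab, Finset.card_pair hcd] at h2
  refine D.small (({a, b} : Finset (Fin 24)) ∆ {c, d}) ?_
    ⟨2 - (({a, b} : Finset (Fin 24)) ∩ {c, d}).card, by omega⟩ (by omega) ?_
  · rw [Finset.nonempty_iff_ne_empty]
    exact fun e => hne (symmDiff_eq_bot.1 e)
  · show D.prod _ = 1
    rw [prod_symmDiff, prod_pair D hab, prod_pair D hcd, h, D.sq]

theorem meet {a b c d : Fin 24} (hab : a ≠ b) (hcd : c ≠ d)
    (h : D.f a * D.f b * (D.f c * D.f d) ∈ D.pairs) :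
    (({a, b} : Finset (Fin 24)) ∩ {c, d}).Nonempty := by
  obtain ⟨x, y, hxy, he⟩ := h
  rw [Finset.nonempty_iff_ne_empty]
  intro h0
  have hd : Disjoint ({a, b} : Finset (Fin 24)) {c, d} := Finset.disjoint_iff_inter_eq_empty.2 h0
  set S := ({a, b} : Finset (Fin 24)) ∆ {c, d} with hS
  have hS4 : S.card = 4 := by
    have := card_symmDiff_add ({a, b} : Finset (Fin 24)) {c, d}
    rw [h0, Finset.card_empty, Finset.card_pair hab, Finset.card_pair hcd] at this
    rw [hS]
    omega
  have h2 := card_symmDiff_add S {x, y}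
  rw [hS4, Finset.card_pair hxy] at h2
  have hle : (S ∩ {x, y}).card ≤ 2 :=
    (Finset.card_le_card Finset.inter_subset_right).trans_eq (Finset.card_pair hxy)
  refine D.small (S ∆ {x, y}) (Finset.card_pos.1 (by omega)) ⟨3 - (S ∩ {x, y}).card, by omega⟩
    (by omega) ?_
  show D.prod _ = 1
  rw [prod_symmDiff, hS, prod_symmDiff, prod_pair D hab, prod_pair D hcd, prod_pair D hxy, he, D.sq]

/-- The code of the relations. -/
def code : Submodule (ZMod 2) (Fin 24 → ZMod 2) where
  carrier := {w | Even (support₂ w).card ∧ D.prod (support₂ w) = 1}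
  zero_mem' := by simp [support₂, prod]
  add_mem' := by
    intro u v hu hv
    have e : support₂ (u + v) = support₂ u ∆ support₂ v := by
      conv_lhs => rw [← word_support₂ u, ← word_support₂ v, word_add, support₂_word]
    refine ⟨?_, ?_⟩
    · have h := card_symmDiff_add (support₂ u) (support₂ v)
      obtain ⟨a, ha⟩ := hu.1
      obtain ⟨b, hb⟩ := hv.1
      exact ⟨a + b - (support₂ u ∩ support₂ v).card, by rw [e]; omega⟩
    · rw [e, prod_symmDiff, hu.2, hv.2, one_mul]
  smul_mem' := by
    intro c w hw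
    rcases (by decide : ∀ c : ZMod 2, c = 0 ∨ c = 1) c with rfl | rfl
    · simp [support₂, prod]
    · rw [one_smul]; exact hw

theorem mem_code {w : Fin 24 → ZMod 2} :
    w ∈ D.code ↔ Even (support₂ w).card ∧ D.prod (support₂ w) = 1 := Iff.rfl

theorem min_weight : ∀ w ∈ D.code, w ≠ 0 → 8 ≤ hammingNorm w := by
  intro w hw h0
  rw [hammingNorm_eq_card]
  obtain ⟨⟨k, hk⟩, hp⟩ := hw
  by_contra hlt
  have hne : (support₂ w).Nonempty := by
    rw [Finset.nonempty_iff_ne_empty]
    intro e
    apply h0
    rw [← word_support₂ w, e]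
    funext i
    simp [word]
  exact D.small _ hne ⟨k, hk⟩ (by omega) hp

/-- Product and parity of a word. -/
noncomputable def parity : Multiplicative (Fin 24 → ZMod 2) →* V × Multiplicative (ZMod 2) where
  toFun w := (D.prod (support₂ (Multiplicative.toAdd w)),
    Multiplicative.ofAdd ((support₂ (Multiplicative.toAdd w)).card : ZMod 2))
  map_one' := by simp [support₂, prod]
  map_mul' u v := by
    have e : support₂ (Multiplicative.toAdd (u * v)) =
        support₂ (Multiplicative.toAdd u) ∆ support₂ (Multiplicative.toAdd v) := by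
      rw [toAdd_mul]
      conv_lhs => rw [← word_support₂ (Multiplicative.toAdd u), ← word_support₂ (Multiplicative.toAdd v),
        word_add, support₂_word]
    refine Prod.ext ?_ ?_
    · simp only [Prod.fst_mul]
      rw [e, prod_symmDiff]
    · simp only [Prod.snd_mul]
      rw [← ofAdd_add, e]
      have h := congrArg (fun n : ℕ => (n : ZMod 2))
        (card_symmDiff_add (support₂ (Multiplicative.toAdd u)) (support₂ (Multiplicative.toAdd v)))
      simp only [Nat.cast_add, Nat.cast_mul, Nat.cast_ofNat] at h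
      rw [show (2 : ZMod 2) = 0 from rfl, zero_mul, add_zero] at h
      rw [h]

theorem parity_surjective : Function.Surjective D.parity := by
  rw [← MonoidHom.range_eq_top, eq_top_iff]
  have hs : ∀ i, (D.f i, Multiplicative.ofAdd (1 : ZMod 2)) ∈ D.parity.range := fun i =>
    ⟨Multiplicative.ofAdd (word {i}), by
      show (_, _) = _
      rw [toAdd_ofAdd, support₂_word, prod, Finset.prod_singleton, Finset.card_singleton, Nat.cast_one]⟩
  have hu : (1, Multiplicative.ofAdd (1 : ZMod 2)) ∈ D.parity.range := D.zero ▸ hs 0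
  have hleft : ∀ v : V, (v, 1) ∈ D.parity.range := by
    intro v
    have hv : v ∈ Subgroup.closure (Set.range D.f) := D.gen.symm ▸ Subgroup.mem_top v
    induction hv using Subgroup.closure_induction with
    | mem x hx =>
      obtain ⟨i, rfl⟩ := hx
      have := mul_mem (hs i) hu
      rwa [Prod.mk_mul_mk, mul_one, ← ofAdd_add, show (1 : ZMod 2) + 1 = 0 from rfl, ofAdd_zero] at this
    | one => exact one_mem _
    | mul x y _ _ ihx ihy => simpa using mul_mem ihx ihy
    | inv x _ ihx => simpa using inv_mem ihx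
  rintro ⟨v, p⟩ -
  rcases (by decide : ∀ c : ZMod 2, c = 0 ∨ c = 1) (Multiplicative.toAdd p) with e | e
  · rw [show p = 1 from e]; exact hleft v
  · rw [show p = Multiplicative.ofAdd 1 from e]
    have := mul_mem (hleft v) hu
    rwa [Prod.mk_mul_mk, mul_one, one_mul] at this

theorem finrank_code : Module.finrank (ZMod 2) D.code = 12 := by
  haveI : Finite V := Nat.finite_of_card_ne_zero (by rw [D.card]; norm_num)
  have hk : Nat.card D.parity.ker = Nat.card D.code := by
    refine Nat.card_congr (Equiv.subtypeEquiv Multiplicative.toAdd fun w => ?_)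
    rw [MonoidHom.mem_ker, mem_code]
    show (_, _) = ((1 : V), (1 : Multiplicative (ZMod 2))) ↔ _
    rw [Prod.ext_iff, and_comm, ← ofAdd_zero, Multiplicative.ofAdd.apply_eq_iff_eq,
      ZMod.natCast_eq_zero_iff_even]
  have h := D.parity.ker.card_mul_index
  have h2 : Nat.card (Multiplicative (ZMod 2)) = 2 := by
    rw [Nat.card_congr Multiplicative.toAdd, Nat.card_zmod]
  have h24 : Nat.card (Multiplicative (Fin 24 → ZMod 2)) = 2 ^ 24 := by
    rw [Nat.card_congr Multiplicative.toAdd, Nat.card_fun, Nat.card_zmod, Nat.card_fin]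
  rw [Subgroup.index_ker, MonoidHom.range_eq_top.2 D.parity_surjective, Subgroup.card_top,
    Nat.card_prod, D.card, h2, h24, hk, Module.natCard_eq_pow_finrank (K := ZMod 2), Nat.card_zmod] at h
  have : (2 : ℕ) ^ Module.finrank (ZMod 2) D.code = 2 ^ 12 := by norm_num at h ⊢; omega
  exact Nat.pow_right_injective le_rfl this

/-- An identification with the Golay code. -/
theorem exists_equiv : ∃ e : Fin 24 ≃ GolayPt, ∀ w : GolayPt → ZMod 2,
    w ∈ golayCode ↔ (fun i => w (e i)) ∈ D.code := by
  have hdim := D.finrank_code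
  have hmin := D.min_weight
  set C := D.code
  have hB : IsSteinerSystem 5 8 (wordsOfWeight (C : Set (Fin 24 → ZMod 2)) 8) :=
    ⟨fun b hb => hb.2, fun s hs => Cfsg.Agent.AbstractGolay.existsUnique_octad hdim hmin s hs⟩
  obtain ⟨e, he⟩ := Cfsg.Agent.S0407.result (Fintype.card_fin 24)
    Cfsg.Agent.Leech.card_golayPt hB Cfsg.Agent.Golay.octads_isSteiner
  refine ⟨e, ?_⟩
  let L : (Fin 24 → ZMod 2) ≃ₗ[ZMod 2] (GolayPt → ZMod 2) :=
    LinearEquiv.funCongrLeft (ZMod 2) (ZMod 2) e.symm
  have hle : C.map L.toLinearMap ≤ golayCode := by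
    rw [← Cfsg.Agent.AbstractGolay.span_octads hdim hmin, Submodule.map_span, Submodule.span_le]
    rintro _ ⟨w, ⟨hw, h8⟩, rfl⟩
    have hb : support₂ w ∈ wordsOfWeight (C : Set (Fin 24 → ZMod 2)) 8 := ⟨⟨w, hw, rfl⟩, h8⟩
    have ho : (support₂ w).image e ∈ octads := he ▸ Set.mem_image_of_mem _ hb
    have hm := (Cfsg.Agent.Golay.mem_octads_iff.mp ho).1
    have heq : Cfsg.Agent.Golay.indWord ((support₂ w).image e) = L w := by
      apply Cfsg.Agent.Golay.support₂_injective
      rw [Cfsg.Agent.Golay.support₂_indWord]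
      ext p
      simp [L, support₂, LinearMap.funLeft, ← Equiv.eq_symm_apply]
      constructor
      · intro h; exact Finset.mem_filter.mpr ⟨Finset.mem_univ _, h⟩
      · intro h; exact (Finset.mem_filter.mp h).2
    rw [heq] at hm
    exact hm
  have heqc : C.map L.toLinearMap = golayCode := by
    refine Submodule.eq_of_le_of_finrank_eq hle ?_
    rw [Cfsg.Agent.Golay.finrank_golayCode, ← hdim]
    exact LinearEquiv.finrank_map_eq L C
  intro w
  rw [← heqc]
  constructor
  · rintro ⟨u, hu, rfl⟩
    have : (fun i => (L.toLinearMap u) (e i)) = u := by funext i; simp [L, LinearMap.funLeft]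
    rw [this]; exact hu
  · intro hw
    exact ⟨_, hw, by funext p; simp [L, LinearMap.funLeft]⟩

/-- Pairwise meeting pairs, at least four of them, have a common point. -/
theorem exists_common {α : Type*} [DecidableEq α] (F : Finset (Finset α)) (h4 : 4 ≤ F.card)
    (h2 : ∀ s ∈ F, s.card = 2) (hm : ∀ s ∈ F, ∀ t ∈ F, s ≠ t → (s ∩ t).Nonempty) :
    ∃ c, ∀ s ∈ F, c ∈ s := by
  obtain ⟨s, hs, t, ht, hst⟩ := Finset.one_lt_card.1 (show 1 < F.card by omega)
  obtain ⟨a, ha⟩ := hm s hs t ht hst
  rw [Finset.mem_inter] at ha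
  obtain ⟨b, hb⟩ := Finset.card_eq_one.1 (show (s.erase a).card = 1 by
    rw [Finset.card_erase_of_mem ha.1, h2 s hs])
  obtain ⟨c, hc⟩ := Finset.card_eq_one.1 (show (t.erase a).card = 1 by
    rw [Finset.card_erase_of_mem ha.2, h2 t ht])
  have es : s = {a, b} := by rw [← Finset.insert_erase ha.1, hb]
  have et : t = {a, c} := by rw [← Finset.insert_erase ha.2, hc]
  by_cases hall : ∀ u ∈ F, a ∈ u
  · exact ⟨a, hall⟩
  exfalso
  push Not at hall
  obtain ⟨u, hu, hau⟩ := hall
  have hbu : b ∈ u := by
    obtain ⟨x, hx⟩ := hm u hu s hs (fun e => hau (e ▸ ha.1))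
    rw [Finset.mem_inter, es, Finset.mem_insert, Finset.mem_singleton] at hx
    rcases hx.2 with e | e <;> subst e
    · exact absurd hx.1 hau
    · exact hx.1
  have hcu : c ∈ u := by
    obtain ⟨x, hx⟩ := hm u hu t ht (fun e => hau (e ▸ ha.2))
    rw [Finset.mem_inter, et, Finset.mem_insert, Finset.mem_singleton] at hx
    rcases hx.2 with e | e <;> subst e
    · exact absurd hx.1 hau
    · exact hx.1
  have hbc : b ≠ c := fun e => hst (by rw [es, et, e])
  have two : ∀ v ∈ F, ∀ x y, x ∈ v → y ∈ v → x ≠ y → v = {x, y} := by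
    intro v hv x y hx hy hxy
    refine (Finset.eq_of_subset_of_card_le ?_ ?_).symm
    · intro w hw
      rw [Finset.mem_insert, Finset.mem_singleton] at hw
      rcases hw with e | e <;> subst e <;> assumption
    · rw [h2 v hv, Finset.card_pair hxy]
  have eu := two u hu b c hbu hcu hbc
  have hsub : F ⊆ {s, t, u} := by
    intro v hv
    simp only [Finset.mem_insert, Finset.mem_singleton]
    by_cases hav : a ∈ v
    · by_cases hvu : v = u
      · exact Or.inr (Or.inr hvu)
      obtain ⟨x, hx⟩ := hm v hv u hu hvu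
      rw [Finset.mem_inter, eu, Finset.mem_insert, Finset.mem_singleton] at hx
      have hax : a ≠ b ∧ a ≠ c := ⟨fun e => hau (e ▸ hbu), fun e => hau (e ▸ hcu)⟩
      rcases hx.2 with e | e <;> subst e
      · exact Or.inl ((two v hv a x hav hx.1 hax.1).trans es.symm)
      · exact Or.inr (Or.inl ((two v hv a x hav hx.1 hax.2).trans et.symm))
    · refine Or.inr (Or.inr ?_)
      have hb' : b ∈ v := by
        obtain ⟨x, hx⟩ := hm v hv s hs (fun e => hav (e ▸ ha.1))
        rw [Finset.mem_inter, es, Finset.mem_insert, Finset.mem_singleton] at hx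
        rcases hx.2 with e | e <;> subst e
        · exact absurd hx.1 hav
        · exact hx.1
      have hc' : c ∈ v := by
        obtain ⟨x, hx⟩ := hm v hv t ht (fun e => hav (e ▸ ha.2))
        rw [Finset.mem_inter, et, Finset.mem_insert, Finset.mem_singleton] at hx
        rcases hx.2 with e | e <;> subst e
        · exact absurd hx.1 hav
        · exact hx.1
      rw [two v hv b c hb' hc' hbc, eu]
  have := Finset.card_le_card hsub
  have : ({s, t, u} : Finset (Finset α)).card ≤ 3 := Finset.card_le_three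
  omega

/-- An automorphism preserving the pairs comes from a permutation of the points. -/
theorem exists_perm (φ : MulAut V) (hst : ∀ v ∈ D.pairs, φ v ∈ D.pairs) :
    ∃ σ : Equiv.Perm (Fin 24), ∀ i j, φ (D.f i * D.f j) = D.f (σ i) * D.f (σ j) := by
  classical
  have himg : ∀ i j : Fin 24, i ≠ j → ∃ a b, a ≠ b ∧ D.f a * D.f b = φ (D.f i * D.f j) :=
    fun i j h => hst _ ⟨i, j, h, rfl⟩
  choose! A B hAB hf using himg
  let g : Fin 24 → Fin 24 → Finset (Fin 24) := fun i j => {A i j, B i j}
  have g2 : ∀ i j, i ≠ j → (g i j).card = 2 := fun i j h => Finset.card_pair (hAB i j h)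
  have gprod : ∀ i j, i ≠ j → D.prod (g i j) = φ (D.f i * D.f j) := fun i j h =>
    (D.prod_pair (hAB i j h)).trans (hf i j h)
  have ginj : ∀ i j k l, i ≠ j → k ≠ l → g i j = g k l → ({i, j} : Finset (Fin 24)) = {k, l} :=
    fun i j k l h h' e => D.pair_inj h h' (φ.injective (by rw [← gprod i j h, e, gprod k l h']))
  have gmeet : ∀ i j k, i ≠ j → i ≠ k → j ≠ k → (g i j ∩ g i k).Nonempty := by
    intro i j k hij hik hjk
    refine D.meet (hAB i j hij) (hAB i k hik) ?_
    rw [hf i j hij, hf i k hik, ← map_mul,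
      show D.f i * D.f j * (D.f i * D.f k) = D.f j * D.f k by rw [mul_mul_mul_comm, D.sq, one_mul]]
    exact hst _ ⟨j, k, hjk, rfl⟩
  have hcommon : ∀ i, ∃ c, ∀ j, i ≠ j → c ∈ g i j := by
    intro i
    have hF : ((Finset.univ.erase i).image (g i)).card = 23 := by
      rw [Finset.card_image_of_injOn, Finset.card_erase_of_mem (Finset.mem_univ i), Finset.card_univ,
        Fintype.card_fin]
      intro j hj k hk e
      rw [Finset.coe_erase] at hj hk
      have h1 : i ≠ j := fun q => hj.2 q.symm
      have h2 : i ≠ k := fun q => hk.2 q.symm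
      have h3 : j ∈ ({i, k} : Finset (Fin 24)) := by
        rw [← ginj i j i k h1 h2 e]
        simp
      simpa [Ne.symm h1] using h3
    obtain ⟨c, hc⟩ := exists_common ((Finset.univ.erase i).image (g i)) (by omega)
      (fun s hs => by
        obtain ⟨j, hj, rfl⟩ := Finset.mem_image.1 hs
        exact g2 i j (Finset.ne_of_mem_erase hj).symm)
      (fun s hs t ht hne => by
        obtain ⟨j, hj, rfl⟩ := Finset.mem_image.1 hs
        obtain ⟨k, hk, rfl⟩ := Finset.mem_image.1 ht
        exact gmeet i j k (Finset.ne_of_mem_erase hj).symm (Finset.ne_of_mem_erase hk).symm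
          (fun e => hne (by rw [e])))
    exact ⟨c, fun j hj => hc _ (Finset.mem_image_of_mem _ (Finset.mem_erase.2 ⟨hj.symm, Finset.mem_univ j⟩))⟩
  choose s hs using hcommon
  have gsymm : ∀ i j, i ≠ j → g i j = g j i := fun i j h =>
    D.pair_inj (hAB i j h) (hAB j i h.symm)
      (by rw [hf i j h, hf j i h.symm, mul_comm (D.f i)])
  have sinj : Function.Injective s := by
    intro i k e
    by_contra hik
    obtain ⟨j, hj⟩ : ∃ j, j ∉ ({i, k} : Finset (Fin 24)) := by
      by_contra hno
      push Not at hno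
      have := Finset.card_le_card (s := (Finset.univ : Finset (Fin 24))) (t := {i, k}) fun x _ => hno x
      rw [Finset.card_univ, Fintype.card_fin, Finset.card_pair hik] at this
      omega
    obtain ⟨l, hl⟩ : ∃ l, l ∉ ({i, k, j} : Finset (Fin 24)) := by
      by_contra hno
      push Not at hno
      have := Finset.card_le_card (s := (Finset.univ : Finset (Fin 24))) (t := {i, k, j}) fun x _ => hno x
      rw [Finset.card_univ, Fintype.card_fin] at this
      have : ({i, k, j} : Finset (Fin 24)).card ≤ 3 := Finset.card_le_three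
      omega
    simp only [Finset.mem_insert, Finset.mem_singleton, not_or] at hj hl
    have h1 : i ≠ j := Ne.symm hj.1
    have h2 : k ≠ l := Ne.symm hl.2.1
    have hA : s i ∈ g i j := hs i j h1
    have hB : s i ∈ g k l := e ▸ hs k l h2
    have hne : g i j ≠ g k l := fun q => by
      have h3 : i ∈ ({k, l} : Finset (Fin 24)) := by rw [← ginj i j k l h1 h2 q]; simp
      simp [hik, Ne.symm hl.1] at h3
    obtain ⟨a, ha⟩ := Finset.card_eq_one.1 (show ((g i j).erase (s i)).card = 1 by
      rw [Finset.card_erase_of_mem hA, g2 i j h1])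
    obtain ⟨b, hb⟩ := Finset.card_eq_one.1 (show ((g k l).erase (s i)).card = 1 by
      rw [Finset.card_erase_of_mem hB, g2 k l h2])
    have ea : g i j = {s i, a} := by rw [← Finset.insert_erase hA, ha]
    have eb : g k l = {s i, b} := by rw [← Finset.insert_erase hB, hb]
    have hab : a ≠ b := fun q => hne (by rw [ea, eb, q])
    have hia : s i ≠ a := fun q => by
      have := g2 i j h1; rw [ea, q] at this; simp at this
    have hib : s i ≠ b := fun q => by
      have := g2 k l h2; rw [eb, q] at this; simp at this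
    have hp : D.f a * D.f b = φ (D.f i * D.f j * (D.f k * D.f l)) := by
      rw [map_mul, ← gprod i j h1, ← gprod k l h2, ea, eb, D.prod_pair hia, D.prod_pair hib,
        mul_mul_mul_comm, D.sq, one_mul]
    have hmem : D.f i * D.f j * (D.f k * D.f l) ∈ D.pairs := by
      have himg : φ '' D.pairs = D.pairs := by
        haveI : Finite V := Nat.finite_of_card_ne_zero (by rw [D.card]; norm_num)
        exact Set.eq_of_subset_of_ncard_le (by rintro _ ⟨v, hv, rfl⟩; exact hst v hv)
          (le_of_eq (Set.ncard_image_of_injective _ φ.injective).symm) (Set.toFinite _)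
      obtain ⟨v, hv, he⟩ : φ (D.f i * D.f j * (D.f k * D.f l)) ∈ φ '' D.pairs := by
        rw [himg]; exact ⟨a, b, hab, hp⟩
      exact φ.injective he ▸ hv
    obtain ⟨x, hx⟩ := D.meet h1 h2 hmem
    simp only [Finset.mem_inter, Finset.mem_insert, Finset.mem_singleton] at hx
    rcases hx with ⟨q | q, q' | q'⟩ <;> subst q
    · exact hik q'
    · exact hl.1 q'.symm
    · exact hj.2 q'
    · exact hl.2.2 q'.symm
  refine ⟨Equiv.ofBijective s ((Finite.injective_iff_bijective).1 sinj), fun i j => ?_⟩
  show φ (D.f i * D.f j) = D.f (s i) * D.f (s j)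
  by_cases h : i = j
  · subst h; rw [D.sq, D.sq, map_one]
  rw [← gprod i j h, ← D.prod_pair (sinj.ne h)]
  congr 1
  refine (Finset.eq_of_subset_of_card_le ?_ ?_).symm
  · intro x hx
    rw [Finset.mem_insert, Finset.mem_singleton] at hx
    rcases hx with e | e <;> subst e
    · exact hs i j h
    · exact gsymm i j h ▸ hs j i (Ne.symm h)
  · rw [g2 i j h, Finset.card_pair (sinj.ne h)]

theorem perm_unique {σ τ : Equiv.Perm (Fin 24)}
    (h : ∀ i j, D.f (σ i) * D.f (σ j) = D.f (τ i) * D.f (τ j)) : σ = τ := by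
  refine Equiv.ext fun i => ?_
  obtain ⟨j, hj⟩ : ∃ j, j ≠ i := exists_ne i
  obtain ⟨k, hk⟩ : ∃ k, k ∉ ({i, j} : Finset (Fin 24)) := by
    by_contra hno
    push Not at hno
    have := Finset.card_le_card (s := (Finset.univ : Finset (Fin 24))) (t := {i, j}) fun x _ => hno x
    rw [Finset.card_univ, Fintype.card_fin, Finset.card_pair (Ne.symm hj)] at this
    omega
  simp only [Finset.mem_insert, Finset.mem_singleton, not_or] at hk
  have e1 := D.pair_inj (σ.injective.ne (Ne.symm hj)) (τ.injective.ne (Ne.symm hj)) (h i j)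
  have e2 := D.pair_inj (σ.injective.ne (Ne.symm hk.1)) (τ.injective.ne (Ne.symm hk.1)) (h i k)
  have m1 : σ i ∈ ({τ i, τ j} : Finset (Fin 24)) := e1 ▸ Finset.mem_insert_self _ _
  have m2 : σ i ∈ ({τ i, τ k} : Finset (Fin 24)) := e2 ▸ Finset.mem_insert_self _ _
  simp only [Finset.mem_insert, Finset.mem_singleton] at m1 m2
  rcases m1 with m1 | m1
  · exact m1
  rcases m2 with m2 | m2
  · exact m2
  · exact absurd (τ.injective (m1.symm.trans m2)) (Ne.symm hk.2)

theorem image_prod (φ : MulAut V) (σ : Equiv.Perm (Fin 24))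
    (h : ∀ i j, φ (D.f i * D.f j) = D.f (σ i) * D.f (σ j)) (S : Finset (Fin 24)) (hS : Even S.card) :
    φ (D.prod S) = D.prod (S.map σ.toEmbedding) := by
  have h1 : ∀ i, φ (D.f i) = D.f (σ 0) * D.f (σ i) := fun i => by
    rw [← h, D.zero, one_mul]
  rw [prod, _root_.map_prod, Finset.prod_congr rfl (fun i _ => h1 i), Finset.prod_mul_distrib, Finset.prod_const]
  obtain ⟨k, hk⟩ := hS
  rw [hk, pow_add, D.sq, one_mul, prod, Finset.prod_map]
  rfl

/-- The action through the Mathieu group. -/
theorem exists_hom {M : Type*} [Group M] (α : M →* MulAut V)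
    (hst : ∀ m, ∀ v ∈ D.pairs, α m v ∈ D.pairs) :
    ∃ (e : Fin 24 ≃ GolayPt) (Φ : M →* ↥M24), Φ.ker = α.ker ∧
      ∀ m i j, i ≠ j → (α m (D.f i * D.f j) = D.f i * D.f j ↔
        (Φ m : Equiv.Perm GolayPt) ∈
          MulAction.stabilizer (Equiv.Perm GolayPt) ({e i, e j} : Set GolayPt)) := by
  classical
  obtain ⟨e, he⟩ := D.exists_equiv
  choose σ hσ using fun m => D.exists_perm (α m) (hst m)
  have hone : σ 1 = 1 := D.perm_unique fun i j => by
    rw [← hσ 1 i j, map_one]; rfl
  have hmul : ∀ m n, σ (m * n) = σ m * σ n := fun m n => D.perm_unique fun i j => by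
    rw [← hσ (m * n) i j, map_mul α m n, MulAut.mul_apply, hσ n i j, hσ m]
    rfl
  let τ : M →* Equiv.Perm GolayPt :=
    { toFun := fun m => (e.symm.trans (σ m)).trans e
      map_one' := by rw [hone]; ext x; simp
      map_mul' := fun m n => by rw [hmul]; ext x; simp }
  have hτe : ∀ m i, τ m (e i) = e (σ m i) := fun m i => by
    show e (σ m (e.symm (e i))) = _
    rw [e.symm_apply_apply]
  have hmem : ∀ m, τ m ∈ M24 := by
    intro m
    rw [Cfsg.Agent.Golay.mem_M24_iff]
    intro w hw
    rw [he]
    rw [he, D.mem_code] at hw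
    obtain ⟨heven, hp⟩ := hw
    rw [D.mem_code]
    have hsupp : support₂ (fun i => w ((τ m).symm (e i))) =
        (support₂ fun i => w (e i)).map (σ m).toEmbedding := by
      ext i
      rw [Finset.mem_map_equiv]
      simp only [support₂, Finset.mem_filter, Finset.mem_univ, true_and]
      rw [show (τ m).symm (e i) = e ((σ m).symm i) by
        rw [Equiv.symm_apply_eq, hτe, Equiv.apply_symm_apply]]
    rw [hsupp, Finset.card_map, ← D.image_prod (α m) (σ m) (hσ m) _ heven, hp, map_one]
    exact ⟨heven, rfl⟩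
  refine ⟨e, τ.codRestrict M24 hmem, ?_, fun m i j hij => ?_⟩
  · ext m
    rw [MonoidHom.mem_ker, MonoidHom.mem_ker, Subtype.ext_iff]
    show τ m = 1 ↔ α m = 1
    constructor
    · intro h
      have hs1 : σ m = 1 := Equiv.ext fun i => e.injective (by rw [← hτe, h]; rfl)
      refine MulEquiv.ext fun v => ?_
      have hv : v ∈ Subgroup.closure (Set.range D.f) := D.gen.symm ▸ Subgroup.mem_top v
      show (α m : MulAut V).toMonoidHom v = v
      induction hv using Subgroup.closure_induction with
      | mem x hx =>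
        obtain ⟨i, rfl⟩ := hx
        have := hσ m 0 i
        rw [hs1] at this
        simpa [D.zero] using this
      | one => simp
      | mul x y _ _ hx hy => rw [map_mul, hx, hy]
      | inv x _ hx => rw [map_inv, hx]
    · intro h
      have hs1 : σ m = 1 := D.perm_unique fun i j => by rw [← hσ m i j, h]; rfl
      refine Equiv.ext fun x => ?_
      show e (σ m (e.symm x)) = x
      rw [hs1]
      simp
  · show _ ↔ τ m ∈ _
    rw [MulAction.mem_stabilizer_iff, ← Set.image_smul, Set.image_pair, hσ]
    show _ ↔ ({τ m (e i), τ m (e j)} : Set GolayPt) = {e i, e j}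
    rw [hτe, hτe, Set.pair_eq_pair_iff]
    simp only [e.injective.eq_iff]
    constructor
    · intro h
      have h1 := D.pair_inj ((σ m).injective.ne hij) hij h
      rw [← Set.pair_eq_pair_iff]
      simpa using congrArg (fun s : Finset (Fin 24) => (s : Set (Fin 24))) h1
    · rintro (⟨a, b⟩ | ⟨a, b⟩) <;> rw [a, b]
      exact mul_comm _ _

end Config

/-- A subgroup of small index is everything. -/
theorem surjective_of_dvd {M : Type*} [Group M] (Φ : M →* ↥M24)
    (h : 27202560 ∣ Nat.card Φ.range) : Function.Surjective Φ := by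
  haveI := Cfsg.Agent.Golay.isSimpleGroup_M24
  rw [← MonoidHom.range_eq_top]
  by_contra hne
  set S := Φ.range
  have hc : Nat.card ↥M24 = 244823040 := Cfsg.Agent.Golay.card_M24
  have hm := S.card_mul_index
  rw [hc] at hm
  have hidx : S.index ≤ 9 := by
    obtain ⟨k, hk⟩ := h
    rw [hk] at hm
    rcases Nat.eq_zero_or_pos k with rfl | hk0
    · simp at hm
    · have : 27202560 * S.index ≤ 27202560 * k * S.index :=
        Nat.mul_le_mul_right _ (Nat.le_mul_of_pos_right _ hk0)
      omega
  have hker : (MulAction.toPermHom ↥M24 (↥M24 ⧸ S)).ker = ⊥ := by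
    rcases (inferInstance : (MulAction.toPermHom ↥M24 (↥M24 ⧸ S)).ker.Normal).eq_bot_or_eq_top with e | e
    · exact e
    · exfalso
      apply hne
      rw [← top_le_iff]
      intro g _
      have h1 : MulAction.toPermHom ↥M24 (↥M24 ⧸ S) g = 1 := by
        rw [← MonoidHom.mem_ker, e]; trivial
      have h2 := Equiv.ext_iff.1 h1 ((1 : ↥M24) : ↥M24 ⧸ S)
      rw [MulAction.toPermHom_apply, MulAction.toPerm_apply, MulAction.Quotient.smul_coe,
        smul_eq_mul, mul_one, Equiv.Perm.one_apply, QuotientGroup.eq] at h2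
      simpa using h2
  have hle := Nat.card_le_card_of_injective _ ((MonoidHom.ker_eq_bot_iff _).1 hker)
  rw [hc, Nat.card_perm] at hle
  have hi : Nat.card (↥M24 ⧸ S) ≤ 9 := hidx
  have := Nat.factorial_le hi
  have h9 : Nat.factorial 9 = 362880 := rfl
  omega

/-- Any two points are moved to the standard two points. -/
theorem exists_conj_pair {p q : GolayPt} (h : p ≠ q) :
    ∃ g ∈ M24, g • ({p, q} : Set GolayPt) = {none, some 0} := by
  obtain ⟨g, hg, -, h1, h2⟩ := Cfsg.Agent.Golay.exists_move_two (k := 0) (by norm_num)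
    ⟨Fin.elim0, fun i => i.elim0⟩ (a := p) (b := q) (c := none) (d := some 0)
    (fun i => i.elim0) (fun i => i.elim0) (fun i => i.elim0) (fun i => i.elim0) h (by simp)
  refine ⟨g, hg, ?_⟩
  rw [← Set.image_smul, Set.image_pair]
  show ({g p, g q} : Set GolayPt) = _
  rw [h1, h2]

end Cfsg.Agent.LargeFischer.MatCode
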