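import Cfsg.Agent.LargeFischer.MatFusion

/-!
Counting the conjugates of the central involution in the elementary abelian subgroup of order `2^11`.
-/

set_option autoImplicit false

namespace Cfsg.Agent.LargeFischer.Mat

open Cfsg
open Cfsg.Agent.GFour25
open Cfsg.Agent.SporB.FischerU (Vec)
open Cfsg.Agent.TTClass
open Thompson MatFine

/-- A prime moving a group of order `2^11` divides some difference of powers of two. -/
theorem prime_of_aut {V : Type*} [Group V] [Finite V] (hV : Nat.card V = 2 ^ 11) {p : ℕ}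
    (hp : p.Prime) (φ : MulAut V) (hφ : orderOf φ = p) : ∃ f < 11, p ∣ 2 ^ 11 - 2 ^ f := by
  haveI : Fact p.Prime := ⟨hp⟩
  have hG : IsPGroup p ↥(Subgroup.zpowers φ) :=
    IsPGroup.of_card (n := 1) (by rw [Nat.card_zpowers, hφ, pow_one])
  have h := hG.card_modEq_card_fixedPoints (α := V)
  let Fx : Subgroup V :=
    { carrier := {v | φ v = v}
      one_mem' := map_one φ
      mul_mem' := fun {a b} ha hb => show φ (a * b) = a * b by rw [map_mul, ha, hb]
      inv_mem' := fun {a} ha => show φ a⁻¹ = a⁻¹ by rw [map_inv, ha] }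
  have e : Nat.card (MulAction.fixedPoints ↥(Subgroup.zpowers φ) V) = Nat.card Fx := by
    refine Nat.card_congr (Equiv.subtypeEquivRight fun v => ?_)
    rw [MulAction.mem_fixedPoints]
    constructor
    · intro hv
      exact hv ⟨φ, Subgroup.mem_zpowers φ⟩
    · intro hv g
      have hle : Subgroup.zpowers φ ≤ MulAction.stabilizer (MulAut V) v :=
        Subgroup.zpowers_le.2 (MulAction.mem_stabilizer_iff.2 hv)
      exact MulAction.mem_stabilizer_iff.1 (hle g.2)
  obtain ⟨f, hf, hFx⟩ := (Nat.dvd_prime_pow Nat.prime_two).1 (hV ▸ Subgroup.card_subgroup_dvd_card Fx)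
  rw [e, hFx, hV] at h
  have hlt : f ≠ 11 := by
    rintro rfl
    have htop : Fx = ⊤ := Subgroup.eq_top_of_card_eq _ (hFx.trans hV.symm)
    have h1 : φ = 1 := MulEquiv.ext fun v => by
      have : v ∈ Fx := by rw [htop]; trivial
      exact this
    rw [h1, orderOf_one] at hφ
    exact hp.one_lt.ne hφ
  exact ⟨f, by omega, (Nat.modEq_iff_dvd' (Nat.pow_le_pow_right (by norm_num) hf)).1 h.symm⟩

variable {G : Type*} [Group G] [Finite G] {z : G}
  {Q : Subgroup (Subgroup.centralizer ({z} : Set G))} [Q.Normal]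

namespace Setup

variable (S : Setup z Q)

/-- The normaliser of the subgroup. -/
abbrev Nm : Subgroup G := Subgroup.normalizer (S.KG : Set G)

/-- The conjugates of `z` among the lifts of an involution. -/
def conjFib (a : Equiv.Perm Vec) : Set ↥(Subgroup.centralizer ({z} : Set G)) :=
  {x | x ∈ S.fib a ∧ IsConj z (x : G)}

theorem conjFib_dvd {a : Equiv.Perm Vec} (ha : a ∈ S.M.A) (h1 : a ≠ 1) :
    16 ∣ (S.conjFib a).ncard ∧ (S.conjFib a).ncard ≤ 128 := by
  refine ⟨S.sixteen_dvd ha h1 _ (fun x hx => hx.1) (fun q hq x hx => ?_), ?_⟩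
  · refine ⟨⟨S.conj_mem_K hq hx.1.1, (S.rho_conj hq).trans hx.1.2⟩, ?_⟩
    exact (isConj_conj q x).2 hx.2
  · rw [← S.ncard_fib ha]
    exact Set.ncard_le_ncard (fun x hx => hx.1) (Set.toFinite _)

theorem conjFib_le {a c : Equiv.Perm Vec} (ha : a ∈ S.M.A) (ha1 : a ≠ 1) (hc : c ∈ S.M.A)
    (hc1 : c ≠ 1) : (S.conjFib a).ncard ≤ (S.conjFib c).ncard := by
  obtain ⟨n, hn, -, hU, hA, hnac⟩ := S.M.trans a ha ha1 c hc hc1
  obtain ⟨g, hg, -, hfib⟩ := S.lift_sym hn hU hA
  refine Set.ncard_le_ncard_of_injOn (fun x => g * x * g⁻¹) (fun x hx => ⟨hnac ▸ hfib a x hx.1, ?_⟩)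
    (fun x _ y _ e => ?_) (Set.toFinite _)
  · exact (isConj_conj g x).2 hx.2
  · simpa using e

/-- The conjugates of `z` in `K`. -/
def zset : Set ↥(Subgroup.centralizer ({z} : Set G)) := {x | x ∈ S.K ∧ IsConj z (x : G)}

theorem conjFib_one : (S.conjFib 1).ncard = 91 := by
  classical
  have hfib : S.fib 1 = (S.P0 : Set ↥(Subgroup.centralizer ({z} : Set G))) := by
    rw [S.fib_eq_image (h := 1) ⟨S.K.one_mem, map_one _⟩]
    simp
  have hdec : S.fib 1 = S.conjFib 1 ∪ insert 1 (S.pset ∩ (S.P0 : Set ↥(Subgroup.centralizer ({z} : Set G)))) := by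
    ext x
    constructor
    · intro hx
      by_cases hc : IsConj z (x : G)
      · exact Or.inl ⟨hx, hc⟩
      · by_cases h1 : x = 1
        · exact Or.inr (Or.inl h1)
        · exact Or.inr (Or.inr ⟨⟨hx.1, h1, hc⟩, hfib ▸ hx⟩)
    · rintro (hx | rfl | hx)
      · exact hx.1
      · exact ⟨S.K.one_mem, map_one _⟩
      · exact hfib.symm ▸ hx.2
  have hdis : Disjoint (S.conjFib 1)
      (insert 1 (S.pset ∩ (S.P0 : Set ↥(Subgroup.centralizer ({z} : Set G))))) := by
    rw [Set.disjoint_left]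
    rintro x hx (rfl | hx')
    · exact S.B.ci.ne_one (isConj_one_left.1 (by simpa using hx.2))
    · exact hx'.1.2.2 hx.2
  have h := congrArg Set.ncard hdec
  rw [Set.ncard_union_eq hdis (Set.toFinite _) (Set.toFinite _),
    Set.ncard_insert_of_notMem (fun h => h.1.2.1 rfl) (Set.toFinite _), S.ncard_root_lifts,
    S.ncard_fib S.M.A.one_mem] at h
  omega

theorem ncard_zset : ∃ k ≤ 8, S.zset.ncard = 91 + 240 * k ∧
    ∀ a ∈ S.M.A, a ≠ 1 → (S.conjFib a).ncard = 16 * k := by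
  classical
  haveI : Nontrivial ↥S.M.A := Finite.one_lt_card_iff_nontrivial.1 (by rw [S.M.A_card]; norm_num)
  obtain ⟨a0, ha0⟩ := exists_ne (1 : ↥S.M.A)
  have ha01 : (a0 : Equiv.Perm Vec) ≠ 1 := fun e => ha0 (Subtype.ext e)
  obtain ⟨hd, hle⟩ := S.conjFib_dvd a0.2 ha01
  obtain ⟨k, hk⟩ := hd
  have hall : ∀ a ∈ S.M.A, a ≠ 1 → (S.conjFib a).ncard = 16 * k := fun a ha h1 =>
    hk ▸ le_antisymm (S.conjFib_le ha h1 a0.2 ha01) (S.conjFib_le a0.2 ha01 ha h1)
  refine ⟨k, by omega, ?_, hall⟩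
  set As := (S.M.A : Set (Equiv.Perm Vec)).toFinite.toFinset with hAs
  have hcard : As.card = 16 := by
    rw [hAs, ← Set.ncard_eq_toFinset_card _ _, ← Nat.card_coe_set_eq]
    exact S.M.A_card
  have hfibre := Finset.card_eq_sum_card_fiberwise (f := S.rho) (s := S.zset.toFinite.toFinset) (t := As)
    (fun x hx => by
      rw [Finset.mem_coe, Set.Finite.mem_toFinset] at hx ⊢
      exact S.rho_mem hx.1)
  have he : ∀ a, (S.zset.toFinite.toFinset.filter fun x => S.rho x = a).card = (S.conjFib a).ncard := by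
    intro a
    rw [← Set.ncard_coe_finset]
    congr 1
    ext x
    simp only [Finset.coe_filter, Set.Finite.mem_toFinset]
    exact ⟨fun h => ⟨⟨h.1.1, h.2⟩, h.1.2⟩, fun h => ⟨⟨h.1.1, h.2⟩, h.1.2⟩⟩
  rw [← Set.ncard_eq_toFinset_card _ _] at hfibre
  rw [hfibre, Finset.sum_congr rfl (fun a _ => he a),
    ← Finset.add_sum_erase _ _ ((Set.Finite.mem_toFinset _).2 S.M.A.one_mem : (1 : Equiv.Perm Vec) ∈ As),
    S.conjFib_one, Finset.sum_congr rfl (fun a ha => hall a ((Set.Finite.mem_toFinset _).1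
      (Finset.mem_of_mem_erase ha)) (Finset.ne_of_mem_erase ha)), Finset.sum_const,
    Finset.card_erase_of_mem ((Set.Finite.mem_toFinset _).2 S.M.A.one_mem), hcard, smul_eq_mul]
  omega

theorem fusion_orbit : MulAction.orbit S.KG.normalizerMonoidHom.range (⟨z, S.z_mem_KG⟩ : ↥S.KG) =
    {v : ↥S.KG | IsConj z (v : G)} := by
  ext v
  constructor
  · rintro ⟨⟨_, m, rfl⟩, rfl⟩
    exact isConj_iff.2 ⟨(m : G), rfl⟩
  · intro hv
    obtain ⟨g, hg⟩ := isConj_iff.1 hv
    obtain ⟨m, hm, hme⟩ := S.fusion S.z_mem_KG (g := g) (hg.symm ▸ v.2)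
    exact ⟨⟨_, ⟨m, hm⟩, rfl⟩, Subtype.ext (hme.trans hg)⟩

theorem ncard_conj_KG : {v : ↥S.KG | IsConj z (v : G)}.ncard = S.zset.ncard := by
  rw [← Set.ncard_image_of_injective _ (Subtype.val_injective (p := fun x => x ∈ S.KG)),
    ← Set.ncard_image_of_injective S.zset (Subgroup.centralizer ({z} : Set G)).subtype_injective]
  congr 1
  ext x
  constructor
  · rintro ⟨v, hv, rfl⟩
    obtain ⟨y, hy, e⟩ := v.2
    refine ⟨y, ⟨hy, ?_⟩, e⟩
    have e' : (y : G) = (v : G) := e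
    rw [e']
    exact hv
  · rintro ⟨y, hy, rfl⟩
    exact ⟨⟨_, S.mem_KG.2 hy.1⟩, hy.2, rfl⟩

/-- The group induced on `K` has order a multiple of the number of conjugates. -/
theorem zset_dvd : S.zset.ncard ∣ Nat.card S.KG.normalizerMonoidHom.range := by
  rw [← S.ncard_conj_KG, ← S.fusion_orbit, ← Nat.card_coe_set_eq,
    Nat.card_congr (MulAction.orbitEquivQuotientStabilizer _ _)]
  exact Subgroup.card_quotient_dvd_card _

/-- There are exactly 1771 conjugates. -/
theorem count : S.zset.ncard = 1771 ∧ ∀ a ∈ S.M.A, a ≠ 1 → (S.conjFib a).ncard = 112 := by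
  obtain ⟨k, hk8, hn, hall⟩ := S.ncard_zset
  suffices hk : k = 7 by
    subst hk
    exact ⟨by omega, fun a ha h1 => by rw [hall a ha h1]⟩
  have hd := S.zset_dvd
  rw [hn] at hd
  have hbad : ∀ p : ℕ, p.Prime → p ∣ 91 + 240 * k → (∀ f < 11, ¬ p ∣ 2 ^ 11 - 2 ^ f) → False := by
    intro p hp hdvd hno
    haveI : Fact p.Prime := ⟨hp⟩
    obtain ⟨φ, hφ⟩ := exists_prime_orderOf_dvd_card' p (hdvd.trans hd)
    have hφ' : orderOf (φ : MulAut ↥S.KG) = p := by rw [Subgroup.orderOf_coe, hφ]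
    obtain ⟨f, hf, hpf⟩ := prime_of_aut S.KG_card hp _ hφ'
    exact hno f hf hpf
  by_contra hne
  interval_cases k
  · exact hbad 13 (by norm_num) (by norm_num) (by decide)
  · exact hbad 331 (by norm_num) (by norm_num) (by decide)
  · exact hbad 571 (by norm_num) (by norm_num) (by decide)
  · exact hbad 811 (by norm_num) (by norm_num) (by decide)
  · exact hbad 1051 (by norm_num) (by norm_num) (by decide)
  · exact hbad 1291 (by norm_num) (by norm_num) (by decide)
  · exact hbad 1531 (by norm_num) (by norm_num) (by decide)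
  · exact hne rfl
  · exact hbad 2011 (by norm_num) (by norm_num) (by decide)

/-- Each class of lifts has 16 elements outside the conjugates of `z`. -/
theorem pset_fib {a : Equiv.Perm Vec} (ha : a ∈ S.M.A) (h1 : a ≠ 1) :
    (S.pset ∩ S.fib a).ncard = 16 ∧ ∀ h ∈ S.pset ∩ S.fib a,
      (fun q => q * h * q⁻¹) '' (Q : Set ↥(Subgroup.centralizer ({z} : Set G))) = S.pset ∩ S.fib a := by
  have hdec : S.fib a = S.conjFib a ∪ (S.pset ∩ S.fib a) := by
    ext x
    refine ⟨fun hx => ?_, fun h => h.elim (fun e => e.1) (fun e => e.2)⟩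
    by_cases hc : IsConj z (x : G)
    · exact Or.inl ⟨hx, hc⟩
    · exact Or.inr ⟨⟨hx.1, ne_one_of_rho S (fun e => h1 (hx.2.symm.trans e)), hc⟩, hx⟩
  have hdis : Disjoint (S.conjFib a) (S.pset ∩ S.fib a) :=
    Set.disjoint_left.2 fun x hx hx' => hx'.1.2.2 hx.2
  have h := congrArg Set.ncard hdec
  rw [Set.ncard_union_eq hdis (Set.toFinite _) (Set.toFinite _), S.ncard_fib ha, S.count.2 a ha h1] at h
  refine ⟨by omega, fun x hx => Set.eq_of_subset_of_ncard_le ?_ ?_ (Set.toFinite _)⟩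
  · rintro _ ⟨q, hq, rfl⟩
    have hm : q * x * q⁻¹ ∈ S.fib a := ⟨S.conj_mem_K hq hx.2.1, (S.rho_conj hq).trans hx.2.2⟩
    exact ⟨⟨hm.1, fun e => hx.1.2.1 (by simpa using e),
      fun hc => hx.1.2.2 ((isConj_conj q x).1 hc)⟩, hm⟩
  · have := S.sixteen_le ha h1 hx.2
    omega

/-! ### The normaliser -/

theorem centralizer_KG : Subgroup.centralizer (S.KG : Set G) = S.KG := by
  refine le_antisymm (fun g hg => ?_) (fun x hx => Subgroup.mem_centralizer_iff.2 fun y hy =>
    congrArg Subtype.val (S.KG_elem.1.is_comm.comm ⟨y, hy⟩ ⟨x, hx⟩))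
  have hgz : g ∈ Subgroup.centralizer ({z} : Set G) :=
    Subgroup.mem_centralizer_singleton_iff.2 (Subgroup.mem_centralizer_iff.1 hg z S.z_mem_KG).symm
  exact S.mem_KG.2 (S.centralizer_P0 (h := ⟨g, hgz⟩) fun p hp =>
    Subtype.ext (Subgroup.mem_centralizer_iff.1 hg p (S.mem_KG.2 (S.P0_le_K hp))))

omit [Finite G] in
theorem KG_le_Nm : S.KG ≤ S.Nm := Subgroup.le_normalizer

theorem ker_act : S.KG.normalizerMonoidHom.ker = S.KG.subgroupOf S.Nm := by
  rw [Subgroup.normalizerMonoidHom_ker, S.centralizer_KG]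

theorem T0_le_Nm : S.T0 ≤ S.Nm := by
  intro t ht
  haveI : Fact (Nat.Prime 2) := ⟨Nat.prime_two⟩
  have hTp : IsPGroup 2 S.T0 := IsPGroup.of_card S.card_T0
  have key : ∀ t ∈ S.T0, ∀ x ∈ S.KG, t * x * t⁻¹ ∈ S.KG := by
    intro t ht x hx
    have hle : S.KG.map (MulAut.conj t).toMonoidHom ≤ S.T0 := by
      rintro _ ⟨y, hy, rfl⟩
      exact S.T0.mul_mem (S.T0.mul_mem ht (S.KG_le_T0 hy)) (S.T0.inv_mem ht)
    exact ((S.T0_max hle (elementary_conj S.KG_elem)).2 (by
      rw [Subgroup.card_map_of_injective (MulAut.conj t).injective, S.KG_card])).le ⟨x, hx, rfl⟩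
  refine Subgroup.mem_normalizer_iff.2 fun x => ⟨key t ht x, fun hx => ?_⟩
  have := key t⁻¹ (S.T0.inv_mem ht) _ hx
  rwa [show t⁻¹ * (t * x * t⁻¹) * (t⁻¹)⁻¹ = x by group] at this

theorem card_Nm : Nat.card S.Nm = Nat.card S.KG.normalizerMonoidHom.range * 2 ^ 11 := by
  rw [← Subgroup.index_ker, ← S.KG_card, ← Nat.card_congr (Subgroup.subgroupOfEquivOfLe S.KG_le_Nm).toEquiv,
    ← S.ker_act, mul_comm, Subgroup.card_mul_index]

theorem two_dvd : 2 ^ 10 ∣ Nat.card S.KG.normalizerMonoidHom.range := by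
  have h := Subgroup.card_dvd_of_le S.T0_le_Nm
  rw [S.card_T0, S.card_Nm, show (2 : ℕ) ^ 21 = 2 ^ 10 * 2 ^ 11 by norm_num] at h
  exact Nat.dvd_of_mul_dvd_mul_right (by norm_num) h

theorem fifteen_dvd : 15 ∣ Nat.card S.KG.normalizerMonoidHom.range := by
  classical
  -- the part of the centraliser acting on the chosen group
  set L := (Subgroup.normalizer (S.M.A : Set (Equiv.Perm Vec))).comap S.rho ⊓
    S.Nm.comap (Subgroup.centralizer ({z} : Set G)).subtype with hL
  haveI : Nontrivial ↥S.M.A := Finite.one_lt_card_iff_nontrivial.1 (by rw [S.M.A_card]; norm_num)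
  obtain ⟨a0, ha0'⟩ := exists_ne (1 : ↥S.M.A)
  have ha01 : (a0 : Equiv.Perm Vec) ≠ 1 := fun e => ha0' (Subtype.ext e)
  letI : MulAction ↥L (Equiv.Perm Vec) :=
    MulAction.compHom _ ((MulAut.conj : Equiv.Perm Vec →* MulAut (Equiv.Perm Vec)).comp (S.rho.comp L.subtype))
  have hact : ∀ (g : ↥L) (a : Equiv.Perm Vec), g • a = S.rho g.1 * a * (S.rho g.1)⁻¹ := fun g a => rfl
  have horb : MulAction.orbit ↥L (a0 : Equiv.Perm Vec) = (S.M.A : Set (Equiv.Perm Vec)) \ {1} := by
    ext c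
    constructor
    · rintro ⟨g, rfl⟩
      change g • (a0 : Equiv.Perm Vec) ∈ _
      rw [hact]
      refine ⟨(Subgroup.mem_normalizer_iff.1 g.2.1 _).1 a0.2, fun e => ha01 ?_⟩
      simpa using e
    · rintro ⟨hc, hc1⟩
      obtain ⟨n, hn, -, hU, hA, hnac⟩ := S.M.trans _ a0.2 ha01 c hc hc1
      obtain ⟨g, hg, hgK, -⟩ := S.lift_sym hn hU hA
      have hgA : S.rho g ∈ Subgroup.normalizer (S.M.A : Set (Equiv.Perm Vec)) := by
        rw [hg]
        refine Subgroup.mem_normalizer_iff.2 fun x => ⟨hA x, fun hx => ?_⟩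
        have himg : (fun x => n * x * n⁻¹) '' (S.M.A : Set (Equiv.Perm Vec)) = (S.M.A : Set _) :=
          Set.eq_of_subset_of_ncard_le (by rintro _ ⟨y, hy, rfl⟩; exact hA y hy)
            (le_of_eq (Set.ncard_image_of_injective _ fun x y e => by simpa using e).symm) (Set.toFinite _)
        rw [← SetLike.mem_coe, ← himg] at hx
        obtain ⟨y, hy, he⟩ := hx
        have : y = x := by simpa using he
        exact this ▸ hy
      have hgN : (g : G) ∈ S.Nm := by
        have himg : S.KG.map (MulAut.conj (g : G)).toMonoidHom = S.KG := by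
          refine Subgroup.eq_of_le_of_card_ge ?_
            (le_of_eq (Subgroup.card_map_of_injective (MulAut.conj (g : G)).injective).symm)
          rintro _ ⟨_, ⟨y, hy, rfl⟩, rfl⟩
          exact ⟨_, hgK y hy, rfl⟩
        refine Subgroup.mem_normalizer_iff.2 fun x => ⟨fun hx => himg.le ⟨x, hx, rfl⟩, fun hx => ?_⟩
        rw [← himg] at hx
        obtain ⟨y, hy, he⟩ := hx
        exact (MulAut.conj (g : G)).injective he ▸ hy
      refine ⟨⟨g, hgA, hgN⟩, ?_⟩
      change (⟨g, hgA, hgN⟩ : ↥L) • (a0 : Equiv.Perm Vec) = c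
      rw [hact, hg, hnac]
  have h15 : Nat.card (MulAction.orbit ↥L (a0 : Equiv.Perm Vec)) = 15 := by
    rw [horb, Nat.card_coe_set_eq, Set.ncard_sdiff_singleton_of_mem S.M.A.one_mem, ← Nat.card_coe_set_eq]
    exact congrArg (· - 1) S.M.A_card
  have hdL : 15 ∣ Nat.card ↥L := h15 ▸ by
    rw [Nat.card_congr (MulAction.orbitEquivQuotientStabilizer _ _)]
    exact Subgroup.card_quotient_dvd_card _
  have hdN : Nat.card ↥L ∣ Nat.card S.Nm := by
    rw [← Subgroup.card_map_of_injective (K := L) (Subgroup.centralizer ({z} : Set G)).subtype_injective]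
    refine Subgroup.card_dvd_of_le ?_
    rintro _ ⟨g, hg, rfl⟩
    exact hg.2
  have h := hdL.trans hdN
  rw [S.card_Nm] at h
  exact (Nat.Coprime.dvd_of_dvd_mul_right (by norm_num) h)

theorem big_dvd : 27202560 ∣ Nat.card S.KG.normalizerMonoidHom.range := by
  have h1 := S.count.1 ▸ S.zset_dvd
  have h2 := S.two_dvd
  have h3 := S.fifteen_dvd
  have h23 := Nat.Coprime.mul_dvd_of_dvd_of_dvd (by norm_num : Nat.Coprime (2 ^ 10) 15) h2 h3
  exact Nat.Coprime.mul_dvd_of_dvd_of_dvd (by norm_num : Nat.Coprime (2 ^ 10 * 15) 1771) h23 h1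

end Setup

end Cfsg.Agent.LargeFischer.Mat
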