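import Cfsg.Agent.LargeFischer.MatGraph
import Cfsg.Agent.LargeFischer.MatCode

/-!
The normaliser of the Thompson subgroup modulo that subgroup is the Mathieu group `M₂₄`.
-/

set_option autoImplicit false

namespace Cfsg.Agent.LargeFischer.Mat

open Cfsg
open Cfsg.Agent.GFour25
open Cfsg.Agent.SporB.FischerU (Vec)
open Cfsg.Agent.TTClass
open Thompson MatFine
open scoped Pointwise

/-- An enumeration of the points. -/
noncomputable def pts : Fin 24 ≃ Point :=
  (Fintype.equivFinOfCardEq (α := Point) (n := 24) (by decide)).symm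

variable {G : Type*} [Group G] [Finite G] {z : G}
  {Q : Subgroup (Subgroup.centralizer ({z} : Set G))} [Q.Normal]

namespace Setup

variable (S : Setup z Q)

/-- The elements of the pairs with a fixed point. -/
noncomputable def mark (i : Fin 24) : ↥S.KG :=
  ⟨((S.el (pts 0) (pts i) : ↥(Subgroup.centralizer ({z} : Set G))) : G), S.mem_KG.2 (S.el_mem_K _ _)⟩

theorem mark_mul (i j : Fin 24) :
    ((S.mark i * S.mark j : ↥S.KG) : G) = ((S.el (pts i) (pts j) : ↥(Subgroup.centralizer ({z} : Set G))) : G) := by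
  show ((S.el (pts 0) (pts i) * S.el (pts 0) (pts j) : ↥(Subgroup.centralizer ({z} : Set G))) : G) = _
  rw [S.el_comm (pts 0) (pts i), S.tri]

theorem mark_gen : Subgroup.closure (Set.range S.mark) = ⊤ := by
  set C := (Subgroup.closure (Set.range S.mark)).map S.KG.subtype with hC
  have hpair : ∀ x ∈ S.PG, x ∈ C := by
    intro x hx
    obtain ⟨y, hy, rfl⟩ := S.exists_of_PG hx
    obtain ⟨p, q, -, rfl⟩ := S.el_surj hy
    refine ⟨S.mark (pts.symm p) * S.mark (pts.symm q),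
      mul_mem (Subgroup.subset_closure ⟨_, rfl⟩) (Subgroup.subset_closure ⟨_, rfl⟩), ?_⟩
    show ((S.mark (pts.symm p) * S.mark (pts.symm q) : ↥S.KG) : G) = _
    rw [S.mark_mul, Equiv.apply_symm_apply, Equiv.apply_symm_apply]
  set C' := Subgroup.closure S.PG with hC'
  have hC'C : C' ≤ C := (Subgroup.closure_le _).2 hpair
  have hinv : ∀ m ∈ S.Nm, ∀ y ∈ C', m * y * m⁻¹ ∈ C' := by
    intro m hm y hy
    induction hy using Subgroup.closure_induction with
    | mem w hw => exact Subgroup.subset_closure (S.conj_mem_PG hm hw)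
    | one => simp
    | mul a b _ _ ha hb =>
      rw [show m * (a * b) * m⁻¹ = m * a * m⁻¹ * (m * b * m⁻¹) by group]
      exact C'.mul_mem ha hb
    | inv a _ ha =>
      rw [show m * a⁻¹ * m⁻¹ = (m * a * m⁻¹)⁻¹ by group]
      exact C'.inv_mem ha
  have hz : z ∈ C' := by
    have h0 := S.mem_PG.2 (S.lift_pset 0 0 false)
    have h1 := S.mem_PG.2 (S.lift_pset 0 0 true)
    have h := C'.mul_mem (Subgroup.subset_closure h0) (Subgroup.subset_closure h1)
    rw [← Subgroup.coe_mul, show S.lift 0 0 false * S.lift 0 0 true = S.zc from ?_, S.zc_coe] at h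
    · exact h
    · rw [show S.lift 0 0 true = S.lift 0 0 false * S.zc from (S.lift_z 0 0 false).symm, ← mul_assoc,
        S.D.K_sq S.M _ (S.P0_le_K (S.lift_P0 ..)), one_mul]
  rw [eq_top_iff]
  rintro ⟨x, hx⟩ -
  have hxC : x ∈ C := by
    by_cases h1 : x = 1
    · rw [h1]; exact C.one_mem
    by_cases hc : IsConj z x
    · obtain ⟨g, hg⟩ := isConj_iff.1 hc
      obtain ⟨m, hm, hme⟩ := S.fusion S.z_mem_KG (g := g) (hg.symm ▸ hx)
      exact hC'C (hg ▸ hme ▸ hinv m hm z hz)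
    · exact hpair x ⟨hx, h1, hc⟩
  obtain ⟨y, hy, he⟩ := hxC
  have : y = ⟨x, hx⟩ := Subtype.ext he
  exact this ▸ hy

theorem pts_prod_small (l : List (Fin 24)) (hn : l.Nodup) (h0 : l ≠ []) (he : Even l.length)
    (h6 : l.length ≤ 6) : (l.map S.mark).prod ≠ 1 := by
  intro h
  have hval : ∀ (a b : Fin 24) (rest : List (Fin 24)), ((((a :: b :: rest).map S.mark).prod : ↥S.KG) : G) =
      ((S.el (pts a) (pts b) : ↥(Subgroup.centralizer ({z} : Set G))) : G) *
        (((rest.map S.mark).prod : ↥S.KG) : G) := by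
    intro a b rest
    rw [List.map_cons, List.map_cons, List.prod_cons, List.prod_cons, ← mul_assoc, Subgroup.coe_mul, S.mark_mul]
  have h' := congrArg (Subtype.val : ↥S.KG → G) h
  match l, hn, h0, he, h6 with
  | [], _, h0, _, _ => exact h0 rfl
  | [a], _, _, he, _ => simp at he
  | [a, b], hn, _, _, _ =>
    rw [hval] at h'
    have hne : pts a ≠ pts b := pts.injective.ne (by simpa using hn)
    exact (S.el_pset hne).2.1 (Subtype.ext (by simpa using h'))
  | [a, b, c], _, _, he, _ => simp at he; exact absurd he (by decide)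
  | [a, b, c, d], hn, _, _, _ =>
    rw [hval, hval] at h'
    simp only [List.map_nil, List.prod_nil, Subgroup.coe_one, mul_one] at h'
    have h'' : S.el (pts a) (pts b) * S.el (pts c) (pts d) = 1 := Subtype.ext h'
    have he2 : S.el (pts a) (pts b) = S.el (pts c) (pts d) := by
      rw [← S.K_inv (S.el_mem_K (pts c) (pts d))]
      exact eq_inv_of_mul_eq_one_left h''
    simp only [List.nodup_cons, List.mem_cons, List.not_mem_nil, or_false, not_or] at hn
    rcases S.el_inj (pts.injective.ne hn.1.1) (pts.injective.ne hn.2.2.1) he2 with ⟨e, -⟩ | ⟨e, -⟩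
    · exact hn.1.2.1 (pts.injective e)
    · exact hn.1.2.2 (pts.injective e)
  | [a, b, c, d, e], _, _, he, _ => simp at he; exact absurd he (by decide)
  | [a, b, c, d, e, f], hn, _, _, _ =>
    rw [hval, hval, hval] at h'
    simp only [List.map_nil, List.prod_nil, Subgroup.coe_one, mul_one] at h'
    have h'' : S.el (pts a) (pts b) * (S.el (pts c) (pts d) * S.el (pts e) (pts f)) = 1 := Subtype.ext h'
    rw [← mul_assoc] at h''
    have he2 : S.el (pts a) (pts b) * S.el (pts c) (pts d) = S.el (pts e) (pts f) := by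
      rw [← S.K_inv (S.el_mem_K (pts e) (pts f))]
      exact eq_inv_of_mul_eq_one_left h''
    simp only [List.nodup_cons, List.mem_cons, List.not_mem_nil, or_false, not_or] at hn
    refine S.disjoint_pairs (pts.injective.ne hn.1.1) (pts.injective.ne hn.2.2.1.1)
      (pts.injective.ne hn.1.2.1) (pts.injective.ne hn.1.2.2.1) (pts.injective.ne hn.2.1.1)
      (pts.injective.ne hn.2.1.2.1) ?_
    rw [he2]
    exact S.el_pset (pts.injective.ne hn.2.2.2.2.1)
  | _ :: _ :: _ :: _ :: _ :: _ :: _ :: _, _, _, _, h6 => simp at h6; omega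

/-- The subgroup as a commutative group. -/
@[implicit_reducible]
def kgGroup : CommGroup ↥S.KG :=
  { (inferInstance : Group ↥S.KG) with mul_comm := S.KG_elem.1.is_comm.comm }

/-- The normaliser acts through `M₂₄`. -/
theorem exists_hom : ∃ Φ : ↥S.Nm →* ↥M24, Function.Surjective Φ ∧ Φ.ker = S.KG.subgroupOf S.Nm ∧
    ∀ t ∈ S.PG, ∃ p q : GolayPt, p ≠ q ∧ ∀ m : ↥S.Nm, (m : G) * t * (m : G)⁻¹ = t ↔
      (Φ m : Equiv.Perm GolayPt) ∈ MulAction.stabilizer (Equiv.Perm GolayPt) ({p, q} : Set GolayPt) := by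
  letI := S.kgGroup
  let D : MatCode.Config ↥S.KG :=
    { f := S.mark
      sq := fun v => Subtype.ext (by
        show (v : G) * v = 1
        rw [← pow_two]
        exact S.KG_elem.2 _ v.2)
      zero := Subtype.ext (by
        show ((S.el (pts 0) (pts 0) : ↥(Subgroup.centralizer ({z} : Set G))) : G) = 1
        rw [S.el_self]
        rfl)
      small := fun T hT he h6 e => S.pts_prod_small T.toList T.nodup_toList
        (by simpa using hT.ne_empty) (by simpa using he) (by simpa using h6)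
        (by rw [Finset.prod_map_toList]; exact e)
      gen := S.mark_gen
      card := S.KG_card }
  let α : ↥S.Nm →* MulAut ↥S.KG := S.KG.normalizerMonoidHom
  have hpairs : ∀ v : ↥S.KG, v ∈ D.pairs ↔ (v : G) ∈ S.PG := by
    intro v
    constructor
    · rintro ⟨a, b, hab, rfl⟩
      show ((S.mark a * S.mark b : ↥S.KG) : G) ∈ S.PG
      rw [S.mark_mul]
      exact S.mem_PG.2 (S.el_pset (pts.injective.ne hab))
    · intro hv
      obtain ⟨y, hy, e⟩ := S.exists_of_PG hv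
      obtain ⟨p, q, hpq, rfl⟩ := S.el_surj hy
      refine ⟨pts.symm p, pts.symm q, pts.symm.injective.ne hpq, Subtype.ext ?_⟩
      show ((S.mark (pts.symm p) * S.mark (pts.symm q) : ↥S.KG) : G) = _
      rw [S.mark_mul, Equiv.apply_symm_apply, Equiv.apply_symm_apply]
      exact e
  have hact : ∀ (m : ↥S.Nm) (v : ↥S.KG), ((α m v : ↥S.KG) : G) = (m : G) * v * (m : G)⁻¹ := fun m v => rfl
  obtain ⟨e, Φ, hker, hstab⟩ := D.exists_hom α (fun m v hv => by
    rw [hpairs, hact]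
    exact S.conj_mem_PG m.2 ((hpairs v).1 hv))
  refine ⟨Φ, MatCode.surjective_of_dvd Φ ?_, hker.trans S.ker_act, fun t ht => ?_⟩
  · rw [← Subgroup.index_ker, hker, Subgroup.index_ker]
    exact S.big_dvd
  · obtain ⟨a, b, hab, he⟩ := (hpairs ⟨t, ht.1⟩).2 ht
    refine ⟨e a, e b, e.injective.ne hab, fun m => ?_⟩
    rw [← hstab m a b hab, he, Subtype.ext_iff, hact]

include S in
/-- The structure of the normaliser of the Thompson subgroup. -/
theorem structure_of (T : Sylow 2 G) (A M : Subgroup G)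
    (hA : A = Cfsg.thompsonSubgroupOf 2 (T : Subgroup G)) (hM : M = Subgroup.normalizer (A : Set G)) :
    Cfsg.IsElementaryAbelian 2 A ∧ Nat.card A = 2 ^ 11 ∧
      ∃ Φ : ↥M →* ↥M24, Function.Surjective Φ ∧ Φ.ker = A.subgroupOf M ∧
        ∀ t ∈ A, t ≠ 1 → ¬ IsConj z t → ∃ p q : GolayPt, p ≠ q ∧
          ∀ m : ↥M, (m : G) * t * (m : G)⁻¹ = t ↔ (Φ m : Equiv.Perm GolayPt) ∈
            MulAction.stabilizer (Equiv.Perm GolayPt) ({p, q} : Set GolayPt) := by
  obtain ⟨g, hg⟩ := S.thompson T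
  rw [← hA] at hg
  subst hM hg
  obtain ⟨Φ, hsurj, hker, hstab⟩ := S.exists_hom
  have hmemA : ∀ x : G, x ∈ S.KG.map (MulAut.conj g).toMonoidHom ↔ g⁻¹ * x * g ∈ S.KG := fun x => by
    constructor
    · rintro ⟨y, hy, rfl⟩
      show g⁻¹ * (g * y * g⁻¹) * g ∈ S.KG
      rw [show g⁻¹ * (g * y * g⁻¹) * g = y by group]
      exact hy
    · intro h
      exact ⟨_, h, show g * (g⁻¹ * x * g) * g⁻¹ = x by group⟩
  let c : ↥(Subgroup.normalizer ((S.KG.map (MulAut.conj g).toMonoidHom : Subgroup G) : Set G)) →* ↥S.Nm :=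
    { toFun := fun m => ⟨g⁻¹ * (m : G) * g, mem_normalizer_map.1 m.2⟩
      map_one' := Subtype.ext (by simp)
      map_mul' := fun m n => Subtype.ext (by
        show g⁻¹ * ((m : G) * n) * g = g⁻¹ * (m : G) * g * (g⁻¹ * (n : G) * g)
        group) }
  have hc : Function.Surjective c := fun m => by
    refine ⟨⟨g * (m : G) * g⁻¹, mem_normalizer_map.2 ?_⟩, Subtype.ext ?_⟩
    · rw [show g⁻¹ * (g * (m : G) * g⁻¹) * g = (m : G) by group]
      exact m.2
    · show g⁻¹ * (g * (m : G) * g⁻¹) * g = m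
      group
  refine ⟨elementary_conj S.KG_elem, ?_, Φ.comp c, hsurj.comp hc, ?_, fun t ht ht1 htz => ?_⟩
  · rw [Subgroup.card_map_of_injective (MulAut.conj g).injective, S.KG_card]
  · ext m
    rw [← MonoidHom.comap_ker, hker, Subgroup.mem_comap, Subgroup.mem_subgroupOf, Subgroup.mem_subgroupOf,
      hmemA]
    rfl
  · obtain ⟨p, q, hpq, h⟩ := hstab (g⁻¹ * t * g) ⟨(hmemA t).1 ht, fun e => ht1 (by
      rw [show t = g * (g⁻¹ * t * g) * g⁻¹ by group, e]; group), fun e =>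
      htz (e.trans (isConj_iff.2 ⟨g, by group⟩))⟩
    refine ⟨p, q, hpq, fun m => ?_⟩
    rw [MonoidHom.comp_apply, ← h]
    show _ ↔ g⁻¹ * (m : G) * g * (g⁻¹ * t * g) * (g⁻¹ * (m : G) * g)⁻¹ = g⁻¹ * t * g
    rw [show g⁻¹ * (m : G) * g * (g⁻¹ * t * g) * (g⁻¹ * (m : G) * g)⁻¹ = g⁻¹ * ((m : G) * t * (m : G)⁻¹) * g by
      group, mul_left_inj, mul_right_inj]

include S in
theorem normalizer_mathieu (T : Sylow 2 G) (A M : Subgroup G)
    (hA : A = Cfsg.thompsonSubgroupOf 2 (T : Subgroup G)) (hM : M = Subgroup.normalizer (A : Set G)) :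
    Cfsg.IsElementaryAbelian 2 A ∧ Nat.card A = 2 ^ 11 ∧
      ∃ _ : (A.subgroupOf M).Normal, Nonempty (↥M ⧸ A.subgroupOf M ≃* ↥Cfsg.M24) := by
  obtain ⟨h1, h2, Φ, hs, hk, -⟩ := S.structure_of T A M hA hM
  haveI hn : (A.subgroupOf M).Normal := hk ▸ Φ.normal_ker
  exact ⟨h1, h2, hn, ⟨(QuotientGroup.quotientMulEquivOfEq hk.symm).trans
    (QuotientGroup.quotientKerEquivOfSurjective Φ hs)⟩⟩

include S in
theorem involution_stabilizer (T : Sylow 2 G) (A M : Subgroup G)
    (hA : A = Cfsg.thompsonSubgroupOf 2 (T : Subgroup G)) (hM : M = Subgroup.normalizer (A : Set G))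
    (t : G) (htA : t ∈ A) (ht2 : orderOf t = 2) (ht : ¬ IsConj z t) :
    ∃ _ : (A.subgroupOf (M ⊓ Subgroup.centralizer ({t} : Set G))).Normal,
      Nonempty (↥(M ⊓ Subgroup.centralizer ({t} : Set G)) ⧸
        A.subgroupOf (M ⊓ Subgroup.centralizer ({t} : Set G)) ≃*
        ↥(Cfsg.M24 ⊓ MulAction.stabilizer (Equiv.Perm Cfsg.GolayPt) ({none, some 0} : Set Cfsg.GolayPt))) := by
  obtain ⟨-, -, Φ, hs, hk, hstab⟩ := S.structure_of T A M hA hM
  have ht1 : t ≠ 1 := fun e => by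
    rw [e, orderOf_one] at ht2
    omega
  obtain ⟨p, q, hpq, hpair⟩ := hstab t htA ht1 ht
  obtain ⟨d, hd, hdpq⟩ := MatCode.exists_conj_pair hpq
  set C := M ⊓ Subgroup.centralizer ({t} : Set G) with hC
  let θ : ↥C →* ↥M24 := ((MulAut.conj (⟨d, hd⟩ : ↥M24)).toMonoidHom.comp Φ).comp
    (Subgroup.inclusion (inf_le_left : C ≤ M))
  have hfix : ∀ m : ↥M, (m : G) ∈ Subgroup.centralizer ({t} : Set G) ↔
      ((⟨d, hd⟩ * Φ m * ⟨d, hd⟩⁻¹ : ↥M24) : Equiv.Perm GolayPt) ∈
        MulAction.stabilizer (Equiv.Perm GolayPt) ({none, some 0} : Set GolayPt) := by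
    intro m
    rw [Subgroup.mem_centralizer_singleton_iff, ← mul_inv_eq_iff_eq_mul, hpair, MulAction.mem_stabilizer_iff,
      MulAction.mem_stabilizer_iff, ← hdpq]
    simp only [Subgroup.coe_mul, Subgroup.coe_inv, mul_smul, inv_smul_smul, smul_left_cancel_iff]
  let θ' : ↥C →* ↥(M24 ⊓ MulAction.stabilizer (Equiv.Perm GolayPt) ({none, some 0} : Set GolayPt)) :=
    (M24.subtype.comp θ).codRestrict _ (fun m => ⟨(θ m).2, (hfix ⟨_, m.2.1⟩).1 m.2.2⟩)
  have hsurj : Function.Surjective θ' := by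
    rintro ⟨x, hx, hxs⟩
    obtain ⟨m, hm⟩ := hs ((⟨d, hd⟩ : ↥M24)⁻¹ * ⟨x, hx⟩ * ⟨d, hd⟩)
    have hmx : (⟨d, hd⟩ * Φ m * ⟨d, hd⟩⁻¹ : ↥M24) = ⟨x, hx⟩ := by rw [hm]; group
    have hmC : (m : G) ∈ C := ⟨m.2, (hfix m).2 (by rw [hmx]; exact hxs)⟩
    refine ⟨⟨m, hmC⟩, Subtype.ext ?_⟩
    show ((⟨d, hd⟩ * Φ m * ⟨d, hd⟩⁻¹ : ↥M24) : Equiv.Perm GolayPt) = x
    rw [hmx]
  have hker : θ'.ker = A.subgroupOf C := by
    ext m
    rw [MonoidHom.mem_ker, Subgroup.mem_subgroupOf, Subtype.ext_iff]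
    show ((θ m : ↥M24) : Equiv.Perm GolayPt) = 1 ↔ _
    rw [OneMemClass.coe_eq_one]
    show MulAut.conj (⟨d, hd⟩ : ↥M24) (Φ (Subgroup.inclusion (inf_le_left : C ≤ M) m)) = 1 ↔ _
    rw [EmbeddingLike.map_eq_one_iff, ← MonoidHom.mem_ker, hk, Subgroup.mem_subgroupOf]
    rfl
  haveI hn : (A.subgroupOf C).Normal := hker ▸ θ'.normal_ker
  exact ⟨hn, ⟨(QuotientGroup.quotientMulEquivOfEq hker.symm).trans
    (QuotientGroup.quotientKerEquivOfSurjective θ' hsurj)⟩⟩

end Setup

end Cfsg.Agent.LargeFischer.Mat
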