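import Cfsg.Agent.LargeFischer.Elem

/-!
The two orbits of the cover on non-zero isotropic vectors, of lengths 378 and 1701.
-/

set_option autoImplicit false
set_option maxRecDepth 100000

namespace Cfsg.Agent.LargeFischer

open Cfsg.Agent.CosetCert Cfsg.Agent.GFour25
open Cfsg.Agent.SporB.FischerU (Vec SUSix vecN enc vecN_enc enc_lt)
open Cfsg.Agent.TTClass

/-- The stabiliser of a coded vector among all permutations. -/
abbrev stabV (r : ℕ) : Subgroup (Equiv.Perm Vec) := MulAction.stabilizer (Equiv.Perm Vec) (vecN r)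

/-- The next vector on the way to a representative. -/
noncomputable def nxt (v : ℕ) : ℕ := Nat.shiftRight (Data.parT.get 32 v) 8

/-- The generator moving a vector to the next one. -/
noncomputable def gIdx (v : ℕ) : ℕ := Nat.mod (Data.parT.get 32 v) 256

/-- One of the two representatives. -/
def isRep (v : ℕ) : Bool := Nat.beq v Data.repU || Nat.beq v Data.repW

/-- The representative reached from a code. -/
noncomputable def climb (n : ℕ) : ℕ → ℕ :=
  Nat.rec (motive := fun _ => ℕ → ℕ) (fun v => v) (fun _ ih v => bif isRep v then v else ih (nxt v)) n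

/-- The code belongs to the first orbit. -/
noncomputable def rootR (v : ℕ) : Bool := Nat.beq (climb 6 v) Data.repU

/-- The vector belongs to the first orbit. -/
noncomputable def IsRoot (x : Vec) : Prop := rootR (enc x) = true

/-- The check of the orbit trees. -/
noncomputable def treeOK : Bool :=
  allB (fun v => Nat.beq v 0 || !(qC v) || (isRep (climb 6 v) && (isRep v ||
    (Nat.blt (gIdx v) 20 && Nat.beq (appC (eN (gIdx v)) v) (nxt v))))) 12 0

theorem treeOK_true : treeOK = true := by decide +kernel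

theorem inK_small : allB (fun i => Nat.ble 20 i || inK i) 5 0 = true := by decide +kernel

theorem enc_zero : enc (0 : Vec) = 0 := by rw [← vecN_zero, enc_vecN (by norm_num)]

theorem iso_pres {b : Bool} {g : Equiv.Perm Vec} (hg : IsSemi b g) {x : Vec}
    (h0 : x ≠ 0) (hx : UnitF4.H x x = 0) : g x ≠ 0 ∧ UnitF4.H (g x) (g x) = 0 := by
  refine ⟨fun h => h0 (g.injective ?_), by rw [hg.2.2, hx]⟩
  have h1 := hg.1 0 0
  rw [add_zero] at h1
  rw [h, left_eq_add.1 h1]

theorem step_spec {x : Vec} (h0 : x ≠ 0) (hx : UnitF4.H x x = 0) :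
    isRep (climb 6 (enc x)) = true ∧
      (isRep (enc x) = false → ∃ k ∈ Kc, k x = vecN (nxt (enc x))) := by
  have h := allB_spec_zero treeOK_true (by norm_num : 4096 ≤ 2 ^ 12) (enc_lt x)
  rw [qC_enc, decide_eq_true hx, Bool.not_true, Bool.or_false, Bool.or_eq_true] at h
  rcases h with h | h
  · exfalso
    exact h0 (by rw [← vecN_enc x, Nat.eq_of_beq_eq_true h, vecN_zero])
  rw [Bool.and_eq_true, Bool.or_eq_true] at h
  refine ⟨h.1, fun hr => ?_⟩
  rcases h.2 with h2 | h2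
  · rw [hr] at h2; exact absurd h2 (by decide)
  rw [Bool.and_eq_true] at h2
  have hi : gIdx (enc x) < 20 := Nat.blt_eq.mp h2.1
  have hk := allB_spec_zero inK_small (by norm_num : 20 ≤ 2 ^ 5) hi
  rw [Bool.or_eq_true] at hk
  rcases hk with hk | hk
  · exact absurd (Nat.le_of_ble_eq_true hk) (not_le.2 hi)
  refine ⟨el (gIdx (enc x)), el_mem_Kc hk, ?_⟩
  rw [inK, Bool.and_eq_true] at hk
  rw [← Nat.eq_of_beq_eq_true h2.2, ← el_apply (Nat.blt_eq.mp hk.1) _ (enc_lt x), vecN_enc]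

theorem climb_succ (n v : ℕ) : climb (n + 1) v = bif isRep v then v else climb n (nxt v) := rfl

theorem nxt_lt {x : Vec} {k : Equiv.Perm Vec} (h : k x = vecN (nxt (enc x)))
    (hb : nxt (enc x) < 4096) : enc (k x) = nxt (enc x) := by rw [h, enc_vecN hb]

/-- The check that the table points at codes. -/
noncomputable def rangeOK : Bool := allB (fun v => Nat.blt (nxt v) 4096) 12 0

theorem rangeOK_true : rangeOK = true := by decide +kernel

theorem exists_climb (n : ℕ) : ∀ x : Vec, x ≠ 0 → UnitF4.H x x = 0 →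
    isRep (climb n (enc x)) = true → ∃ k ∈ Kc, k x = vecN (climb n (enc x)) := by
  induction n with
  | zero => exact fun x _ _ _ => ⟨1, one_mem _, (vecN_enc x).symm⟩
  | succ n ih =>
    intro x h0 hx hr
    rw [climb_succ] at hr ⊢
    cases hrx : isRep (enc x) with
    | true => exact ⟨1, one_mem _, by simp [vecN_enc]⟩
    | false =>
      rw [hrx, cond_false] at hr
      rw [cond_false]
      obtain ⟨k, hk, hkx⟩ := (step_spec h0 hx).2 hrx
      have hb : nxt (enc x) < 4096 :=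
        Nat.blt_eq.mp (allB_spec_zero rangeOK_true (by norm_num : 4096 ≤ 2 ^ 12) (enc_lt x))
      obtain ⟨g1, g2⟩ := iso_pres (Kc_linear hk) h0 hx
      rw [← nxt_lt hkx hb] at hr ⊢
      obtain ⟨m, hm, hme⟩ := ih (k x) g1 g2 hr
      exact ⟨m * k, mul_mem hm hk, hme⟩

theorem orbit_cases {x : Vec} (h0 : x ≠ 0) (hx : UnitF4.H x x = 0) :
    (IsRoot x ∧ ∃ k ∈ Kc, k x = vecN Data.repU) ∨ (¬ IsRoot x ∧ ∃ k ∈ Kc, k x = vecN Data.repW) := by
  have hr := (step_spec h0 hx).1
  obtain ⟨k, hk, hkx⟩ := exists_climb 6 x h0 hx hr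
  rw [isRep, Bool.or_eq_true] at hr
  rcases hr with hr | hr
  · exact Or.inl ⟨hr, k, hk, by rw [hkx, Nat.eq_of_beq_eq_true hr]⟩
  · refine Or.inr ⟨fun h => ?_, k, hk, by rw [hkx, Nat.eq_of_beq_eq_true hr]⟩
    rw [IsRoot, rootR, Nat.eq_of_beq_eq_true hr] at h
    revert h
    decide

/-- Invariance of the first orbit. -/
noncomputable def invOK : Bool :=
  allB (fun i => Nat.ble 23 i || (!(Nat.blt i 10 || Nat.ble 21 i)) ||
    allB (fun v => rootR (appC (eN i) v) == rootR v) 12 0) 5 0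

theorem invOK_true : invOK = true := by decide +kernel

/-- The permutations preserving the first orbit. -/
noncomputable def rootStab : Subgroup (Equiv.Perm Vec) where
  carrier := {g | ∀ x, IsRoot (g x) ↔ IsRoot x}
  one_mem' := fun _ => Iff.rfl
  mul_mem' := fun {g h} hg hh x => (hg (h x)).trans (hh x)
  inv_mem' := fun {g} hg x => by
    have h := hg (g⁻¹ x)
    rw [show g (g⁻¹ x) = x from g.apply_symm_apply x] at h
    exact h.symm

theorem el_rootStab {i : ℕ} (hi : i < 23) (hc : i < 10 ∨ 21 ≤ i) {g : Equiv.Perm Vec}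
    (hg : IsEl i g) : g ∈ rootStab := fun x => by
  have h := allB_spec_zero invOK_true (by norm_num : 23 ≤ 2 ^ 5) hi
  rw [Bool.or_eq_true, Bool.or_eq_true] at h
  rcases h with (h | h) | h
  · exact absurd (Nat.le_of_ble_eq_true h) (not_le.2 hi)
  · exfalso
    rcases hc with hc | hc
    · rw [show Nat.blt i 10 = true from Nat.blt_eq.mpr hc] at h; simp at h
    · rw [Nat.ble_eq_true_of_le hc, Bool.or_true] at h; simp at h
  have h1 := eq_of_beq (allB_spec_zero h (by norm_num : 4096 ≤ 2 ^ 12) (enc_lt x))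
  unfold IsRoot
  rw [hg x, enc_lin, h1]

theorem Kc_le_rootStab : Kc ≤ rootStab := by
  rw [Kc, covU, MonoidHom.map_closure, Subgroup.closure_le]
  rintro _ ⟨_, ⟨i, hi, rfl⟩, rfl⟩
  exact el_rootStab (by omega) (Or.inl hi) (isEl_gen hi)

theorem Kall_le_rootStab : Kall ≤ rootStab := by
  refine sup_le Kc_le_rootStab ((Subgroup.closure_le _).2 ?_)
  rintro g (rfl | rfl)
  · exact el_rootStab (by norm_num) (Or.inr (by norm_num)) isEl_trn
  · exact el_rootStab (by norm_num) (Or.inr (by norm_num)) isEl_frob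

/-- The two representatives are isotropic and separated. -/
theorem reps_ok : (qC Data.repU && qC Data.repW && rootR Data.repU && !(rootR Data.repW)) = true := by
  decide +kernel

theorem repU_lt : Data.repU < 4096 := by decide
theorem repW_lt : Data.repW < 4096 := by decide

theorem rep_props :
    (vecN Data.repU ≠ 0 ∧ UnitF4.H (vecN Data.repU) (vecN Data.repU) = 0 ∧ IsRoot (vecN Data.repU)) ∧
      (vecN Data.repW ≠ 0 ∧ UnitF4.H (vecN Data.repW) (vecN Data.repW) = 0 ∧
        ¬ IsRoot (vecN Data.repW)) := by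
  have h := reps_ok
  simp only [Bool.and_eq_true, Bool.not_eq_true'] at h
  have key : ∀ r, r < 4096 → r ≠ 0 → qC r = true →
      vecN r ≠ 0 ∧ UnitF4.H (vecN r) (vecN r) = 0 := by
    intro r hr hr0 hq
    refine ⟨fun e => hr0 ?_, ?_⟩
    · rw [← enc_vecN hr, e, enc_zero]
    · have h1 := qC_enc (vecN r)
      rw [enc_vecN hr, hq] at h1
      exact of_decide_eq_true h1.symm
  obtain ⟨⟨⟨h1, h2⟩, h3⟩, h4⟩ := h
  obtain ⟨a1, a2⟩ := key _ repU_lt (by decide) h1
  obtain ⟨b1, b2⟩ := key _ repW_lt (by decide) h2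
  refine ⟨⟨a1, a2, ?_⟩, b1, b2, ?_⟩
  · unfold IsRoot; rwa [enc_vecN repU_lt]
  · unfold IsRoot; rw [enc_vecN repW_lt, h4]; decide

theorem root_iff_mem_orbit {x : Vec} (h0 : x ≠ 0) (hx : UnitF4.H x x = 0) :
    (IsRoot x ↔ x ∈ MulAction.orbit Kc (vecN Data.repU)) ∧
      (¬ IsRoot x ↔ x ∈ MulAction.orbit Kc (vecN Data.repW)) := by
  have back : ∀ r, (∃ k ∈ Kc, k x = vecN r) → x ∈ MulAction.orbit Kc (vecN r) := by
    rintro r ⟨k, hk, e⟩
    exact ⟨⟨k⁻¹, inv_mem hk⟩, by
      show k⁻¹ (vecN r) = x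
      rw [← e]; exact k.symm_apply_apply x⟩
  have fwd : ∀ r, x ∈ MulAction.orbit Kc (vecN r) → (IsRoot x ↔ IsRoot (vecN r)) := by
    rintro r ⟨⟨k, hk⟩, rfl⟩
    exact Kc_le_rootStab hk _
  refine ⟨⟨fun h => ?_, fun h => (fwd _ h).2 rep_props.1.2.2⟩,
    ⟨fun h => ?_, fun h => fun hr => rep_props.2.2.2 ((fwd _ h).1 hr)⟩⟩
  · rcases orbit_cases h0 hx with ⟨-, e⟩ | ⟨hn, -⟩
    · exact back _ e
    · exact absurd h hn
  · rcases orbit_cases h0 hx with ⟨hr, -⟩ | ⟨-, e⟩
    · exact absurd hr h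
    · exact back _ e

/-- Counting by halving. -/
noncomputable def cntB (f : ℕ → Bool) (d : ℕ) : ℕ → ℕ :=
  Nat.rec (motive := fun _ => ℕ → ℕ) (fun lo => bif f lo then 1 else 0)
    (fun k ih lo => Nat.add (ih lo) (ih (Nat.add lo (Nat.shiftLeft 1 k)))) d

theorem cntB_spec (f : ℕ → Bool) : ∀ d lo,
    cntB f d lo = ((Finset.Ico lo (lo + 2 ^ d)).filter fun i => f i = true).card := by
  intro d
  induction d with
  | zero =>
    intro lo
    rw [pow_zero, Nat.Ico_succ_singleton, Finset.filter_singleton]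
    show (bif f lo then 1 else 0) = _
    cases f lo <;> simp
  | succ k ih =>
    intro lo
    show cntB f k lo + cntB f k (lo + Nat.shiftLeft 1 k) = _
    have e : Nat.shiftLeft 1 k = 2 ^ k := Nat.one_shiftLeft k
    rw [ih, ih, e, show lo + 2 ^ (k + 1) = lo + 2 ^ k + 2 ^ k by ring,
      ← Finset.Ico_union_Ico_eq_Ico (Nat.le_add_right lo (2 ^ k)) (Nat.le_add_right _ (2 ^ k)),
      Finset.filter_union, Finset.card_union_of_disjoint]
    exact Finset.disjoint_filter_filter (Finset.Ico_disjoint_Ico_consecutive _ _ _)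

theorem ncard_eq_cnt {S : Set Vec} {f : ℕ → Bool} (h : ∀ n < 4096, vecN n ∈ S ↔ f n = true) :
    S.ncard = cntB f 12 0 := by
  rw [cntB_spec, show (0 : ℕ) + 2 ^ 12 = 4096 by norm_num, ← Set.ncard_coe_finset]
  refine (Set.ncard_congr (fun n _ => vecN n) ?_ ?_ ?_).symm
  · intro n hn
    simp only [Finset.coe_filter, Set.mem_setOf_eq, Finset.mem_Ico] at hn
    exact (h n hn.1.2).2 hn.2
  · intro a b ha hb e
    simp only [Finset.coe_filter, Set.mem_setOf_eq, Finset.mem_Ico] at ha hb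
    rw [← enc_vecN ha.1.2, ← enc_vecN hb.1.2, e]
  · intro x hx
    refine ⟨enc x, ?_, vecN_enc x⟩
    simp only [Finset.coe_filter, Set.mem_setOf_eq, Finset.mem_Ico]
    refine ⟨⟨Nat.zero_le _, enc_lt x⟩, (h _ (enc_lt x)).1 ?_⟩
    rwa [vecN_enc]

theorem cntU : cntB rootR 12 0 = 378 ∧
    allB (fun v => !(rootR v) || (!(Nat.beq v 0) && qC v)) 12 0 = true := by
  constructor <;> decide +kernel

theorem cntW : cntB (fun v => !(Nat.beq v 0) && (!(rootR v) && qC v)) 12 0 = 1701 := by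
  decide +kernel

theorem root_iso {x : Vec} (h : IsRoot x) : x ≠ 0 ∧ UnitF4.H x x = 0 := by
  have h1 := allB_spec_zero cntU.2 (by norm_num : 4096 ≤ 2 ^ 12) (enc_lt x)
  rw [show rootR (enc x) = true from h, Bool.not_true, Bool.false_or, Bool.and_eq_true] at h1
  refine ⟨fun e => ?_, ?_⟩
  · rw [e, enc_zero] at h1
    exact absurd h1.1 (by decide)
  · rw [qC_enc] at h1
    exact of_decide_eq_true h1.2

theorem orbitU_eq : MulAction.orbit Kc (vecN Data.repU) = {x | IsRoot x} := by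
  ext x
  constructor
  · rintro ⟨⟨k, hk⟩, rfl⟩
    exact (Kc_le_rootStab hk _).2 rep_props.1.2.2
  · exact fun h => (root_iff_mem_orbit (root_iso h).1 (root_iso h).2).1.1 h

theorem orbitW_eq : MulAction.orbit Kc (vecN Data.repW) =
    {x | x ≠ 0 ∧ UnitF4.H x x = 0 ∧ ¬ IsRoot x} := by
  ext x
  constructor
  · rintro ⟨⟨k, hk⟩, rfl⟩
    obtain ⟨h1, h2⟩ := iso_pres (Kc_linear hk) rep_props.2.1 rep_props.2.2.1
    exact ⟨h1, h2, fun h => rep_props.2.2.2 ((Kc_le_rootStab hk _).1 h)⟩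
  · exact fun h => (root_iff_mem_orbit h.1 h.2.1).2.1 h.2.2

theorem ncard_orbitU : (MulAction.orbit Kc (vecN Data.repU)).ncard = 378 := by
  rw [orbitU_eq, ← cntU.1]
  exact ncard_eq_cnt fun n hn => by
    show rootR (enc (vecN n)) = true ↔ _
    rw [enc_vecN hn]

theorem ncard_orbitW : (MulAction.orbit Kc (vecN Data.repW)).ncard = 1701 := by
  rw [orbitW_eq, ← cntW]
  refine ncard_eq_cnt fun n hn => ?_
  have e : enc (vecN n) = n := enc_vecN hn
  have h1 := qC_enc (vecN n)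
  rw [e] at h1
  simp only [Set.mem_setOf_eq, IsRoot, e, Bool.and_eq_true, Bool.not_eq_true', h1,
    decide_eq_true_iff, Bool.not_eq_true]
  refine ⟨fun ⟨a, b, c⟩ => ⟨?_, c, b⟩, fun ⟨a, c, b⟩ => ⟨fun h => ?_, b, c⟩⟩
  · rw [Bool.eq_false_iff]
    exact fun h => a (by rw [Nat.eq_of_beq_eq_true h, vecN_zero])
  · rw [← e, h, enc_zero] at a
    exact absurd a (by decide)

theorem card_inf_stab (R : Subgroup (Equiv.Perm Vec)) (r : ℕ) :
    Nat.card R = (MulAction.orbit R (vecN r)).ncard * Nat.card ↥(R ⊓ stabV r) := by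
  have e : MulAction.stabilizer R (vecN r) = (R ⊓ stabV r).subgroupOf R := by
    ext g
    rw [MulAction.mem_stabilizer_iff, Subgroup.mem_subgroupOf, Subgroup.mem_inf,
      MulAction.mem_stabilizer_iff]
    exact ⟨fun h => ⟨g.2, h⟩, fun h => h.2⟩
  rw [← Subgroup.card_mul_index (MulAction.stabilizer R (vecN r)), MulAction.index_stabilizer,
    e, Nat.card_congr (Subgroup.subgroupOfEquivOfLe inf_le_left).toEquiv, mul_comm]

theorem orbit_eq_of_le {R : Subgroup (Equiv.Perm Vec)} (h1 : Kc ≤ R) (h2 : R ≤ Kall) :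
    MulAction.orbit R (vecN Data.repU) = MulAction.orbit Kc (vecN Data.repU) ∧
      MulAction.orbit R (vecN Data.repW) = MulAction.orbit Kc (vecN Data.repW) := by
  have key : ∀ r : ℕ, vecN r ≠ 0 → UnitF4.H (vecN r) (vecN r) = 0 → ∀ x ∈ MulAction.orbit R (vecN r),
      x ≠ 0 ∧ UnitF4.H x x = 0 ∧ (IsRoot x ↔ IsRoot (vecN r)) := by
    rintro r h0 hr _ ⟨⟨k, hk⟩, rfl⟩
    obtain ⟨b, hb⟩ := Kall_le_semiU (h2 hk)
    exact ⟨(iso_pres hb h0 hr).1, (iso_pres hb h0 hr).2, Kall_le_rootStab (h2 hk) _⟩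
  have sub : ∀ r, MulAction.orbit Kc (vecN r) ⊆ MulAction.orbit R (vecN r) := by
    rintro r _ ⟨⟨k, hk⟩, rfl⟩
    exact ⟨⟨k, h1 hk⟩, rfl⟩
  refine ⟨Set.Subset.antisymm (fun x hx => ?_) (sub _),
    Set.Subset.antisymm (fun x hx => ?_) (sub _)⟩
  · rw [orbitU_eq]
    exact (key _ rep_props.1.1 rep_props.1.2.1 x hx).2.2.2 rep_props.1.2.2
  · rw [orbitW_eq]
    obtain ⟨a, b, c⟩ := key _ rep_props.2.1 rep_props.2.2.1 x hx
    exact ⟨a, b, fun h => rep_props.2.2.2 (c.1 h)⟩

theorem card_stabs {R : Subgroup (Equiv.Perm Vec)} (h1 : Kc ≤ R) (h2 : R ≤ Kall) :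
    Nat.card R = 378 * Nat.card ↥(R ⊓ stabV Data.repU) ∧
      Nat.card R = 1701 * Nat.card ↥(R ⊓ stabV Data.repW) :=
  ⟨by rw [← ncard_orbitU, ← (orbit_eq_of_le h1 h2).1]; exact card_inf_stab R _,
    by rw [← ncard_orbitW, ← (orbit_eq_of_le h1 h2).2]; exact card_inf_stab R _⟩

end Cfsg.Agent.LargeFischer
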