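import Cfsg.Agent.LargeFischer.ThompsonCert
import Cfsg.Agent.LargeFischer.ThompsonGroup

/-!
The facts about the semilinear group, read off from the certificate.
-/

set_option autoImplicit false
set_option maxRecDepth 100000

namespace Cfsg.Agent.LargeFischer.Thompson

open Cfsg.Agent.GFour25 Cfsg.Agent.CosetCert
open Cfsg.Agent.SporB.FischerU (Vec vecN enc vecN_enc enc_lt)
open Cfsg.Agent.TTClass
open ThompsonData

/-- The outer generators of the two candidates. -/
noncomputable def outerA : Equiv.Perm Vec := cnjPerm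

/-- The outer generators of the two candidates. -/
noncomputable def outerB : Equiv.Perm Vec := cnjPerm * tP tZero

theorem rep_outerA : Rep candA.outer outerA := rep_cnj

theorem rep_outerB : Rep candB.outer outerB := rep_cnj.mul (rep_tP (by decide))

/-- The generators of a candidate. -/
noncomputable def genSet (c : Equiv.Perm Vec) : Set (Equiv.Perm Vec) :=
  {σ | (∃ i < 3, σ = wPerm (evWords.getD i [])) ∨ σ = c}

theorem evWord_facts {i : ℕ} (hi : i < 3) :
    (∀ j ∈ evWords.getD i [], j < 20) ∧ wImg (evWords.getD i []) = evGens.getD i idL ∧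
      evGens.length = 3 := by
  have h := evOK_true
  rw [evOK, Bool.and_eq_true, Bool.and_eq_true] at h
  have h2 := List.all_eq_true.1 h.2 i (List.mem_range.2 hi)
  rw [Bool.and_eq_true, List.all_eq_true, beq_iff_eq] at h2
  exact ⟨fun j hj => (Eq.mp Nat.blt_eq (h2.1 j hj)), h2.2, Nat.eq_of_beq_eq_true h.1.2⟩

theorem gens_rep {C : Cand} {c : Equiv.Perm Vec} (hc : Rep C.outer c) :
    (∀ σ ∈ genSet c, ∃ g ∈ C.gens, Rep g σ) ∧
      ∀ k < 4, ∃ σ ∈ genSet c, Rep (C.gens.getD k []) σ := by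
  have hlen : evGens.length = 3 := (evWord_facts (i := 0) (by norm_num)).2.2
  have hget : ∀ i < 3, C.gens.getD i [] = evGens.getD i idL := fun i hi => by
    rw [Cand.gens, List.getD_eq_getElem?_getD, List.getD_eq_getElem?_getD,
      List.getElem?_append_left (by omega), List.getElem?_eq_getElem (by omega)]
    rfl
  have hlast : C.gens.getD 3 [] = C.outer := by
    rw [Cand.gens, List.getD_eq_getElem?_getD, List.getElem?_append_right (by omega), hlen]
    rfl
  have hw : ∀ i < 3, Rep (C.gens.getD i []) (wPerm (evWords.getD i [])) := fun i hi => by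
    rw [hget i hi, ← (evWord_facts hi).2.1]
    exact rep_word _ (evWord_facts hi).1
  refine ⟨?_, fun k hk => ?_⟩
  · rintro σ (⟨i, hi, rfl⟩ | rfl)
    · refine ⟨_, ?_, hw i hi⟩
      rw [List.getD_eq_getElem?_getD, List.getElem?_eq_getElem (show i < C.gens.length by
        rw [Cand.gens, List.length_append, hlen]; omega)]
      exact List.getElem_mem _
    · exact ⟨C.outer, List.mem_append_right _ (List.mem_singleton.2 rfl), hc⟩
  · by_cases hk3 : k < 3
    · exact ⟨_, Or.inl ⟨k, hk3, rfl⟩, hw k hk3⟩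
    · obtain rfl : k = 3 := by omega
      exact ⟨c, Or.inr rfl, hlast ▸ hc⟩

theorem getD_mem {α : Type*} {l : List α} {i : ℕ} (d : α) (h : i < l.length) : l.getD i d ∈ l := by
  rw [List.getD_eq_getElem?_getD, List.getElem?_eq_getElem h]
  exact List.getElem_mem _

theorem exists_getD {α : Type*} {l : List α} {x : α} (d : α) (h : x ∈ l) :
    ∃ i < l.length, l.getD i d = x := by
  obtain ⟨i, hi, rfl⟩ := List.getElem_of_mem h
  exact ⟨i, hi, by rw [List.getD_eq_getElem?_getD, List.getElem?_eq_getElem hi]; rfl⟩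

theorem normal_facts {l : List (List ℕ)} (h : normalB l = true) :
    l.Nodup ∧ ∀ g ∈ l, comp g idL = g ∧ g.length = 12 := by
  rw [normalB, Bool.and_eq_true] at h
  refine ⟨distinctB_spec h.1, fun g hg => ?_⟩
  have := List.all_eq_true.1 h.2 g hg
  rw [Bool.and_eq_true, beq_iff_eq] at this
  exact ⟨this.1, Nat.eq_of_beq_eq_true this.2⟩

/-- The candidate subgroup. -/
noncomputable def candP (c : Equiv.Perm Vec) : Subgroup (Equiv.Perm Vec) :=
  Subgroup.closure (genSet c)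

theorem candP_le {R : Subgroup (Equiv.Perm Vec)} (hR : Contains R) {c : Equiv.Perm Vec} (hc : c ∈ R) :
    candP c ≤ R := by
  refine (Subgroup.closure_le _).2 ?_
  rintro σ (⟨i, hi, rfl⟩ | rfl)
  · exact hR.word (evWord_facts hi).1
  · exact hc

variable {C : Cand} {c : Equiv.Perm Vec}

theorem par_facts (ok : C.Ok) : C.elems.length = 256 ∧ C.elems.getD 0 [] = idL ∧
    ∀ i < 256, i ≠ 0 → (C.par.getD i (0, 0)).1 < i ∧ (C.par.getD i (0, 0)).2 < 4 ∧
      C.elems.getD i [] =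
        comp (C.elems.getD (C.par.getD i (0, 0)).1 []) (C.gens.getD (C.par.getD i (0, 0)).2 []) := by
  have h := ok.par
  rw [Cand.parOK, Bool.and_eq_true, Bool.and_eq_true, beq_iff_eq] at h
  refine ⟨Nat.eq_of_beq_eq_true h.1.2, h.1.1, fun i hi h0 => ?_⟩
  have h2 := List.all_eq_true.1 h.2 i (List.mem_range.2 hi)
  rw [Bool.or_eq_true, Bool.and_eq_true, Bool.and_eq_true, beq_iff_eq] at h2
  rcases h2 with h2 | h2
  · exact absurd (Nat.eq_of_beq_eq_true h2) h0
  · exact ⟨(Eq.mp Nat.blt_eq h2.1.1), (Eq.mp Nat.blt_eq h2.1.2), h2.2⟩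

theorem mem_candP_rep (ok : C.Ok) (hc : Rep C.outer c) {σ : Equiv.Perm Vec} (hσ : σ ∈ candP c) :
    ∃ g ∈ C.elems, Rep g σ := by
  have hS : candP c ≤ Subgroup.closure (genSet c) := le_rfl
  have hmem : σ ∈ Submonoid.closure (genSet c) := by
    rw [← Subgroup.closure_toSubmonoid_of_finite]
    exact hσ
  obtain ⟨hlen, h0, -⟩ := par_facts ok
  induction hmem using Submonoid.closure_induction_right with
  | one => exact ⟨idL, h0 ▸ getD_mem [] (by omega), Rep.one⟩
  | mul_right x hx y hy ih =>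
    obtain ⟨g, hg, hgx⟩ := ih (by
      exact (Subgroup.closure_toSubmonoid_of_finite (s := genSet c)).ge hx)
    obtain ⟨h, hh, hhy⟩ := (gens_rep hc).1 y hy
    refine ⟨comp g h, ?_, hgx.mul hhy⟩
    have := List.all_eq_true.1 (List.all_eq_true.1 ok.closed g hg) h hh
    simpa using this

theorem elem_in_candP (ok : C.Ok) (hc : Rep C.outer c) : ∀ i < 256, ∃ σ ∈ candP c, Rep (C.elems.getD i []) σ := by
  obtain ⟨-, h0, hs⟩ := par_facts ok
  intro i
  induction i using Nat.strong_induction_on with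
  | _ i ih =>
    intro hi
    by_cases hz : i = 0
    · exact ⟨1, Subgroup.one_mem _, by rw [hz, h0]; exact Rep.one⟩
    obtain ⟨h1, h2, h3⟩ := hs i hi hz
    obtain ⟨σ, hσ, hrσ⟩ := ih _ h1 (by omega)
    obtain ⟨τ, hτ, hrτ⟩ := (gens_rep hc).2 _ h2
    exact ⟨σ * τ, Subgroup.mul_mem _ hσ (Subgroup.subset_closure hτ), h3 ▸ hrσ.mul hrτ⟩

theorem card_candP (ok : C.Ok) (hc : Rep C.outer c) : Nat.card (candP c) = 256 := by
  classical
  obtain ⟨hnd, hnorm⟩ := normal_facts ok.normal_elems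
  obtain ⟨hlen, -, -⟩ := par_facts ok
  choose f hf hrf using fun σ : candP c => mem_candP_rep ok hc σ.2
  have hbij : Function.Bijective (fun σ : candP c => (⟨f σ, List.mem_toFinset.2 (hf σ)⟩ :
      C.elems.toFinset)) := by
    refine ⟨fun σ τ e => Subtype.ext ?_, fun g => ?_⟩
    · have e' : f σ = f τ := congrArg Subtype.val e
      exact (hrf σ).eq (e' ▸ hrf τ)
    · obtain ⟨i, hi, he⟩ := exists_getD [] (List.mem_toFinset.1 g.2)
      obtain ⟨σ, hσ, hr⟩ := elem_in_candP ok hc i (hlen ▸ hi)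
      rw [he] at hr
      refine ⟨⟨σ, hσ⟩, Subtype.ext ?_⟩
      exact (hrf ⟨σ, hσ⟩).list_eq hr (hnorm _ (hf _)).1 (hnorm _ (List.mem_toFinset.1 g.2)).1
  rw [Nat.card_congr (Equiv.ofBijective _ hbij), Nat.card_eq_fintype_card, Fintype.card_coe,
    List.toFinset_card_of_nodup hnd, hlen]

theorem idL_normal : comp idL idL = idL := by decide +kernel

theorem comp_normal (g : List ℕ) {h : List ℕ} (hh : comp h idL = h) :
    comp (comp g h) idL = comp g h := by
  conv_rhs => rw [← hh]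
  show idL.map (apL (comp g h)) = (idL.map (apL h)).map (apL g)
  rw [List.map_map]
  exact List.map_congr_left fun x _ => apL_comp g h x

theorem invol_rep (ok : C.Ok) (hc : Rep C.outer c) {σ : Equiv.Perm Vec} (hσ : σ ∈ candP c)
    (h2 : σ * σ = 1) (h1 : σ ≠ 1) : ∃ i < 71, Rep (C.invs.getD i []) σ := by
  obtain ⟨g, hg, hr⟩ := mem_candP_rep ok hc hσ
  have h := ok.invs
  rw [Cand.invsOK, Bool.and_eq_true] at h
  have hlen : C.invs.length = 71 := Nat.eq_of_beq_eq_true h.1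
  have hg2 := List.all_eq_true.1 h.2 g hg
  simp only [Bool.or_eq_true, Bool.not_eq_true', beq_iff_eq, beq_eq_false_iff_ne,
    List.contains_iff_mem] at hg2
  rcases hg2 with (e | e) | e
  · exact absurd (hr.eq (e ▸ Rep.one)) h1
  · exfalso
    have hr2 := hr.mul hr
    rw [h2] at hr2
    exact e (hr2.list_eq Rep.one (comp_normal g ((normal_facts ok.normal_elems).2 g hg).1) idL_normal)
  · obtain ⟨i, hi, rfl⟩ := exists_getD [] e
    exact ⟨i, hlen ▸ hi, hr⟩

theorem inv_count (ok : C.Ok) (hc : Rep C.outer c) :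
    {σ : Equiv.Perm Vec | σ ∈ candP c ∧ σ * σ = 1}.ncard ≤ 72 := by
  classical
  have hsub : {σ : Equiv.Perm Vec | σ ∈ candP c ∧ σ * σ = 1} ⊆
      insert 1 (⋃ i ∈ Finset.range 71, {σ | Rep (C.invs.getD i []) σ}) := by
    rintro σ ⟨hσ, h2⟩
    by_cases h1 : σ = 1
    · exact Or.inl h1
    obtain ⟨i, hi, hr⟩ := invol_rep ok hc hσ h2 h1
    exact Or.inr (Set.mem_biUnion (Finset.mem_range.2 hi) hr)
  refine (Set.ncard_le_ncard hsub (Set.toFinite _)).trans ((Set.ncard_insert_le _ _).trans ?_)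
  refine Nat.add_le_add_right ?_ 1
  refine (Finset.set_ncard_biUnion_le _ _).trans ?_
  refine (Finset.sum_le_card_nsmul _ _ 1 fun i _ => ?_).trans (by simp)
  rw [Set.ncard_le_one (Set.toFinite _)]
  exact fun a ha b hb => Rep.eq ha hb

/-! ### The distinguished subgroup -/

theorem aList_facts : aList.length = 15 ∧ aList.Nodup ∧ ∀ g ∈ aList, comp g idL = g ∧ g.length = 12 ∧
    comp g g = idL ∧ comp g omg = comp omg g ∧ g ≠ idL ∧
    ∀ h ∈ aList, g = h ∨ (comp g h ∈ aList ∧ comp g h = comp h g) := by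
  have h := aGroupOK_true
  rw [aGroupOK, Bool.and_eq_true, Bool.and_eq_true] at h
  refine ⟨Nat.eq_of_beq_eq_true h.1.2, (normal_facts h.1.1).1, fun g hg => ?_⟩
  have hg2 := List.all_eq_true.1 h.2 g hg
  simp only [Bool.and_eq_true, beq_iff_eq, Bool.not_eq_true', beq_eq_false_iff_ne, List.all_eq_true,
    Bool.or_eq_true, List.contains_iff_mem] at hg2
  exact ⟨((normal_facts h.1.1).2 g hg).1, ((normal_facts h.1.1).2 g hg).2, hg2.1.1.1, hg2.1.1.2,
    hg2.1.2, hg2.2⟩

/-- The distinguished elements. -/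
def aSet : Set (Equiv.Perm Vec) := {σ | σ = 1 ∨ ∃ g ∈ aList, Rep g σ}

/-- The distinguished subgroup. -/
noncomputable def aGrp : Subgroup (Equiv.Perm Vec) where
  carrier := aSet
  one_mem' := Or.inl rfl
  mul_mem' := by
    intro σ τ hs ht
    rcases hs with rfl | ⟨g, hg, hs⟩
    · rw [one_mul]; exact ht
    rcases ht with rfl | ⟨h, hh, ht⟩
    · rw [mul_one]; exact Or.inr ⟨g, hg, hs⟩
    obtain ⟨-, -, hf⟩ := aList_facts
    obtain ⟨-, -, hgg, -, -, hall⟩ := hf g hg
    rcases hall h hh with rfl | ⟨hm, -⟩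
    · exact Or.inl ((hs.mul ht).eq (hgg ▸ Rep.one))
    · exact Or.inr ⟨_, hm, hs.mul ht⟩
  inv_mem' := by
    intro σ hs
    rcases hs with rfl | ⟨g, hg, hs⟩
    · exact Or.inl inv_one
    · exact Or.inr ⟨g, hg, hs.inv ((aList_facts.2.2 g hg).2.2.1)⟩

theorem aElem (ok : C.Ok) (hc : Rep C.outer c) : ∀ i < 15, ∃ σ ∈ candP c, Rep (aList.getD i []) σ := by
  intro i hi
  have h := ok.a
  rw [Cand.aOK, Bool.and_eq_true] at h
  have h2 := List.all_eq_true.1 h.2 i (List.mem_range.2 hi)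
  rw [Bool.and_eq_true, beq_iff_eq] at h2
  obtain ⟨σ, hσ, hr⟩ := elem_in_candP ok hc _ ((Eq.mp Nat.blt_eq h2.1))
  exact ⟨σ, hσ, h2.2 ▸ hr⟩

theorem aGrp_le (ok : C.Ok) (hc : Rep C.outer c) : aGrp ≤ candP c := by
  rintro σ (rfl | ⟨g, hg, hs⟩)
  · exact Subgroup.one_mem _
  · obtain ⟨i, hi, rfl⟩ := exists_getD [] hg
    obtain ⟨τ, hτ, hr⟩ := aElem ok hc i (aList_facts.1 ▸ hi)
    rwa [hs.eq hr]

theorem aGrp_rep (ok : C.Ok) (hc : Rep C.outer c) {g : List ℕ} (hg : g ∈ aList) :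
    ∃ σ ∈ aGrp, σ ≠ 1 ∧ Rep g σ := by
  obtain ⟨i, hi, rfl⟩ := exists_getD [] hg
  obtain ⟨σ, -, hr⟩ := aElem ok hc i (aList_facts.1 ▸ hi)
  refine ⟨σ, Or.inr ⟨_, hg, hr⟩, fun e => ?_, hr⟩
  obtain ⟨h1, -, -, -, h5, -⟩ := aList_facts.2.2 _ hg
  exact h5 ((e ▸ hr).list_eq Rep.one h1 idL_normal)

theorem aGrp_sq {σ : Equiv.Perm Vec} (hσ : σ ∈ aGrp) : σ * σ = 1 := by
  rcases hσ with rfl | ⟨g, hg, hs⟩
  · exact one_mul 1
  · exact (hs.mul hs).eq ((aList_facts.2.2 g hg).2.2.1 ▸ Rep.one)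

theorem aGrp_om {σ : Equiv.Perm Vec} (hσ : σ ∈ aGrp) : σ * omgPerm = omgPerm * σ := by
  rcases hσ with rfl | ⟨g, hg, hs⟩
  · rw [one_mul, mul_one]
  · exact (hs.mul rep_omg).eq ((aList_facts.2.2 g hg).2.2.2.1 ▸ rep_omg.mul hs)

theorem card_aGrp (ok : C.Ok) (hc : Rep C.outer c) : Nat.card aGrp = 16 := by
  classical
  obtain ⟨hlen, hnd, hf⟩ := aList_facts
  choose f hf1 hf2 hf3 using fun g : aList.toFinset => aGrp_rep ok hc (List.mem_toFinset.1 g.2)
  have hset : (aGrp : Set (Equiv.Perm Vec)) = insert 1 (Set.range f) := by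
    refine Set.Subset.antisymm ?_ ?_
    · rintro σ (rfl | ⟨g, hg, hs⟩)
      · exact Or.inl rfl
      · exact Or.inr ⟨⟨g, List.mem_toFinset.2 hg⟩, (hf3 _).eq hs⟩
    · rintro σ (rfl | ⟨g, rfl⟩)
      · exact aGrp.one_mem
      · exact hf1 g
  have hinj : Function.Injective f := fun g h e => Subtype.ext ((hf3 g).list_eq (e ▸ hf3 h)
    (hf _ (List.mem_toFinset.1 g.2)).1 (hf _ (List.mem_toFinset.1 h.2)).1)
  rw [show Nat.card aGrp = (aGrp : Set (Equiv.Perm Vec)).ncard from (Nat.card_coe_set_eq _), hset,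
    Set.ncard_insert_of_notMem (by rintro ⟨g, hg⟩; exact hf2 g hg) (Set.toFinite _),
    Set.ncard_range_of_injective hinj, Nat.card_eq_fintype_card, Fintype.card_coe,
    List.toFinset_card_of_nodup hnd, hlen]

/-! ### The fixed space -/

/-- The fixed space. -/
def uSet : Set Vec := {v | enc v ∈ uList}

theorem uList_facts : ∀ u ∈ uList, u < 4096 ∧ qN u = true ∧ apL omg u ∈ uList ∧
    ∀ g ∈ aList, apL g u = u := by
  intro u hu
  have h := uOK_true
  rw [uOK, Bool.and_eq_true, Bool.and_eq_true, Bool.and_eq_true] at h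
  have h2 := List.all_eq_true.1 h.1.1.1 u hu
  simp only [Bool.and_eq_true, List.contains_iff_mem, List.all_eq_true] at h2
  exact ⟨(Eq.mp Nat.blt_eq h2.1.1.1), h2.1.1.2, h2.1.2, fun g hg => Nat.eq_of_beq_eq_true (h2.2 g hg)⟩

theorem testBit_of_land {m v : ℕ} (h : Nat.beq (Nat.land (Nat.shiftRight m v) 1) 0 = true) :
    m.testBit v = false := by
  rw [Nat.testBit]
  have := Nat.eq_of_beq_eq_true h
  rw [show Nat.land (Nat.shiftRight m v) 1 = 1 &&& (m >>> v) from Nat.and_comm _ _] at this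
  simp [this]

theorem testBit_foldr (f : ℕ → ℕ) (v : ℕ) (hv : v < 4096) : ∀ l : List ℕ,
    (∀ i ∈ l, (f i).testBit v = true) →
      (l.foldr (fun i m => Nat.land m (f i)) (2 ^ 4096 - 1)).testBit v = true := by
  intro l
  induction l with
  | nil =>
    intro _
    rw [List.foldr_nil, Nat.testBit_two_pow_sub_one]
    simp [hv]
  | cons a l ih =>
    intro h
    rw [List.foldr_cons]
    show (_ &&& f a).testBit v = true
    rw [Nat.testBit_and, ih (fun i hi => h i (List.mem_cons_of_mem _ hi)),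
      h a (List.mem_cons_self ..)]
    rfl

theorem uSet_fix (ok : C.Ok) (hc : Rep C.outer c) (v : Vec) :
    (∀ a ∈ aGrp, a v = v) ↔ v ∈ uSet := by
  constructor
  · intro hfix
    have h := uOK_true
    rw [uOK, Bool.and_eq_true, Bool.and_eq_true, Bool.and_eq_true] at h
    have hm : (uMask).testBit (enc v) = true := by
      rw [Nat.eq_of_beq_eq_true h.2]
      refine testBit_foldr _ _ (enc_lt v) _ fun i hi => ?_
      have hi' : i < aList.length := by rw [aList_facts.1]; exact List.mem_range.1 hi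
      obtain ⟨σ, hσ, -, hr⟩ := aGrp_rep ok hc (getD_mem [] hi')
      refine maskOK_spec (List.all_eq_true.1 h.1.2 i hi) (aList_facts.2.2 _ (getD_mem [] hi')).2.1
        (enc_lt v) ?_
      rw [← hr v, hfix σ hσ]
    have h2 := allB_spec_zero h.1.1.2 (by norm_num : 4096 ≤ 2 ^ 12) (enc_lt v)
    rw [Bool.or_eq_true, List.contains_iff_mem] at h2
    exact h2.resolve_left fun e => by rw [testBit_of_land e] at hm; exact Bool.false_ne_true hm
  · rintro hv a (rfl | ⟨g, hg, hs⟩)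
    · rfl
    · rw [hs.apply, (uList_facts _ hv).2.2.2 g hg, vecN_enc]

theorem uSet_card : uSet.ncard = 64 := by
  classical
  have hl : uList.length = 64 ∧ nodupB uList = true := ⟨by decide +kernel, by decide +kernel⟩
  have e : uSet = ↑(uList.toFinset.image vecN) := by
    ext v
    rw [Finset.coe_image]
    constructor
    · intro hv; exact ⟨enc v, List.mem_toFinset.2 hv, vecN_enc v⟩
    · rintro ⟨u, hu, rfl⟩
      have hu' := List.mem_toFinset.1 hu
      show enc (vecN u) ∈ uList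
      rwa [enc_vecN (uList_facts u hu').1]
  rw [e, Set.ncard_coe_finset, Finset.card_image_of_injOn, List.toFinset_card_of_nodup
    (nodupB_spec hl.2), hl.1]
  intro a ha b hb e
  have := congrArg enc e
  rwa [enc_vecN (uList_facts a (List.mem_toFinset.1 ha)).1,
    enc_vecN (uList_facts b (List.mem_toFinset.1 hb)).1] at this

theorem qN_iff (v : Vec) : qN (enc v) = true ↔ UnitF4.H v v = 0 := qN_enc v

theorem qN_xor (u v : Vec) : qN (enc u ^^^ enc v) = true ↔ UnitF4.H (u + v) (u + v) = 0 := by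
  rw [← enc_add, qN_enc]

theorem uSet_perp (v : Vec)
    (h : ∀ u ∈ uSet, UnitF4.H (v + u) (v + u) = UnitF4.H v v) : v ∈ uSet := by
  have hp := allB_spec_zero perpOK_true (by norm_num : 4096 ≤ 2 ^ 12) (enc_lt v)
  rw [Bool.or_eq_true, List.contains_iff_mem] at hp
  rcases hp with hp | hp
  · exact hp
  exfalso
  obtain ⟨u, hu, hne⟩ := List.any_eq_true.1 hp
  have hb : ∀ u ∈ uBasis, u ∈ uList := by decide +kernel
  have hu' := hb u hu
  have hu4 := (uList_facts u hu').1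
  have heq := h (vecN u) (by show enc (vecN u) ∈ uList; rwa [enc_vecN hu4])
  rw [Bool.not_eq_true', beq_eq_false_iff_ne] at hne
  refine hne (Bool.eq_iff_iff.2 ?_)
  rw [show Nat.xor (enc v) u = enc v ^^^ enc (vecN u) by rw [enc_vecN hu4]; rfl, qN_xor, qN_enc, heq]

/-- The basis of the fixed space. -/
noncomputable def bVec (i : Fin 6) : Vec := vecN (uBasis.getD i 0)

/-- The dual vectors. -/
noncomputable def wVec (i : Fin 6) : Vec := vecN (wDual.getD i 0)

theorem dual_facts (i : Fin 6) : wDual.getD i 0 < 4096 ∧ uBasis.getD i 0 ∈ uList ∧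
    ∀ j : Fin 6, (qN (wDual.getD i 0 ^^^ uBasis.getD j 0) = qN (wDual.getD i 0) ↔ i ≠ j) := by
  have h := dualOK_true
  rw [dualOK, Bool.and_eq_true] at h
  have h2 := List.all_eq_true.1 h.2 i (List.mem_range.2 i.2)
  simp only [Bool.and_eq_true, List.contains_iff_mem, List.all_eq_true] at h2
  refine ⟨(Eq.mp Nat.blt_eq h2.1.1), h2.1.2, fun j => ?_⟩
  have h3 := h2.2 j (List.mem_range.2 j.2)
  rw [beq_iff_eq] at h3
  have h3' : ((qN (wDual.getD i 0 ^^^ uBasis.getD j 0) == qN (wDual.getD i 0)) = true) ↔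
      ((!(Nat.beq i j)) = true) := by
    rw [← h3]; rfl
  rw [beq_iff_eq, Bool.not_eq_true'] at h3'
  rw [h3', ← Bool.not_eq_true, Nat.beq_eq, ne_eq, Fin.val_inj]

theorem bVec_mem (i : Fin 6) : bVec i ∈ uSet := by
  show enc (vecN _) ∈ uList
  rw [enc_vecN (uList_facts _ (dual_facts i).2.1).1]
  exact (dual_facts i).2.1

theorem uSet_span (S : Set Vec) (h0 : (0 : Vec) ∈ S) (hadd : ∀ x ∈ S, ∀ y ∈ S, x + y ∈ S)
    (hb : ∀ i, bVec i ∈ S) : uSet ⊆ S := by
  intro v hv
  have h := List.all_eq_true.1 spanOK_true _ hv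
  obtain ⟨s, -, hs⟩ := List.any_eq_true.1 h
  rw [← vecN_enc v, Nat.eq_of_beq_eq_true hs]
  have key : ∀ l : List ℕ, (∀ i ∈ l, i < 6) → vecN (l.foldr
      (fun i m => bif Nat.beq (Nat.land (Nat.shiftRight s i) 1) 1 then Nat.xor (uBasis.getD i 0) m
        else m) 0) ∈ S := by
    intro l
    induction l with
    | nil => intro _; rw [List.foldr_nil, show vecN 0 = 0 by decide]; exact h0
    | cons a l ih =>
      intro hl
      rw [List.foldr_cons]
      have ih' := ih fun i hi => hl i (List.mem_cons_of_mem _ hi)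
      cases Nat.beq (Nat.land (Nat.shiftRight s a) 1) 1
      · exact ih'
      · show vecN (uBasis.getD a 0 ^^^ _) ∈ S
        rw [vecN_xor]
        exact hadd _ (hb ⟨a, hl a (List.mem_cons_self ..)⟩) _ ih'
  exact key _ fun i hi => List.mem_range.1 hi

/-! ### Uniqueness -/

theorem cand_unique (ok : C.Ok) (hc : Rep C.outer c) (B : Subgroup (Equiv.Perm Vec)) (hB : B ≤ candP c)
    (hcard : Nat.card B = 16) (hsq : ∀ x ∈ B, x * x = 1) :
    B = aGrp ∨ {v : Vec | ∀ x ∈ B, x v = v}.ncard ≤ 8 := by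
  classical
  obtain ⟨hnd, hnorm⟩ := normal_facts ok.normal_invs
  have hinvs := ok.invs
  rw [Cand.invsOK, Bool.and_eq_true] at hinvs
  have hlen : C.invs.length = 71 := Nat.eq_of_beq_eq_true hinvs.1
  let L := fun i => C.invs.getD i []
  have hL : ∀ i < 71, ∀ j < 71, L i = L j → i = j := by
    intro i hi j hj e
    simp only [L, List.getD_eq_getElem?_getD, List.getElem?_eq_getElem (hlen.symm ▸ hi : i < C.invs.length),
      List.getElem?_eq_getElem (hlen.symm ▸ hj : j < C.invs.length), Option.getD_some] at e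
    exact (hnd.getElem_inj_iff).1 e
  choose ix hix hrix using fun x : {x : B // (x : Equiv.Perm Vec) ≠ 1} =>
    invol_rep ok hc (hB x.1.2) (hsq _ x.1.2) x.2
  set S := Finset.univ.image ix with hS
  have hinj : Function.Injective ix := fun x y e =>
    Subtype.ext (Subtype.ext ((hrix x).eq (e ▸ hrix y)))
  have hScard : S.card = 15 := by
    rw [hS, Finset.card_image_of_injective _ hinj, Finset.card_univ, ← Nat.card_eq_fintype_card]
    have e : Nat.card {x : B // (x : Equiv.Perm Vec) ≠ 1} = ({(1 : B)}ᶜ : Set B).ncard := by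
      rw [← Nat.card_coe_set_eq]
      exact Nat.card_congr (Equiv.subtypeEquivRight fun x => by simp)
    rw [e, Set.ncard_compl, hcard, Set.ncard_singleton]
  have hSmem : ∀ i ∈ S, i < 71 ∧ ∃ x ∈ B, x ≠ 1 ∧ Rep (L i) x := by
    intro i hi
    obtain ⟨x, -, rfl⟩ := Finset.mem_image.1 hi
    exact ⟨hix x, x.1.1, x.1.2, x.2, hrix x⟩
  have hmemS : ∀ i < 71, ∀ x ∈ B, x ≠ 1 → Rep (L i) x → i ∈ S := by
    intro i hi x hx h1 hr
    refine Finset.mem_image.2 ⟨⟨⟨x, hx⟩, h1⟩, Finset.mem_univ _, hL _ (hix _) _ hi ?_⟩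
    exact (hrix ⟨⟨x, hx⟩, h1⟩).list_eq hr (hnorm _ (getD_mem [] (hlen.symm ▸ hix _))).1
      (hnorm _ (getD_mem [] (hlen.symm ▸ hi))).1
  have hcomm : ∀ x ∈ B, ∀ y ∈ B, x * y = y * x := fun x hx y hy =>
    comm_of_sq (hsq x hx) (hsq y hy) (hsq _ (B.mul_mem hx hy))
  have hprod : ∀ i ∈ S, ∀ j ∈ S, i ≠ j → tget C.tab 71 i j < 71 ∧
      ∀ x y, Rep (L i) x → Rep (L j) y → x ∈ B → y ∈ B → Rep (L (tget C.tab 71 i j)) (x * y) := by
    intro i hi j hj hij
    obtain ⟨hi', x, hxB, -, hrx⟩ := hSmem i hi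
    obtain ⟨hj', y, hyB, -, hry⟩ := hSmem j hj
    have h := List.all_eq_true.1 (List.all_eq_true.1 ok.tab i (List.mem_range.2 hi')) j
      (List.mem_range.2 hj')
    rw [Bool.or_eq_true] at h
    rcases h with h | h
    · exact absurd (Nat.eq_of_beq_eq_true h) hij
    revert h
    cases hb : Nat.beq (tget C.tab 71 i j) 71
    · simp only [cond_false, Bool.and_eq_true, beq_iff_eq]
      intro h
      refine ⟨(Eq.mp Nat.blt_eq h.1), fun x' y' hx' hy' _ _ => ?_⟩
      show Rep (C.invs.getD _ []) _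
      rw [← h.2]
      exact hx'.mul hy'
    · simp only [cond_true, Bool.not_eq_true', beq_eq_false_iff_ne]
      intro h
      exfalso
      refine h ?_
      have e1 := hrx.mul hry
      have e2 := hry.mul hrx
      rw [hcomm y hyB x hxB] at e2
      have nrm : ∀ g h' : List ℕ, comp h' idL = h' → comp (comp g h') idL = comp g h' := fun g h' => comp_normal g
      exact e1.list_eq e2 (nrm _ _ (hnorm _ (getD_mem [] (hlen.symm ▸ hj'))).1)
        (nrm _ _ (hnorm _ (getD_mem [] (hlen.symm ▸ hi'))).1)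
  have hclosed : ∀ i ∈ S, ∀ j ∈ S, i ≠ j → tget C.tab 71 i j ∈ S ∧ tget C.tab 71 i j ≠ i ∧
      tget C.tab 71 i j ≠ j := by
    intro i hi j hj hij
    obtain ⟨hlt, hp⟩ := hprod i hi j hj hij
    obtain ⟨-, x, hxB, hx1, hrx⟩ := hSmem i hi
    obtain ⟨-, y, hyB, hy1, hry⟩ := hSmem j hj
    have hxy := hp x y hrx hry hxB hyB
    have hne : x ≠ y := fun e => hij (hL _ (hSmem i hi).1 _ (hSmem j hj).1 (hrx.list_eq (e ▸ hry)
      (hnorm _ (getD_mem [] (hlen.symm ▸ (hSmem i hi).1))).1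
      (hnorm _ (getD_mem [] (hlen.symm ▸ (hSmem j hj).1))).1))
    refine ⟨hmemS _ hlt _ (B.mul_mem hxB hyB) (fun e => hne ?_) hxy, fun e => hy1 ?_, fun e => hx1 ?_⟩
    · calc x = x * (y * y) := by rw [hsq y hyB, mul_one]
        _ = y := by rw [← mul_assoc, e, one_mul]
    · rw [e] at hxy
      exact mul_left_cancel (a := x) ((hxy.eq hrx).trans (mul_one x).symm)
    · rw [e] at hxy
      exact mul_right_cancel (b := y) ((hxy.eq hry).trans (one_mul y).symm)
  have hinvol : ∀ i ∈ S, ∀ j ∈ S, i ≠ j → tget C.tab 71 (tget C.tab 71 i j) j = i := by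
    intro i hi j hj hij
    obtain ⟨hlt, hp⟩ := hprod i hi j hj hij
    obtain ⟨hk, -, hkj⟩ := hclosed i hi j hj hij
    obtain ⟨hlt2, hp2⟩ := hprod _ hk j hj hkj
    obtain ⟨hi', x, hxB, -, hrx⟩ := hSmem i hi
    obtain ⟨-, y, hyB, -, hry⟩ := hSmem j hj
    have h1 := hp2 (x * y) y (hp x y hrx hry hxB hyB) hry (B.mul_mem hxB hyB) hyB
    rw [mul_assoc, hsq y hyB, mul_one] at h1
    exact hL _ hlt2 _ hi' (h1.list_eq hrx (hnorm _ (getD_mem [] (hlen.symm ▸ hlt2))).1
      (hnorm _ (getD_mem [] (hlen.symm ▸ hi'))).1)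
  let F : Set ℕ := {n | ∃ v : Vec, (∀ x ∈ B, x v = v) ∧ enc v = n}
  have hF : ∀ i ∈ S, ∀ n ∈ F, (C.masks.getD i 0).testBit n = true := by
    rintro i hi n ⟨v, hv, rfl⟩
    obtain ⟨hi', x, hxB, -, hrx⟩ := hSmem i hi
    refine maskOK_spec (List.all_eq_true.1 ok.masks i (List.mem_range.2 hi'))
      (hnorm _ (getD_mem [] (hlen.symm ▸ hi'))).2 (enc_lt v) ?_
    rw [← hrx v, hv x hxB]
  rcases quadOK_spec S hScard (fun i hi => (hSmem i hi).1) hclosed hinvol F hF 4 0 [] (2 ^ 4096 - 1)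
      (by norm_num) (by simp) (fun _ _ _ => Nat.zero_le _)
      (by
        rintro n ⟨v, -, rfl⟩
        rw [Nat.testBit_two_pow_sub_one]
        simp [enc_lt v]) ok.quad with h | ⟨m, hm, hmF⟩
  · left
    have haok := ok.a
    rw [Cand.aOK, Bool.and_eq_true, Bool.and_eq_true] at haok
    refine Subgroup.eq_of_le_of_card_ge (fun x hx => ?_) (by rw [card_aGrp ok hc, hcard])
    by_cases h1 : x = 1
    · exact h1 ▸ aGrp.one_mem
    · obtain ⟨i, hi, hr⟩ := invol_rep ok hc (hB hx) (hsq x hx) h1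
      have := List.all_eq_true.1 haok.1.1 i (h i (hmemS i hi x hx h1 hr))
      rw [List.contains_iff_mem] at this
      exact Or.inr ⟨_, this, hr⟩
  · right
    exact ncard_le_of_mask hm fun v hv => hmF _ ⟨v, hv, rfl⟩

/-! ### Transitivity -/

theorem norm_facts {k : ℕ} (hk : k < 3) : (∀ j ∈ nWords.getD k [], j < 20) ∧
    wImg (nWords.getD k []) = nImgs.getD k idL ∧
    comp (nInvImgs.getD k idL) (nImgs.getD k idL) = idL ∧
    comp (nImgs.getD k idL) omg = comp omg (nImgs.getD k idL) ∧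
    (∀ u ∈ uList, apL (nImgs.getD k idL) u ∈ uList) ∧
    ∀ g ∈ aList, comp (comp (nImgs.getD k idL) g) (nInvImgs.getD k idL) ∈ aList := by
  have h := normOK_true
  rw [normOK, Bool.and_eq_true] at h
  have h2 := List.all_eq_true.1 h.2 k (List.mem_range.2 hk)
  simp only [Bool.and_eq_true, beq_iff_eq, List.all_eq_true, List.contains_iff_mem] at h2
  exact ⟨fun j hj => (Eq.mp Nat.blt_eq (h2.1.1.1.1.1 j hj)), h2.1.1.1.1.2, h2.1.1.1.2, h2.1.1.2, h2.1.2,
    h2.2⟩

/-- The elements used for transitivity. -/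
def Good (R : Subgroup (Equiv.Perm Vec)) (n : Equiv.Perm Vec) : Prop :=
  n ∈ R ∧ n * omgPerm = omgPerm * n ∧ (∀ u ∈ uSet, n u ∈ uSet) ∧ ∀ x ∈ aGrp, n * x * n⁻¹ ∈ aGrp

theorem Good.mul {R : Subgroup (Equiv.Perm Vec)} {n m : Equiv.Perm Vec} (hn : Good R n)
    (hm : Good R m) : Good R (n * m) :=
  ⟨R.mul_mem hn.1 hm.1, by rw [mul_assoc, hm.2.1, ← mul_assoc, hn.2.1, mul_assoc],
    fun u hu => hn.2.2.1 _ (hm.2.2.1 u hu), fun x hx => by
      rw [show n * m * x * (n * m)⁻¹ = n * (m * x * m⁻¹) * n⁻¹ by group]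
      exact hn.2.2.2 _ (hm.2.2.2 x hx)⟩

theorem Good.one (R : Subgroup (Equiv.Perm Vec)) : Good R 1 :=
  ⟨R.one_mem, by rw [one_mul, mul_one], fun u hu => hu, fun x hx => by simpa using hx⟩

theorem Good.inv {R : Subgroup (Equiv.Perm Vec)} {n : Equiv.Perm Vec} (hn : Good R n) :
    Good R n⁻¹ := by
  have hpow : ∀ k : ℕ, Good R (n ^ k) := by
    intro k
    induction k with
    | zero => simpa using Good.one R
    | succ k ih => rw [pow_succ]; exact ih.mul hn
  have hfin : IsOfFinOrder n := isOfFinOrder_of_finite n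
  obtain ⟨k, hk⟩ : n⁻¹ ∈ Submonoid.powers n :=
    hfin.mem_powers_iff_mem_zpowers.2 (Subgroup.inv_mem _ (Subgroup.mem_zpowers n))
  exact hk ▸ hpow k

theorem good_word {R : Subgroup (Equiv.Perm Vec)} (hR : Contains R) {k : ℕ} (hk : k < 3) :
    Good R (wPerm (nWords.getD k [])) ∧ Rep (nImgs.getD k idL) (wPerm (nWords.getD k [])) := by
  obtain ⟨hw, himg, hinv, hom, hu, ha⟩ := norm_facts hk
  have hr : Rep (nImgs.getD k idL) (wPerm (nWords.getD k [])) := himg ▸ rep_word _ hw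
  refine ⟨⟨hR.word hw, (hr.mul rep_omg).eq (hom ▸ rep_omg.mul hr), fun u hu' => ?_, ?_⟩, hr⟩
  · show enc _ ∈ uList
    rw [hr]
    exact hu _ hu'
  · rintro x (rfl | ⟨g, hg, hx⟩)
    · simpa using aGrp.one_mem
    · exact Or.inr ⟨_, ha g hg, (hr.mul hx).mul (hr.inv hinv)⟩

theorem trans_tree {R : Subgroup (Equiv.Perm Vec)} (hR : Contains R) (ok : C.Ok)
    (hc : Rep C.outer c) {a0 : Equiv.Perm Vec} (ha0 : Rep (aList.getD 0 []) a0) :
    ∀ i < 15, ∃ n, Good R n ∧ Rep (aList.getD i []) (n * a0 * n⁻¹) := by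
  intro i
  induction i using Nat.strong_induction_on with
  | _ i ih =>
    intro hi
    have h := List.all_eq_true.1 treeOK_true i (List.mem_range.2 hi)
    rw [Bool.or_eq_true, Bool.and_eq_true, Bool.and_eq_true, beq_iff_eq] at h
    rcases h with h | h
    · exact ⟨1, Good.one R, by rw [Nat.eq_of_beq_eq_true h]; simpa using ha0⟩
    obtain ⟨⟨h1, h2⟩, h3⟩ := h
    have h1' := (Eq.mp Nat.blt_eq h1)
    have h2' := (Eq.mp Nat.blt_eq h2)
    obtain ⟨n, hn, hrn⟩ := ih _ h1' (by omega)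
    obtain ⟨hm, hrm⟩ := good_word hR h2'
    refine ⟨_, hm.mul hn, ?_⟩
    rw [h3, show ∀ m : Equiv.Perm Vec, m * n * a0 * (m * n)⁻¹ = m * (n * a0 * n⁻¹) * m⁻¹ from
      fun m => by group]
    exact (hrm.mul hrn).mul (hrm.inv (norm_facts h2').2.2.1)

theorem aGrp_trans {R : Subgroup (Equiv.Perm Vec)} (hR : Contains R) (ok : C.Ok)
    (hc : Rep C.outer c) {a b : Equiv.Perm Vec} (ha : a ∈ aGrp) (ha1 : a ≠ 1) (hb : b ∈ aGrp)
    (hb1 : b ≠ 1) : ∃ n ∈ R, n * omgPerm = omgPerm * n ∧ (∀ u ∈ uSet, n u ∈ uSet) ∧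
      (∀ x ∈ aGrp, n * x * n⁻¹ ∈ aGrp) ∧ n * a * n⁻¹ = b := by
  obtain ⟨g, hg, hga⟩ := ha.resolve_left ha1
  obtain ⟨h, hh, hhb⟩ := hb.resolve_left hb1
  obtain ⟨i, hi, rfl⟩ := exists_getD [] hg
  obtain ⟨j, hj, rfl⟩ := exists_getD [] hh
  rw [aList_facts.1] at hi hj
  obtain ⟨a0, -, ha0⟩ := aElem ok hc 0 (by norm_num)
  obtain ⟨n, hn, hrn⟩ := trans_tree hR ok hc ha0 i hi
  obtain ⟨m, hm, hrm⟩ := trans_tree hR ok hc ha0 j hj
  have ea : a = n * a0 * n⁻¹ := hga.eq hrn
  have eb : b = m * a0 * m⁻¹ := hhb.eq hrm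
  obtain ⟨h1, h2, h3, h4⟩ := hm.mul hn.inv
  exact ⟨m * n⁻¹, h1, h2, h3, h4, by rw [ea, eb]; group⟩

/-- The facts about a group containing the generators and one of the outer elements. -/
noncomputable def model {R : Subgroup (Equiv.Perm Vec)} (hR : Contains R) (C : Cand) (ok : C.Ok)
    (c : Equiv.Perm Vec) (hc : Rep C.outer c) (hcR : c ∈ R) : Model R where
  om := omgPerm
  om_apply _ := rfl
  om_mem := hR.omega
  P := candP c
  A := aGrp
  U := uSet
  P_le := candP_le hR hcR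
  P_card := card_candP ok hc
  A_le := aGrp_le ok hc
  A_card := card_aGrp ok hc
  A_sq _ h := aGrp_sq h
  A_om _ h := aGrp_om h
  inv_le := inv_count ok hc
  U_card := uSet_card
  U_fix := uSet_fix ok hc
  U_sing u hu := (qN_enc u).1 (uList_facts _ hu).2.1
  U_om u hu := by
    show enc (omgPerm u) ∈ uList
    rw [rep_omg u]
    exact (uList_facts _ hu).2.2.1
  U_perp := uSet_perp
  b := bVec
  w := wVec
  b_mem := bVec_mem
  U_span := uSet_span
  dual i j := by
    obtain ⟨h1, -, h3⟩ := dual_facts i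
    have hb : uBasis.getD j 0 < 4096 := (uList_facts _ (dual_facts j).2.1).1
    have e1 : qN (wDual.getD i 0 ^^^ uBasis.getD j 0) = true ↔
        UnitF4.H (wVec i + bVec j) (wVec i + bVec j) = 0 := by
      rw [← qN_xor, wVec, bVec, enc_vecN h1, enc_vecN hb]
    have e2 : qN (wDual.getD i 0) = true ↔ UnitF4.H (wVec i) (wVec i) = 0 := by
      rw [← qN_enc, wVec, enc_vecN h1]
    rw [← h3 j, Bool.eq_iff_iff, e1, e2]
    rcases UnitF4.h_self GFour25.card_F4 (wVec i + bVec j) with a | a <;>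
      rcases UnitF4.h_self GFour25.card_F4 (wVec i) with b | b <;> simp [a, b]
  unique := cand_unique ok hc
  trans _ ha ha1 _ hb hb1 := aGrp_trans hR ok hc ha ha1 hb hb1

theorem exists_model {R : Subgroup (Equiv.Perm Vec)} (hR : Contains R)
    (hout : outerA ∈ R ∨ outerB ∈ R) : Nonempty (Model R) := by
  rcases hout with h | h
  · exact ⟨model hR candA candA_ok _ rep_outerA h⟩
  · exact ⟨model hR candB candB_ok _ rep_outerB h⟩

end Cfsg.Agent.LargeFischer.Thompson
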