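import Cfsg.Agent.LargeFischer.Elem
import Cfsg.Agent.LargeFischer.ThompsonModel

/-!
The facts of the Thompson certificate for the concrete semilinear extension.
-/

set_option autoImplicit false
set_option maxRecDepth 100000

namespace Cfsg.Agent.LargeFischer.Thompson

open Cfsg.Agent.GFour25 Cfsg.Agent.CosetCert
open Cfsg.Agent.SporB.FischerU (Vec SUSix tv enc vecN)
open Cfsg.Agent.TTClass
open ThompsonData

/-- A word for multiplication by `w`. -/
def omWord : List ℕ := [1, 3, 7, 10, 10, 17, 1, 14]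

/-- A word for the product of two transvections. -/
def ttWord : List ℕ := [1, 3, 7, 10, 4, 6, 5, 8, 1, 3, 7, 10, 10, 17, 1, 14]

theorem points_ok : ((List.range 10).all fun i =>
    Nat.beq (tPoint (pairAt i).1).val (root (pr i).1).val &&
      Nat.beq (tPoint (pairAt i).2).val (root (pr i).2).val) = true := by decide +kernel

theorem sigma_ok : Nat.beq (tPoint 9).val (root SUSixU43.sigmaI).val = true := by decide +kernel

theorem words_ok : (omWord.all (fun i => Nat.blt i 20) && ttWord.all (fun i => Nat.blt i 20) &&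
    (wImg omWord == omg) &&
    (wImg ttWord == comp (tvImgs.getD 9 idL) (tvImgs.getD tZero idL))) = true := by decide +kernel

theorem gPerm_eq {i : ℕ} (hi : i < 10) : gPerm i = actHom (genU i) := by
  have h := List.all_eq_true.1 points_ok i (List.mem_range.2 hi)
  rw [Bool.and_eq_true] at h
  rw [gPerm, tP, tP, Fin.ext (Nat.eq_of_beq_eq_true h.1), Fin.ext (Nat.eq_of_beq_eq_true h.2), genU,
    pow_two, map_mul, map_mul]

theorem letter_mem {i : ℕ} (hi : i < 20) : letter i ∈ Kc := by
  have hg : ∀ j < 10, gPerm j ∈ Kc := fun j hj => gPerm_eq hj ▸ ⟨_, genU_mem hj, rfl⟩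
  rw [letter]
  by_cases h : i < 10
  · rw [show Nat.blt i 10 = true from Nat.blt_eq.mpr h, cond_true]
    exact hg i h
  · rw [show Nat.blt i 10 = false from Bool.eq_false_iff.2 fun e => h (Nat.blt_eq.mp e), cond_false]
    exact inv_mem (hg _ (by omega))

theorem word_mem {w : List ℕ} (hw : ∀ i ∈ w, i < 20) : wPerm w ∈ Kc := by
  refine list_prod_mem fun x hx => ?_
  obtain ⟨i, hi, rfl⟩ := List.mem_map.1 hx
  exact letter_mem (hw i hi)

theorem cnjPerm_eq : cnjPerm = frob :=
  Equiv.ext fun v => funext fun i => (pow_two (v i)).symm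

theorem tP_sq {i : ℕ} (hi : i < 12) : tP i * tP i = 1 := by
  have h : ((List.range 12).all fun i =>
      comp (tvImgs.getD i idL) (tvImgs.getD i idL) == idL) = true := by decide +kernel
  have h2 := List.all_eq_true.1 h i (List.mem_range.2 hi)
  rw [beq_iff_eq] at h2
  have h3 := (rep_tP hi).mul (rep_tP hi)
  rw [h2] at h3
  exact h3.eq Rep.one

/-- An extension by one of the two semilinear outer elements contains what the certificate needs. -/
theorem model_of_mem {R : Subgroup (Equiv.Perm Vec)} (hK : Kc ≤ R) (hout : frob ∈ R ∨ outE ∈ R) :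
    Nonempty (Model R) := by
  have h := words_ok
  simp only [Bool.and_eq_true, beq_iff_eq, List.all_eq_true] at h
  obtain ⟨⟨⟨h1, h2⟩, h3⟩, h4⟩ := h
  have e1 : wPerm omWord = omgPerm :=
    (rep_word _ fun i hi => Nat.blt_eq.mp (h1 i hi)).eq (h3 ▸ rep_omg)
  have e2 : wPerm ttWord = tP 9 * tP tZero :=
    (rep_word _ fun i hi => Nat.blt_eq.mp (h2 i hi)).eq
      (h4 ▸ (rep_tP (by norm_num)).mul (rep_tP (by decide)))
  refine exists_model ⟨fun i hi => hK ?_, hK ?_⟩ ?_
  · exact gPerm_eq hi ▸ ⟨_, genU_mem hi, rfl⟩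
  · exact e1 ▸ word_mem fun i hi => Nat.blt_eq.mp (h1 i hi)
  · rcases hout with hout | hout
    · exact Or.inl (show cnjPerm ∈ R from cnjPerm_eq ▸ hout)
    refine Or.inr ?_
    have eo : outE = cnjPerm * tP 9 := by
      rw [outE, cnjPerm_eq, trn, tP, Fin.ext (Nat.eq_of_beq_eq_true sigma_ok)]
    have e : outerB = outE * wPerm ttWord := by
      rw [outerB, eo, e2, mul_assoc cnjPerm, ← mul_assoc (tP 9), tP_sq (by norm_num), one_mul]
    rw [e]
    exact mul_mem hout
      (hK (word_mem fun i hi => Nat.blt_eq.mp (h2 i hi)))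

theorem model_Ke : Nonempty (Model Ke) :=
  model_of_mem Kc_le_Ke (Or.inr (Subgroup.mem_sup_right (Subgroup.mem_zpowers _)))

end Cfsg.Agent.LargeFischer.Thompson
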