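import Cfsg.Agent.LargeFischer.MatFineData
import Cfsg.Agent.LargeFischer.ThompsonKe
import Cfsg.Agent.LargeFischer.Orbits

/-!
Kernel checks on the tables of `MatFineData`.
-/

set_option autoImplicit false
set_option maxRecDepth 100000

namespace Cfsg.Agent.LargeFischer.MatFine

open Cfsg.Agent.CosetCert Cfsg.Agent.GFour25
open Cfsg.Agent.SporB.FischerU (Vec vecN enc vecN_enc enc_lt)
open Cfsg.Agent.LargeFischer.Thompson
open ThompsonData MatFineData

/-- Number of non-zero coordinates modulo two. -/
noncomputable def qB (v : ℕ) : Bool :=
  List.rec (motive := fun _ => Bool) false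
    (fun i _ ih => Bool.xor (!(Nat.beq (Nat.mod (Nat.shiftRight v i) 4) 0)) ih) [0, 2, 4, 6, 8, 10]

theorem qB_ok : allB (fun v => qC v == !qB v) 12 0 = true := by decide +kernel

/-- The images commute in the extension. -/
noncomputable def comB (v w : ℕ) : Bool := qB (v ^^^ w) == qB v

/-- The list of an involution. -/
noncomputable def aL (k : ℕ) : List ℕ := aList.getD k idL

/-- The index of the involution of a pair. -/
noncomputable def pi2 (i j : ℕ) : ℕ := (pairTab.getD i []).getD j 15

/-- A root vector of a line. -/
noncomputable def wN (i k : ℕ) : ℕ := (lineTab.getD i []).getD k 0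

/-- The moved space of an involution. -/
noncomputable def mvL (k : ℕ) : List ℕ := mvTab.getD k []

/-- The moved part of a vector. -/
noncomputable def mvN (k v : ℕ) : ℕ := apL (aL k) v ^^^ v

/-- The indices below six. -/
def six : List ℕ := [0, 1, 2, 3, 4, 5]

/-- The indices below three. -/
def thr : List ℕ := [0, 1, 2]

/-- The indices below fifteen. -/
def fifteen : List ℕ := List.range 15

/-- The pairs of lines name the involutions. -/
noncomputable def pairOK : Bool :=
  (six.all fun i => six.all fun j => Nat.beq i j || (Nat.blt (pi2 i j) 15 &&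
    six.all fun k => six.all fun l => Nat.beq k l ||
      ((Nat.beq (pi2 i j) (pi2 k l)) ==
        ((Nat.beq i k && Nat.beq j l) || (Nat.beq i l && Nat.beq j k))))) &&
  fifteen.all fun n => six.any fun i => six.any fun j => !(Nat.beq i j) && Nat.beq (pi2 i j) n

theorem pairOK_true : pairOK = true := by decide +kernel

/-- Products along a triangle. -/
noncomputable def mulOK : Bool :=
  six.all fun i => six.all fun j => six.all fun k => Nat.beq i j || Nat.beq j k || Nat.beq i k ||
    (comp (aL (pi2 i j)) (aL (pi2 j k)) == aL (pi2 i k))

theorem mulOK_true : mulOK = true := by decide +kernel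

/-- The six lines are the roots of the fixed space. -/
noncomputable def lineOK : Bool :=
  (six.all fun i => Nat.beq (wN i 0 ^^^ wN i 1) (wN i 2) && thr.all fun k =>
      Nat.blt (wN i k) 4096 && uList.contains (wN i k) && rootR (wN i k) &&
        six.all fun j => thr.all fun l =>
          (if Nat.beq i j then Nat.beq k l || !(Nat.beq (wN i k) (wN j l))
            else !(Nat.beq (wN i k) (wN j l)) && !(rootR (wN i k ^^^ wN j l)))) &&
  uList.all fun u => !(rootR u) || six.any fun i => thr.any fun k => Nat.beq (wN i k) u

theorem lineOK_true : lineOK = true := by decide +kernel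

/-- The moved spaces. -/
noncomputable def moveOK : Bool :=
  fifteen.all fun n => Nat.beq (mvL n).length 16 && nodupB (mvL n) && (mvL n).contains 0 &&
    (idL.all fun e => (mvL n).contains (mvN n e)) &&
    ((mvL n).all fun r => (mvL n).all fun s => (mvL n).contains (r ^^^ s)) &&
    (List.range 16).all fun t => Nat.blt ((mvWit.getD n []).getD t 4096) 4096 &&
      Nat.beq (mvN n ((mvWit.getD n []).getD t 0)) ((mvL n).getD t 0)

theorem moveOK_true : moveOK = true := by decide +kernel

/-- The roots in a moved space. -/
noncomputable def rootMoveOK : Bool :=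
  six.all fun i => six.all fun j => Nat.beq i j || six.all fun m => thr.all fun k =>
    (mvL (pi2 i j)).contains (wN m k) == (Nat.beq m i || Nat.beq m j)

theorem rootMoveOK_true : rootMoveOK = true := by decide +kernel

/-- The witnesses for three lifts on a line. -/
noncomputable def starOK : Bool :=
  six.all fun i => six.all fun j => Nat.beq i j || thr.all fun k =>
    (fun v => Nat.blt v 4096 && Nat.beq (mvN (pi2 i j) v) (wN i k) &&
      thr.all fun l => (comB v (wN i l) == Nat.beq l k) && comB v (wN j l))
      (((starWit.getD i []).getD j []).getD k 4096)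

theorem starOK_true : starOK = true := by decide +kernel

/-- The witnesses for two cosets with a common line. -/
noncomputable def shiftOK : Bool :=
  six.all fun i => six.all fun j => six.all fun k => Nat.beq i j || Nat.beq j k || Nat.beq i k ||
    thr.all fun l => (fun v => Nat.blt v 4096 && Nat.beq (mvN (pi2 i k) v) 0 &&
      Nat.beq (mvN (pi2 i j) v) (wN j l))
      ((((shiftWit.getD i []).getD j []).getD k []).getD l 4096)

theorem shiftOK_true : shiftOK = true := by decide +kernel

/-- A vector commuting with all roots of a moved space is fixed. -/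
noncomputable def injOK : Bool :=
  six.all fun i => six.all fun j => Nat.ble j i || allB (fun v =>
    bif comB v (wN i 0) && comB v (wN i 1) && comB v (wN j 0) && comB v (wN j 1)
    then !(comB v (wN i 2) && comB v (wN j 2)) || Nat.beq (mvN (pi2 i j) v) 0 else true) 12 0

theorem injOK_true : injOK = true := by decide +kernel

/-- The fixed space of one involution moved by another. -/
noncomputable def meetOK : Bool :=
  fifteen.all fun x => fifteen.all fun y => Nat.beq x y || ((fun W : List ℕ =>
    Nat.beq W.length 4 && nodupB (W.map (mvN y)) &&
      W.all fun v => Nat.blt v 4096 && Nat.beq (mvN x v) 0)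
    ((meetWit.getD x []).getD y []) &&
    fifteen.any fun c => (comp (aL x) (aL y) == aL c) &&
      Nat.ble ((mvL y).filter fun r => (mvL c).contains r).length 4)

theorem meetOK_true : meetOK = true := by decide +kernel

/-- A coordinate of a quadruple. -/
noncomputable def qd (t x : ℕ) : ℕ := (quadTab.getD t []).getD x 6

/-- The tree of quadruples. -/
noncomputable def quadOK : Bool :=
  Nat.beq quadTab.length 360 &&
  (List.range 360).all (fun t => Nat.beq t 0 ||
    (fun p : ℕ × ℕ => Nat.blt p.1 t && Nat.blt p.2 3 && [0, 1, 2, 3].all fun x =>
      Nat.beq (qd t x) ((sigTab.getD p.2 []).getD (qd p.1 x) 6)) (quadPar.getD t (0, 0))) &&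
  ((List.range 360).all fun t => [0, 1, 2, 3].all fun x => Nat.blt (qd t x) 6 &&
    [0, 1, 2, 3].all fun y => Nat.beq x y || !(Nat.beq (qd t x) (qd t y))) &&
  six.all fun i => six.all fun j => Nat.beq i j || six.all fun k => Nat.beq i k || Nat.beq j k ||
    six.all fun l => Nat.beq i l || Nat.beq j l || Nat.beq k l || quadTab.contains [i, j, k, l]

theorem quadOK_true : quadOK = true := by decide +kernel

/-- The normalising elements permute the lines. -/
noncomputable def sigOK : Bool :=
  thr.all fun g => six.all fun i => Nat.blt ((sigTab.getD g []).getD i 6) 6 &&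
    six.all fun j => Nat.beq i j ||
      (!(Nat.beq ((sigTab.getD g []).getD i 6) ((sigTab.getD g []).getD j 6)) &&
      (comp (comp (nImgs.getD g idL) (aL (pi2 i j))) (nInvImgs.getD g idL) ==
        aL (pi2 ((sigTab.getD g []).getD i 6) ((sigTab.getD g []).getD j 6))))

theorem sigOK_true : sigOK = true := by decide +kernel

end Cfsg.Agent.LargeFischer.MatFine
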