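import Cfsg.Agent.LargeFischer.ThompsonMain
import Cfsg.Agent.LargeFischer.Results
import Cfsg.Agent.LargeFischer.MatFine

/-!
The elementary abelian subgroup of order `2^11`: weak closure, self-centralisation, and the number
`1771` of conjugates of the central involution it contains.
-/

set_option autoImplicit false

namespace Cfsg.Agent.LargeFischer.Mat

open Cfsg
open Cfsg.Agent.GFour25
open Cfsg.Agent.SporB.FischerU (Vec)
open Cfsg.Agent.TTClass
open Thompson MatFine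

variable {G : Type*} [Group G] (z : G) (Q : Subgroup (Subgroup.centralizer ({z} : Set G))) [Q.Normal]

/-- Everything known at the start. -/
structure Setup where
  F : Frame z Q
  N : F.IsNormal
  range : F.rho.range = Ke
  B : Base z Q
  other : ∃ (g : G) (a : Q), g * z * g⁻¹ = ((a : Subgroup.centralizer ({z} : Set G)) : G) ∧
    ((a : Subgroup.centralizer ({z} : Set G)) : G) ≠ z
  zc : Subgroup.centralizer ({z} : Set G)
  zc_coe : (zc : G) = z
  D : Ext Q zc F.rho F.psi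
  M : Model F.rho.range
  P : Fine M

/-- A set-up exists. -/
theorem exists_setup [Finite G] (hcl : Classified) (hF : IsOfLargeFischerTypeAt z Q) :
    Nonempty (Setup z Q) := by
  obtain ⟨F, N, hr⟩ := exists_normal_frame hcl hF
  obtain ⟨z', D⟩ := ext_of_frame hF F
  obtain ⟨M, ⟨P⟩⟩ : ∃ M : Model F.rho.range, Nonempty (Fine M) := by rw [hr]; exact exists_fine
  refine ⟨⟨F, N, hr, base_of hF, exists_other hF, z', ?_, D, M, P⟩⟩
  rcases (F.psi_ker ⟨z', D.z_mem⟩).1 ((D.psi_ker ⟨z', D.z_mem⟩).2 (Or.inr rfl)) with e | e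
  · exact absurd (Subtype.ext e) D.z_ne
  · exact e

variable {z Q}

namespace Setup

variable (S : Setup z Q)

/-- The representation. -/
abbrev rho : ↥(Subgroup.centralizer ({z} : Set G)) →* Equiv.Perm Vec := S.F.rho

/-- The preimage of the fixed space. -/
abbrev P0 : Subgroup ↥(Subgroup.centralizer ({z} : Set G)) := S.D.P0 S.M

/-- The elementary abelian subgroup. -/
abbrev K : Subgroup ↥(Subgroup.centralizer ({z} : Set G)) := S.D.K S.M

/-- The subgroup in the whole group. -/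
abbrev KG : Subgroup G := S.K.map (Subgroup.centralizer ({z} : Set G)).subtype

open _root_.Classical in
/-- The vector of an element of `Q`. -/
noncomputable def vec (x : ↥(Subgroup.centralizer ({z} : Set G))) : Vec := if h : x ∈ Q then S.F.psi ⟨x, h⟩ else 0

theorem vec_eq {x : ↥(Subgroup.centralizer ({z} : Set G))} (h : x ∈ Q) : S.vec x = S.F.psi ⟨x, h⟩ := dif_pos h

theorem vec_one : S.vec 1 = 0 := (S.vec_eq Q.one_mem).trans S.D.psi_one

theorem vec_zc : S.vec S.zc = 0 := (S.vec_eq S.D.z_mem).trans ((S.D.psi_ker _).2 (Or.inr rfl))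

theorem vec_mul {x y : ↥(Subgroup.centralizer ({z} : Set G))} (hx : x ∈ Q) (hy : y ∈ Q) : S.vec (x * y) = S.vec x + S.vec y := by
  rw [S.vec_eq hx, S.vec_eq hy, S.vec_eq (Q.mul_mem hx hy)]
  exact S.D.psi_mul ⟨x, hx⟩ ⟨y, hy⟩

theorem vec_inv {x : ↥(Subgroup.centralizer ({z} : Set G))} (hx : x ∈ Q) : S.vec x⁻¹ = S.vec x := by
  have h := S.vec_mul hx (Q.inv_mem hx)
  rw [mul_inv_cancel, S.vec_one] at h
  rw [← zero_add (S.vec x⁻¹), ← vec_self (S.vec x), add_assoc, ← h, add_zero]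

theorem vec_conj (h : ↥(Subgroup.centralizer ({z} : Set G))) {x : ↥(Subgroup.centralizer ({z} : Set G))} (hx : x ∈ Q) : S.vec (h * x * h⁻¹) = S.rho h (S.vec x) := by
  rw [S.vec_eq hx, S.vec_eq ((inferInstance : Q.Normal).conj_mem _ hx h)]
  exact S.D.psi_conj h ⟨x, hx⟩

theorem vec_ker {x : ↥(Subgroup.centralizer ({z} : Set G))} (hx : x ∈ Q) (h : S.vec x = 0) : x = 1 ∨ x = S.zc :=
  (S.D.psi_ker ⟨x, hx⟩).1 (S.vec_eq hx ▸ h)

theorem vec_inj {x y : ↥(Subgroup.centralizer ({z} : Set G))} (hx : x ∈ Q) (hy : y ∈ Q) (h : S.vec x = S.vec y) :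
    x = y ∨ x = y * S.zc := by
  rw [S.vec_eq hx, S.vec_eq hy] at h
  exact S.D.eq_of_psi h

theorem vec_surj (v : Vec) : ∃ x ∈ Q, S.vec x = v := by
  obtain ⟨a, rfl⟩ := S.D.psi_surj v
  exact ⟨a, a.2, S.vec_eq a.2⟩

theorem mem_P0 {x : ↥(Subgroup.centralizer ({z} : Set G))} : x ∈ S.P0 ↔ x ∈ Q ∧ S.vec x ∈ S.M.U :=
  ⟨fun ⟨h, hu⟩ => ⟨h, (S.vec_eq h).symm ▸ hu⟩, fun ⟨h, hu⟩ => ⟨h, S.vec_eq h ▸ hu⟩⟩

theorem comm_iff {q p : ↥(Subgroup.centralizer ({z} : Set G))} (hq : q ∈ Q) (hp : p ∈ S.P0) :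
    q * p = p * q ↔ Com (S.vec q) (S.vec p) := by
  rw [Com, S.vec_eq hq, S.vec_eq hp.1]
  exact S.D.comm_iff ⟨q, hq⟩ ⟨p, hp.1⟩ (Subtype.ext (S.D.P0_sq S.M hp))

theorem conj_P0_eq {q p : ↥(Subgroup.centralizer ({z} : Set G))} (hq : q ∈ Q) (hp : p ∈ S.P0) :
    q * p * q⁻¹ = p ∨ q * p * q⁻¹ = p * S.zc := by
  refine S.D.conj_P0 S.M (fun u _ => ?_) hp
  rw [S.D.rho_q hq]
  rfl

theorem P0_le_K : S.P0 ≤ S.K := fun _ hp => ((S.D.K_inf S.M).ge hp).1

theorem zc_mem : S.zc ∈ S.K := S.P0_le_K (S.D.z_mem_P0 S.M)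

theorem mem_KG {x : ↥(Subgroup.centralizer ({z} : Set G))} : (x : G) ∈ S.KG ↔ x ∈ S.K :=
  ⟨fun ⟨y, hy, e⟩ => by rwa [← Subtype.ext (e : (y : G) = x)], fun h => ⟨x, h, rfl⟩⟩

theorem z_mem_KG : z ∈ S.KG := by
  have := S.mem_KG.2 S.zc_mem
  rwa [S.zc_coe] at this

/-- The lifts of an involution of the image. -/
def fib (a : Equiv.Perm Vec) : Set ↥(Subgroup.centralizer ({z} : Set G)) := {x | x ∈ S.K ∧ S.rho x = a}

/-- The elements not conjugate to `z`. -/
def pset : Set ↥(Subgroup.centralizer ({z} : Set G)) := {x | x ∈ S.K ∧ x ≠ 1 ∧ ¬ IsConj z (x : G)}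

theorem rho_mem {x : ↥(Subgroup.centralizer ({z} : Set G))} (hx : x ∈ S.K) : S.rho x ∈ S.M.A := ((S.D.mem_K S.M).1 hx).2

theorem ne_one_of_rho {x : ↥(Subgroup.centralizer ({z} : Set G))} (h : S.rho x ≠ 1) : x ≠ 1 := fun e => h (by rw [e, map_one])

variable [Finite G]

theorem K_inv {x : ↥(Subgroup.centralizer ({z} : Set G))} (hx : x ∈ S.K) : x⁻¹ = x :=
  inv_eq_of_mul_eq_one_right (S.D.K_sq S.M x hx)

theorem K_comm {x y : ↥(Subgroup.centralizer ({z} : Set G))} (hx : x ∈ S.K) (hy : y ∈ S.K) : x * y = y * x :=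
  comm_of_sq (S.D.K_sq S.M x hx) (S.D.K_sq S.M y hy) (S.D.K_sq S.M _ (S.K.mul_mem hx hy))

theorem exists_rho {a : Equiv.Perm Vec} (ha : a ∈ S.M.A) : (S.fib a).Nonempty := by
  obtain ⟨h, hh, e⟩ := S.D.exists_fix S.M ha
  exact ⟨h, hh, e⟩

theorem mul_mem_P0 {x y : ↥(Subgroup.centralizer ({z} : Set G))} (hx : x ∈ S.K) (hy : y ∈ S.K) (h : S.rho x = S.rho y) :
    x * y ∈ S.P0 := by
  show x * y ∈ S.D.P0 S.M
  rw [← S.D.K_inf S.M]
  refine ⟨S.K.mul_mem hx hy, S.D.mem_q ?_⟩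
  rw [map_mul, show S.F.rho x = S.F.rho y from h]
  exact S.M.A_sq _ (S.rho_mem hy)

theorem conj_mem_K {q x : ↥(Subgroup.centralizer ({z} : Set G))} (hq : q ∈ Q) (hx : x ∈ S.K) : q * x * q⁻¹ ∈ S.K := by
  refine S.D.conj_K S.M (fun u hu => ?_) (fun a ha => ?_) hx <;> rw [S.D.rho_q hq]
  · exact hu
  · simpa using ha

omit [Finite G] in
theorem rho_conj {q x : ↥(Subgroup.centralizer ({z} : Set G))} (hq : q ∈ Q) : S.rho (q * x * q⁻¹) = S.rho x := by
  rw [map_mul, map_mul, map_inv, show S.F.rho q = 1 from S.D.rho_q hq]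
  simp

/-- The difference between an element and its conjugate by an element of `Q`. -/
theorem vec_comm {q h : ↥(Subgroup.centralizer ({z} : Set G))} (hq : q ∈ Q) (hh : h ∈ S.K) :
    S.vec (q * h * q⁻¹ * h) = S.rho h (S.vec q) + S.vec q := by
  have e : q * h * q⁻¹ * h = q * (h * q⁻¹ * h⁻¹) := by
    conv_lhs => arg 2; rw [← S.K_inv hh]
    group
  rw [e, S.vec_mul hq ((inferInstance : Q.Normal).conj_mem _ (Q.inv_mem hq) h),
    S.vec_conj h (Q.inv_mem hq), S.vec_inv hq, add_comm]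

theorem comm_mem_P0 {q h : ↥(Subgroup.centralizer ({z} : Set G))} (hq : q ∈ Q) (hh : h ∈ S.K) : q * h * q⁻¹ * h ∈ S.P0 :=
  S.mul_mem_P0 (S.conj_mem_K hq hh) hh (S.rho_conj hq)

theorem fib_eq_image {a : Equiv.Perm Vec} {h : ↥(Subgroup.centralizer ({z} : Set G))} (hh : h ∈ S.fib a) :
    S.fib a = (fun p => p * h) '' (S.P0 : Set ↥(Subgroup.centralizer ({z} : Set G))) := by
  ext x
  constructor
  · rintro ⟨hx, hr⟩
    refine ⟨x * h, S.mul_mem_P0 hx hh.1 (hr.trans hh.2.symm), ?_⟩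
    show x * h * h = x
    rw [mul_assoc, S.D.K_sq S.M h hh.1, mul_one]
  · rintro ⟨p, hp, rfl⟩
    exact ⟨S.K.mul_mem (S.P0_le_K hp) hh.1, by
      rw [map_mul, show S.F.rho p = 1 from S.D.rho_q hp.1, one_mul, ← hh.2]⟩

theorem ncard_fib {a : Equiv.Perm Vec} (ha : a ∈ S.M.A) : (S.fib a).ncard = 128 := by
  obtain ⟨h, hh⟩ := S.exists_rho ha
  rw [S.fib_eq_image hh, Set.ncard_image_of_injective _ (mul_left_injective h),
    ← Nat.card_coe_set_eq]
  exact (S.D.P0_card S.M).trans (by norm_num)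

theorem sixteen_le {a : Equiv.Perm Vec} (ha : a ∈ S.M.A) (h1 : a ≠ 1) {h : ↥(Subgroup.centralizer ({z} : Set G))} (hh : h ∈ S.fib a) :
    16 ≤ ((fun q => q * h * q⁻¹) '' (Q : Set ↥(Subgroup.centralizer ({z} : Set G)))).ncard := by
  rw [← S.P.moved_card a ha h1]
  refine le_trans (Set.ncard_le_ncard ?_ (Set.toFinite _))
    (Set.ncard_image_le (f := fun y => S.vec (y * h)) (Set.toFinite _))
  rintro _ ⟨v, rfl⟩
  obtain ⟨q, hq, rfl⟩ := S.vec_surj v
  refine ⟨_, ⟨q, hq, rfl⟩, ?_⟩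
  show S.vec (q * h * q⁻¹ * h) = a (S.vec q) + S.vec q
  rw [S.vec_comm hq hh.1, hh.2]

/-- The conjugates under `Q` of a lift. -/
theorem orbit_dvd {a : Equiv.Perm Vec} (ha : a ∈ S.M.A) (h1 : a ≠ 1) {h : ↥(Subgroup.centralizer ({z} : Set G))} (hh : h ∈ S.fib a) :
    16 ∣ ((fun q => q * h * q⁻¹) '' (Q : Set ↥(Subgroup.centralizer ({z} : Set G)))).ncard := by
  classical
  let C := (Subgroup.centralizer ({h} : Set ↥(Subgroup.centralizer ({z} : Set G)))).subgroupOf Q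
  let f : Q ⧸ C → ↥(Subgroup.centralizer ({z} : Set G)) := Quotient.lift (fun q : Q => (q : ↥(Subgroup.centralizer ({z} : Set G))) * h * (q : ↥(Subgroup.centralizer ({z} : Set G)))⁻¹) (by
    intro q r hqr
    have hm := QuotientGroup.leftRel_apply.1 hqr
    have e := Subgroup.mem_centralizer_singleton_iff.1 (Subgroup.mem_subgroupOf.1 hm)
    simp only [Subgroup.coe_mul, Subgroup.coe_inv] at e
    calc (q : ↥(Subgroup.centralizer ({z} : Set G))) * h * (q : ↥(Subgroup.centralizer ({z} : Set G)))⁻¹ = (q : ↥(Subgroup.centralizer ({z} : Set G))) * (h * ((q : ↥(Subgroup.centralizer ({z} : Set G)))⁻¹ * r)) * (r : ↥(Subgroup.centralizer ({z} : Set G)))⁻¹ := by group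
      _ = (r : ↥(Subgroup.centralizer ({z} : Set G))) * h * (r : ↥(Subgroup.centralizer ({z} : Set G)))⁻¹ := by rw [← e]; group)
  have hinj : Function.Injective f := by
    intro x y
    refine Quotient.inductionOn₂ x y fun q r e => ?_
    change (q : ↥(Subgroup.centralizer ({z} : Set G))) * h * (q : ↥(Subgroup.centralizer ({z} : Set G)))⁻¹ = (r : ↥(Subgroup.centralizer ({z} : Set G))) * h * (r : ↥(Subgroup.centralizer ({z} : Set G)))⁻¹ at e
    refine Quotient.sound (QuotientGroup.leftRel_apply.2 (Subgroup.mem_subgroupOf.2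
      (Subgroup.mem_centralizer_singleton_iff.2 ?_)))
    simp only [Subgroup.coe_mul, Subgroup.coe_inv]
    calc (q : ↥(Subgroup.centralizer ({z} : Set G)))⁻¹ * r * h = (q : ↥(Subgroup.centralizer ({z} : Set G)))⁻¹ * ((r : ↥(Subgroup.centralizer ({z} : Set G))) * h * (r : ↥(Subgroup.centralizer ({z} : Set G)))⁻¹) * r := by group
      _ = h * ((q : ↥(Subgroup.centralizer ({z} : Set G)))⁻¹ * r) := by rw [← e]; group
  have hr : Set.range f = (fun q => q * h * q⁻¹) '' (Q : Set ↥(Subgroup.centralizer ({z} : Set G))) := by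
    ext y
    constructor
    · rintro ⟨x, rfl⟩
      refine Quotient.inductionOn x fun q => ?_
      exact ⟨q, q.2, rfl⟩
    · rintro ⟨q, hq, rfl⟩
      exact ⟨QuotientGroup.mk ⟨q, hq⟩, rfl⟩
  have hd : Nat.card (Q ⧸ C) ∣ 2 ^ 13 := by
    rw [show (2 : ℕ) ^ 13 = 8192 by norm_num, ← S.D.card_q]
    exact Subgroup.card_quotient_dvd_card C
  have h16 := S.sixteen_le ha h1 hh
  rw [← hr, Set.ncard_range_of_injective hinj] at h16 ⊢
  obtain ⟨k, -, hk⟩ := (Nat.dvd_prime_pow Nat.prime_two).1 hd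
  rw [hk] at h16 ⊢
  have hk4 : 4 ≤ k := by
    by_contra hc
    have : 2 ^ k ≤ 2 ^ 3 := Nat.pow_le_pow_right (by norm_num) (by omega)
    omega
  exact Nat.pow_dvd_pow 2 hk4

theorem sixteen_dvd {a : Equiv.Perm Vec} (ha : a ∈ S.M.A) (h1 : a ≠ 1) (X : Set ↥(Subgroup.centralizer ({z} : Set G)))
    (hX : X ⊆ S.fib a) (hinv : ∀ q ∈ Q, ∀ x ∈ X, q * x * q⁻¹ ∈ X) : 16 ∣ X.ncard := by
  induction hn : X.ncard using Nat.strong_induction_on generalizing X with
  | _ n ih =>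
    rcases X.eq_empty_or_nonempty with e | ⟨h, hh⟩
    · rw [e, Set.ncard_empty] at hn; exact hn ▸ dvd_zero 16
    set O := (fun q => q * h * q⁻¹) '' (Q : Set ↥(Subgroup.centralizer ({z} : Set G))) with hO
    have hsub : O ⊆ X := by rintro _ ⟨q, hq, rfl⟩; exact hinv q hq h hh
    have hOd := S.orbit_dvd ha h1 (hX hh)
    have hsum := Set.ncard_sdiff_add_ncard_of_subset hsub (Set.toFinite X)
    have hne : h ∈ O := ⟨1, Q.one_mem, by simp⟩
    have hpos : 0 < O.ncard := (Set.ncard_pos (Set.toFinite _)).2 ⟨h, hne⟩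
    have := ih (X \ O).ncard (by omega) (X \ O) (Set.sdiff_subset.trans hX) (fun q hq x hx => ⟨hinv q hq x hx.1, ?_⟩) rfl
    · rw [← hn, ← hsum]; exact dvd_add this hOd
    rintro ⟨r, hr, e⟩
    change r * h * r⁻¹ = q * x * q⁻¹ at e
    refine hx.2 ⟨q⁻¹ * r, Q.mul_mem (Q.inv_mem hq) hr, ?_⟩
    calc q⁻¹ * r * h * (q⁻¹ * r)⁻¹ = q⁻¹ * (r * h * r⁻¹) * q := by group
      _ = q⁻¹ * (q * x * q⁻¹) * q := by rw [e]
      _ = x := by group

omit [Q.Normal] [Finite G] in
theorem isConj_conj (g : ↥(Subgroup.centralizer ({z} : Set G))) (x : ↥(Subgroup.centralizer ({z} : Set G))) : IsConj z ((g * x * g⁻¹ : ↥(Subgroup.centralizer ({z} : Set G))) : G) ↔ IsConj z (x : G) := by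
  have h : IsConj (x : G) ((g * x * g⁻¹ : ↥(Subgroup.centralizer ({z} : Set G))) : G) := isConj_iff.2 ⟨g, rfl⟩
  exact ⟨fun e => e.trans h.symm, fun e => e.trans h⟩

/-- A symmetry of the image lifts to one of `K`. -/
theorem lift_sym {n : Equiv.Perm Vec} (hn : n ∈ S.F.rho.range) (hU : ∀ u ∈ S.M.U, n u ∈ S.M.U)
    (hA : ∀ x ∈ S.M.A, n * x * n⁻¹ ∈ S.M.A) : ∃ g : ↥(Subgroup.centralizer ({z} : Set G)), S.rho g = n ∧
      (∀ x ∈ S.K, g * x * g⁻¹ ∈ S.K) ∧ ∀ a, ∀ x ∈ S.fib a, g * x * g⁻¹ ∈ S.fib (n * a * n⁻¹) := by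
  obtain ⟨g, rfl⟩ := hn
  have hc : ∀ x ∈ S.K, g * x * g⁻¹ ∈ S.K := fun x hx => S.D.conj_K S.M hU hA hx
  exact ⟨g, rfl, hc, fun a x hx => ⟨hc x hx.1, by rw [map_mul, map_mul, map_inv, ← hx.2]⟩⟩

/-! ### The lifts of roots -/

theorem conj_iff_root {x : ↥(Subgroup.centralizer ({z} : Set G))} (hx : x ∈ S.P0) (h1 : x ≠ 1) (hz : x ≠ S.zc) :
    IsConj z (x : G) ↔ ¬ IsRoot (S.vec x) := by
  have hx1 : (x : G) ≠ 1 := fun e => h1 (Subtype.ext e)
  have hxz : (x : G) ≠ z := fun e => hz (Subtype.ext (e.trans S.zc_coe.symm))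
  rw [S.vec_eq hx.1]
  constructor
  · intro hc
    obtain ⟨g, hg⟩ := isConj_iff.1 hc
    exact S.N.not_root S.B (a := ⟨x, hx.1⟩) hg hxz
  · intro hr
    obtain ⟨g, a, ha, hne⟩ := S.other
    have ha2 : ((a : ↥(Subgroup.centralizer ({z} : Set G))) : G) * ((a : ↥(Subgroup.centralizer ({z} : Set G))) : G) = 1 := by
      rw [← ha, show g * z * g⁻¹ * (g * z * g⁻¹) = g * (z * z) * g⁻¹ by group, S.B.ci.sq]
      group
    have ha1 : ((a : ↥(Subgroup.centralizer ({z} : Set G))) : G) ≠ 1 := fun e => S.B.ci.ne_one (conj_eq_one_iff.1 (ha.trans e))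
    obtain ⟨h, hh⟩ := S.N.orbit_of_root S.B (b := ⟨x, hx.1⟩) ha1 hne ha2 hx1 hxz
      (congrArg Subtype.val (S.D.P0_sq S.M hx)) (iff_of_false (S.N.not_root S.B ha hne) hr)
    refine (isConj_iff.2 ⟨g, ha⟩).trans (isConj_iff.2 ⟨(h : G), ?_⟩)
    exact congrArg Subtype.val hh

omit [Finite G] in
theorem vec_ne_zero {x : ↥(Subgroup.centralizer ({z} : Set G))} (hx : x ∈ Q) (h1 : x ≠ 1) (hz : x ≠ S.zc) : S.vec x ≠ 0 :=
  fun e => (S.vec_ker hx e).elim h1 hz

omit [Finite G] in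
theorem isConj_zc : IsConj z (S.zc : G) := by rw [S.zc_coe]

/-- The elements of `K` outside the conjugates of `z` in the preimage of the fixed space. -/
theorem pset_P0 : S.pset ∩ (S.P0 : Set ↥(Subgroup.centralizer ({z} : Set G))) = {x | x ∈ S.P0 ∧ IsRoot (S.vec x)} := by
  ext x
  constructor
  · rintro ⟨⟨-, h1, hn⟩, hx⟩
    refine ⟨hx, ?_⟩
    by_contra hr
    exact hn ((S.conj_iff_root hx h1 (fun e => hn (e ▸ S.isConj_zc))).2 hr)
  · rintro ⟨hx, hr⟩
    have h1 : x ≠ 1 := fun e => (root_iso hr).1 (e ▸ S.vec_one)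
    have hz : x ≠ S.zc := fun e => (root_iso hr).1 (e ▸ S.vec_zc)
    exact ⟨⟨S.P0_le_K hx, h1, fun hc => (S.conj_iff_root hx h1 hz).1 hc hr⟩, hx⟩

theorem ncard_root_lifts : (S.pset ∩ (S.P0 : Set ↥(Subgroup.centralizer ({z} : Set G)))).ncard = 36 := by
  classical
  rw [S.pset_P0]
  choose u hu hv using fun i k => S.vec_surj (S.P.w i k)
  let f : (Fin 6 × Fin 3) × Bool → ↥(Subgroup.centralizer ({z} : Set G)) := fun p => bif p.2 then u p.1.1 p.1.2 * S.zc else u p.1.1 p.1.2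
  have hvec : ∀ p, S.vec (f p) = S.P.w p.1.1 p.1.2 ∧ f p ∈ Q := by
    rintro ⟨⟨i, k⟩, b⟩
    cases b
    · exact ⟨hv i k, hu i k⟩
    · refine ⟨?_, Q.mul_mem (hu i k) S.D.z_mem⟩
      show S.vec (u i k * S.zc) = _
      rw [S.vec_mul (hu i k) S.D.z_mem, S.vec_zc, add_zero, hv]
  have e : {x | x ∈ S.P0 ∧ IsRoot (S.vec x)} = Set.range f := by
    ext x
    constructor
    · rintro ⟨hx, hr⟩
      obtain ⟨i, k, hik⟩ := S.P.w_surj _ (S.mem_P0.1 hx).2 hr
      rcases S.vec_inj (S.mem_P0.1 hx).1 (hu i k) (hik.symm.trans (hv i k).symm) with q | q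
      · exact ⟨((i, k), false), q.symm⟩
      · exact ⟨((i, k), true), q.symm⟩
    · rintro ⟨p, rfl⟩
      refine ⟨S.mem_P0.2 ⟨(hvec p).2, ?_⟩, ?_⟩ <;> rw [(hvec p).1]
      · exact S.P.w_mem _ _
      · exact S.P.w_root _ _
  have hinj : Function.Injective f := by
    rintro ⟨⟨i, k⟩, b⟩ ⟨⟨j, l⟩, c⟩ q
    have h := congrArg S.vec q
    rw [(hvec _).1, (hvec _).1] at h
    obtain ⟨rfl, rfl⟩ := S.P.w_inj _ _ _ _ h
    cases b <;> cases c <;> first
      | rfl
      | (exfalso; simp only [f, cond_true, cond_false] at q; exact S.D.z_ne (by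
          first
          | exact left_eq_mul.1 q
          | exact left_eq_mul.1 q.symm))
  rw [e, Set.ncard_range_of_injective hinj, Nat.card_eq_fintype_card, Fintype.card_prod, Fintype.card_prod,
    Fintype.card_fin, Fintype.card_fin, Fintype.card_bool]

/-! ### Sylow subgroups -/

/-- A Sylow 2-subgroup of the centraliser, inside the group. -/
def T0 : Subgroup G := (S.M.P.comap S.rho).map (Subgroup.centralizer ({z} : Set G)).subtype

theorem card_T0 : Nat.card S.T0 = 2 ^ 21 := by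
  have hQT : Q ≤ S.M.P.comap S.rho := fun q hq => by
    rw [Subgroup.mem_comap, show S.F.rho q = 1 from S.D.rho_q hq]; exact S.M.P.one_mem
  rw [T0, Subgroup.card_map_of_injective (Subgroup.centralizer ({z} : Set G)).subtype_injective,
    S.D.card_split, inf_eq_right.2 hQT, S.D.card_q, Subgroup.map_comap_eq, inf_eq_right.2 S.M.P_le,
    S.M.P_card]
  norm_num

include S in
theorem fac_H : (Nat.card ↥(Subgroup.centralizer ({z} : Set G))).factorization 2 = 21 := by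
  have h := S.D.card_split (⊤ : Subgroup ↥(Subgroup.centralizer ({z} : Set G)))
  rw [Subgroup.card_top, top_inf_eq, S.D.card_q, ← MonoidHom.range_eq_map, S.N.card_range,
    S.N.card_Kc] at h
  rw [h, show (2 * 9797760 * 8192 : ℕ) = 2 ^ 21 * 76545 by norm_num,
    Nat.factorization_mul (by norm_num) (by norm_num), Finsupp.add_apply, Nat.factorization_pow,
    Finsupp.smul_apply, Nat.Prime.factorization_self Nat.prime_two,
    Nat.factorization_eq_zero_of_not_dvd (show ¬ 2 ∣ 76545 by norm_num)]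
  norm_num

theorem T0_sylow : ∃ T : Sylow 2 G, (T : Subgroup G) = S.T0 := by
  haveI : Fact (Nat.Prime 2) := ⟨Nat.prime_two⟩
  obtain ⟨T, hT⟩ := (IsPGroup.of_card S.card_T0).exists_le_sylow
  refine ⟨T, le_antisymm ?_ hT⟩
  by_contra hne
  have hlt : S.T0 < (T : Subgroup G) := lt_of_le_not_ge hT hne
  haveI : Group.IsNilpotent ↥(T : Subgroup G) := T.isPGroup'.isNilpotent
  have hprop : S.T0.subgroupOf (T : Subgroup G) < ⊤ := by
    rw [lt_top_iff_ne_top, Ne, Subgroup.subgroupOf_eq_top]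
    exact hne
  obtain ⟨x, hxn, hx⟩ := SetLike.exists_of_lt (normalizerCondition_of_isNilpotent _ hprop)
  have hxn' : ∀ t ∈ S.T0, (x : G) * t * (x : G)⁻¹ ∈ S.T0 := fun t ht => by
    have := (Subgroup.mem_normalizer_iff.1 hxn ⟨t, hT ht⟩).1 (Subgroup.mem_subgroupOf.2 ht)
    exact Subgroup.mem_subgroupOf.1 this
  have hQ0 : ∀ q ∈ Q, (q : G) ∈ S.T0 := fun q hq => ⟨q, by
    rw [SetLike.mem_coe, Subgroup.mem_comap, show S.F.rho q = 1 from S.D.rho_q hq]
    exact S.M.P.one_mem, rfl⟩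
  have hz0 : z ∈ S.T0 := by
    have := hQ0 _ S.D.z_mem
    rwa [S.zc_coe] at this
  have hTH : S.T0 ≤ Subgroup.centralizer ({z} : Set G) := Subgroup.map_subtype_le _
  -- the image of `z` is central in `T0`
  have hc : ∀ q ∈ QG Q, (x : G) * z * (x : G)⁻¹ * q = q * ((x : G) * z * (x : G)⁻¹) := by
    rintro _ ⟨q, hq, rfl⟩
    have hback : ∀ t ∈ S.T0, (x : G)⁻¹ * t * x ∈ S.T0 := fun t ht => by
      have := (Subgroup.mem_normalizer_iff.1 (Subgroup.inv_mem _ hxn) ⟨t, hT ht⟩).1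
        (Subgroup.mem_subgroupOf.2 ht)
      simpa [Subgroup.mem_subgroupOf] using this
    have h1 := Subgroup.mem_centralizer_singleton_iff.1 (hTH (hback _ (hQ0 q hq)))
    calc (x : G) * z * (x : G)⁻¹ * (q : G) = (x : G) * (z * ((x : G)⁻¹ * q * x)) * (x : G)⁻¹ := by group
      _ = (q : G) * ((x : G) * z * (x : G)⁻¹) := by rw [← h1]; group
  have hmem : (x : G) * z * (x : G)⁻¹ ∈ Subgroup.zpowers z := by
    rw [← S.B.self, Subgroup.mem_centralizer_iff]
    exact fun q hq => (hc q hq).symm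
  obtain ⟨k, hk⟩ := Subgroup.mem_zpowers_iff.1 hmem
  have hne1 : (x : G) * z * (x : G)⁻¹ ≠ 1 := fun e => S.B.ci.ne_one (conj_eq_one_iff.1 e)
  have hxz : (x : G) * z * (x : G)⁻¹ = z := by
    have hzz : z ^ (2 : ℤ) = 1 := by rw [zpow_two, S.B.ci.sq]
    rcases Int.even_or_odd' k with ⟨j, rfl | rfl⟩
    · rw [← hk, zpow_mul, hzz, one_zpow] at hne1; exact absurd rfl hne1
    · rw [← hk, zpow_add, zpow_mul, hzz, one_zpow, one_mul, zpow_one]
  have hxH : (x : G) ∈ Subgroup.centralizer ({z} : Set G) :=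
    Subgroup.mem_centralizer_singleton_iff.2 (mul_inv_eq_iff_eq_mul.1 hxz)
  -- a larger 2-subgroup of the centraliser
  have hp : IsPGroup 2 ↥((T : Subgroup G).subgroupOf (Subgroup.centralizer ({z} : Set G))) :=
    T.isPGroup'.comap_of_injective _ (Subgroup.centralizer ({z} : Set G)).subtype_injective
  obtain ⟨n, hn⟩ := hp.exists_card_eq
  have hsub : S.M.P.comap S.rho < (T : Subgroup G).subgroupOf (Subgroup.centralizer ({z} : Set G)) := by
    refine lt_of_le_of_ne (fun t ht => hT ⟨t, ht, rfl⟩) fun e => hx (Subgroup.mem_subgroupOf.2 ?_)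
    exact ⟨⟨x, hxH⟩, e ▸ Subgroup.mem_subgroupOf.2 x.2, rfl⟩
  have h21 : 2 ^ 21 < 2 ^ n := by
    rw [← hn, ← S.card_T0, T0,
      Subgroup.card_map_of_injective (Subgroup.centralizer ({z} : Set G)).subtype_injective]
    exact Set.ncard_lt_ncard hsub (Set.toFinite _) |>.trans_le' (le_of_eq (Nat.card_coe_set_eq _).symm)
      |>.trans_le (le_of_eq (Nat.card_coe_set_eq _))
  have hd : 2 ^ n ∣ Nat.card ↥(Subgroup.centralizer ({z} : Set G)) := hn ▸ Subgroup.card_subgroup_dvd_card _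
  rw [Nat.prime_two.pow_dvd_iff_le_factorization Nat.card_pos.ne', S.fac_H] at hd
  have : 2 ^ n ≤ 2 ^ 21 := Nat.pow_le_pow_right (by norm_num) hd
  omega

theorem KG_elem : IsElementaryAbelian 2 S.KG :=
  elementary_map _ ⟨⟨⟨fun u v => Subtype.ext (S.K_comm u.2 v.2)⟩⟩,
    fun a ha => by rw [pow_two]; exact S.D.K_sq S.M a ha⟩

theorem KG_card : Nat.card S.KG = 2 ^ 11 := by
  rw [Subgroup.card_map_of_injective (Subgroup.centralizer ({z} : Set G)).subtype_injective,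
    S.D.K_card S.M]

theorem KG_le_T0 : S.KG ≤ S.T0 := Subgroup.map_mono fun _ hk => S.M.A_le (S.rho_mem hk)

theorem T0_max {B : Subgroup G} (hB : B ≤ S.T0) (hel : IsElementaryAbelian 2 B) :
    Nat.card B ≤ 2 ^ 11 ∧ (Nat.card B = 2 ^ 11 → B = S.KG) := by
  set B' := B.subgroupOf (Subgroup.centralizer ({z} : Set G))
  have hBH : B ≤ Subgroup.centralizer ({z} : Set G) := hB.trans (Subgroup.map_subtype_le _)
  have e : B'.map (Subgroup.centralizer ({z} : Set G)).subtype = B := Subgroup.map_subgroupOf_eq_of_le hBH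
  have hel' : IsElementaryAbelian 2 B' := elementary_of_map _
    (Subgroup.centralizer ({z} : Set G)).subtype_injective (e.symm ▸ hel)
  have hle : B' ≤ S.M.P.comap S.rho := by
    intro b hb
    obtain ⟨c, hc, hcb⟩ := hB (Subgroup.mem_subgroupOf.1 hb)
    rwa [← Subtype.ext (hcb : (c : G) = b)]
  obtain ⟨h1, h2⟩ := S.D.bound S.M B' hle hel'
  have hcard : Nat.card B = Nat.card B' := by
    rw [← e, Subgroup.card_map_of_injective (Subgroup.centralizer ({z} : Set G)).subtype_injective]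
  exact ⟨hcard ▸ h1, fun h => by rw [← e, h2 (hcard.symm.trans h)]⟩

omit [Q.Normal] [Finite G] in
theorem elementary_conj {g : G} {B : Subgroup G} (h : IsElementaryAbelian 2 B) :
    IsElementaryAbelian 2 (B.map (MulAut.conj g).toMonoidHom) := elementary_map _ h

omit [Q.Normal] [Finite G] in
theorem map_conj_conj (g g' : G) (B : Subgroup G) :
    (B.map (MulAut.conj g).toMonoidHom).map (MulAut.conj g').toMonoidHom =
      B.map (MulAut.conj (g' * g)).toMonoidHom := by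
  rw [Subgroup.map_map]
  congr 1
  ext x
  simp [MulAut.conj_apply, mul_assoc]

omit [Q.Normal] [Finite G] in
theorem map_conj_one (B : Subgroup G) : B.map (MulAut.conj (1 : G)).toMonoidHom = B := by
  convert Subgroup.map_id B
  ext x
  simp

/-- `K` is the only elementary abelian subgroup of its order in any 2-subgroup containing it. -/
theorem unique_in {T : Subgroup G} (hT : IsPGroup 2 T) (hK : S.KG ≤ T) {B : Subgroup G} (hB : B ≤ T)
    (hel : IsElementaryAbelian 2 B) : Nat.card B ≤ 2 ^ 11 ∧ (Nat.card B = 2 ^ 11 → B = S.KG) := by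
  haveI : Fact (Nat.Prime 2) := ⟨Nat.prime_two⟩
  obtain ⟨T1, hT1⟩ := hT.exists_le_sylow
  obtain ⟨T0, hT0⟩ := S.T0_sylow
  obtain ⟨g, hg⟩ := MulAction.exists_smul_eq G T1 T0
  have hmap : ∀ C : Subgroup G, C ≤ T → C.map (MulAut.conj g).toMonoidHom ≤ S.T0 := by
    intro C hC
    rw [← hT0, ← hg]
    exact (Subgroup.map_mono (hC.trans hT1)).trans (le_of_eq rfl)
  have hcard : ∀ C : Subgroup G, Nat.card (C.map (MulAut.conj g).toMonoidHom) = Nat.card C :=
    fun C => Subgroup.card_map_of_injective (MulAut.conj g).injective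
  obtain ⟨h1, h2⟩ := S.T0_max (hmap B hB) (elementary_conj hel)
  have hK' := (S.T0_max (hmap _ hK) (elementary_conj S.KG_elem)).2 ((hcard _).trans S.KG_card)
  rw [hcard] at h1 h2
  refine ⟨h1, fun h => ?_⟩
  have e := (h2 h).trans hK'.symm
  exact Subgroup.map_injective (MulAut.conj g).injective e

/-- Elements of `K` conjugate in the group are conjugate in the normaliser. -/
theorem fusion {a : G} (ha : a ∈ S.KG) {g : G} (hg : g * a * g⁻¹ ∈ S.KG) :
    ∃ m ∈ Subgroup.normalizer (S.KG : Set G), m * a * m⁻¹ = g * a * g⁻¹ := by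
  haveI : Fact (Nat.Prime 2) := ⟨Nat.prime_two⟩
  set C := Subgroup.centralizer ({a} : Set G) with hC
  set K' := S.KG.map (MulAut.conj g⁻¹).toMonoidHom with hK'
  have h1 : S.KG ≤ C := fun x hx => Subgroup.mem_centralizer_singleton_iff.2
    (congrArg Subtype.val (S.KG_elem.1.is_comm.comm ⟨x, hx⟩ ⟨a, ha⟩))
  have h2 : K' ≤ C := by
    rintro _ ⟨x, hx, rfl⟩
    refine Subgroup.mem_centralizer_singleton_iff.2 ?_
    have h := congrArg Subtype.val (S.KG_elem.1.is_comm.comm ⟨x, hx⟩ ⟨_, hg⟩)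
    simp only [Subgroup.coe_mul] at h
    show g⁻¹ * x * (g⁻¹)⁻¹ * a = a * (g⁻¹ * x * (g⁻¹)⁻¹)
    calc g⁻¹ * x * (g⁻¹)⁻¹ * a = g⁻¹ * (x * (g * a * g⁻¹)) * g := by group
      _ = a * (g⁻¹ * x * (g⁻¹)⁻¹) := by rw [h]; group
  have hp : ∀ U : Subgroup G, IsElementaryAbelian 2 U → IsPGroup 2 ↥(U.subgroupOf C) := fun U hU =>
    (isPGroup_of_elementary hU).comap_of_injective _ C.subtype_injective
  obtain ⟨T1, hT1⟩ := (hp _ S.KG_elem).exists_le_sylow
  obtain ⟨T2, hT2⟩ := (hp K' (elementary_conj S.KG_elem)).exists_le_sylow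
  obtain ⟨c, hc⟩ := MulAction.exists_smul_eq ↥C T2 T1
  set TT := (T1 : Subgroup ↥C).map C.subtype with hTT
  have hTTp : IsPGroup 2 TT := T1.isPGroup'.map _
  have hK1 : S.KG ≤ TT := fun x hx => ⟨⟨x, h1 hx⟩, hT1 (Subgroup.mem_subgroupOf.2 hx), rfl⟩
  have hle : K'.map (MulAut.conj (c : G)).toMonoidHom ≤ TT := by
    rintro _ ⟨x, hx, rfl⟩
    refine ⟨c * ⟨x, h2 hx⟩ * c⁻¹, ?_, rfl⟩
    rw [← hc]
    exact ⟨⟨x, h2 hx⟩, hT2 (Subgroup.mem_subgroupOf.2 hx), rfl⟩
  have heq := (S.unique_in hTTp hK1 hle (elementary_conj (elementary_conj S.KG_elem))).2 (by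
    rw [Subgroup.card_map_of_injective (MulAut.conj (c : G)).injective, hK',
      Subgroup.card_map_of_injective (MulAut.conj g⁻¹).injective, S.KG_card])
  rw [hK', map_conj_conj] at heq
  set d := (c : G) * g⁻¹ with hd
  have hdn : d ∈ Subgroup.normalizer (S.KG : Set G) := by
    rw [Subgroup.mem_normalizer_iff]
    intro x
    constructor
    · intro hx; exact heq ▸ (⟨x, hx, rfl⟩ : _ ∈ S.KG.map (MulAut.conj d).toMonoidHom)
    · intro hx
      rw [← SetLike.mem_coe, ← heq] at hx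
      obtain ⟨y, hy, he⟩ := hx
      have : y = x := (MulAut.conj d).injective (show d * y * d⁻¹ = d * x * d⁻¹ from he)
      exact this ▸ hy
  refine ⟨d⁻¹, Subgroup.inv_mem _ hdn, ?_⟩
  have hca := Subgroup.mem_centralizer_singleton_iff.1 (Subgroup.inv_mem C c.2)
  rw [hd]
  calc ((c : G) * g⁻¹)⁻¹ * a * (((c : G) * g⁻¹)⁻¹)⁻¹ = g * ((c : G)⁻¹ * a) * (c : G) * g⁻¹ := by group
    _ = g * a * g⁻¹ := by rw [hca]; group

/-! ### Self-centralisation -/

/-- An element centralising the preimage of the fixed space acts as an involution. -/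
theorem centralizer_facts {g : ↥(Subgroup.centralizer ({z} : Set G))} (hg : ∀ p ∈ S.P0, p * g = g * p) :
    (∀ u ∈ S.M.U, S.rho g u = u) ∧ S.rho g * S.rho g = 1 := by
  have hfix : ∀ u ∈ S.M.U, S.rho g u = u := by
    intro u hu
    obtain ⟨p, hp, rfl⟩ := S.vec_surj u
    rw [← S.vec_conj g hp, ← hg p (S.mem_P0.2 ⟨hp, hu⟩), mul_inv_cancel_right]
  refine ⟨hfix, Equiv.ext fun v => ?_⟩
  obtain ⟨q, hq, rfl⟩ := S.vec_surj v
  have hmem : q⁻¹ * (g * q * g⁻¹) ∈ Q :=
    Q.mul_mem (Q.inv_mem hq) ((inferInstance : Q.Normal).conj_mem _ hq g)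
  have hu : S.vec (q⁻¹ * (g * q * g⁻¹)) ∈ S.M.U := by
    refine S.M.U_perp _ fun u hu => ?_
    obtain ⟨p, hp, rfl⟩ := S.vec_surj u
    refine (S.comm_iff hmem (S.mem_P0.2 ⟨hp, hu⟩)).1 (mul_inv_eq_iff_eq_mul.1 ?_)
    have hp0 := S.mem_P0.2 ⟨hp, hu⟩
    have hzg : g * S.zc * g⁻¹ = S.zc := by rw [S.D.z_central, mul_inv_cancel_right]
    have hgp : g⁻¹ * p * g = p := by rw [mul_assoc, hg p hp0, inv_mul_cancel_left]
    have hgp' : g * p * g⁻¹ = p := by rw [← hg p hp0, mul_inv_cancel_right]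
    have hconjp : g * (q * p * q⁻¹) * g⁻¹ = q * p * q⁻¹ := by
      rcases S.conj_P0_eq hq hp0 with e | e <;> rw [e]
      · exact hgp'
      · rw [show g * (p * S.zc) * g⁻¹ = g * p * g⁻¹ * (g * S.zc * g⁻¹) by group, hzg, hgp']
    calc q⁻¹ * (g * q * g⁻¹) * p * (q⁻¹ * (g * q * g⁻¹))⁻¹
        = q⁻¹ * (g * (q * (g⁻¹ * p * g) * q⁻¹) * g⁻¹) * q := by group
      _ = q⁻¹ * (q * p * q⁻¹) * q := by rw [hgp, hconjp]
      _ = p := by group
  have h1 := hfix _ hu
  rw [S.vec_mul (Q.inv_mem hq) ((inferInstance : Q.Normal).conj_mem _ hq g), S.vec_inv hq,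
    S.vec_conj g hq, S.D.rho_add] at h1
  show S.rho g (S.rho g (S.vec q)) = S.vec q
  have h2 := congrArg (fun w => S.rho g (S.vec q) + w) h1
  simp only [← add_assoc, vec_self, zero_add] at h2
  rw [add_comm (S.rho g (S.vec q)) (S.vec q), add_assoc, vec_self, add_zero] at h2
  exact h2

theorem centralizer_P0 {h : ↥(Subgroup.centralizer ({z} : Set G))} (hh : ∀ p ∈ S.P0, p * h = h * p) : h ∈ S.K := by
  haveI : Fact (Nat.Prime 2) := ⟨Nat.prime_two⟩
  refine (S.D.mem_K S.M).2 ⟨hh, ?_⟩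
  set R := S.F.rho.range with hR
  obtain ⟨hfixh, hsq⟩ := S.centralizer_facts hh
  -- the image lies in the chosen group
  by_contra hnA
  have hA : S.M.A ≤ R := S.M.A_le.trans S.M.P_le
  set b := S.rho h with hb
  have hbA : ∀ a ∈ S.M.A, b * a = a * b := by
    intro a ha
    obtain ⟨k, hk, rfl⟩ := S.D.exists_fix S.M ha
    have hk' : ∀ p ∈ S.P0, p * (h * k) = h * k * p := fun p hp => by
      rw [← mul_assoc, hh p hp, mul_assoc, ((S.D.mem_K S.M).1 hk).1 p hp, ← mul_assoc]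
    -- both products square to one
    have hsq' := (S.centralizer_facts hk').2
    rw [map_mul] at hsq'
    exact comm_of_sq hsq (S.M.A_sq _ ((S.D.mem_K S.M).1 hk).2) hsq'
  -- the group generated by the element and the chosen group
  set L := S.M.A ⊔ Subgroup.zpowers b with hL
  have hnorm : Subgroup.zpowers b ≤ Subgroup.normalizer (S.M.A : Set (Equiv.Perm Vec)) := by
    refine Subgroup.zpowers_le.2 (Subgroup.mem_normalizer_iff.2 fun a => ?_)
    constructor
    · intro ha; rw [hbA a ha, mul_inv_cancel_right]; exact ha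
    · intro ha
      have h3 := hbA _ ha
      have : b * a * b⁻¹ = a := by
        have h4 : b⁻¹ = b := inv_eq_of_mul_eq_one_right hsq
        calc b * a * b⁻¹ = b * (b * a * b⁻¹) * b⁻¹ := by rw [h3]; group
          _ = a := by rw [h4, ← mul_assoc, ← mul_assoc, hsq, one_mul, mul_assoc, hsq, mul_one]
      exact this ▸ ha
  have h2 : IsPGroup 2 ↥(Subgroup.zpowers b) := by
    refine IsPGroup.of_card (n := if b = 1 then 0 else 1) ?_
    rw [Nat.card_zpowers]
    split_ifs with e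
    · rw [e, orderOf_one, pow_zero]
    · rw [pow_one]; exact orderOf_eq_prime (by rw [pow_two, hsq]) e
  have hLp : IsPGroup 2 L :=
    IsPGroup.to_sup_of_normal_left' (IsPGroup.of_card (n := 4) (by rw [S.M.A_card]; norm_num)) h2 hnorm
  have hLR : L ≤ R := sup_le hA (Subgroup.zpowers_le.2 ⟨h, rfl⟩)
  have hpR : IsPGroup 2 ↥(L.subgroupOf R) := hLp.comap_of_injective _ R.subtype_injective
  obtain ⟨T1, hT1⟩ := hpR.exists_le_sylow
  have hPp : IsPGroup 2 ↥(S.M.P.subgroupOf R) :=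
    (IsPGroup.of_card (n := 8) (by rw [S.M.P_card]; norm_num)).comap_of_injective _ R.subtype_injective
  obtain ⟨T2, hT2⟩ := hPp.exists_le_sylow
  have hT2e : (T2 : Subgroup R) = S.M.P.subgroupOf R := by
    refine (Subgroup.eq_of_le_of_card_ge hT2 ?_).symm
    rw [Nat.card_congr (Subgroup.subgroupOfEquivOfLe S.M.P_le).toEquiv, S.M.P_card,
      Sylow.card_eq_multiplicity, show Nat.card R = 2 ^ 8 * 76545 by
        rw [hR, S.N.card_range, S.N.card_Kc]; norm_num,
      Nat.factorization_mul (by norm_num) (by norm_num), Finsupp.add_apply, Nat.factorization_pow,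
      Finsupp.smul_apply, Nat.Prime.factorization_self Nat.prime_two,
      Nat.factorization_eq_zero_of_not_dvd (show ¬ 2 ∣ 76545 by norm_num)]
    norm_num
  obtain ⟨g, hg⟩ := MulAction.exists_smul_eq R T1 T2
  set n := (g : Equiv.Perm Vec) with hn
  have hmapP : L.map (MulAut.conj n).toMonoidHom ≤ S.M.P := by
    rintro _ ⟨x, hx, rfl⟩
    have hm : g * ⟨x, hLR hx⟩ * g⁻¹ ∈ S.M.P.subgroupOf R := by
      rw [← hT2e, ← hg]
      exact ⟨⟨x, hLR hx⟩, hT1 (Subgroup.mem_subgroupOf.2 hx), rfl⟩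
    exact Subgroup.mem_subgroupOf.1 hm
  have hfixU : ∀ x ∈ L, ∀ u ∈ S.M.U, x u = u := by
    intro x hx u hu
    have hle : L ≤ MulAction.stabilizer (Equiv.Perm Vec) u := sup_le
      (fun a ha => MulAction.mem_stabilizer_iff.2 ((S.M.U_fix u).2 hu a ha))
      (Subgroup.zpowers_le.2 (MulAction.mem_stabilizer_iff.2 (hfixh u hu)))
    exact MulAction.mem_stabilizer_iff.1 (hle hx)
  have hbig : ∀ Bs : Subgroup (Equiv.Perm Vec), Bs ≤ L.map (MulAut.conj n).toMonoidHom →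
      64 ≤ {v : Vec | ∀ x ∈ Bs, x v = v}.ncard := by
    intro Bs hBs
    rw [← S.M.U_card, ← Set.ncard_image_of_injective S.M.U n.injective]
    refine Set.ncard_le_ncard ?_ (Set.toFinite _)
    rintro _ ⟨u, hu, rfl⟩ x hx
    obtain ⟨y, hy, rfl⟩ := hBs hx
    show n (y (n⁻¹ (n u))) = n u
    rw [show n⁻¹ (n u) = u from n.symm_apply_apply u, hfixU y hy u hu]
  have hsqA : ∀ C : Subgroup (Equiv.Perm Vec), C ≤ S.M.P → Nat.card C = 16 → (∀ x ∈ C, x * x = 1) →
      C ≤ L.map (MulAut.conj n).toMonoidHom → C = S.M.A := fun C hC hc hs hl =>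
    (S.M.unique C hC hc hs).resolve_right fun q => by have := hbig C hl; omega
  have hnA' : S.M.A.map (MulAut.conj n).toMonoidHom = S.M.A := by
    refine hsqA _ ((Subgroup.map_mono le_sup_left).trans hmapP)
      (by rw [Subgroup.card_map_of_injective (MulAut.conj n).injective, S.M.A_card]) ?_
      (Subgroup.map_mono le_sup_left)
    rintro _ ⟨x, hx, rfl⟩
    rw [← map_mul, S.M.A_sq x hx, map_one]
  -- a second group of order 16
  set b' := n * b * n⁻¹ with hb'
  have hb'L : b' ∈ L.map (MulAut.conj n).toMonoidHom :=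
    ⟨b, Subgroup.mem_sup_right (Subgroup.mem_zpowers b), rfl⟩
  have hb'A : b' ∉ S.M.A := by
    rw [← hnA']
    rintro ⟨x, hx, e⟩
    exact hnA ((MulAut.conj n).injective (show n * x * n⁻¹ = n * b * n⁻¹ from e) ▸ hx)
  have hb'2 : b' * b' = 1 := by
    rw [hb', show n * b * n⁻¹ * (n * b * n⁻¹) = n * (b * b) * n⁻¹ by group, hsq]; group
  have hb'c : ∀ a ∈ S.M.A, b' * a = a * b' := by
    rw [← hnA']
    rintro _ ⟨x, hx, rfl⟩
    show n * b * n⁻¹ * (n * x * n⁻¹) = n * x * n⁻¹ * (n * b * n⁻¹)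
    rw [show n * b * n⁻¹ * (n * x * n⁻¹) = n * (b * x) * n⁻¹ by group, hbA x hx]; group
  obtain ⟨A3, hA3⟩ := Sylow.exists_subgroup_card_pow_prime 2 (G := ↥S.M.A) (n := 3)
    (by rw [S.M.A_card]; norm_num)
  set C3 := A3.map S.M.A.subtype with hC3
  have hC3le : C3 ≤ S.M.A := Subgroup.map_subtype_le _
  have hswap : ∀ x, b' * x ∈ C3 → x = b' * x * b' := fun x hx => by
    rw [← hb'c _ (hC3le hx), ← mul_assoc, hb'2, one_mul]
  have hsqC : ∀ x, (x ∈ C3 ∨ b' * x ∈ C3) → x * x = 1 := by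
    rintro x (hx | hx)
    · exact S.M.A_sq x (hC3le hx)
    · calc x * x = (b' * x * b') * x := by rw [← hswap x hx]
        _ = b' * x * (b' * x) := by rw [mul_assoc (b' * x)]
        _ = 1 := S.M.A_sq _ (hC3le hx)
  let C : Subgroup (Equiv.Perm Vec) :=
    { carrier := {x | x ∈ C3 ∨ b' * x ∈ C3}
      one_mem' := Or.inl C3.one_mem
      mul_mem' := by
        intro x y hx hy
        rcases hx with hx | hx <;> rcases hy with hy | hy
        · exact Or.inl (C3.mul_mem hx hy)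
        · refine Or.inr ?_
          rw [← mul_assoc, hb'c x (hC3le hx), mul_assoc]
          exact C3.mul_mem hx hy
        · refine Or.inr ?_
          rw [← mul_assoc]
          exact C3.mul_mem hx hy
        · refine Or.inl ?_
          have e : x * y = b' * x * (b' * y) := by
            conv_lhs => rw [hswap x hx, mul_assoc (b' * x)]
          rw [e]
          exact C3.mul_mem hx hy
      inv_mem' := by
        intro x hx
        rw [inv_eq_of_mul_eq_one_right (hsqC x hx)]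
        exact hx }
  have hCset : (C : Set (Equiv.Perm Vec)) = (C3 : Set (Equiv.Perm Vec)) ∪
      (fun x => b' * x) '' (C3 : Set (Equiv.Perm Vec)) := by
    ext x
    refine or_congr Iff.rfl ⟨fun h => ⟨_, h, by show b' * (b' * x) = x; rw [← mul_assoc, hb'2, one_mul]⟩, ?_⟩
    rintro ⟨y, hy, rfl⟩
    show b' * (b' * y) ∈ C3
    rw [← mul_assoc, hb'2, one_mul]
    exact hy
  have hC16 : Nat.card C = 16 := by
    rw [show Nat.card C = (C : Set (Equiv.Perm Vec)).ncard from Nat.card_coe_set_eq _, hCset,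
      Set.ncard_union_eq ?_ (Set.toFinite _) (Set.toFinite _),
      Set.ncard_image_of_injective _ (mul_right_injective b'), ← Nat.card_coe_set_eq]
    · show Nat.card C3 + Nat.card C3 = 16
      rw [hC3, Subgroup.card_map_of_injective S.M.A.subtype_injective, hA3]
      norm_num
    · rw [Set.disjoint_left]
      rintro _ hx ⟨y, hy, rfl⟩
      have := S.M.A.mul_mem (hC3le hx) (S.M.A.inv_mem (hC3le hy))
      rw [mul_inv_cancel_right] at this
      exact hb'A this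
  have hCle : C ≤ L.map (MulAut.conj n).toMonoidHom := by
    have hA' : C3 ≤ L.map (MulAut.conj n).toMonoidHom :=
      hC3le.trans (hnA' ▸ Subgroup.map_mono le_sup_left)
    rintro x (hx | hx)
    · exact hA' hx
    · have := Subgroup.mul_mem _ hb'L (hA' hx)
      rwa [← mul_assoc, hb'2, one_mul] at this
  refine hb'A ((hsqA C (hCle.trans hmapP) hC16 ?_ hCle) ▸ ?_)
  · exact fun x hx => hsqC x hx
  · exact Or.inr (by rw [hb'2]; exact C3.one_mem)

end Setup

end Cfsg.Agent.LargeFischer.Mat
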