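import Cfsg.Agent.LargeFischer.MatStars

/-!
The elements not conjugate to the central involution correspond to the pairs of 24 points, two of
them having such a product exactly when the pairs meet, and then the product is the third pair.
-/

set_option autoImplicit false

namespace Cfsg.Agent.LargeFischer.Mat

open Cfsg
open Cfsg.Agent.GFour25
open Cfsg.Agent.SporB.FischerU (Vec)
open Cfsg.Agent.TTClass
open Thompson MatFine

/-- The twenty-four points: a line and a triple of lifts on it. -/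
abbrev Point : Type := Fin 6 × (Bool × Bool)

theorem agree_comm : ∀ s t : Bool × Bool, s ≠ t → agree s t = agree t s := by decide

theorem other_agree : ∀ s t : Bool × Bool, s ≠ t → otherStar t (agree s t) = s := by decide

theorem triple_agree : ∀ s t u : Bool × Bool, s ≠ t → t ≠ u → s ≠ u →
    agree s t ≠ agree t u ∧ agree s t ≠ agree s u := by decide

theorem triple_agree' : ∀ s t u : Bool × Bool, s ≠ t → t ≠ u → s ≠ u →
    agree t u ≠ agree s u := by decide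

theorem triple_bit : ∀ s t u : Bool × Bool, s ≠ t → t ≠ u → s ≠ u →
    (!(xor (bit s (agree s t)) (bit t (agree t u)))) = bit s (agree s u) := by decide

theorem card_others : ∀ k : Fin 3,
    ((Finset.univ : Finset (Fin 3 × Bool)).filter fun p => p.1 ≠ k).card = 4 := by decide

theorem card_stars : ∀ (k : Fin 3) (e : Bool),
    ((Finset.univ : Finset (Bool × Bool)).filter fun s => bit s k = e).card = 2 := by decide

theorem pair_cards : ∀ i j : Fin 6, i ≠ j →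
    ((Finset.univ : Finset (Fin 6 × Fin 6)).filter fun p => p.1 < p.2 ∧
      ((p.1 = i ∧ p.2 = j) ∨ (p.1 = j ∧ p.2 = i))).card = 1 ∧
    ((Finset.univ : Finset (Fin 6 × Fin 6)).filter fun p => p.1 < p.2 ∧
      ¬((p.1 = i ∧ p.2 = j) ∨ (p.1 = j ∧ p.2 = i)) ∧ (p.1 = i ∨ p.1 = j ∨ p.2 = i ∨ p.2 = j)).card = 8 ∧
    ((Finset.univ : Finset (Fin 6 × Fin 6)).filter fun p => p.1 < p.2 ∧
      ¬((p.1 = i ∧ p.2 = j) ∨ (p.1 = j ∧ p.2 = i)) ∧ ¬(p.1 = i ∨ p.1 = j ∨ p.2 = i ∨ p.2 = j)).card = 6 := by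
  decide

theorem line_pairs : ∀ i : Fin 6,
    ((Finset.univ : Finset (Fin 6 × Fin 6)).filter fun p => p.1 < p.2 ∧ (p.1 = i ∨ p.2 = i)).card = 5 := by
  decide

theorem exists_fourth : ∀ i j k : Fin 6, ∃ l, l ≠ i ∧ l ≠ j ∧ l ≠ k := by decide

/-- The ordered pairs standing for the fifteen involutions. -/
def pairsSix : Finset (Fin 6 × Fin 6) := Finset.univ.filter fun p => p.1 < p.2

theorem ncard_fibres {α β ι : Type*} [Finite α] (X : Set α) (r : α → β) (b0 : β) (I : Finset ι) (g : ι → β)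
    (h0 : ∀ i ∈ I, g i ≠ b0) (hg : ∀ i ∈ I, ∀ j ∈ I, g i = g j → i = j)
    (hX : ∀ x ∈ X, r x = b0 ∨ ∃ i ∈ I, r x = g i) :
    X.ncard = {x | x ∈ X ∧ r x = b0}.ncard + ∑ i ∈ I, {x | x ∈ X ∧ r x = g i}.ncard := by
  classical
  have h1 : b0 ∉ I.image g := by
    rw [Finset.mem_image]
    rintro ⟨i, hi, e⟩
    exact h0 i hi e
  have hfib := Finset.card_eq_sum_card_fiberwise (f := r) (s := X.toFinite.toFinset)
    (t := insert b0 (I.image g)) (fun x hx => by
      rw [Finset.mem_coe, Set.Finite.mem_toFinset] at hx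
      rw [Finset.mem_coe, Finset.mem_insert, Finset.mem_image]
      exact (hX x hx).imp id fun ⟨i, hi, e⟩ => ⟨i, hi, e.symm⟩)
  have he : ∀ b, (X.toFinite.toFinset.filter fun x => r x = b).card = {x | x ∈ X ∧ r x = b}.ncard := by
    intro b
    rw [← Set.ncard_coe_finset]
    congr 1
    ext x
    simp
  rw [← Set.ncard_eq_toFinset_card _ _] at hfib
  rw [hfib, Finset.sum_congr rfl (fun a _ => he a), Finset.sum_insert h1, Finset.sum_image hg]

variable {G : Type*} [Group G] [Finite G] {z : G}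
  {Q : Subgroup (Subgroup.centralizer ({z} : Set G))} [Q.Normal]

namespace Setup

variable (S : Setup z Q)

/-- The element with given triples. -/
noncomputable def cross (i j : Fin 6) (s t : Bool × Bool) : ↥(Subgroup.centralizer ({z} : Set G)) :=
  Classical.epsilon fun h => h ∈ S.pcl i j ∧ S.Inc i s h ∧ S.Inc j t h

theorem cross_spec {i j : Fin 6} (hij : i ≠ j) (s t : Bool × Bool) :
    S.cross i j s t ∈ S.pcl i j ∧ S.Inc i s (S.cross i j s t) ∧ S.Inc j t (S.cross i j s t) :=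
  Classical.epsilon_spec (p := fun h => h ∈ S.pcl i j ∧ S.Inc i s h ∧ S.Inc j t h)
    (by obtain ⟨h, h1, h2, h3⟩ := S.exists_cross hij s t; exact ⟨h, h1, h2, h3⟩)

theorem cross_eq {i j : Fin 6} (hij : i ≠ j) {s t : Bool × Bool}
    {h : ↥(Subgroup.centralizer ({z} : Set G))} (hh : h ∈ S.pcl i j) (hs : S.Inc i s h)
    (ht : S.Inc j t h) : S.cross i j s t = h :=
  S.inc_inj hij hh (S.cross_spec hij s t).1 hs (S.cross_spec hij s t).2.1 ht (S.cross_spec hij s t).2.2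

theorem inc_eq {i j : Fin 6} (hij : i ≠ j) {h : ↥(Subgroup.centralizer ({z} : Set G))}
    (hh : h ∈ S.pcl i j) {s t : Bool × Bool} (hs : S.Inc i s h) (ht : S.Inc i t h) : s = t :=
  (S.exists_inc hij hh).unique hs ht

/-- The element of a pair of points. -/
noncomputable def el (p q : Point) : ↥(Subgroup.centralizer ({z} : Set G)) :=
  if p = q then 1
  else if p.1 = q.1 then S.lift p.1 (agree p.2 q.2) (bit p.2 (agree p.2 q.2))
  else S.cross p.1 q.1 p.2 q.2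

theorem el_self (p : Point) : S.el p p = 1 := if_pos rfl

omit [Finite G] in
theorem el_line {i : Fin 6} {s t : Bool × Bool} (h : s ≠ t) :
    S.el (i, s) (i, t) = S.lift i (agree s t) (bit s (agree s t)) := by
  rw [el, if_neg (fun e => h (Prod.ext_iff.1 e).2), if_pos rfl]

omit [Finite G] in
theorem el_cross {i j : Fin 6} (s t : Bool × Bool) (h : i ≠ j) :
    S.el (i, s) (j, t) = S.cross i j s t := by
  rw [el, if_neg (fun e => h (Prod.ext_iff.1 e).1), if_neg h]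

theorem el_comm (p q : Point) : S.el p q = S.el q p := by
  obtain ⟨i, s⟩ := p
  obtain ⟨j, t⟩ := q
  by_cases h : i = j
  · subst h
    by_cases hs : s = t
    · rw [hs]
    · rw [S.el_line hs, S.el_line (Ne.symm hs), agree_comm t s (Ne.symm hs), bit_agree s t hs]
  · obtain ⟨h1, h2, h3⟩ := S.cross_spec (Ne.symm h) t s
    rw [S.el_cross s t h, S.el_cross t s (Ne.symm h)]
    exact S.cross_eq h (S.pcl_symm h ▸ h1) h3 h2

theorem el_pset {p q : Point} (h : p ≠ q) : S.el p q ∈ S.pset := by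
  obtain ⟨i, s⟩ := p
  obtain ⟨j, t⟩ := q
  by_cases hij : i = j
  · subst hij
    rw [S.el_line fun e => h (Prod.ext rfl e)]
    exact S.lift_pset _ _ _
  · rw [S.el_cross s t hij]
    exact (S.cross_spec hij s t).1.1

theorem el_mem_K (p q : Point) : S.el p q ∈ S.K := by
  by_cases h : p = q
  · rw [h, S.el_self]; exact S.K.one_mem
  · exact (S.el_pset h).1

theorem pset_cases {x : ↥(Subgroup.centralizer ({z} : Set G))} (hx : x ∈ S.pset) :
    x ∈ S.P0 ∨ ∃ i j, i ≠ j ∧ x ∈ S.pcl i j := by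
  by_cases h : S.rho x = 1
  · left
    show x ∈ S.D.P0 S.M
    rw [← S.D.K_inf S.M]
    exact ⟨hx.1, S.D.mem_q h⟩
  · obtain ⟨i, j, hij, e⟩ := S.P.a_surj _ (S.rho_mem hx.1) h
    exact Or.inr ⟨i, j, hij, hx, hx.1, e.symm⟩

theorem el_surj {x : ↥(Subgroup.centralizer ({z} : Set G))} (hx : x ∈ S.pset) :
    ∃ p q : Point, p ≠ q ∧ S.el p q = x := by
  rcases S.pset_cases hx with h0 | ⟨i, j, hij, hh⟩
  · obtain ⟨i, k, e, rfl⟩ := S.pset_P0_lift hx h0
    obtain ⟨s, t, hst, hk, hb⟩ := exists_other_star k e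
    exact ⟨(i, s), (i, t), fun q => hst (Prod.ext_iff.1 q).2, by rw [S.el_line hst, hk, hb]⟩
  · obtain ⟨s, hs, -⟩ := S.exists_inc hij hh
    obtain ⟨t, ht, -⟩ := S.exists_inc hij.symm (S.pcl_symm hij ▸ hh)
    exact ⟨(i, s), (j, t), fun q => hij (Prod.ext_iff.1 q).1, by
      rw [S.el_cross s t hij]; exact S.cross_eq hij hh hs ht⟩

/-- A set of elements of `K` split by the classes. -/
theorem ncard_split (X : Set ↥(Subgroup.centralizer ({z} : Set G))) (hX : X ⊆ S.pset) :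
    X.ncard = (X ∩ (S.P0 : Set ↥(Subgroup.centralizer ({z} : Set G)))).ncard +
      ∑ p ∈ pairsSix, (X ∩ S.fib (S.P.a p.1 p.2)).ncard := by
  have hne : ∀ p ∈ pairsSix, p.1 ≠ p.2 := fun p hp => ne_of_lt (Finset.mem_filter.1 hp).2
  rw [ncard_fibres X (fun x => S.rho x) 1 pairsSix (fun p => S.P.a p.1 p.2)
    (fun p hp => (S.P.a_mem p.1 p.2 (hne p hp)).2)
    (fun p hp q hq e => by
      rcases (S.P.a_eq _ _ _ _ (hne p hp) (hne q hq)).1 e with ⟨a, b⟩ | ⟨a, b⟩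
      · exact Prod.ext a b
      · have h1 := (Finset.mem_filter.1 hp).2
        rw [a, b] at h1
        exact absurd h1 (not_lt.2 (Finset.mem_filter.1 hq).2.le))
    (fun x hx => by
      rcases S.pset_cases (hX hx) with h0 | ⟨i, j, hij, hh⟩
      · exact Or.inl (S.D.rho_q h0.1)
      · refine Or.inr ?_
        rcases lt_or_gt_of_ne hij with h | h
        · exact ⟨(i, j), Finset.mem_filter.2 ⟨Finset.mem_univ _, h⟩, hh.2.2⟩
        · exact ⟨(j, i), Finset.mem_filter.2 ⟨Finset.mem_univ _, h⟩, hh.2.2.trans (S.a_symm hij)⟩)]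
  congr 1
  · congr 1
    ext x
    refine and_congr_right fun hx => ⟨fun h => ?_, fun h => S.D.rho_q h.1⟩
    show x ∈ S.D.P0 S.M
    rw [← S.D.K_inf S.M]
    exact ⟨(hX hx).1, S.D.mem_q h⟩
  · refine Finset.sum_congr rfl fun p _ => ?_
    congr 1
    ext x
    exact and_congr_right fun hx => ⟨fun h => ⟨(hX hx).1, h⟩, fun h => h.2⟩

theorem ncard_pset : S.pset.ncard = 276 := by
  rw [S.ncard_split _ le_rfl, S.ncard_root_lifts, Finset.sum_congr rfl (g := fun _ => 16) (fun p hp => ?_),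
    Finset.sum_const, show pairsSix.card = 15 by decide, smul_eq_mul]
  obtain ⟨ha, h1⟩ := S.P.a_mem p.1 p.2 (ne_of_lt (Finset.mem_filter.1 hp).2)
  exact (S.pset_fib ha h1).1

/-- Elements and unordered pairs of points correspond. -/
theorem el_inj {p q r s : Point} (h : p ≠ q) (h' : r ≠ s) (e : S.el p q = S.el r s) :
    (p = r ∧ q = s) ∨ (p = s ∧ q = r) := by
  classical
  let f : {x : Sym2 Point // ¬ x.IsDiag} → ↥S.pset := fun x =>
    ⟨Sym2.lift ⟨S.el, S.el_comm⟩ x.1, by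
      obtain ⟨x, hx⟩ := x
      induction x using Sym2.ind with
      | _ a b => exact S.el_pset (fun e => hx (Sym2.mk_isDiag_iff.2 e))⟩
  have hsurj : Function.Surjective f := by
    rintro ⟨x, hx⟩
    obtain ⟨a, b, hab, rfl⟩ := S.el_surj hx
    exact ⟨⟨s(a, b), fun e => hab (Sym2.mk_isDiag_iff.1 e)⟩, rfl⟩
  have hbij : Function.Bijective f := by
    rw [Nat.bijective_iff_surjective_and_card]
    refine ⟨hsurj, ?_⟩
    rw [Nat.card_coe_set_eq, S.ncard_pset, Nat.card_eq_fintype_card, Sym2.card_subtype_not_diag]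
    simp [Nat.choose_two_right]
  have := congrArg Subtype.val (hbij.1 (a₁ := ⟨s(p, q), fun e => h (Sym2.mk_isDiag_iff.1 e)⟩)
    (a₂ := ⟨s(r, s), fun e => h' (Sym2.mk_isDiag_iff.1 e)⟩) (Subtype.ext e))
  exact Sym2.eq_iff.1 this

/-! ### Neighbours -/

/-- The elements with a product outside the conjugates of `z`. -/
def nb (x : ↥(Subgroup.centralizer ({z} : Set G))) : Set ↥(Subgroup.centralizer ({z} : Set G)) :=
  {y | y ∈ S.pset ∧ x * y ∈ S.pset}

theorem lift_mul_mem {i j : Fin 6} {k l : Fin 3} {e f : Bool}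
    (h : S.lift i k e * S.lift j l f ∈ S.pset) : i = j ∧ k ≠ l := by
  have h0 : S.lift i k e * S.lift j l f ∈ S.P0 := S.P0.mul_mem (S.lift_P0 ..) (S.lift_P0 ..)
  have hv : S.vec (S.lift i k e * S.lift j l f) = S.P.w i k + S.P.w j l := by
    rw [S.vec_mul (S.lift_P0 ..).1 (S.lift_P0 ..).1, S.lift_vec, S.lift_vec]
  have hr : IsRoot (S.P.w i k + S.P.w j l) := by
    rw [← hv]
    exact ((S.pset_P0 ▸ ⟨h, h0⟩ : _ ∈ {y | y ∈ S.P0 ∧ IsRoot (S.vec y)})).2
  have hij : i = j := by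
    by_contra hne
    exact S.P.w_cross i j k l hne hr
  refine ⟨hij, fun hkl => (root_iso hr).1 ?_⟩
  rw [hij, hkl, vec_self]

theorem nb_lift (i : Fin 6) (k : Fin 3) (e : Bool) : (S.nb (S.lift i k e)).ncard = 44 := by
  classical
  rw [S.ncard_split _ (fun y hy => hy.1)]
  have h4 : (S.nb (S.lift i k e) ∩ (S.P0 : Set ↥(Subgroup.centralizer ({z} : Set G)))).ncard = 4 := by
    have e' : S.nb (S.lift i k e) ∩ (S.P0 : Set ↥(Subgroup.centralizer ({z} : Set G))) =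
        ↑(((Finset.univ : Finset (Fin 3 × Bool)).filter fun p => p.1 ≠ k).image fun p => S.lift i p.1 p.2) := by
      rw [Finset.coe_image]
      ext x
      constructor
      · rintro ⟨⟨hx, hp⟩, h0⟩
        obtain ⟨j, l, f, rfl⟩ := S.pset_P0_lift hx h0
        obtain ⟨rfl, hkl⟩ := S.lift_mul_mem hp
        exact ⟨(l, f), by simp [Ne.symm hkl], rfl⟩
      · rintro ⟨⟨l, f⟩, hl, rfl⟩
        have hl' : l ≠ k := by simpa using hl
        obtain ⟨c, hc1, hc2⟩ : ∃ c : Fin 3, k ≠ c ∧ l ≠ c :=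
          (by decide : ∀ k l : Fin 3, ∃ c, k ≠ c ∧ l ≠ c) k l
        exact ⟨⟨S.lift_pset .., by rw [S.lift_mul i k l c hl'.symm hc1 hc2]; exact S.lift_pset ..⟩,
          S.lift_P0 ..⟩
    rw [e', Set.ncard_coe_finset, Finset.card_image_of_injective _ (fun p q h => by
      obtain ⟨-, h1, h2⟩ := S.lift_inj h; exact Prod.ext h1 h2)]
    exact card_others k
  have h8 : ∀ j, i ≠ j → (S.nb (S.lift i k e) ∩ S.fib (S.P.a i j)).ncard = 8 := by
    intro j hij
    have e' : S.nb (S.lift i k e) ∩ S.fib (S.P.a i j) =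
        ↑(((((Finset.univ : Finset (Bool × Bool)).filter fun s => bit s k = e)) ×ˢ
          (Finset.univ : Finset (Bool × Bool))).image fun p => S.cross i j p.1 p.2) := by
      rw [Finset.coe_image]
      ext x
      constructor
      · rintro ⟨⟨hx, hp⟩, hf⟩
        obtain ⟨s, hs, -⟩ := S.exists_inc hij ⟨hx, hf⟩
        obtain ⟨t, ht, -⟩ := S.exists_inc hij.symm (by rw [← S.pcl_symm hij]; exact ⟨hx, hf⟩)
        refine ⟨(s, t), ?_, S.cross_eq hij ⟨hx, hf⟩ hs ht⟩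
        rw [S.K_comm (S.P0_le_K (S.lift_P0 ..)) hx.1] at hp
        simpa using S.adj_unique hij ⟨hx, hf⟩ (hs k) hp
      · rintro ⟨⟨s, t⟩, hp, rfl⟩
        obtain ⟨h1, h2, -⟩ := S.cross_spec hij s t
        have hb : bit s k = e := by simpa using hp
        refine ⟨⟨h1.1, ?_⟩, h1.2⟩
        rw [S.K_comm (S.P0_le_K (S.lift_P0 ..)) h1.2.1, ← hb]
        exact h2 k
    rw [e', Set.ncard_coe_finset, Finset.card_image_of_injOn, Finset.card_product, card_stars]
    · rfl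
    rintro ⟨s, t⟩ - ⟨s', t'⟩ - h
    obtain ⟨a1, a2, a3⟩ := S.cross_spec hij s t
    obtain ⟨-, b2, b3⟩ := S.cross_spec hij s' t'
    simp only at h
    rw [← h] at b2 b3
    exact Prod.ext (S.inc_eq hij a1 a2 b2) (S.inc_eq hij.symm (S.pcl_symm hij ▸ a1) a3 b3)
  have hsum : ∀ p ∈ pairsSix, (S.nb (S.lift i k e) ∩ S.fib (S.P.a p.1 p.2)).ncard =
      if p.1 = i ∨ p.2 = i then 8 else 0 := by
    rintro ⟨a, b⟩ hp
    have hne : a ≠ b := ne_of_lt (Finset.mem_filter.1 hp).2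
    split_ifs with h
    · rcases h with h | h <;> simp only at h <;> subst h
      · exact h8 b hne
      · rw [S.a_symm hne]; exact h8 a hne.symm
    · rw [Set.ncard_eq_zero, Set.eq_empty_iff_forall_notMem]
      rintro x ⟨⟨hx, hp'⟩, hf⟩
      rw [S.K_comm (S.P0_le_K (S.lift_P0 ..)) hx.1] at hp'
      exact h ((S.adj_line hne ⟨hx, hf⟩ hp').imp Eq.symm Eq.symm)
  rw [h4, Finset.sum_congr rfl hsum, Finset.sum_ite, Finset.sum_const, Finset.sum_const, pairsSix,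
    Finset.filter_filter, line_pairs]
  rfl

theorem nb_card {x : ↥(Subgroup.centralizer ({z} : Set G))} (hx : x ∈ S.pset) :
    (S.nb x).ncard = 44 := by
  obtain ⟨u, hu⟩ : ∃ u : ↥(Subgroup.centralizer ({z} : Set G)), u = S.lift 0 0 false := ⟨_, rfl⟩
  have hu1 : u ∈ S.pset := hu ▸ S.lift_pset ..
  have key : ∀ a b : ↥(Subgroup.centralizer ({z} : Set G)), a ∈ S.pset → b ∈ S.pset →
      (S.nb a).ncard ≤ (S.nb b).ncard := by
    intro a b ha hb
    obtain ⟨m, hm, hme⟩ := S.PG_trans (S.mem_PG.2 ha) (S.mem_PG.2 hb)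
    have hmap : ∀ y ∈ S.nb a, ∃ y' ∈ S.nb b, ((y' : ↥(Subgroup.centralizer ({z} : Set G))) : G) =
        m * (y : G) * m⁻¹ := by
      intro y hy
      obtain ⟨y', hy', e⟩ := S.exists_of_PG (S.conj_mem_PG hm (S.mem_PG.2 hy.1))
      refine ⟨y', ⟨hy', ?_⟩, e⟩
      rw [← S.mem_PG, Subgroup.coe_mul, e, ← hme,
        show m * (a : G) * m⁻¹ * (m * (y : G) * m⁻¹) = m * ((a : G) * y) * m⁻¹ by group]
      exact S.conj_mem_PG hm (S.mem_PG.2 hy.2)
    choose! φ hφ hφe using hmap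
    refine Set.ncard_le_ncard_of_injOn φ hφ (fun y hy y' hy' e => Subtype.ext ?_) (Set.toFinite _)
    have h := congrArg Subtype.val e
    rw [hφe y hy, hφe y' hy'] at h
    simpa using h
  have h1 := key x u hx hu1
  have h2 := key u x hu1 hx
  rw [hu, S.nb_lift] at h1 h2
  omega

theorem four_or_none {i j : Fin 6} (hij : i ≠ j) {h : ↥(Subgroup.centralizer ({z} : Set G))}
    (hh : h ∈ S.pcl i j) {b : Equiv.Perm Vec} (hb : b ∈ S.M.A) (hb1 : b ≠ 1) (hab : S.P.a i j ≠ b) :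
    S.nb h ∩ S.fib b = ∅ ∨ (S.nb h ∩ S.fib b).ncard = 4 := by
  rcases (S.nb h ∩ S.fib b).eq_empty_or_nonempty with e | ⟨g0, hg0⟩
  · exact Or.inl e
  right
  obtain ⟨ha, ha1⟩ := S.pcl_a hij
  set c := S.P.a i j * b with hc
  have hcA : c ∈ S.M.A := S.M.A.mul_mem ha hb
  have hc1 : c ≠ 1 := fun e => hab (by
    rw [← mul_one (S.P.a i j), ← S.M.A_sq b hb, ← mul_assoc, ← hc, e, one_mul])
  have hg0' : g0 ∈ S.pset ∩ S.fib b := ⟨hg0.1.1, hg0.2⟩
  have hprod : ∀ g ∈ S.nb h ∩ S.fib b, h * g ∈ S.pset ∩ S.fib c := fun g hg =>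
    ⟨hg.1.2, S.K.mul_mem hh.2.1 hg.2.1, by rw [map_mul]; exact congrArg₂ (· * ·) hh.2.2 hg.2.2⟩
  refine le_antisymm ?_ ?_
  · refine le_trans ?_ (S.P.meet_le _ ha ha1 b hb hb1 hab)
    refine Set.ncard_le_ncard_of_injOn (fun g => S.vec (g * g0)) (fun g hg => ⟨?_, ?_⟩)
      (fun g hg g' hg' e => S.diff_eq hb hb1 hg0' ⟨hg.1.1, hg.2⟩ ⟨hg'.1.1, hg'.2⟩ e) (Set.toFinite _)
    · rw [← (S.diff_facts hb hb1 hg0').1]
      exact ⟨g, ⟨hg.1.1, hg.2⟩, rfl⟩
    · rw [← (S.diff_facts hcA hc1 (hprod g0 hg0)).1]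
      refine ⟨h * g, hprod g hg, ?_⟩
      show S.vec (h * g * (h * g0)) = S.vec (g * g0)
      rw [S.mul4_K hg.2.1 hh.2.1, S.D.K_sq S.M h hh.2.1, one_mul]
  · refine le_trans (S.P.meet_ge _ ha ha1 b hb hb1 hab) ?_
    refine le_trans (Set.ncard_le_ncard (t := (fun g => S.vec (g * g0)) '' (S.nb h ∩ S.fib b)) ?_
      (Set.toFinite _)) (Set.ncard_image_le (Set.toFinite _))
    rintro _ ⟨v, hv, rfl⟩
    obtain ⟨q, hq, rfl⟩ := S.vec_surj v
    refine ⟨q * g0 * q⁻¹, ⟨⟨S.conj_pset hq hg0.1.1, ?_⟩, S.conj_mem_K hq hg0.2.1,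
      (S.rho_conj hq).trans hg0.2.2⟩, ?_⟩
    · have := S.conj_pset hq hg0.1.2
      rwa [show q * (h * g0) * q⁻¹ = q * h * q⁻¹ * (q * g0 * q⁻¹) by group,
        S.conj_fixed hij hq hh hv] at this
    · show S.vec (q * g0 * q⁻¹ * g0) = b (S.vec q) + S.vec q
      rw [S.vec_comm hq hg0.2.1, hg0.2.2]

/-- Some elements of the two classes are adjacent. -/
def Adj (i j k l : Fin 6) : Prop := ∃ h ∈ S.pcl i j, ∃ g ∈ S.pcl k l, h * g ∈ S.pset

theorem adj_any {i j k l : Fin 6} (hij : i ≠ j) (h : S.Adj i j k l)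
    {h' : ↥(Subgroup.centralizer ({z} : Set G))} (hh' : h' ∈ S.pcl i j) :
    (S.nb h' ∩ S.fib (S.P.a k l)).Nonempty := by
  obtain ⟨h, hh, g, hg, hp⟩ := h
  obtain ⟨q, hq, rfl⟩ : h' ∈ (fun q => q * h * q⁻¹) '' (Q : Set ↥(Subgroup.centralizer ({z} : Set G))) := by
    rw [(S.pset_fib (S.pcl_a hij).1 (S.pcl_a hij).2).2 h hh]; exact hh'
  refine ⟨q * g * q⁻¹, ⟨S.conj_pset hq hg.1, ?_⟩, (S.conj_pcl hq hg).2⟩
  have := S.conj_pset hq hp
  rwa [show q * (h * g) * q⁻¹ = q * h * q⁻¹ * (q * g * q⁻¹) by group] at this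

theorem adj_of {i j k l : Fin 6} {h g : ↥(Subgroup.centralizer ({z} : Set G))} (hh : h ∈ S.pcl i j)
    (hg : g ∈ S.nb h ∩ S.fib (S.P.a k l)) : S.Adj i j k l :=
  ⟨h, hh, g, ⟨hg.1.1, hg.2⟩, hg.1.2⟩

theorem adj_transport {i j k l i' j' k' l' : Fin 6} {n : Equiv.Perm Vec} (hn : n ∈ S.F.rho.range)
    (hU : ∀ u ∈ S.M.U, n u ∈ S.M.U) (hA : ∀ x ∈ S.M.A, n * x * n⁻¹ ∈ S.M.A)
    (e1 : n * S.P.a i j * n⁻¹ = S.P.a i' j') (e2 : n * S.P.a k l * n⁻¹ = S.P.a k' l')
    (h : S.Adj i j k l) : S.Adj i' j' k' l' := by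
  obtain ⟨x, hx, y, hy, hp⟩ := h
  obtain ⟨g, -, hgK, hfib⟩ := S.lift_sym hn hU hA
  have hgN := S.coe_mem_Nm hgK
  have hc : ∀ w ∈ S.pset, g * w * g⁻¹ ∈ S.pset := fun w hw =>
    S.mem_PG.1 (S.conj_mem_PG hgN (S.mem_PG.2 hw))
  refine ⟨_, ⟨hc x hx.1, e1 ▸ hfib _ x hx.2⟩, _, ⟨hc y hy.1, e2 ▸ hfib _ y hy.2⟩, ?_⟩
  rw [show g * x * g⁻¹ * (g * y * g⁻¹) = g * (x * y) * g⁻¹ by group]
  exact hc _ hp

omit [Finite G] in
theorem nodup4 {i j k l : Fin 6} (h1 : i ≠ j) (h2 : i ≠ k) (h3 : i ≠ l) (h4 : j ≠ k) (h5 : j ≠ l)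
    (h6 : k ≠ l) : [i, j, k, l].Nodup := by simp [h1, h2, h3, h4, h5, h6]

theorem adj_far_iff {i j k l i' j' k' l' : Fin 6} (h : [i, j, k, l].Nodup) (h' : [i', j', k', l'].Nodup) :
    S.Adj i j k l ↔ S.Adj i' j' k' l' := by
  constructor <;> intro ha
  · obtain ⟨n, hn, hU, hA, e1, -, e3⟩ := S.P.sym i j k l i' j' k' l' h h'
    exact S.adj_transport hn hU hA e1 e3 ha
  · obtain ⟨n, hn, hU, hA, e1, -, e3⟩ := S.P.sym i' j' k' l' i j k l h' h
    exact S.adj_transport hn hU hA e1 e3 ha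

theorem adj_near_imp {i j k i' j' k' : Fin 6} (h1 : i ≠ j) (h2 : j ≠ k) (h3 : i ≠ k) (h1' : i' ≠ j')
    (h2' : j' ≠ k') (h3' : i' ≠ k') (ha : S.Adj i j j k) : S.Adj i' j' j' k' := by
  obtain ⟨l, a, b, c⟩ := exists_fourth i j k
  obtain ⟨l', a', b', c'⟩ := exists_fourth i' j' k'
  obtain ⟨n, hn, hU, hA, e1, e2, -⟩ := S.P.sym i j k l i' j' k' l'
    (nodup4 h1 h3 a.symm h2 b.symm c.symm) (nodup4 h1' h3' a'.symm h2' b'.symm c'.symm)
  exact S.adj_transport hn hU hA e1 e2 ha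

theorem nb_inner {i j : Fin 6} (hij : i ≠ j) {h : ↥(Subgroup.centralizer ({z} : Set G))}
    (hh : h ∈ S.pcl i j) : (S.nb h ∩ (S.P0 : Set ↥(Subgroup.centralizer ({z} : Set G)))).ncard = 6 ∧
      (S.nb h ∩ S.fib (S.P.a i j)).ncard = 6 := by
  classical
  obtain ⟨s, hs, -⟩ := S.exists_inc hij hh
  obtain ⟨t, ht, -⟩ := S.exists_inc hij.symm (S.pcl_symm hij ▸ hh)
  let f : Fin 3 × Bool → ↥(Subgroup.centralizer ({z} : Set G)) := fun p =>
    bif p.2 then S.lift j p.1 (bit t p.1) else S.lift i p.1 (bit s p.1)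
  have hfi : Function.Injective f := by
    rintro ⟨k, a⟩ ⟨l, b⟩ e
    cases a <;> cases b <;> simp only [f, cond_true, cond_false] at e <;>
      obtain ⟨e1, e2, -⟩ := S.lift_inj e <;> first
        | exact absurd e1 hij
        | exact absurd e1.symm hij
        | subst e2; rfl
  have e0 : S.nb h ∩ (S.P0 : Set ↥(Subgroup.centralizer ({z} : Set G))) = Set.range f := by
    ext x
    constructor
    · rintro ⟨⟨hx, hp⟩, h0⟩
      obtain ⟨m, k, e, rfl⟩ := S.pset_P0_lift hx h0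
      rcases S.adj_line hij hh hp with rfl | rfl
      · exact ⟨(k, false), by
          show S.lift m k (bit s k) = _
          rw [S.adj_unique hij hh (hs k) hp]⟩
      · exact ⟨(k, true), by
          show S.lift m k (bit t k) = _
          rw [S.adj_unique hij hh (ht k) hp]⟩
    · rintro ⟨⟨k, b⟩, rfl⟩
      cases b
      · exact ⟨⟨S.lift_pset .., hs k⟩, S.lift_P0 ..⟩
      · exact ⟨⟨S.lift_pset .., ht k⟩, S.lift_P0 ..⟩
  have h6 : (S.nb h ∩ (S.P0 : Set ↥(Subgroup.centralizer ({z} : Set G)))).ncard = 6 := by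
    rw [e0, Set.ncard_range_of_injective hfi, Nat.card_eq_fintype_card]
    rfl
  refine ⟨h6, ?_⟩
  rw [← h6, ← Set.ncard_image_of_injective (S.nb h ∩ (S.P0 : Set ↥(Subgroup.centralizer ({z} : Set G))))
    (mul_right_injective h)]
  congr 1
  ext x
  constructor
  · rintro ⟨⟨hx, hp⟩, hf⟩
    refine ⟨h * x, ⟨⟨hp, ?_⟩, S.mul_mem_P0 hh.2.1 hf.1 (hh.2.2.trans hf.2.symm)⟩, ?_⟩
    · rw [← mul_assoc, S.D.K_sq S.M h hh.2.1, one_mul]; exact hx
    · show h * (h * x) = x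
      rw [← mul_assoc, S.D.K_sq S.M h hh.2.1, one_mul]
  · rintro ⟨u, ⟨⟨hu, hp⟩, h0⟩, rfl⟩
    refine ⟨⟨hp, ?_⟩, S.K.mul_mem hh.2.1 hu.1, ?_⟩
    · show h * (h * u) ∈ S.pset
      rw [← mul_assoc, S.D.K_sq S.M h hh.2.1, one_mul]; exact hu
    · rw [map_mul, show S.F.rho u = 1 from S.D.rho_q h0.1, mul_one]; exact hh.2.2

/-- Classes with a common line give exactly four neighbours. -/
theorem nb_near {i j k : Fin 6} (hij : i ≠ j) (hjk : j ≠ k) (hik : i ≠ k)
    {h : ↥(Subgroup.centralizer ({z} : Set G))} (hh : h ∈ S.pcl i j) :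
    (S.nb h ∩ S.fib (S.P.a j k)).ncard = 4 := by
  classical
  have hnot : ∀ p : Fin 6 × Fin 6, p.1 ≠ p.2 → ¬((p.1 = i ∧ p.2 = j) ∨ (p.1 = j ∧ p.2 = i)) →
      S.P.a i j ≠ S.P.a p.1 p.2 := fun p hp hn e => by
    rcases (S.P.a_eq i j p.1 p.2 hij hp).1 e with ⟨a, b⟩ | ⟨a, b⟩
    · exact hn (Or.inl ⟨a.symm, b.symm⟩)
    · exact hn (Or.inr ⟨b.symm, a.symm⟩)
  have hval : ∀ p : Fin 6 × Fin 6, p.1 ≠ p.2 → ¬((p.1 = i ∧ p.2 = j) ∨ (p.1 = j ∧ p.2 = i)) →
      (S.nb h ∩ S.fib (S.P.a p.1 p.2)).ncard = if S.Adj i j p.1 p.2 then 4 else 0 := by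
    intro p hp hn
    obtain ⟨hb, hb1⟩ := S.P.a_mem p.1 p.2 hp
    split_ifs with ha
    · exact (S.four_or_none hij hh hb hb1 (hnot p hp hn)).resolve_left (S.adj_any hij ha hh).ne_empty
    · rw [Set.ncard_eq_zero, Set.eq_empty_iff_forall_notMem]
      exact fun g hg => ha (S.adj_of hh hg)
  have hswap : ∀ a b c d, a ≠ b → (S.Adj a b c d ↔ S.Adj b a c d) := fun a b c d hab => by
    rw [Adj, Adj, S.pcl_symm hab]
  have hswap2 : ∀ a b c d, c ≠ d → (S.Adj a b c d ↔ S.Adj a b d c) := fun a b c d hcd => by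
    rw [Adj, Adj, S.pcl_symm hcd]
  obtain ⟨l, l1, l2, l3⟩ := exists_fourth i j k
  set X := if S.Adj i j k l then 4 else 0 with hX
  set Y := if S.Adj i j j k then 4 else 0 with hY
  have hnear : ∀ p : Fin 6 × Fin 6, p.1 ≠ p.2 → ¬((p.1 = i ∧ p.2 = j) ∨ (p.1 = j ∧ p.2 = i)) →
      (p.1 = i ∨ p.1 = j ∨ p.2 = i ∨ p.2 = j) → (S.Adj i j p.1 p.2 ↔ S.Adj i j j k) := by
    rintro ⟨a, b⟩ hp hn hor
    simp only at hp hn hor ⊢
    have key : ∀ x y m, x ≠ y → y ≠ m → x ≠ m → (S.Adj x y y m ↔ S.Adj i j j k) := fun x y m a b c =>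
      ⟨S.adj_near_imp a b c hij hjk hik, S.adj_near_imp hij hjk hik a b c⟩
    rcases hor with rfl | rfl | rfl | rfl
    · have hbj : b ≠ j := fun e => hn (Or.inl ⟨rfl, e⟩)
      rw [hswap a j a b hij]
      exact key j a b hij.symm hp hbj.symm
    · have hbi : b ≠ i := fun e => hn (Or.inr ⟨rfl, e⟩)
      exact key i a b hij hp hbi.symm
    · have haj : a ≠ j := fun e => hn (Or.inr ⟨e, rfl⟩)
      rw [hswap b j a b hij, hswap2 j b a b hp]
      exact key j b a hij.symm hp.symm haj.symm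
    · have hai : a ≠ i := fun e => hn (Or.inl ⟨e, rfl⟩)
      rw [hswap2 i b a b hp]
      exact key i b a hij hp.symm hai.symm
  have hfar : ∀ p : Fin 6 × Fin 6, p.1 ≠ p.2 → ¬(p.1 = i ∨ p.1 = j ∨ p.2 = i ∨ p.2 = j) →
      (S.Adj i j p.1 p.2 ↔ S.Adj i j k l) := by
    intro p hp hn
    simp only [not_or] at hn
    exact S.adj_far_iff (nodup4 hij (Ne.symm hn.1) (Ne.symm hn.2.2.1) (Ne.symm hn.2.1) (Ne.symm hn.2.2.2) hp)
      (nodup4 hij hik l1.symm hjk l2.symm l3.symm)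
  have hsum := S.ncard_split (S.nb h) (fun y hy => hy.1)
  obtain ⟨h6, h6'⟩ := S.nb_inner hij hh
  have hF : ∀ p ∈ pairsSix, (S.nb h ∩ S.fib (S.P.a p.1 p.2)).ncard =
      if (p.1 = i ∧ p.2 = j) ∨ (p.1 = j ∧ p.2 = i) then 6 else
        if p.1 = i ∨ p.1 = j ∨ p.2 = i ∨ p.2 = j then Y else X := by
    intro p hp
    have hp' : p.1 ≠ p.2 := ne_of_lt (Finset.mem_filter.1 hp).2
    split_ifs with c1 c2
    · rcases c1 with ⟨a, b⟩ | ⟨a, b⟩ <;> rw [a, b]
      · exact h6'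
      · rw [S.a_symm hij.symm]; exact h6'
    · rw [hval p hp' c1, hY, if_congr (hnear p hp' c1 c2) rfl rfl]
    · rw [hval p hp' c1, hX, if_congr (hfar p hp' c2) rfl rfl]
  obtain ⟨c1, c8, c6⟩ := pair_cards i j hij
  rw [S.nb_card hh.1, h6, Finset.sum_congr rfl hF, Finset.sum_ite, Finset.sum_ite, Finset.sum_const,
    Finset.sum_const, Finset.sum_const, pairsSix, Finset.filter_filter, Finset.filter_filter,
    Finset.filter_filter, Finset.filter_filter] at hsum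
  simp only [Finset.filter_filter, and_assoc] at hsum
  simp only [smul_eq_mul] at hsum
  rw [c1] at hsum
  rw [c8, c6] at hsum
  have hXv : X = 0 ∨ X = 4 := by rw [hX]; split_ifs <;> simp
  have hYv : Y = 0 ∨ Y = 4 := by rw [hY]; split_ifs <;> simp
  have hY4 : Y = 4 := by omega
  have := hval (j, k) hjk (by
    rintro (⟨a, b⟩ | ⟨a, b⟩)
    · exact hij a.symm
    · exact hik b.symm)
  rw [this, ← hY, hY4]

/-! ### Triangles -/

theorem mul_cancel_K {a b c : ↥(Subgroup.centralizer ({z} : Set G))} (ha : a ∈ S.K) (e : a * b = c) :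
    b = a * c := by rw [← e, ← mul_assoc, S.D.K_sq S.M a ha, one_mul]

theorem tri_line (i : Fin 6) {s t u : Bool × Bool} (h1 : s ≠ t) (h2 : t ≠ u) (h3 : s ≠ u) :
    S.el (i, s) (i, t) * S.el (i, t) (i, u) = S.el (i, s) (i, u) := by
  obtain ⟨a, b⟩ := triple_agree s t u h1 h2 h3
  have c := triple_agree' s t u h1 h2 h3
  have d := triple_bit s t u h1 h2 h3
  rw [S.el_line h1, S.el_line h2, S.el_line h3, S.lift_mul i _ _ _ a b c, d]

theorem tri_two {i j : Fin 6} (hij : i ≠ j) {s t : Bool × Bool} (u : Bool × Bool) (h : s ≠ t) :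
    S.el (i, s) (i, t) * S.el (i, t) (j, u) = S.el (i, s) (j, u) := by
  obtain ⟨h1, h2, h3⟩ := S.cross_spec hij t u
  obtain ⟨a, b, c⟩ := S.inc_mul hij h1 h2 h3 (agree s t)
  rw [other_agree s t h] at b
  rw [S.el_line h, S.el_cross t u hij, S.el_cross s u hij, S.cross_eq hij a b c, bit_agree s t h,
    S.K_comm (S.P0_le_K (S.lift_P0 ..)) h1.2.1]

theorem tri_three {i j k : Fin 6} (hij : i ≠ j) (hjk : j ≠ k) (hik : i ≠ k) (s t u : Bool × Bool) :
    S.el (i, s) (j, t) * S.el (j, t) (k, u) = S.el (i, s) (k, u) := by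
  classical
  obtain ⟨h1, h2, h3⟩ := S.cross_spec hij s t
  obtain ⟨g1, g2, g3⟩ := S.cross_spec hjk t u
  rw [S.el_cross s t hij, S.el_cross t u hjk, S.el_cross s u hik]
  set h := S.cross i j s t
  set g := S.cross j k t u
  have hsub : S.nb h ∩ S.fib (S.P.a j k) ⊆
      ↑((Finset.univ : Finset (Bool × Bool)).image fun r => S.cross j k t r) := by
    rintro x ⟨⟨hx, hp⟩, hf⟩
    obtain ⟨r, hr, -⟩ := S.exists_inc hjk.symm (by rw [← S.pcl_symm hjk]; exact ⟨hx, hf⟩)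
    rw [Finset.coe_image]
    exact ⟨r, Finset.mem_coe.2 (Finset.mem_univ _),
      S.cross_eq hjk ⟨hx, hf⟩ (S.inc_share hij hjk hik h1 ⟨hx, hf⟩ hp h3) hr⟩
  have heq := Set.eq_of_subset_of_ncard_le hsub (by
    rw [Set.ncard_coe_finset, S.nb_near hij hjk hik h1]
    exact Finset.card_image_le.trans (by decide)) (Set.toFinite _)
  have hgm : g ∈ S.nb h ∩ S.fib (S.P.a j k) := by
    rw [heq, Finset.coe_image]
    exact ⟨u, Finset.mem_coe.2 (Finset.mem_univ _), rfl⟩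
  have hf : h * g ∈ S.pcl i k := ⟨hgm.1.2, S.K.mul_mem h1.2.1 g1.2.1, by
    rw [map_mul, ← S.P.a_mul i j k hij hjk hik]; exact congrArg₂ (· * ·) h1.2.2 g1.2.2⟩
  refine (S.cross_eq hik hf ?_ ?_).symm
  · refine S.inc_share hij.symm hik hjk (S.pcl_symm hij ▸ h1) hf ?_ h2
    rw [← mul_assoc, S.D.K_sq S.M h h1.2.1, one_mul]; exact g1.1
  · refine S.inc_share hjk hik.symm hij.symm g1 (S.pcl_symm hik ▸ hf) ?_ g3
    rw [S.mul_left_comm_K g1.2.1 h1.2.1, S.D.K_sq S.M g g1.2.1, mul_one]; exact h1.1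

theorem tri (p q r : Point) : S.el p q * S.el q r = S.el p r := by
  by_cases hpq : p = q
  · rw [hpq, S.el_self, one_mul]
  by_cases hqr : q = r
  · rw [hqr, S.el_self, mul_one]
  by_cases hpr : p = r
  · subst hpr
    rw [S.el_comm q p, S.D.K_sq S.M _ (S.el_mem_K _ _), S.el_self]
  obtain ⟨i, s⟩ := p
  obtain ⟨j, t⟩ := q
  obtain ⟨k, u⟩ := r
  by_cases hij : i = j
  · subst hij
    have hst : s ≠ t := fun e => hpq (by rw [e])
    by_cases hik : i = k
    · subst hik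
      exact S.tri_line i hst (fun e => hqr (by rw [e])) (fun e => hpr (by rw [e]))
    · exact S.tri_two hik u hst
  · by_cases hjk : j = k
    · subst hjk
      have h := S.tri_two (Ne.symm hij) s (s := u) (t := t) (fun e => hqr (by rw [e]))
      rw [S.el_comm (j, u) (j, t), S.el_comm (j, t) (i, s), S.el_comm (j, u) (i, s)] at h
      rw [S.K_comm (S.el_mem_K _ _) (S.el_mem_K _ _)]
      exact h
    · by_cases hik : i = k
      · subst hik
        have h := S.tri_two hij t (s := u) (t := s) (fun e => hpr (by rw [e]))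
        rw [S.el_comm (i, u) (j, t), S.el_comm (i, u) (i, s)] at h
        rw [← h, S.K_comm (S.el_mem_K (i, s) (i, u)) (S.el_mem_K (i, s) (j, t)), ← mul_assoc,
          S.D.K_sq S.M _ (S.el_mem_K _ _), one_mul]
      · exact S.tri_three hij hjk hik s t u

/-- Disjoint pairs have no adjacent elements. -/
theorem disjoint_pairs {p q r s : Point} (hpq : p ≠ q) (hrs : r ≠ s) (h1 : p ≠ r) (h2 : p ≠ s)
    (h3 : q ≠ r) (h4 : q ≠ s) : S.el p q * S.el r s ∉ S.pset := by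
  classical
  intro hmem
  set T := (({p, q} : Finset Point) ×ˢ (Finset.univ.filter fun x : Point => x ≠ p ∧ x ≠ q)) with hT
  have hTc : T.card = 44 := by
    rw [hT, Finset.card_product, Finset.card_pair hpq]
    have : (Finset.univ.filter fun x : Point => x ≠ p ∧ x ≠ q) = ({p, q} : Finset Point)ᶜ := by
      ext x; simp
    rw [this, Finset.card_compl, Finset.card_pair hpq]
    rfl
  have hTm : ∀ w ∈ T, (w.1 = p ∨ w.1 = q) ∧ w.2 ≠ p ∧ w.2 ≠ q := fun w hw => by simpa [hT] using hw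
  have hinj : Set.InjOn (fun w : Point × Point => S.el w.1 w.2) T := by
    rintro ⟨a, b⟩ ha ⟨c, d⟩ hc e
    obtain ⟨h1, h2, h3⟩ := hTm _ ha
    obtain ⟨h1', h2', h3'⟩ := hTm _ hc
    simp only at h1 h2 h3 h1' h2' h3'
    have hab : a ≠ b := by rcases h1 with rfl | rfl <;> exact Ne.symm (by assumption)
    have hcd : c ≠ d := by rcases h1' with rfl | rfl <;> exact Ne.symm (by assumption)
    rcases S.el_inj hab hcd e with ⟨x, y⟩ | ⟨x, y⟩
    · exact Prod.ext x y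
    · exfalso; rcases h1 with rfl | rfl
      · exact h2' x.symm
      · exact h3' x.symm
  have hsub : ↑(T.image fun w => S.el w.1 w.2) ⊆ S.nb (S.el p q) := by
    rw [Finset.coe_image]
    rintro _ ⟨w, hw, rfl⟩
    obtain ⟨a, b⟩ := w
    obtain ⟨ha, hb1, hb2⟩ := hTm _ (Finset.mem_coe.1 hw)
    simp only at ha hb1 hb2 ⊢
    refine ⟨S.el_pset ?_, ?_⟩
    · rcases ha with rfl | rfl
      · exact Ne.symm hb1
      · exact Ne.symm hb2
    · rcases ha with rfl | rfl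
      · rw [S.el_comm a q, S.tri]; exact S.el_pset (Ne.symm hb2)
      · rw [S.tri]; exact S.el_pset (Ne.symm hb1)
  have heq := Set.eq_of_subset_of_ncard_le hsub (by
    rw [S.nb_card (S.el_pset hpq), Set.ncard_coe_finset, Finset.card_image_of_injOn hinj, hTc])
    (Set.toFinite _)
  have hr : S.el r s ∈ S.nb (S.el p q) := ⟨S.el_pset hrs, hmem⟩
  rw [← heq, Finset.coe_image] at hr
  obtain ⟨⟨a, b⟩, hw, he⟩ := hr
  obtain ⟨ha, hb1, hb2⟩ := hTm _ (Finset.mem_coe.1 hw)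
  simp only at ha hb1 hb2 he
  have hab : a ≠ b := by
    rcases ha with rfl | rfl
    · exact Ne.symm hb1
    · exact Ne.symm hb2
  rcases S.el_inj hab hrs he with ⟨x, -⟩ | ⟨x, -⟩ <;> rcases ha with rfl | rfl
  · exact h1 x
  · exact h3 x
  · exact h2 x
  · exact h4 x

end Setup

end Cfsg.Agent.LargeFischer.Mat
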