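import Cfsg.Agent.LargeFischer.MatCount

/-!
The normaliser of the elementary abelian subgroup has two orbits on its non-identity elements; the
Thompson subgroup of a Sylow 2-subgroup.
-/

set_option autoImplicit false

namespace Cfsg.Agent.LargeFischer.Mat

open Cfsg
open Cfsg.Agent.GFour25
open Cfsg.Agent.SporB.FischerU (Vec)
open Cfsg.Agent.TTClass
open Thompson MatFine

variable {G : Type*} [Group G] [Finite G] {z : G}
  {Q : Subgroup (Subgroup.centralizer ({z} : Set G))} [Q.Normal]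

namespace Setup

variable (S : Setup z Q)

/-- The non-identity elements of the subgroup not conjugate to `z`. -/
def PG : Set G := {x | x ∈ S.KG ∧ x ≠ 1 ∧ ¬ IsConj z x}

omit [Finite G] in
theorem mem_PG {x : ↥(Subgroup.centralizer ({z} : Set G))} : (x : G) ∈ S.PG ↔ x ∈ S.pset := by
  refine and_congr S.mem_KG (and_congr (not_congr ?_) Iff.rfl)
  exact ⟨fun e => Subtype.ext e, fun e => congrArg Subtype.val e⟩

omit [Finite G] in
theorem exists_of_PG {x : G} (hx : x ∈ S.PG) :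
    ∃ y ∈ S.pset, ((y : ↥(Subgroup.centralizer ({z} : Set G))) : G) = x := by
  obtain ⟨⟨y, hy, rfl⟩, h1, h2⟩ := hx
  exact ⟨y, S.mem_PG.1 ⟨S.mem_KG.2 hy, h1, h2⟩, rfl⟩

theorem conj_mem_PG {m : G} (hm : m ∈ S.Nm) {x : G} (hx : x ∈ S.PG) : m * x * m⁻¹ ∈ S.PG := by
  refine ⟨(Subgroup.mem_normalizer_iff.1 hm x).1 hx.1, fun e => hx.2.1 (conj_eq_one_iff.1 e), fun h => ?_⟩
  exact hx.2.2 (h.trans (isConj_iff.2 ⟨m, rfl⟩).symm)

/-- Elements of the centraliser preserving `K` lie in the normaliser. -/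
theorem coe_mem_Nm {g : ↥(Subgroup.centralizer ({z} : Set G))}
    (hg : ∀ x ∈ S.K, g * x * g⁻¹ ∈ S.K) : (g : G) ∈ S.Nm := by
  have himg : S.KG.map (MulAut.conj (g : G)).toMonoidHom = S.KG := by
    refine Subgroup.eq_of_le_of_card_ge ?_
      (le_of_eq (Subgroup.card_map_of_injective (MulAut.conj (g : G)).injective).symm)
    rintro _ ⟨_, ⟨y, hy, rfl⟩, rfl⟩
    exact ⟨_, hg y hy, rfl⟩
  refine Subgroup.mem_normalizer_iff.2 fun x => ⟨fun hx => himg.le ⟨x, hx, rfl⟩, fun hx => ?_⟩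
  rw [← himg] at hx
  obtain ⟨y, hy, he⟩ := hx
  exact (MulAut.conj (g : G)).injective he ▸ hy

theorem Q_mem_Nm {q : ↥(Subgroup.centralizer ({z} : Set G))} (hq : q ∈ Q) : (q : G) ∈ S.Nm :=
  S.coe_mem_Nm fun _ hx => S.conj_mem_K hq hx

theorem conj_outside {x y : ↥(Subgroup.centralizer ({z} : Set G))} (hx : x ∈ S.pset) (hy : y ∈ S.pset)
    (hx1 : S.rho x ≠ 1) (hy1 : S.rho y ≠ 1) : ∃ m ∈ S.Nm, m * (x : G) * m⁻¹ = (y : G) := by
  obtain ⟨n, hn, -, hU, hA, hnac⟩ := S.M.trans _ (S.rho_mem hx.1) hx1 _ (S.rho_mem hy.1) hy1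
  obtain ⟨g, hg, hgK, hfib⟩ := S.lift_sym hn hU hA
  have hgN := S.coe_mem_Nm hgK
  have hgx : g * x * g⁻¹ ∈ S.pset ∩ S.fib (S.rho y) :=
    ⟨S.mem_PG.1 (S.conj_mem_PG hgN (S.mem_PG.2 hx)), hnac ▸ hfib _ x ⟨hx.1, rfl⟩⟩
  have horb := (S.pset_fib (S.rho_mem hy.1) hy1).2 _ hgx
  obtain ⟨q, hq, he⟩ : y ∈ (fun q => q * (g * x * g⁻¹) * q⁻¹) '' (Q : Set ↥(Subgroup.centralizer ({z} : Set G))) := by
    rw [horb]; exact ⟨hy, hy.1, rfl⟩
  refine ⟨(q : G) * (g : G), mul_mem (S.Q_mem_Nm hq) hgN, ?_⟩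
  rw [← he]
  simp only [Subgroup.coe_mul, Subgroup.coe_inv]
  group

theorem exists_outside {x : ↥(Subgroup.centralizer ({z} : Set G))} (hx : x ∈ S.pset) :
    ∃ y ∈ S.pset, S.rho y ≠ 1 ∧ ∃ m ∈ S.Nm, m * (x : G) * m⁻¹ = (y : G) := by
  classical
  by_cases hx1 : S.rho x = 1
  swap
  · exact ⟨x, hx, hx1, 1, one_mem _, by simp⟩
  by_contra hno
  push Not at hno
  set P0G := S.P0.map (Subgroup.centralizer ({z} : Set G)).subtype with hP0G
  set O := {y : G | ∃ m ∈ S.Nm, m * (x : G) * m⁻¹ = y} with hO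
  have hO0 : O ⊆ (P0G : Set G) := by
    rintro _ ⟨m, hm, rfl⟩
    obtain ⟨y, hy, e⟩ := S.exists_of_PG (S.conj_mem_PG hm (S.mem_PG.2 hx))
    refine ⟨y, ?_, e⟩
    show y ∈ S.D.P0 S.M
    rw [← S.D.K_inf S.M]
    refine ⟨hy.1, S.D.mem_q ?_⟩
    by_contra hne
    exact hno y hy hne m hm e.symm
  set Sub := Subgroup.closure O with hSub
  have hSub0 : Sub ≤ P0G := (Subgroup.closure_le _).2 hO0
  have hxO : (x : G) ∈ O := ⟨1, one_mem _, by simp⟩
  have hxQ : x ∈ Q := S.D.mem_q hx1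
  have hx1' : (x : G) ≠ 1 := fun e => hx.2.1 (Subtype.ext e)
  have hxz : (x : G) ≠ z := fun e => hx.2.2 (by rw [e])
  obtain ⟨q, hq, hqe⟩ := S.B.exists_swap (mem_QG.2 hxQ) hx1' hxz
  have hzx : (x : G) * z ∈ O := by
    refine ⟨(q : G)⁻¹, inv_mem (S.Q_mem_Nm hq), ?_⟩
    calc (q : G)⁻¹ * (x : G) * ((q : G)⁻¹)⁻¹
        = (q : G)⁻¹ * ((q : G) * ((x : G) * z) * (q : G)⁻¹) * ((q : G)⁻¹)⁻¹ := by rw [hqe]
      _ = (x : G) * z := by group
  have hzS : z ∈ Sub := by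
    have := Sub.mul_mem (Sub.inv_mem (Subgroup.subset_closure hxO)) (Subgroup.subset_closure hzx)
    rwa [inv_mul_cancel_left] at this
  have hinv : ∀ m ∈ S.Nm, ∀ y ∈ Sub, m * y * m⁻¹ ∈ Sub := by
    intro m hm y hy
    induction hy using Subgroup.closure_induction with
    | mem w hw =>
      obtain ⟨n, hn, rfl⟩ := hw
      exact Subgroup.subset_closure ⟨m * n, mul_mem hm hn, by group⟩
    | one => simp
    | mul a b _ _ ha hb =>
      rw [show m * (a * b) * m⁻¹ = m * a * m⁻¹ * (m * b * m⁻¹) by group]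
      exact Sub.mul_mem ha hb
    | inv a _ ha =>
      rw [show m * a⁻¹ * m⁻¹ = (m * a * m⁻¹)⁻¹ by group]
      exact Sub.inv_mem ha
  have hall : (fun u : ↥(Subgroup.centralizer ({z} : Set G)) => (u : G)) '' S.zset ⊆ (P0G : Set G) := by
    rintro _ ⟨u, ⟨huK, huc⟩, rfl⟩
    obtain ⟨g, hg⟩ := isConj_iff.1 huc
    obtain ⟨m, hm, hme⟩ := S.fusion S.z_mem_KG (g := g) (hg.symm ▸ S.mem_KG.2 huK)
    show (u : G) ∈ P0G
    rw [← hg, ← hme]
    exact hSub0 (hinv m hm z hzS)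
  have h := Set.ncard_le_ncard hall (Set.toFinite _)
  rw [Set.ncard_image_of_injective _ Subtype.val_injective, S.count.1, ← Nat.card_coe_set_eq] at h
  have h0 : Nat.card ↥P0G = 128 := by
    rw [hP0G, Subgroup.card_map_of_injective (Subgroup.centralizer ({z} : Set G)).subtype_injective,
      S.D.P0_card S.M]
    norm_num
  exact absurd (h.trans (le_of_eq h0)) (by norm_num)

/-- The normaliser is transitive on the elements not conjugate to `z`. -/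
theorem PG_trans {x y : G} (hx : x ∈ S.PG) (hy : y ∈ S.PG) : ∃ m ∈ S.Nm, m * x * m⁻¹ = y := by
  obtain ⟨a, ha, rfl⟩ := S.exists_of_PG hx
  obtain ⟨b, hb, rfl⟩ := S.exists_of_PG hy
  obtain ⟨a', ha', ha1, m, hm, hme⟩ := S.exists_outside ha
  obtain ⟨b', hb', hb1, n, hn, hne⟩ := S.exists_outside hb
  obtain ⟨l, hl, hle⟩ := S.conj_outside ha' hb' ha1 hb1
  refine ⟨n⁻¹ * l * m, mul_mem (mul_mem (inv_mem hn) hl) hm, ?_⟩
  calc n⁻¹ * l * m * (a : G) * (n⁻¹ * l * m)⁻¹ = n⁻¹ * (l * (m * (a : G) * m⁻¹) * l⁻¹) * n := by group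
    _ = (b : G) := by rw [hme, hle, ← hne]; group

theorem PG_nonempty : S.PG.Nonempty := by
  obtain ⟨x, hx⟩ : (S.pset ∩ (S.P0 : Set ↥(Subgroup.centralizer ({z} : Set G)))).Nonempty :=
    Set.nonempty_of_ncard_ne_zero (by rw [S.ncard_root_lifts]; norm_num)
  exact ⟨x, S.mem_PG.2 hx.1⟩

/-- The Thompson subgroup of a Sylow 2-subgroup is a conjugate of the subgroup. -/
theorem thompson (T : Sylow 2 G) :
    ∃ g : G, Cfsg.thompsonSubgroupOf 2 (T : Subgroup G) = S.KG.map (MulAut.conj g).toMonoidHom := by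
  haveI : Fact (Nat.Prime 2) := ⟨Nat.prime_two⟩
  obtain ⟨T0, hT0⟩ := S.T0_sylow
  obtain ⟨g, hg⟩ := MulAction.exists_smul_eq G T0 T
  refine ⟨g, ?_⟩
  have hTe : (T : Subgroup G) = S.T0.map (MulAut.conj g).toMonoidHom := by
    rw [← hg, ← hT0]; rfl
  set K' := S.KG.map (MulAut.conj g).toMonoidHom
  have hK'T : K' ≤ T := hTe ▸ Subgroup.map_mono S.KG_le_T0
  have hK'card : Nat.card K' = 2 ^ 11 := by
    rw [Subgroup.card_map_of_injective (MulAut.conj g).injective, S.KG_card]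
  have hK'el : IsElementaryAbelian 2 K' := elementary_conj S.KG_elem
  have hbound : ∀ B : Subgroup ↥(T : Subgroup G), IsElementaryAbelian 2 B →
      Nat.card B ≤ 2 ^ 11 ∧ (Nat.card B = 2 ^ 11 → B.map (T : Subgroup G).subtype = K') := by
    intro B hB
    have hle : (B.map (T : Subgroup G).subtype).map (MulAut.conj g⁻¹).toMonoidHom ≤ S.T0 := by
      refine (Subgroup.map_mono ((Subgroup.map_subtype_le B).trans hTe.le)).trans ?_
      rw [map_conj_conj, inv_mul_cancel, map_conj_one]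
    obtain ⟨h1, h2⟩ := S.T0_max hle (elementary_conj (elementary_map _ hB))
    have hc : Nat.card ((B.map (T : Subgroup G).subtype).map (MulAut.conj g⁻¹).toMonoidHom) =
        Nat.card B := by
      rw [Subgroup.card_map_of_injective (MulAut.conj g⁻¹).injective,
        Subgroup.card_map_of_injective (T : Subgroup G).subtype_injective]
    refine ⟨hc ▸ h1, fun h => ?_⟩
    rw [← map_conj_one (B.map (T : Subgroup G).subtype), ← mul_inv_cancel g, ← map_conj_conj,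
      h2 (hc.trans h)]
  have hA : maxElementaryAbelianSubgroups 2 ↥(T : Subgroup G) = {K'.subgroupOf T} := by
    have he : IsElementaryAbelian 2 (K'.subgroupOf T) := elementary_of_map _
      (T : Subgroup G).subtype_injective (by rw [Subgroup.map_subgroupOf_eq_of_le hK'T]; exact hK'el)
    have hc : Nat.card (K'.subgroupOf T) = 2 ^ 11 := by
      rw [Nat.card_congr (Subgroup.subgroupOfEquivOfLe hK'T).toEquiv, hK'card]
    ext B
    constructor
    · rintro ⟨hB, hmax⟩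
      have h1 := hmax _ he
      rw [hc] at h1
      obtain ⟨h2, h3⟩ := hbound B hB
      show B = K'.subgroupOf T
      apply Subgroup.map_injective (T : Subgroup G).subtype_injective
      rw [Subgroup.map_subgroupOf_eq_of_le hK'T, h3 (le_antisymm h2 h1)]
    · rintro rfl
      exact ⟨he, fun B hB => hc.symm ▸ (hbound B hB).1⟩
  rw [thompsonSubgroupOf, thompsonSubgroup, hA, sSup_singleton, Subgroup.map_subgroupOf_eq_of_le hK'T]

omit [Q.Normal] [Finite G] in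
theorem mem_normalizer_map {g m : G} {B : Subgroup G} :
    m ∈ Subgroup.normalizer ((B.map (MulAut.conj g).toMonoidHom : Subgroup G) : Set G) ↔
      g⁻¹ * m * g ∈ Subgroup.normalizer (B : Set G) := by
  have hm : ∀ x, x ∈ B.map (MulAut.conj g).toMonoidHom ↔ g⁻¹ * x * g ∈ B := fun x => by
    constructor
    · rintro ⟨y, hy, rfl⟩
      show g⁻¹ * (g * y * g⁻¹) * g ∈ B
      simpa [mul_assoc] using hy
    · intro h
      exact ⟨_, h, show g * (g⁻¹ * x * g) * g⁻¹ = x by group⟩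
  rw [Subgroup.mem_normalizer_iff, Subgroup.mem_normalizer_iff]
  constructor
  · intro h x
    have := h (g * x * g⁻¹)
    rw [hm, hm, show g⁻¹ * (g * x * g⁻¹) * g = x by group,
      show g⁻¹ * (m * (g * x * g⁻¹) * m⁻¹) * g = g⁻¹ * m * g * x * (g⁻¹ * m * g)⁻¹ by group] at this
    exact this
  · intro h x
    rw [hm, hm, h, show g⁻¹ * m * g * (g⁻¹ * x * g) * (g⁻¹ * m * g)⁻¹ = g⁻¹ * (m * x * m⁻¹) * g by group]

include S in
/-- Fusion and orbits, for the Thompson subgroup of any Sylow 2-subgroup. -/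
theorem fusion_and_orbits (T : Sylow 2 G) (A M : Subgroup G)
    (hA : A = Cfsg.thompsonSubgroupOf 2 (T : Subgroup G)) (hM : M = Subgroup.normalizer (A : Set G)) :
    (∀ a ∈ A, ∀ g : G, g * a * g⁻¹ ∈ A → ∃ m ∈ M, m * a * m⁻¹ = g * a * g⁻¹) ∧
      (∃ a ∈ A, a ≠ 1 ∧ IsConj z a) ∧ (∃ a ∈ A, a ≠ 1 ∧ ¬ IsConj z a) ∧
      ∀ a ∈ A, ∀ b ∈ A, a ≠ 1 → b ≠ 1 → (IsConj z a ↔ IsConj z b) → ∃ m ∈ M, m * a * m⁻¹ = b := by
  obtain ⟨g, hg⟩ := S.thompson T
  rw [← hA] at hg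
  subst hM hg
  have hc : ∀ x : G, IsConj z (g * x * g⁻¹) ↔ IsConj z x := fun x =>
    ⟨fun h => h.trans (isConj_iff.2 ⟨g, rfl⟩).symm, fun h => h.trans (isConj_iff.2 ⟨g, rfl⟩)⟩
  have hN : ∀ m ∈ S.Nm, g * m * g⁻¹ ∈
      Subgroup.normalizer ((S.KG.map (MulAut.conj g).toMonoidHom : Subgroup G) : Set G) :=
    fun m hm => mem_normalizer_map.2 (by rw [show g⁻¹ * (g * m * g⁻¹) * g = m by group]; exact hm)
  refine ⟨?_, ?_, ?_, ?_⟩
  · rintro _ ⟨x, hx, rfl⟩ h ⟨y, hy, hye⟩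
    simp only [MulEquiv.coe_toMonoidHom, MulAut.conj_apply] at hye ⊢
    obtain ⟨m, hm, hme⟩ := S.fusion hx (g := g⁻¹ * h * g) (by
      rw [show g⁻¹ * h * g * x * (g⁻¹ * h * g)⁻¹ = g⁻¹ * (h * (g * x * g⁻¹) * h⁻¹) * g by group, ← hye,
        show g⁻¹ * (g * y * g⁻¹) * g = y by group]
      exact hy)
    refine ⟨_, hN m hm, ?_⟩
    calc g * m * g⁻¹ * (g * x * g⁻¹) * (g * m * g⁻¹)⁻¹ = g * (m * x * m⁻¹) * g⁻¹ := by group
      _ = h * (g * x * g⁻¹) * h⁻¹ := by rw [hme]; group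
  · refine ⟨g * z * g⁻¹, ⟨z, S.z_mem_KG, rfl⟩, fun e => S.B.ci.ne_one (conj_eq_one_iff.1 e), ?_⟩
    exact (hc z).2 (IsConj.refl z)
  · obtain ⟨x, hx1, hx2, hx3⟩ := S.PG_nonempty
    exact ⟨g * x * g⁻¹, ⟨x, hx1, rfl⟩, fun e => hx2 (conj_eq_one_iff.1 e), fun h => hx3 ((hc x).1 h)⟩
  · rintro _ ⟨x, hx, rfl⟩ _ ⟨y, hy, rfl⟩ hx1 hy1 hiff
    simp only [MulEquiv.coe_toMonoidHom, MulAut.conj_apply] at hx1 hy1 hiff ⊢
    rw [hc, hc] at hiff
    have key : ∃ m ∈ S.Nm, m * x * m⁻¹ = y := by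
      by_cases hz : IsConj z x
      · obtain ⟨u, hu⟩ := isConj_iff.1 (hz.symm.trans (hiff.1 hz))
        obtain ⟨m, hm, hme⟩ := S.fusion hx (g := u) (hu.symm ▸ hy)
        exact ⟨m, hm, hme.trans hu⟩
      · exact S.PG_trans ⟨hx, fun e => hx1 (by rw [e]; simp), hz⟩
          ⟨hy, fun e => hy1 (by rw [e]; simp), fun h => hz (hiff.2 h)⟩
    obtain ⟨m, hm, hme⟩ := key
    refine ⟨_, hN m hm, ?_⟩
    calc g * m * g⁻¹ * (g * x * g⁻¹) * (g * m * g⁻¹)⁻¹ = g * (m * x * m⁻¹) * g⁻¹ := by group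
      _ = g * y * g⁻¹ := by rw [hme]

end Setup

end Cfsg.Agent.LargeFischer.Mat
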