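import Cfsg.Agent.LargeFischer.MatOrbit

/-!
Triples of lifts of the roots of a line and their relation to the elements outside the preimage of
the fixed space which are not conjugate to the central involution.
-/

set_option autoImplicit false

namespace Cfsg.Agent.LargeFischer.Mat

open Cfsg
open Cfsg.Agent.GFour25
open Cfsg.Agent.SporB.FischerU (Vec)
open Cfsg.Agent.TTClass
open Thompson MatFine

/-- A coordinate of a triple. -/
def bit (s : Bool × Bool) (k : Fin 3) : Bool := ![s.1, s.2, xor s.1 s.2] k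

/-- The vector on which two triples agree. -/
def agree (s t : Bool × Bool) : Fin 3 := if s.1 = t.1 then 0 else if s.2 = t.2 then 1 else 2

/-- The other triple with the same lift of a vector. -/
def otherStar (s : Bool × Bool) (k : Fin 3) : Bool × Bool :=
  ![(s.1, !s.2), (!s.1, s.2), (!s.1, !s.2)] k

theorem bit_agree : ∀ s t : Bool × Bool, s ≠ t → bit s (agree s t) = bit t (agree s t) := by decide

theorem bit_inj : ∀ s t : Bool × Bool, (∀ k, bit s k = bit t k) → s = t := by decide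

theorem bit_other : ∀ (s : Bool × Bool) (k l : Fin 3),
    bit (otherStar s k) l = if l = k then bit s l else !bit s l := by decide

theorem exists_other_star : ∀ (k : Fin 3) (e : Bool), ∃ s t : Bool × Bool,
    s ≠ t ∧ agree s t = k ∧ bit s k = e := by decide

variable {G : Type*} [Group G] [Finite G] {z : G}
  {Q : Subgroup (Subgroup.centralizer ({z} : Set G))} [Q.Normal]

namespace Setup

variable (S : Setup z Q)

/-- The central element to a power. -/
def zb (e : Bool) : ↥(Subgroup.centralizer ({z} : Set G)) := bif e then S.zc else 1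

/-- Chosen lifts of the roots of a line, with product the central element. -/
noncomputable def base (i : Fin 6) : Fin 3 → ↥(Subgroup.centralizer ({z} : Set G)) :=
  ![(S.vec_surj (S.P.w i 0)).choose, (S.vec_surj (S.P.w i 1)).choose,
    (S.vec_surj (S.P.w i 0)).choose * (S.vec_surj (S.P.w i 1)).choose * S.zc]

/-- The lifts of the roots. -/
noncomputable def lift (i : Fin 6) (k : Fin 3) (e : Bool) : ↥(Subgroup.centralizer ({z} : Set G)) :=
  S.base i k * S.zb e

omit [Finite G] in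
theorem base_facts (i : Fin 6) (k : Fin 3) : S.base i k ∈ Q ∧ S.vec (S.base i k) = S.P.w i k := by
  obtain ⟨h0, e0⟩ := (S.vec_surj (S.P.w i 0)).choose_spec
  obtain ⟨h1, e1⟩ := (S.vec_surj (S.P.w i 1)).choose_spec
  fin_cases k
  · exact ⟨h0, e0⟩
  · exact ⟨h1, e1⟩
  · refine ⟨Q.mul_mem (Q.mul_mem h0 h1) S.D.z_mem, ?_⟩
    show S.vec ((S.vec_surj (S.P.w i 0)).choose * (S.vec_surj (S.P.w i 1)).choose * S.zc) = _
    rw [S.vec_mul (Q.mul_mem h0 h1) S.D.z_mem, S.vec_mul h0 h1, e0, e1, S.vec_zc, add_zero, S.P.w_sum]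
    rfl

omit [Finite G] in
theorem base_P0 (i : Fin 6) (k : Fin 3) : S.base i k ∈ S.P0 :=
  S.mem_P0.2 ⟨(S.base_facts i k).1, (S.base_facts i k).2 ▸ S.P.w_mem i k⟩

omit [Finite G] in
theorem zb_P0 (e : Bool) : S.zb e ∈ S.P0 := by
  cases e
  · exact S.P0.one_mem
  · exact S.D.z_mem_P0 S.M

omit [Finite G] in
theorem zb_mul (a b : Bool) : S.zb a * S.zb b = S.zb (xor a b) := by
  cases a <;> cases b <;> simp [zb, S.D.z_sq]

omit [Finite G] in
theorem lift_P0 (i : Fin 6) (k : Fin 3) (e : Bool) : S.lift i k e ∈ S.P0 :=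
  S.P0.mul_mem (S.base_P0 i k) (S.zb_P0 e)

omit [Finite G] in
theorem lift_vec (i : Fin 6) (k : Fin 3) (e : Bool) : S.vec (S.lift i k e) = S.P.w i k := by
  rw [lift, S.vec_mul (S.base_facts i k).1 (S.zb_P0 e).1, (S.base_facts i k).2]
  cases e
  · show _ + S.vec 1 = _; rw [S.vec_one, add_zero]
  · show _ + S.vec S.zc = _; rw [S.vec_zc, add_zero]

theorem lift_pset (i : Fin 6) (k : Fin 3) (e : Bool) : S.lift i k e ∈ S.pset := by
  have h : S.lift i k e ∈ S.pset ∩ (S.P0 : Set ↥(Subgroup.centralizer ({z} : Set G))) := by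
    rw [S.pset_P0]
    refine ⟨S.lift_P0 i k e, ?_⟩
    rw [S.lift_vec]
    exact S.P.w_root i k
  exact h.1

omit [Finite G] in
theorem lift_inj {i j : Fin 6} {k l : Fin 3} {e f : Bool} (h : S.lift i k e = S.lift j l f) :
    i = j ∧ k = l ∧ e = f := by
  have hv := congrArg S.vec h
  rw [S.lift_vec, S.lift_vec] at hv
  obtain ⟨rfl, rfl⟩ := S.P.w_inj _ _ _ _ hv
  refine ⟨rfl, rfl, ?_⟩
  have h2 : S.zb e = S.zb f := mul_left_cancel h
  cases e <;> cases f <;> first
    | rfl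
    | (exfalso; first | exact S.D.z_ne h2 | exact S.D.z_ne h2.symm)

omit [Finite G] in
theorem lift_z (i : Fin 6) (k : Fin 3) (e : Bool) : S.lift i k e * S.zc = S.lift i k (!e) := by
  rw [lift, lift, mul_assoc, show S.zc = S.zb true from rfl, S.zb_mul]
  cases e <;> rfl

theorem exists_lift_of {i : Fin 6} {k : Fin 3} {x : ↥(Subgroup.centralizer ({z} : Set G))} (hx : x ∈ Q)
    (h : S.vec x = S.P.w i k) : ∃ e, x = S.lift i k e := by
  rcases S.vec_inj hx (S.base_facts i k).1 (h.trans (S.base_facts i k).2.symm) with e | e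
  · exact ⟨false, by rw [e]; exact (mul_one _).symm⟩
  · exact ⟨true, e⟩

theorem pset_P0_lift {x : ↥(Subgroup.centralizer ({z} : Set G))} (hx : x ∈ S.pset) (h0 : x ∈ S.P0) :
    ∃ i k e, x = S.lift i k e := by
  have h : x ∈ {y | y ∈ S.P0 ∧ IsRoot (S.vec y)} := S.pset_P0 ▸ ⟨hx, h0⟩
  obtain ⟨i, k, hik⟩ := S.P.w_surj _ (S.mem_P0.1 h0).2 h.2
  obtain ⟨e, he⟩ := S.exists_lift_of (S.mem_P0.1 h0).1 hik.symm
  exact ⟨i, k, e, he⟩

theorem mul_left_comm_K {a b c : ↥(Subgroup.centralizer ({z} : Set G))} (ha : a ∈ S.K) (hb : b ∈ S.K) :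
    a * (b * c) = b * (a * c) := by rw [← mul_assoc, S.K_comm ha hb, mul_assoc]

theorem mul4_K {a b c d : ↥(Subgroup.centralizer ({z} : Set G))} (hb : b ∈ S.K) (hc : c ∈ S.K) :
    a * b * (c * d) = a * c * (b * d) := by
  rw [mul_assoc a b, S.mul_left_comm_K hb hc, ← mul_assoc a c]

/-- The product of lifts of two roots of a line. -/
theorem lift_mul (i : Fin 6) : ∀ (a b c : Fin 3), a ≠ b → a ≠ c → b ≠ c → ∀ x y : Bool,
    S.lift i a x * S.lift i b y = S.lift i c (!(xor x y)) := by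
  have hK : ∀ k, S.base i k ∈ S.K := fun k => S.P0_le_K (S.base_P0 i k)
  have hz : ∀ e, S.zb e ∈ S.K := fun e => S.P0_le_K (S.zb_P0 e)
  have h2 : S.base i 2 = S.base i 0 * S.base i 1 * S.zb true := rfl
  have hs : ∀ k, S.base i k * S.base i k = 1 := fun k => S.D.K_sq S.M _ (hK k)
  have h01 : S.base i 0 * S.base i 1 = S.base i 2 * S.zb true := by
    rw [h2, mul_assoc _ (S.zb true), S.zb_mul]
    exact (mul_one _).symm
  have h02 : S.base i 0 * S.base i 2 = S.base i 1 * S.zb true := by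
    rw [h2, ← mul_assoc, ← mul_assoc, hs, one_mul]
  have h12 : S.base i 1 * S.base i 2 = S.base i 0 * S.zb true := by
    rw [h2, S.K_comm (hK 0) (hK 1), ← mul_assoc, ← mul_assoc, hs, one_mul]
  intro a b c hab hac hbc x y
  rw [lift, lift, lift, S.mul4_K (hz x) (hK b), S.zb_mul,
    show S.base i a * S.base i b = S.base i c * S.zb true from ?_, mul_assoc, S.zb_mul]
  · cases x <;> cases y <;> rfl
  fin_cases a <;> fin_cases b <;> fin_cases c <;>
    first
    | exact absurd rfl hab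
    | exact absurd rfl hac
    | exact absurd rfl hbc
    | exact h01
    | exact h02
    | exact h12
    | exact (S.K_comm (hK _) (hK _)).trans h01
    | exact (S.K_comm (hK _) (hK _)).trans h02
    | exact (S.K_comm (hK _) (hK _)).trans h12

/-! ### Classes of lifts outside the preimage -/

/-- The elements over the involution of a pair of lines. -/
abbrev pcl (i j : Fin 6) : Set ↥(Subgroup.centralizer ({z} : Set G)) := S.pset ∩ S.fib (S.P.a i j)

omit [Finite G] in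
theorem a_symm {i j : Fin 6} (h : i ≠ j) : S.P.a i j = S.P.a j i :=
  (S.P.a_eq i j j i h h.symm).2 (Or.inr ⟨rfl, rfl⟩)

omit [Finite G] in
theorem pcl_symm {i j : Fin 6} (h : i ≠ j) : S.pcl i j = S.pcl j i := by rw [pcl, pcl, S.a_symm h]

theorem conj_pset {q x : ↥(Subgroup.centralizer ({z} : Set G))} (hq : q ∈ Q) (hx : x ∈ S.pset) :
    q * x * q⁻¹ ∈ S.pset :=
  S.mem_PG.1 (S.conj_mem_PG (S.Q_mem_Nm hq) (S.mem_PG.2 hx))

theorem diff_facts {a : Equiv.Perm Vec} (ha : a ∈ S.M.A) (h1 : a ≠ 1)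
    {h : ↥(Subgroup.centralizer ({z} : Set G))} (hh : h ∈ S.pset ∩ S.fib a) :
    (fun y => S.vec (y * h)) '' (S.pset ∩ S.fib a) = moved a ∧
      Set.InjOn (fun y => S.vec (y * h)) (S.pset ∩ S.fib a) := by
  have himg : (fun y => S.vec (y * h)) '' (S.pset ∩ S.fib a) = moved a := by
    rw [← (S.pset_fib ha h1).2 h hh, Set.image_image]
    ext v
    constructor
    · rintro ⟨q, hq, rfl⟩
      exact ⟨S.vec q, by show a (S.vec q) + S.vec q = S.vec (q * h * q⁻¹ * h); rw [S.vec_comm hq hh.2.1, hh.2.2]⟩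
    · rintro ⟨u, rfl⟩
      obtain ⟨q, hq, rfl⟩ := S.vec_surj u
      exact ⟨q, hq, by show S.vec (q * h * q⁻¹ * h) = a (S.vec q) + S.vec q; rw [S.vec_comm hq hh.2.1, hh.2.2]⟩
  refine ⟨himg, Set.injOn_of_ncard_image_eq ?_ (Set.toFinite _)⟩
  rw [himg, S.P.moved_card a ha h1, (S.pset_fib ha h1).1]

/-- Determination of an element of a class by the difference. -/
theorem diff_eq {a : Equiv.Perm Vec} (ha : a ∈ S.M.A) (h1 : a ≠ 1)
    {h x y : ↥(Subgroup.centralizer ({z} : Set G))} (hh : h ∈ S.pset ∩ S.fib a)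
    (hx : x ∈ S.pset ∩ S.fib a) (hy : y ∈ S.pset ∩ S.fib a) (e : S.vec (x * h) = S.vec (y * h)) :
    x = y := (S.diff_facts ha h1 hh).2 hx hy e

omit [Finite G] in
theorem pcl_a {i j : Fin 6} (hij : i ≠ j) : S.P.a i j ∈ S.M.A ∧ S.P.a i j ≠ 1 := S.P.a_mem i j hij

theorem conj_pcl {i j : Fin 6} {q h : ↥(Subgroup.centralizer ({z} : Set G))} (hq : q ∈ Q)
    (hh : h ∈ S.pcl i j) : q * h * q⁻¹ ∈ S.pcl i j :=
  ⟨S.conj_pset hq hh.1, S.conj_mem_K hq hh.2.1, (S.rho_conj hq).trans hh.2.2⟩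

/-- Fixed vectors give commuting elements. -/
theorem conj_fixed {i j : Fin 6} (hij : i ≠ j) {q h : ↥(Subgroup.centralizer ({z} : Set G))}
    (hq : q ∈ Q) (hh : h ∈ S.pcl i j) (hfix : S.P.a i j (S.vec q) = S.vec q) : q * h * q⁻¹ = h := by
  refine S.diff_eq (S.pcl_a hij).1 (S.pcl_a hij).2 hh (S.conj_pcl hq hh) hh ?_
  rw [S.vec_comm hq hh.2.1, hh.2.2, hfix, vec_self, S.D.K_sq S.M h hh.2.1, S.vec_one]

theorem rho_lift (i : Fin 6) (k : Fin 3) (e : Bool) : S.rho (S.lift i k e) = 1 :=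
  S.D.rho_q (S.lift_P0 i k e).1

theorem mul_lift_fib {a : Equiv.Perm Vec} {h : ↥(Subgroup.centralizer ({z} : Set G))} (hh : h ∈ S.fib a)
    (i : Fin 6) (k : Fin 3) (e : Bool) : h * S.lift i k e ∈ S.fib a :=
  ⟨S.K.mul_mem hh.1 (S.P0_le_K (S.lift_P0 i k e)), by rw [map_mul, S.rho_lift, mul_one]; exact hh.2⟩

theorem vec_mul_lift {h : ↥(Subgroup.centralizer ({z} : Set G))} (hh : h ∈ S.K) (i : Fin 6) (k : Fin 3)
    (e : Bool) : S.vec (h * S.lift i k e * h) = S.P.w i k := by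
  rw [mul_assoc, S.K_comm (S.P0_le_K (S.lift_P0 i k e)) hh, ← mul_assoc, S.D.K_sq S.M h hh, one_mul,
    S.lift_vec]

/-- Exactly one lift of each root of the two lines is adjacent. -/
theorem exists_adj {i j : Fin 6} (hij : i ≠ j) {h : ↥(Subgroup.centralizer ({z} : Set G))}
    (hh : h ∈ S.pcl i j) (k : Fin 3) : ∃ e, h * S.lift i k e ∈ S.pset := by
  obtain ⟨ha, h1⟩ := S.pcl_a hij
  have hw : S.P.w i k ∈ (fun y => S.vec (y * h)) '' (S.pset ∩ S.fib (S.P.a i j)) := by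
    rw [(S.diff_facts ha h1 hh).1]
    exact (S.P.w_moved i j i k hij).2 (Or.inl rfl)
  obtain ⟨y, hy, hv⟩ := hw
  obtain ⟨e, he⟩ := S.exists_lift_of (S.mul_mem_P0 hy.2.1 hh.2.1 (hy.2.2.trans hh.2.2.symm)).1 hv
  refine ⟨e, ?_⟩
  rw [← he, S.K_comm hy.2.1 hh.2.1, ← mul_assoc, S.D.K_sq S.M h hh.2.1, one_mul]
  exact hy.1

theorem adj_unique {a b : Fin 6} (hab : a ≠ b) {h : ↥(Subgroup.centralizer ({z} : Set G))}
    (hh : h ∈ S.pcl a b) {i : Fin 6} {k : Fin 3} {e f : Bool} (he : h * S.lift i k e ∈ S.pset)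
    (hf : h * S.lift i k f ∈ S.pset) : e = f := by
  obtain ⟨ha, h1⟩ := S.pcl_a hab
  have := S.diff_eq ha h1 hh ⟨he, S.mul_lift_fib hh.2 i k e⟩ ⟨hf, S.mul_lift_fib hh.2 i k f⟩
    (by rw [S.vec_mul_lift hh.2.1, S.vec_mul_lift hh.2.1])
  exact (S.lift_inj (mul_left_cancel this)).2.2

/-- Adjacent lifts lie over the two lines. -/
theorem adj_line {a b : Fin 6} (hab : a ≠ b) {h : ↥(Subgroup.centralizer ({z} : Set G))}
    (hh : h ∈ S.pcl a b) {i : Fin 6} {k : Fin 3} {e : Bool} (he : h * S.lift i k e ∈ S.pset) :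
    i = a ∨ i = b := by
  obtain ⟨ha, h1⟩ := S.pcl_a hab
  refine (S.P.w_moved a b i k hab).1 ?_
  rw [← (S.diff_facts ha h1 hh).1]
  exact ⟨_, ⟨he, S.mul_lift_fib hh.2 i k e⟩, S.vec_mul_lift hh.2.1 i k e⟩

/-- The triple of lifts on a line adjacent to an element. -/
def Inc (i : Fin 6) (s : Bool × Bool) (h : ↥(Subgroup.centralizer ({z} : Set G))) : Prop :=
  ∀ k, h * S.lift i k (bit s k) ∈ S.pset

theorem conj_lift {q : ↥(Subgroup.centralizer ({z} : Set G))} (hq : q ∈ Q) (i : Fin 6) (k : Fin 3)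
    (e : Bool) : (Com (S.vec q) (S.P.w i k) → q * S.lift i k e * q⁻¹ = S.lift i k e) ∧
      (¬ Com (S.vec q) (S.P.w i k) → q * S.lift i k e * q⁻¹ = S.lift i k (!e)) := by
  have hc := S.comm_iff hq (S.lift_P0 i k e)
  rw [S.lift_vec] at hc
  refine ⟨fun h => mul_inv_eq_iff_eq_mul.2 (hc.2 h), fun h => ?_⟩
  rw [← S.lift_z]
  exact (S.conj_P0_eq hq (S.lift_P0 i k e)).resolve_left fun e' => h (hc.1 (mul_inv_eq_iff_eq_mul.1 e'))

theorem adj_conj {q h : ↥(Subgroup.centralizer ({z} : Set G))} (hq : q ∈ Q) {i : Fin 6} {k : Fin 3}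
    {e : Bool} (he : h * S.lift i k e ∈ S.pset) :
    (Com (S.vec q) (S.P.w i k) → q * h * q⁻¹ * S.lift i k e ∈ S.pset) ∧
      (¬ Com (S.vec q) (S.P.w i k) → q * h * q⁻¹ * S.lift i k (!e) ∈ S.pset) := by
  have hm := S.conj_pset hq he
  rw [show q * (h * S.lift i k e) * q⁻¹ = q * h * q⁻¹ * (q * S.lift i k e * q⁻¹) by group] at hm
  exact ⟨fun c => (S.conj_lift hq i k e).1 c ▸ hm, fun c => (S.conj_lift hq i k e).2 c ▸ hm⟩

/-- The element moved by a fixed witness. -/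
theorem conj_eq_mul {i j : Fin 6} (hij : i ≠ j) {q h : ↥(Subgroup.centralizer ({z} : Set G))}
    (hq : q ∈ Q) (hh : h ∈ S.pcl i j) {m : Fin 6} {k : Fin 3} {e : Bool}
    (hv : S.P.a i j (S.vec q) + S.vec q = S.P.w m k) (he : h * S.lift m k e ∈ S.pset) :
    q * h * q⁻¹ = h * S.lift m k e := by
  refine S.diff_eq (S.pcl_a hij).1 (S.pcl_a hij).2 hh (S.conj_pcl hq hh)
    ⟨he, S.mul_lift_fib hh.2 m k e⟩ ?_
  rw [S.vec_comm hq hh.2.1, hh.2.2, hv, S.vec_mul_lift hh.2.1]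

theorem exists_inc {i j : Fin 6} (hij : i ≠ j) {h : ↥(Subgroup.centralizer ({z} : Set G))}
    (hh : h ∈ S.pcl i j) : ∃! s, S.Inc i s h := by
  obtain ⟨a, ha⟩ := S.exists_adj hij hh 0
  obtain ⟨b, hb⟩ := S.exists_adj hij hh 1
  refine ⟨(a, b), fun k => ?_, fun t ht => bit_inj t (a, b) fun k => ?_⟩
  · fin_cases k
    · exact ha
    · exact hb
    · obtain ⟨v, hv, hcom, -⟩ := S.P.star i j 0 hij
      obtain ⟨q, hq, rfl⟩ := S.vec_surj v
      have e := S.conj_eq_mul hij hq hh hv ha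
      have h2 := (S.adj_conj hq hb).2 (fun c => absurd ((hcom 1).1 c) (by decide))
      rw [e, mul_assoc, S.lift_mul i 0 1 2 (by decide) (by decide) (by decide)] at h2
      show h * S.lift i 2 (bit (a, b) 2) ∈ S.pset
      have e2 : (!xor a (!b)) = bit (a, b) 2 := by cases a <;> cases b <;> rfl
      rwa [e2] at h2
  · fin_cases k
    · exact S.adj_unique hij hh (ht 0) ha
    · exact S.adj_unique hij hh (ht 1) hb
    · have h0 : bit t 0 = a := S.adj_unique hij hh (ht 0) ha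
      have h1 : bit t 1 = b := S.adj_unique hij hh (ht 1) hb
      show bit t 2 = bit (a, b) 2
      rw [show bit t 2 = xor (bit t 0) (bit t 1) from rfl, h0, h1]
      rfl

/-- The triples determine the element. -/
theorem inc_inj {i j : Fin 6} (hij : i ≠ j) {h h' : ↥(Subgroup.centralizer ({z} : Set G))}
    (hh : h ∈ S.pcl i j) (hh' : h' ∈ S.pcl i j) {s t : Bool × Bool} (hs : S.Inc i s h)
    (hs' : S.Inc i s h') (ht : S.Inc j t h) (ht' : S.Inc j t h') : h' = h := by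
  obtain ⟨q, hq, rfl⟩ : h' ∈ (fun q => q * h * q⁻¹) '' (Q : Set ↥(Subgroup.centralizer ({z} : Set G))) := by
    rw [(S.pset_fib (S.pcl_a hij).1 (S.pcl_a hij).2).2 h hh]; exact hh'
  refine S.conj_fixed hij hq hh (S.P.inj i j _ hij fun l => ⟨?_, ?_⟩)
  · by_contra c
    have := S.adj_unique hij hh' ((S.adj_conj hq (hs l)).2 c) (hs' l)
    simp at this
  · by_contra c
    have := S.adj_unique hij hh' ((S.adj_conj hq (ht l)).2 c) (ht' l)
    simp at this

/-- The element with given triples on two lines. -/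
theorem exists_cross {i j : Fin 6} (hij : i ≠ j) (s t : Bool × Bool) :
    ∃ h ∈ S.pcl i j, S.Inc i s h ∧ S.Inc j t h := by
  classical
  let f : ↥(S.pcl i j) → (Bool × Bool) × (Bool × Bool) := fun h =>
    ((S.exists_inc hij h.2).exists.choose,
      (S.exists_inc hij.symm (S.pcl_symm hij ▸ h.2 : (h : ↥(Subgroup.centralizer ({z} : Set G))) ∈ S.pcl j i)).exists.choose)
  have hf : ∀ h : ↥(S.pcl i j), S.Inc i (f h).1 h ∧ S.Inc j (f h).2 h := fun h =>
    ⟨(S.exists_inc hij h.2).exists.choose_spec, (S.exists_inc hij.symm (S.pcl_symm hij ▸ h.2)).exists.choose_spec⟩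
  have hinj : Function.Injective f := fun h h' e => Subtype.ext
    (S.inc_inj hij h.2 h'.2 (hf h).1 (e ▸ (hf h').1) (hf h).2 (e ▸ (hf h').2)).symm
  have hbij : Function.Bijective f := by
    rw [Nat.bijective_iff_injective_and_card]
    refine ⟨hinj, ?_⟩
    rw [Nat.card_coe_set_eq, (S.pset_fib (S.pcl_a hij).1 (S.pcl_a hij).2).1]
    simp [Nat.card_eq_fintype_card]
  obtain ⟨h, hh⟩ := hbij.2 (s, t)
  exact ⟨h, h.2, by simpa [hh] using hf h⟩

/-- Multiplying by an adjacent lift changes the triple on its line only. -/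
theorem inc_mul {i j : Fin 6} (hij : i ≠ j) {h : ↥(Subgroup.centralizer ({z} : Set G))}
    (hh : h ∈ S.pcl i j) {s t : Bool × Bool} (hs : S.Inc i s h) (ht : S.Inc j t h) (k : Fin 3) :
    h * S.lift i k (bit s k) ∈ S.pcl i j ∧ S.Inc i (otherStar s k) (h * S.lift i k (bit s k)) ∧
      S.Inc j t (h * S.lift i k (bit s k)) := by
  obtain ⟨v, hv, hcom, hcom'⟩ := S.P.star i j k hij
  obtain ⟨q, hq, rfl⟩ := S.vec_surj v
  rw [← S.conj_eq_mul hij hq hh hv (hs k)]
  refine ⟨S.conj_pcl hq hh, fun l => ?_, fun l => (S.adj_conj hq (ht l)).1 (hcom' l)⟩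
  rw [bit_other]
  split_ifs with e
  · exact (S.adj_conj hq (hs l)).1 ((hcom l).2 e)
  · exact (S.adj_conj hq (hs l)).2 (fun c => e ((hcom l).1 c))

/-- Two adjacent elements of classes with a common line have the same triple on it. -/
theorem inc_share {i j k : Fin 6} (hij : i ≠ j) (hjk : j ≠ k) (hik : i ≠ k)
    {h g : ↥(Subgroup.centralizer ({z} : Set G))} (hh : h ∈ S.pcl i j) (hg : g ∈ S.pcl j k)
    (hp : h * g ∈ S.pset) {s : Bool × Bool} (hs : S.Inc j s h) : S.Inc j s g := by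
  intro l
  have hfik : h * g ∈ S.pcl i k := ⟨hp, S.K.mul_mem hh.2.1 hg.2.1, by
    rw [map_mul, ← S.P.a_mul i j k hij hjk hik]
    exact congrArg₂ (· * ·) hh.2.2 hg.2.2⟩
  obtain ⟨v, hfix, hv⟩ := S.P.shift i j k l hij hjk hik
  obtain ⟨q, hq, rfl⟩ := S.vec_surj v
  have e1 := S.conj_eq_mul hij hq hh hv (hs l)
  have e2 := S.conj_fixed hik hq hfik hfix
  have e3 : q * g * q⁻¹ = g * S.lift j l (bit s l) := by
    have hg' : g = h * (h * g) := by rw [← mul_assoc, S.D.K_sq S.M h hh.2.1, one_mul]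
    calc q * g * q⁻¹ = (q * h * q⁻¹) * (q * (h * g) * q⁻¹) := by
          rw [show q * g * q⁻¹ = q * (h * (h * g)) * q⁻¹ by rw [← hg']]; group
      _ = h * S.lift j l (bit s l) * (h * g) := by rw [e1, e2]
      _ = g * S.lift j l (bit s l) := by
        rw [S.mul4_K (S.P0_le_K (S.lift_P0 j l _)) hh.2.1, S.D.K_sq S.M h hh.2.1, one_mul,
          S.K_comm (S.P0_le_K (S.lift_P0 j l _)) hg.2.1]
  rw [← e3]
  exact S.conj_pset hq hg.1

end Setup

end Cfsg.Agent.LargeFischer.Mat
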