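import Cfsg.Agent.LargeFischer.Orbits

/-!
Semilinear isometries normalising the cover lie among its four extensions.
-/

set_option autoImplicit false
set_option maxRecDepth 100000

namespace Cfsg.Agent.LargeFischer

open Cfsg.Agent.CosetCert Cfsg.Agent.GFour25
open Cfsg.Agent.SporB.FischerU (Vec SUSix vecN enc vecN_enc enc_lt hs hs_eq)
open Cfsg.Agent.TTClass

/-- The six base vectors. -/
def baseR (i : ℕ) : ℕ := Data.base6.getD i 0

/-- The candidates of a level. -/
def levL (i : ℕ) : List (ℕ × ℕ) :=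
  [Data.lev0, Data.lev1, Data.lev2, Data.lev3, Data.lev4, Data.lev5].getD i []

/-- The products with the earlier base vectors agree with those of the base vector of a level. -/
noncomputable def patt (i v : ℕ) : Bool :=
  (List.range i).all fun k =>
    decide (hs (vecN v) (vecN (baseR k)) = hs (vecN (baseR i)) (vecN (baseR k)))

/-- The check of a level. -/
noncomputable def levOK (i : ℕ) : Bool :=
  Nat.blt (baseR i) 4096 && rootR (baseR i) &&
  allB (fun v => !(rootR v) || (!(patt i v) || (levL i).any fun p => Nat.beq v p.1)) 12 0 &&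
  (levL i).all fun p => Nat.blt p.2 Data.numE && Nat.blt p.1 4096 &&
    Nat.beq (appC (eN p.2) p.1) (baseR i) &&
    ((List.range i).all fun k => Nat.beq (appC (eN p.2) (baseR k)) (baseR k)) &&
    Nat.beq (appC (eN p.2) (scC om p.1)) (scC om (baseR i))

theorem levOK_true : ((List.range 6).all levOK) = true := by decide +kernel

theorem hs_polar : ∀ a b : F4, a + a ^ 2 = b + b ^ 2 →
    om ^ 2 * a + (om ^ 2 * a) ^ 2 = om ^ 2 * b + (om ^ 2 * b) ^ 2 → a = b := by decide

theorem H_conj (x y : Vec) : UnitF4.H y x = UnitF4.H x y ^ 2 := by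
  have h2 : ∀ a b : F4, (a + b) ^ 2 = a ^ 2 + b ^ 2 := by decide
  have h4 : ∀ a b : F4, b * a ^ 2 = (a * b ^ 2) ^ 2 := by decide
  rw [← hs_eq, ← hs_eq]
  simp only [hs, h2, ← pow_two, ← h4]

theorem linear_isom {g : Equiv.Perm Vec} (hg : IsSemi false g) (x y : Vec) :
    UnitF4.H (g x) (g y) = UnitF4.H x y := by
  have hr : ∀ u v w : Vec, UnitF4.H u (v + w) = UnitF4.H u v + UnitF4.H u w := fun u v w => by
    rw [H_conj (v + w) u, UnitF4.h_add_left, H_conj v u, H_conj w u]
    generalize UnitF4.H v u = a; generalize UnitF4.H w u = b; revert a b; decide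
  have tr : ∀ u v : Vec, UnitF4.H u v + UnitF4.H u v ^ 2 =
      UnitF4.H (u + v) (u + v) + UnitF4.H u u + UnitF4.H v v := fun u v => by
    rw [UnitF4.h_add_left, hr, hr, H_conj u v]
    generalize UnitF4.H u v = a; generalize UnitF4.H u u = b; generalize UnitF4.H v v = c
    revert a b c; decide
  have pres : ∀ u v : Vec, UnitF4.H (g u) (g v) + UnitF4.H (g u) (g v) ^ 2 =
      UnitF4.H u v + UnitF4.H u v ^ 2 := fun u v => by
    rw [tr, tr, ← hg.1, hg.2.2, hg.2.2, hg.2.2]
  refine hs_polar _ _ (pres x y) ?_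
  have hsc : ∀ (c : F4) (u v : Vec), UnitF4.H (c • u) v = c * UnitF4.H u v := fun c u v =>
    UnitF4.h_smul_left c u v
  have h := pres (om ^ 2 • x) y
  rw [hg.2.1, show twist false (om ^ 2) = om ^ 2 from rfl, hsc, hsc] at h
  exact h

theorem lev_spec {i : ℕ} (hi : i < 6) :
    baseR i < 4096 ∧ IsRoot (vecN (baseR i)) ∧
      (∀ v < 4096, rootR v = true → patt i v = true → ∃ p ∈ levL i, p.1 = v) ∧
      ∀ p ∈ levL i, ∃ g ∈ Kall, IsSemi false g ∧ g (vecN p.1) = vecN (baseR i) ∧
        ∀ k < i, g (vecN (baseR k)) = vecN (baseR k) := by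
  have h := List.all_eq_true.1 levOK_true i (List.mem_range.2 hi)
  simp only [levOK, Bool.and_eq_true, List.all_eq_true] at h
  obtain ⟨⟨⟨h1, h2⟩, h3⟩, h4⟩ := h
  have hb : baseR i < 4096 := Nat.blt_eq.mp h1
  refine ⟨hb, ?_, fun v hv hr hp => ?_, fun p hp => ?_⟩
  · unfold IsRoot; rwa [enc_vecN hb]
  · have h5 := allB_spec_zero h3 (by norm_num : 4096 ≤ 2 ^ 12) hv
    rw [hr, hp] at h5
    simp only [Bool.not_true, Bool.false_or, List.any_eq_true] at h5
    obtain ⟨p, hp1, hp2⟩ := h5
    exact ⟨p, hp1, (Nat.eq_of_beq_eq_true hp2).symm⟩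
  · obtain ⟨⟨⟨⟨hN, hlt⟩, he⟩, hfix⟩, hom⟩ := h4 p hp
    have hN' : p.2 < Data.numE := Nat.blt_eq.mp hN
    have hl : p.1 < 4096 := Nat.blt_eq.mp hlt
    have hbk : ∀ k < 6, baseR k < 4096 := by decide
    have e1 : el p.2 (vecN p.1) = vecN (baseR i) := by
      rw [el_apply hN' _ hl, Nat.eq_of_beq_eq_true he]
    refine ⟨el p.2, el_mem_Kall hN', ?_, e1, fun k hk => ?_⟩
    · obtain ⟨b, hsem⟩ := Kall_le_semiU (el_mem_Kall hN')
      cases b
      · exact hsem
      · exfalso
        have hk : el p.2 (vecN (scC om p.1)) = vecN (scC om (baseR i)) := by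
          rw [el_apply hN' (scC om p.1) (enc_lt _), Nat.eq_of_beq_eq_true hom]
        rw [scC, scC, vecN_enc, vecN_enc, hsem.2.1, e1] at hk
        have hne : vecN (baseR i) ≠ 0 := (root_iso (by unfold IsRoot; rwa [enc_vecN hb])).1
        obtain ⟨j, hj⟩ := Function.ne_iff.1 hne
        have := congrFun hk j
        simp only [Pi.smul_apply, smul_eq_mul] at this
        exact absurd (mul_right_cancel₀ hj this) (by decide)
    · have hk6 : baseR k < 4096 := hbk k (by omega)
      rw [el_apply hN' _ hk6, Nat.eq_of_beq_eq_true (hfix k (List.mem_range.2 hk))]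

theorem descend {g : Equiv.Perm Vec} (hg : IsSemi false g) (hr : g ∈ rootStab) :
    ∀ i ≤ 6, ∃ k ∈ Kall, IsSemi false (k * g) ∧ k * g ∈ rootStab ∧
      ∀ j < i, (k * g) (vecN (baseR j)) = vecN (baseR j) := by
  intro i
  induction i with
  | zero => exact fun _ => ⟨1, one_mem _, by rwa [one_mul], by rwa [one_mul], fun j hj => absurd hj (by omega)⟩
  | succ i ih =>
    intro hi
    obtain ⟨k, hk, hs1, hr1, hf⟩ := ih (by omega)
    obtain ⟨hb, hbr, hc, hl⟩ := lev_spec (show i < 6 by omega)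
    set x := (k * g) (vecN (baseR i)) with hx
    have hxr : rootR (enc x) = true := (hr1 _).2 hbr
    have hp : patt i (enc x) = true := by
      refine List.all_eq_true.2 fun j hj => decide_eq_true ?_
      have hj' := List.mem_range.1 hj
      rw [vecN_enc, hs_eq, hs_eq]
      have h := linear_isom hs1 (vecN (baseR i)) (vecN (baseR j))
      rw [hf j hj'] at h
      exact h
    obtain ⟨p, hp1, hp2⟩ := hc _ (enc_lt x) hxr hp
    obtain ⟨m, hm, hms, hme, hmf⟩ := hl p hp1
    rw [hp2, vecN_enc] at hme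
    refine ⟨m * k, mul_mem hm hk, by rw [mul_assoc]; exact hms.mul hs1,
      by rw [mul_assoc]; exact mul_mem (Kall_le_rootStab hm) hr1, fun j hj => ?_⟩
    rw [mul_assoc]
    show m ((k * g) (vecN (baseR j))) = _
    rcases Nat.lt_succ_iff_lt_or_eq.1 hj with hj | rfl
    · rw [hf j hj, hmf j hj]
    · exact hme

/-- A code from a mask over a list. -/
def combo : List ℕ → ℕ → ℕ
  | [], _ => 0
  | a :: l, m => (bif Nat.beq (Nat.mod m 2) 1 then a else 0) ^^^ combo l (Nat.div m 2)

theorem combo_fixed {g : Equiv.Perm Vec} (hg : IsSemi false g) {l : List ℕ}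
    (h : ∀ a ∈ l, g (vecN a) = vecN a) : ∀ m, g (vecN (combo l m)) = vecN (combo l m) := by
  have h0 : g 0 = 0 := by
    have := hg.1 0 0
    rw [add_zero] at this
    exact left_eq_add.1 this
  induction l with
  | nil => intro m; rw [combo, vecN_zero, h0]
  | cons a l ih =>
    intro m
    rw [combo, vecN_xor, hg.1, ih (fun b hb => h b (List.mem_cons_of_mem _ hb))]
    congr 1
    cases Nat.beq (Nat.mod m 2) 1
    · rw [cond_false, vecN_zero, h0]
    · rw [cond_true, h a List.mem_cons_self]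

/-- The base vectors and their multiples. -/
noncomputable def spanList : List ℕ :=
  [baseR 0, scC om (baseR 0), baseR 1, scC om (baseR 1), baseR 2, scC om (baseR 2),
    baseR 3, scC om (baseR 3), baseR 4, scC om (baseR 4), baseR 5, scC om (baseR 5)]

theorem span_ok : allB (fun j => Nat.ble 12 j ||
    Nat.beq (combo spanList (Data.spanMask.getD j 0)) (Nat.shiftLeft 1 j)) 4 0 = true := by
  decide +kernel

theorem eq_one_of_fix {g : Equiv.Perm Vec} (hg : IsSemi false g)
    (h : ∀ j < 6, g (vecN (baseR j)) = vecN (baseR j)) : g = 1 := by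
  have hl : ∀ a ∈ spanList, g (vecN a) = vecN a := by
    intro a ha
    have hsc : ∀ j < 6, g (vecN (scC om (baseR j))) = vecN (scC om (baseR j)) := fun j hj => by
      rw [scC, vecN_enc, hg.2.1, h j hj]
      rfl
    simp only [spanList, List.mem_cons, List.not_mem_nil, or_false] at ha
    rcases ha with rfl | rfl | rfl | rfl | rfl | rfl | rfl | rfl | rfl | rfl | rfl | rfl <;>
      first | exact h _ (by omega) | exact hsc _ (by omega)
  refine (isEl_of_basis hg ?_).unique isEl_one
  refine allB_of fun j hj => ?_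
  have hb := allB_spec_zero span_ok (by norm_num : 12 ≤ 2 ^ 4) hj
  rw [Bool.or_eq_true] at hb
  rcases hb with hb | hb
  · exact absurd (Nat.le_of_ble_eq_true hb) (not_le.2 hj)
  rw [← Nat.eq_of_beq_eq_true hb, combo_fixed hg hl, Nat.eq_of_beq_eq_true hb]
  have h1 := isEl_one (vecN (Nat.shiftLeft 1 j))
  rw [Equiv.Perm.one_apply, lin, enc_vecN (shl_lt hj)] at h1
  have h2 : allB (fun j => Nat.ble 12 j ||
      Nat.beq (appC (eN 20) (Nat.shiftLeft 1 j)) (col (eN 20) j)) 4 0 = true := by decide +kernel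
  have h3 := allB_spec_zero h2 (by norm_num : 12 ≤ 2 ^ 4) hj
  rw [Bool.or_eq_true] at h3
  rcases h3 with h3 | h3
  · exact absurd (Nat.le_of_ble_eq_true h3) (not_le.2 hj)
  rw [h1, enc_vecN (appC_lt _ _)]
  exact Nat.eq_of_beq_eq_true h3

theorem mem_Kall_of_rootStab {g : Equiv.Perm Vec} (hg : g ∈ semiU) (hr : g ∈ rootStab) :
    g ∈ Kall := by
  have lin : ∀ g, IsSemi false g → g ∈ rootStab → g ∈ Kall := fun g hg hr => by
    obtain ⟨k, hk, hs1, -, hf⟩ := descend hg hr 6 le_rfl
    have e := eq_one_of_fix hs1 hf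
    rw [eq_inv_of_mul_eq_one_right e]
    exact inv_mem hk
  obtain ⟨b, hb⟩ := hg
  cases b
  · exact lin g hb hr
  · have hf : frob ∈ Kall := Subgroup.mem_sup_right (Subgroup.subset_closure (by simp))
    have h := lin (frob * g) (frob_semi.mul hb) (mul_mem (Kall_le_rootStab hf) hr)
    rw [show g = frob⁻¹ * (frob * g) by rw [inv_mul_cancel_left]]
    exact mul_mem (inv_mem hf) h

theorem normalizer_le {g : Equiv.Perm Vec} (hg : g ∈ semiU)
    (hn : ∀ k ∈ Kc, g * k * g⁻¹ ∈ Kc) : g ∈ Kall := by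
  refine mem_Kall_of_rootStab hg ?_
  obtain ⟨b, hb⟩ := hg
  set u := vecN Data.repU
  have key : g '' MulAction.orbit Kc u ⊆ MulAction.orbit Kc (g u) := by
    rintro _ ⟨_, ⟨⟨k, hk⟩, rfl⟩, rfl⟩
    refine ⟨⟨_, hn k hk⟩, ?_⟩
    show g (k (g⁻¹ (g u))) = g (k u)
    rw [show g⁻¹ (g u) = u from g.symm_apply_apply u]
  obtain ⟨g1, g2⟩ := iso_pres hb rep_props.1.1 rep_props.1.2.1
  have hfin : ∀ S : Set Vec, S.Finite := fun S => S.toFinite
  have hu : IsRoot (g u) := by
    by_contra hne
    -- the image would miss points of an orbit of 1701 vectors whose preimages are roots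
    have hmem := (root_iff_mem_orbit g1 g2).2.1 hne
    have hnn : ∀ k ∈ Kc, g⁻¹ * k * g ∈ Kc := by
      intro k hk
      have hmap : Kc.map (MulAut.conj g).toMonoidHom = Kc := by
        refine Subgroup.eq_of_le_of_card_ge ?_ (le_of_eq ?_)
        · rintro _ ⟨x, hx, rfl⟩; exact hn x hx
        · exact (Nat.card_congr (Kc.equivMapOfInjective _ (MulAut.conj g).injective).toEquiv)
      rw [← hmap] at hk
      obtain ⟨x, hx, rfl⟩ := hk
      simpa [MulAut.conj_apply, mul_assoc] using hx
    have key2 : ⇑(g⁻¹) '' MulAction.orbit Kc (g u) ⊆ MulAction.orbit Kc u := by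
      rintro _ ⟨_, ⟨⟨k, hk⟩, rfl⟩, rfl⟩
      exact ⟨⟨_, hnn k hk⟩, rfl⟩

    have := Set.ncard_le_ncard key2 (hfin _)
    rw [Set.ncard_image_of_injective _ g⁻¹.injective, MulAction.orbit_eq_iff.2 hmem,
      ncard_orbitW, ncard_orbitU] at this
    omega
  have heq : g '' MulAction.orbit Kc u = MulAction.orbit Kc u := by
    refine Set.eq_of_subset_of_ncard_le ?_ ?_ (hfin _)
    · have := MulAction.orbit_eq_iff.2 ((root_iff_mem_orbit g1 g2).1.1 hu)
      rwa [this] at key
    · rw [Set.ncard_image_of_injective _ g.injective]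
  intro x
  have e : {y | IsRoot y} = g '' {y | IsRoot y} := by rw [← orbitU_eq, heq]
  constructor
  · intro h
    obtain ⟨y, hy, hyx⟩ := e ▸ (show g x ∈ {y | IsRoot y} from h)
    rwa [g.injective hyx] at hy
  · intro h
    have : g x ∈ g '' {y | IsRoot y} := ⟨x, h, rfl⟩
    rwa [← e] at this

end Cfsg.Agent.LargeFischer
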