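import Cfsg.Agent.LargeFischer.Normal
import Cfsg.Agent.PGroup.Extraspecial

/-!
A conjugate of the central involution inside `Q`: the images in the representation on `Q` modulo its
centre of its centraliser and of the intersection of the two centralisers' extraspecial subgroups.
-/

set_option autoImplicit false

namespace Cfsg.Agent.LargeFischer

open Cfsg
open Cfsg.Agent.GFour25
open Cfsg.Agent.SporB.FischerU (Vec SUSix vecN enc)
open Cfsg.Agent.TTClass

variable {G : Type*} [Group G] [Finite G] {z : G}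
  {Q : Subgroup (Subgroup.centralizer ({z} : Set G))} [Q.Normal]

omit [Q.Normal] [Finite G] in
/-- Two elements of `Q` with the same image differ by a swap. -/
theorem Base.exists_swap (B : Base z Q) {a : G} (ha : a ∈ QG Q) (h1 : a ≠ 1) (h2 : a ≠ z) :
    ∃ q : Subgroup.centralizer ({z} : Set G), q ∈ Q ∧ (q : G) * (a * z) * (q : G)⁻¹ = a := by
  obtain ⟨_, ⟨q, hq, rfl⟩, he⟩ := B.ci.exists_swap ha h1 h2
  refine ⟨q, hq, ?_⟩
  have hz := Subgroup.mem_centralizer_singleton_iff.1 q.2
  calc (q : G) * (a * z) * (q : G)⁻¹ = (q : G) * a * (q : G)⁻¹ * ((q : G) * z * (q : G)⁻¹) := by group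
    _ = a * z * z := by
      rw [show (q : G) * z * (q : G)⁻¹ = z by rw [hz, mul_inv_cancel_right]]
      exact congrArg (· * z) he
    _ = a := by rw [mul_assoc, B.ci.sq, mul_one]

omit [Finite G] in
theorem Frame.psi_ne (F : Frame z Q) {a : Q} (h1 : ((a : Subgroup.centralizer ({z} : Set G)) : G) ≠ 1)
    (h2 : ((a : Subgroup.centralizer ({z} : Set G)) : G) ≠ z) : F.psi a ≠ 0 := fun h =>
  ((F.psi_ker a).1 h).elim h1 h2

omit [Finite G] in
theorem Frame.rho_Q (F : Frame z Q) {h : Subgroup.centralizer ({z} : Set G)} (hh : h ∈ Q) :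
    F.rho h = 1 := MonoidHom.mem_ker.1 (F.ker_rho.symm ▸ hh)

omit [Finite G] in
/-- Related vectors come from conjugate elements. -/
theorem Frame.exists_conj (F : Frame z Q) (B : Base z Q) {a b : Q}
    (h1 : ((b : Subgroup.centralizer ({z} : Set G)) : G) ≠ 1)
    (h2 : ((b : Subgroup.centralizer ({z} : Set G)) : G) ≠ z)
    {k : Equiv.Perm Vec} (hk : k ∈ F.rho.range) (hab : k (F.psi a) = F.psi b) :
    ∃ h : Subgroup.centralizer ({z} : Set G), F.rho h = k ∧
      h * (a : Subgroup.centralizer ({z} : Set G)) * h⁻¹ = (b : Subgroup.centralizer ({z} : Set G)) := by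
  obtain ⟨h, rfl⟩ := hk
  rw [← F.psi_conj] at hab
  rcases F.vec_eq hab.symm with e | e
  · exact ⟨h, rfl, Subtype.ext e⟩
  · obtain ⟨q, hq, hqe⟩ := B.exists_swap (mem_QG.2 b.2) h1 h2
    refine ⟨q * h, by rw [map_mul, F.rho_Q hq, one_mul], Subtype.ext ?_⟩
    simp only [Subgroup.coe_mul, Subgroup.coe_inv] at e ⊢
    rw [← hqe, ← e]
    group

omit [Finite G] in
/-- Conjugate elements have related vectors. -/
theorem Frame.psi_of_conj (F : Frame z Q) {a b : Q} {h : Subgroup.centralizer ({z} : Set G)}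
    (e : h * (a : Subgroup.centralizer ({z} : Set G)) * h⁻¹ = (b : Subgroup.centralizer ({z} : Set G))) :
    F.rho h (F.psi a) = F.psi b := by
  rw [← F.psi_conj]
  exact congrArg F.psi (Subtype.ext e)

omit [Finite G] in
/-- The image of the centraliser of an element of `Q`. -/
theorem Frame.stab_image (F : Frame z Q) (B : Base z Q) {a : Q}
    (h1 : ((a : Subgroup.centralizer ({z} : Set G)) : G) ≠ 1)
    (h2 : ((a : Subgroup.centralizer ({z} : Set G)) : G) ≠ z) :
    ((Subgroup.centralizer ({z} : Set G) ⊓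
        Subgroup.centralizer ({((a : Subgroup.centralizer ({z} : Set G)) : G)} : Set G)).subgroupOf
      (Subgroup.centralizer ({z} : Set G))).map F.rho =
      F.rho.range ⊓ MulAction.stabilizer (Equiv.Perm Vec) (F.psi a) := by
  ext k
  constructor
  · rintro ⟨h, hh, rfl⟩
    refine ⟨⟨h, rfl⟩, MulAction.mem_stabilizer_iff.2 (F.psi_of_conj (Subtype.ext ?_))⟩
    have := Subgroup.mem_centralizer_singleton_iff.1 (Subgroup.mem_subgroupOf.1 hh).2
    simp only [Subgroup.coe_mul, Subgroup.coe_inv]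
    rw [this, mul_inv_cancel_right]
  · rintro ⟨hk, hs⟩
    obtain ⟨h, rfl, he⟩ := F.exists_conj B h1 h2 hk (MulAction.mem_stabilizer_iff.1 hs)
    refine ⟨h, Subgroup.mem_subgroupOf.2 ⟨h.2, Subgroup.mem_centralizer_singleton_iff.2 ?_⟩, rfl⟩
    have := congrArg Subtype.val he
    simp only [Subgroup.coe_mul, Subgroup.coe_inv] at this
    exact mul_inv_eq_iff_eq_mul.1 this

omit [Finite G] in
theorem Frame.isotropic (F : Frame z Q) {a : Q}
    (h : ((a : Subgroup.centralizer ({z} : Set G)) : G) * ((a : Subgroup.centralizer ({z} : Set G)) : G) = 1) :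
    UnitF4.H (F.psi a) (F.psi a) = 0 := (F.psi_norm a).2 (Subtype.ext (Subtype.ext h))

/-- The image in the representation of a conjugate of `Q`. -/
noncomputable def Frame.other (F : Frame z Q) (g : G) : Subgroup (Equiv.Perm Vec) :=
  (((QG Q).map (MulAut.conj g).toMonoidHom ⊓ Subgroup.centralizer ({z} : Set G)).subgroupOf
    (Subgroup.centralizer ({z} : Set G))).map F.rho

/-- The facts about a conjugate `g z g⁻¹` of `z` in `Q` other than `z`. -/
theorem Frame.other_facts (F : Frame z Q) (B : Base z Q) {g : G} {a : Q}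
    (ha : g * z * g⁻¹ = ((a : Subgroup.centralizer ({z} : Set G)) : G))
    (hne : ((a : Subgroup.centralizer ({z} : Set G)) : G) ≠ z) :
    (F.psi a ≠ 0 ∧ UnitF4.H (F.psi a) (F.psi a) = 0) ∧
      IsElementaryAbelian 2 (QG Q ⊓ (QG Q).map (MulAut.conj g).toMonoidHom) ∧
      Nat.card ↥(QG Q ⊓ (QG Q).map (MulAut.conj g).toMonoidHom) * Nat.card ↥(F.other g) = 4096 ∧
      32 ≤ Nat.card ↥(F.other g) ∧
      F.other g ≤ F.rho.range ⊓ MulAction.stabilizer (Equiv.Perm Vec) (F.psi a) ∧
      (∀ x ∈ F.rho.range ⊓ MulAction.stabilizer (Equiv.Perm Vec) (F.psi a), ∀ y ∈ F.other g,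
        x * y * x⁻¹ ∈ F.other g) ∧
      IsElementaryAbelian 2 (F.other g) := by
  haveI : Fact (Nat.Prime 2) := ⟨Nat.prime_two⟩
  set b := ((a : Subgroup.centralizer ({z} : Set G)) : G) with hb
  set P := (QG Q).map (MulAut.conj g).toMonoidHom with hP
  have hbQ : b ∈ QG Q := mem_QG.2 a.2
  have hb1 : b ≠ 1 := fun e => B.ci.ne_one (conj_eq_one_iff.1 (ha.trans e))
  have hbb : b * b = 1 := by
    rw [← ha, show g * z * g⁻¹ * (g * z * g⁻¹) = g * (z * z) * g⁻¹ by group, B.ci.sq]
    group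
  have hgQ : g * z * g⁻¹ ∈ QG Q := ha ▸ hbQ
  have hPb : LargeExtra.CentralInvolution P b := ha ▸ B.ci.conj g
  have hzP : z ∈ P := LargeExtra.mem_conj_of_conj_mem B.ci B.self B.norm (w := 6) (by norm_num)
    B.card hgQ (ha ▸ hne)
  have hnormP : ∀ x : G, x * b = b * x → ∀ y ∈ P, x * y * x⁻¹ ∈ P := by
    rintro x hx _ ⟨q, hq, rfl⟩
    have hd : g⁻¹ * x * g ∈ Subgroup.centralizer ({z} : Set G) := by
      rw [Subgroup.mem_centralizer_singleton_iff]
      calc g⁻¹ * x * g * z = g⁻¹ * (x * (g * z * g⁻¹)) * g := by group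
        _ = g⁻¹ * ((g * z * g⁻¹) * x) * g := by rw [ha, hx]
        _ = z * (g⁻¹ * x * g) := by group
    refine ⟨_, (Subgroup.mem_normalizer_iff.1 (B.norm hd) q).1 hq, ?_⟩
    show g * (g⁻¹ * x * g * q * (g⁻¹ * x * g)⁻¹) * g⁻¹ = x * (g * q * g⁻¹) * x⁻¹
    group
  set D := QG Q ⊓ P
  have hD : IsElementaryAbelian 2 D := by
    refine ⟨⟨⟨fun x y => Subtype.ext ?_⟩⟩, fun x hx => ?_⟩
    · show (x : G) * y = y * x
      rcases B.ci.comm_mem x.2.1 y.2.1 with e | e
      · exact mul_inv_eq_iff_eq_mul.1 (mul_inv_eq_one.1 e)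
      · rcases hPb.comm_mem x.2.2 y.2.2 with e' | e'
        · exact mul_inv_eq_iff_eq_mul.1 (mul_inv_eq_one.1 e')
        · exact absurd (e'.symm.trans e) hne
    · rw [pow_two]
      rcases B.ci.sq_mem hx.1 with e | e
      · exact e
      · rcases hPb.sq_mem hx.2 with e' | e'
        · exact e'
        · exact absurd (e'.symm.trans e) hne
  -- the two counts
  have hDsmall : Nat.card D ≤ 128 := by
    have hcomm : IsMulCommutative ↥(D.subgroupOf (QG Q)) := by
      refine ⟨⟨fun x y => Subtype.ext (Subtype.ext ?_)⟩⟩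
      have e := congrArg Subtype.val (hD.1.is_comm.comm (⟨_, x.2⟩ : ↥D) ⟨_, y.2⟩)
      exact e
    have h := PGroup.extraspecial_card_abelian_sq_le B.ci.extra hcomm
    rw [Nat.card_congr (Subgroup.subgroupOfEquivOfLe inf_le_left).toEquiv, B.card] at h
    have h' : Nat.card D * Nat.card D ≤ 16384 := h.trans_eq (by norm_num)
    by_contra hcon
    push Not at hcon
    have := Nat.mul_le_mul hcon hcon
    omega
  have hPC : Nat.card ↥(P ⊓ Subgroup.centralizer ({z} : Set G)) = 4096 := by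
    obtain ⟨w, hwQ, hwz⟩ := hzP
    have hw : g * w * g⁻¹ = z := hwz
    have hwc : (⟨w, hwQ⟩ : ↥(QG Q)) ∉ Subgroup.center ↥(QG Q) := fun hc => by
      rcases B.ci.eq_of_mem hc with e | e
      · apply B.ci.ne_one
        rw [← hw, show w = 1 from e]
        group
      · apply hne
        calc b = g * z * g⁻¹ := ha.symm
          _ = g * w * g⁻¹ := by rw [show w = z from e]
          _ = z := hw
    have hidx := PGroup.extraspecial_index_centralizer B.ci.extra hwc
    have h2 := Subgroup.card_mul_index (Subgroup.centralizer ({(⟨w, hwQ⟩ : ↥(QG Q))} : Set ↥(QG Q)))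
    rw [hidx, B.card] at h2
    have e : P ⊓ Subgroup.centralizer ({z} : Set G) =
        ((Subgroup.centralizer ({(⟨w, hwQ⟩ : ↥(QG Q))} : Set ↥(QG Q))).map (QG Q).subtype).map
          (MulAut.conj g).toMonoidHom := by
      ext x
      constructor
      · rintro ⟨⟨q, hq, rfl⟩, hx⟩
        refine ⟨q, ⟨⟨q, hq⟩, ?_, rfl⟩, rfl⟩
        refine Subgroup.mem_centralizer_singleton_iff.2 (Subtype.ext ?_)
        have hx' : g * q * g⁻¹ * z = z * (g * q * g⁻¹) := Subgroup.mem_centralizer_singleton_iff.1 hx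
        rw [← hw] at hx'
        have h3 : g * (q * w) * g⁻¹ = g * (w * q) * g⁻¹ := by
          calc g * (q * w) * g⁻¹ = g * q * g⁻¹ * (g * w * g⁻¹) := by group
            _ = g * w * g⁻¹ * (g * q * g⁻¹) := hx'
            _ = _ := by group
        exact mul_left_cancel (mul_right_cancel h3)
      · rintro ⟨_, ⟨q, hq, rfl⟩, rfl⟩
        have h3 := congrArg Subtype.val (Subgroup.mem_centralizer_singleton_iff.1 hq)
        refine ⟨⟨_, q.2, rfl⟩, Subgroup.mem_centralizer_singleton_iff.2 ?_⟩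
        show g * (q : G) * g⁻¹ * z = z * (g * (q : G) * g⁻¹)
        calc g * (q : G) * g⁻¹ * z = g * (q : G) * g⁻¹ * (g * w * g⁻¹) := by rw [hw]
          _ = g * ((q : G) * w) * g⁻¹ := by group
          _ = g * (w * (q : G)) * g⁻¹ := by
            rw [show (q : G) * w = w * q from h3]
          _ = g * w * g⁻¹ * (g * (q : G) * g⁻¹) := by group
          _ = _ := by rw [hw]
    rw [e, Subgroup.card_map_of_injective (MulAut.conj g).injective,
      Subgroup.card_map_of_injective (QG Q).subtype_injective]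
    norm_num at h2
    omega
  have hprod : Nat.card D * Nat.card ↥(F.other g) = 4096 := by
    set S := (P ⊓ Subgroup.centralizer ({z} : Set G)).subgroupOf (Subgroup.centralizer ({z} : Set G))
    have h := card_eq_inf_mul F.rho S
    rw [Nat.card_congr (Subgroup.subgroupOfEquivOfLe inf_le_right).toEquiv, hPC, F.ker_rho] at h
    have e : Nat.card ↥(S ⊓ Q) = Nat.card D := by
      rw [← Subgroup.card_map_of_injective (K := S ⊓ Q)
        (Subgroup.centralizer ({z} : Set G)).subtype_injective]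
      congr 2
      ext x
      constructor
      · rintro ⟨h, ⟨h1, h2⟩, rfl⟩
        exact ⟨⟨h, h2, rfl⟩, (Subgroup.mem_subgroupOf.1 h1).1⟩
      · rintro ⟨⟨h, h2, rfl⟩, h1⟩
        exact ⟨h, ⟨Subgroup.mem_subgroupOf.2 ⟨h1, h.2⟩, h2⟩, rfl⟩
    rw [e] at h
    exact h.symm
  refine ⟨⟨F.psi_ne hb1 hne, F.isotropic hbb⟩, hD, hprod, ?_, ?_, ?_, ?_⟩
  · by_contra hlt
    push Not at hlt
    have := Nat.mul_le_mul hDsmall (Nat.le_sub_one_of_lt hlt)
    omega
  · rw [← F.stab_image B hb1 hne]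
    refine Subgroup.map_mono fun h hh => ?_
    exact Subgroup.mem_subgroupOf.2 ⟨h.2, hPb.le_centralizer (Subgroup.mem_subgroupOf.1 hh).1⟩
  · rw [← F.stab_image B hb1 hne]
    rintro _ ⟨x, hx, rfl⟩ _ ⟨y, hy, rfl⟩
    refine ⟨x * y * x⁻¹, Subgroup.mem_subgroupOf.2 ⟨?_, (x * y * x⁻¹).2⟩, by simp⟩
    exact hnormP _ (Subgroup.mem_centralizer_singleton_iff.1 (Subgroup.mem_subgroupOf.1 hx).2) _
      (Subgroup.mem_subgroupOf.1 hy).1
  · have hone : ∀ u : Subgroup.centralizer ({z} : Set G), ((u : G) = 1 ∨ (u : G) = b) → F.rho u = 1 := by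
      rintro u (e | e)
      · rw [show u = 1 from Subtype.ext e, map_one]
      · exact F.rho_Q (mem_QG.1 (e ▸ hbQ))
    refine ⟨⟨⟨fun x y => ?_⟩⟩, ?_⟩
    · obtain ⟨_, u, hu, rfl⟩ := x
      obtain ⟨_, v, hv, rfl⟩ := y
      refine Subtype.ext ?_
      show F.rho u * F.rho v = F.rho v * F.rho u
      refine mul_inv_eq_iff_eq_mul.1 (mul_inv_eq_one.1 ?_)
      simp only [← map_mul, ← map_inv]
      exact hone _ (hPb.comm_mem (Subgroup.mem_subgroupOf.1 hu).1 (Subgroup.mem_subgroupOf.1 hv).1)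
    · rintro _ ⟨u, hu, rfl⟩
      rw [← map_pow]
      refine hone _ ?_
      simpa [pow_two] using hPb.sq_mem (Subgroup.mem_subgroupOf.1 hu).1

end Cfsg.Agent.LargeFischer
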