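import Cfsg.Agent.LargeFischer.Semi

/-!
Additive maps of the space of vectors given by the images of the twelve basis vectors, and the
search over elementary abelian subgroups of order 16 driven by a product table.
-/

set_option autoImplicit false

namespace Cfsg.Agent.LargeFischer.Thompson

open Cfsg.Agent.GFour25 Cfsg.Agent.CosetCert
open Cfsg.Agent.SporB.FischerU (Vec vecN enc vecN_enc enc_lt elt4)

theorem vecN_bits (n : ℕ) (i : Fin 6) :
    vecN n i = ⟨n.testBit (2 * i.val), n.testBit (2 * i.val + 1)⟩ := by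
  have e : (4 : ℕ) ^ i.val = 2 ^ (2 * i.val) := by rw [pow_mul]; norm_num
  have h0 : ∀ m : ℕ, m.testBit 0 = Nat.beq (m % 2) 1 := by
    intro m
    rw [Nat.testBit_zero]
    rcases Nat.mod_two_eq_zero_or_one m with h | h <;> simp [h] <;> rfl
  show elt4 (n / 4 ^ i.val) = _
  rw [e, elt4]
  congr 1
  · rw [← h0, Nat.testBit_div_two_pow]
    congr 1
    omega
  · rw [← h0, Nat.testBit_div_two, Nat.testBit_div_two_pow]
    congr 1
    omega

theorem vecN_xor (a b : ℕ) : vecN (a ^^^ b) = vecN a + vecN b := by
  funext i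
  rw [Pi.add_apply, vecN_bits, vecN_bits, vecN_bits, Nat.testBit_xor, Nat.testBit_xor]
  rfl

theorem enc_vecN {n : ℕ} (hn : n < 4096) : enc (vecN n) = n := by
  have h : allB (fun n => Nat.beq (enc (vecN n)) n) 12 0 = true := by decide +kernel
  exact Nat.eq_of_beq_eq_true (allB_spec_zero h (by norm_num : 4096 ≤ 2 ^ 12) hn)

theorem enc_add (u v : Vec) : enc (u + v) = enc u ^^^ enc v := by
  conv_lhs => rw [← vecN_enc u, ← vecN_enc v, ← vecN_xor]
  exact enc_vecN (Nat.xor_lt_two_pow (n := 12) (enc_lt u) (enc_lt v))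

theorem enc_injective : Function.Injective enc :=
  Function.LeftInverse.injective vecN_enc

/-- The additive map given by the images of the basis. -/
noncomputable def apL (g : List ℕ) : ℕ → ℕ :=
  List.rec (motive := fun _ => ℕ → ℕ) (fun _ => 0)
    (fun a _ ih x => Nat.xor (cond (Nat.beq (Nat.mod x 2) 1) a 0) (ih (Nat.div x 2))) g

theorem apL_nil (x : ℕ) : apL [] x = 0 := rfl

theorem apL_cons (a : ℕ) (g : List ℕ) (x : ℕ) :
    apL (a :: g) x = cond (x.testBit 0) a 0 ^^^ apL g (x / 2) := by
  have h : Nat.beq (x % 2) 1 = x.testBit 0 := by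
    rw [Nat.testBit_zero]
    rcases Nat.mod_two_eq_zero_or_one x with h | h <;> simp [h] <;> rfl
  rw [← h]
  rfl

theorem xor_div_two (x y : ℕ) : (x ^^^ y) / 2 = x / 2 ^^^ y / 2 := by
  apply Nat.eq_of_testBit_eq
  intro i
  rw [Nat.testBit_div_two, Nat.testBit_xor, Nat.testBit_xor, Nat.testBit_div_two,
    Nat.testBit_div_two]

theorem apL_xor (g : List ℕ) : ∀ x y : ℕ, apL g (x ^^^ y) = apL g x ^^^ apL g y := by
  induction g with
  | nil => intro x y; simp [apL_nil]
  | cons a g ih =>
    intro x y
    rw [apL_cons, apL_cons, apL_cons, xor_div_two, ih, Nat.testBit_xor]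
    generalize x.testBit 0 = p
    generalize y.testBit 0 = q
    generalize apL g (x / 2) = u
    generalize apL g (y / 2) = w
    cases p <;> cases q <;> apply Nat.eq_of_testBit_eq <;> intro i <;>
      simp only [Bool.cond_true, Bool.cond_false, Bool.xor_false, Bool.false_xor, Bool.xor_self,
        Nat.testBit_xor, Nat.zero_testBit] <;>
      cases a.testBit i <;> cases u.testBit i <;> cases w.testBit i <;> rfl

theorem apL_zero (g : List ℕ) : apL g 0 = 0 := by
  have h := apL_xor g 0 0
  rw [Nat.xor_self, Nat.xor_self] at h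
  exact h

/-- Composition of additive maps. -/
noncomputable def comp (g h : List ℕ) : List ℕ := h.map (apL g)

theorem apL_comp (g h : List ℕ) : ∀ x : ℕ, apL (comp g h) x = apL g (apL h x) := by
  induction h with
  | nil => intro x; simp [comp, apL_nil, apL_zero]
  | cons a h ih =>
    intro x
    rw [comp, List.map_cons, apL_cons, apL_cons, apL_xor, ← comp, ih]
    cases x.testBit 0 <;> simp [apL_zero]

/-- The identity. -/
def idL : List ℕ := [1, 2, 4, 8, 16, 32, 64, 128, 256, 512, 1024, 2048]

theorem apL_idL {x : ℕ} (hx : x < 4096) : apL idL x = x := by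
  have h : allB (fun n => Nat.beq (apL idL n) n) 12 0 = true := by decide +kernel
  exact Nat.eq_of_beq_eq_true (allB_spec_zero h (by norm_num : 4096 ≤ 2 ^ 12) hx)

/-- The list describes the permutation. -/
def Rep (g : List ℕ) (σ : Equiv.Perm Vec) : Prop := ∀ v, enc (σ v) = apL g (enc v)

theorem Rep.mul {g h : List ℕ} {σ τ : Equiv.Perm Vec} (hs : Rep g σ) (ht : Rep h τ) :
    Rep (comp g h) (σ * τ) := fun v => by
  rw [apL_comp, Equiv.Perm.mul_apply, hs, ht]

theorem Rep.one : Rep idL 1 := fun v => by
  rw [apL_idL (enc_lt v)]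
  rfl

theorem Rep.eq {g : List ℕ} {σ τ : Equiv.Perm Vec} (hs : Rep g σ) (ht : Rep g τ) : σ = τ :=
  Equiv.ext fun v => enc_injective ((hs v).trans (ht v).symm)

theorem Rep.inv {g h : List ℕ} {σ : Equiv.Perm Vec} (hs : Rep g σ) (hh : comp h g = idL) :
    Rep h σ⁻¹ := fun v => by
  have e := hs (σ⁻¹ v)
  rw [show σ (σ⁻¹ v) = v from Equiv.apply_symm_apply σ v] at e
  rw [e, ← apL_comp, hh, apL_idL (enc_lt _)]

theorem Rep.apply {g : List ℕ} {σ : Equiv.Perm Vec} (hs : Rep g σ) (v : Vec) :
    σ v = vecN (apL g (enc v)) := by rw [← hs v, vecN_enc]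

theorem Rep.list_eq {g h : List ℕ} {σ : Equiv.Perm Vec} (hg : Rep g σ) (hh : Rep h σ)
    (eg : comp g idL = g) (eh : comp h idL = h) : g = h := by
  rw [← eg, ← eh]
  refine List.map_congr_left fun e he => ?_
  have hlt : e < 4096 := by
    have : ∀ e ∈ idL, e < 4096 := by decide
    exact this e he
  have h1 := hg (vecN e)
  have h2 := hh (vecN e)
  rw [enc_vecN hlt] at h1 h2
  exact h1.symm.trans h2

/-- The images of the basis agree with the list. -/
noncomputable def basisOK (f : Vec → Vec) (g : List ℕ) : Bool :=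
  idL.all fun e => Nat.beq (enc (f (vecN e))) (apL g e)

theorem rep_of_basis {σ : Equiv.Perm Vec} (hadd : ∀ u v, σ (u + v) = σ u + σ v) {f : Vec → Vec}
    (hf : ∀ v, σ v = f v) {g : List ℕ} (h : basisOK f g = true) : Rep g σ := by
  have hb : ∀ k < 12, enc (σ (vecN (2 ^ k))) = apL g (2 ^ k) := by
    intro k hk
    have he : 2 ^ k ∈ idL := by interval_cases k <;> decide
    rw [hf]
    exact Nat.eq_of_beq_eq_true (List.all_eq_true.1 h _ he)
  have key : ∀ k ≤ 12, ∀ n < 2 ^ k, enc (σ (vecN n)) = apL g n := by
    intro k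
    induction k with
    | zero =>
      intro _ n hn
      have h0 : n = 0 := by simpa using hn
      subst h0
      have e0 : vecN 0 = 0 := by decide
      have hz : σ 0 = 0 := by simpa using hadd 0 0
      rw [e0, hz, apL_zero]
      decide
    | succ k ih =>
      intro hk n hn
      by_cases hlt : n < 2 ^ k
      · exact ih (by omega) n hlt
      · have hm : n ^^^ 2 ^ k < 2 ^ k := by
          apply Nat.lt_pow_two_of_testBit
          intro i hi
          rw [Nat.testBit_xor, Nat.testBit_two_pow]
          rcases eq_or_lt_of_le hi with rfl | hi'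
          · have : n.testBit k = true := Nat.testBit_of_two_pow_le_and_two_pow_add_one_gt (by omega) hn
            simp [this]
          · have : n.testBit i = false :=
              Nat.testBit_lt_two_pow (lt_of_lt_of_le hn (Nat.pow_le_pow_right (by norm_num) hi'))
            simp [this, Nat.ne_of_lt hi']
        have e : (n ^^^ 2 ^ k) ^^^ 2 ^ k = n := by
          rw [Nat.xor_assoc, Nat.xor_self, Nat.xor_zero]
        rw [← e, apL_xor, vecN_xor, hadd, enc_add, ih (by omega) _ hm, hb k (by omega)]
  intro v
  conv_lhs => rw [← vecN_enc v]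
  exact key 12 le_rfl _ (by simpa using enc_lt v)

/-! ### Sets of vectors as bit masks -/

/-- The fixed vectors of a list as a mask check. -/
noncomputable def maskOK (g : List ℕ) (m : ℕ) : Bool :=
  (List.rec (motive := fun _ => ℕ → ℕ → ℕ → Bool)
    (fun _ v w => !(Nat.beq v w) || !(Nat.beq (Nat.land (Nat.shiftRight m v) 1) 0))
    (fun a _ ih b v w => ih (Nat.mul 2 b) v w && ih (Nat.mul 2 b) (Nat.add v b) (Nat.xor w a)) g)
    1 0 0

/-- Extraction of at most `k` bits from the top. -/
noncomputable def topBits (k : ℕ) : ℕ → List ℕ :=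
  Nat.rec (motive := fun _ => ℕ → List ℕ) (fun _ => [])
    (fun _ ih x => Nat.log2 x :: ih (Nat.xor x (2 ^ Nat.log2 x))) k

/-- The mask has at most `k` bits. -/
noncomputable def fewBits (k : ℕ) : ℕ → Bool :=
  Nat.rec (motive := fun _ => ℕ → Bool) (fun x => Nat.beq x 0)
    (fun _ ih x => Nat.beq x 0 || ih (Nat.xor x (2 ^ Nat.log2 x))) k

theorem mem_topBits : ∀ {k x v : ℕ}, fewBits k x = true → x.testBit v = true → v ∈ topBits k x := by
  intro k
  induction k with
  | zero =>
    intro x v h hv
    have : x = 0 := Nat.eq_of_beq_eq_true h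
    subst this
    simp at hv
  | succ k ih =>
    intro x v h hv
    have e : fewBits (k + 1) x = (Nat.beq x 0 || fewBits k (x ^^^ 2 ^ Nat.log2 x)) := rfl
    rw [e, Bool.or_eq_true] at h
    have e2 : topBits (k + 1) x = Nat.log2 x :: topBits k (x ^^^ 2 ^ Nat.log2 x) := rfl
    rw [e2, List.mem_cons]
    rcases h with h | h
    · have : x = 0 := Nat.eq_of_beq_eq_true h
      subst this
      simp at hv
    by_cases hl : v = Nat.log2 x
    · exact Or.inl hl
    · refine Or.inr (ih h ?_)
      rw [Nat.testBit_xor, Nat.testBit_two_pow, hv]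
      simp [Ne.symm hl]

theorem length_topBits (k : ℕ) : ∀ x, (topBits k x).length = k := by
  induction k with
  | zero => intro x; rfl
  | succ k ih =>
    intro x
    show (Nat.log2 x :: topBits k (x ^^^ 2 ^ Nat.log2 x)).length = k + 1
    rw [List.length_cons, ih]

/-- A set of vectors inside a mask with few bits is small. -/
theorem ncard_le_of_mask {k m : ℕ} {S : Set Vec} (h : fewBits k m = true)
    (hS : ∀ v ∈ S, m.testBit (enc v) = true) : S.ncard ≤ k := by
  classical
  have hsub : S ⊆ ↑((topBits k m).toFinset.image vecN) := by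
    intro v hv
    rw [Finset.coe_image]
    exact ⟨enc v, List.mem_toFinset.2 (mem_topBits h (hS v hv)), vecN_enc v⟩
  refine (Set.ncard_le_ncard hsub (Finset.finite_toSet _)).trans ?_
  rw [Set.ncard_coe_finset]
  refine Finset.card_image_le.trans ((List.toFinset_card_le _).trans ?_)
  rw [length_topBits]

theorem maskOK_spec {g : List ℕ} {m : ℕ} (h : maskOK g m = true) (hl : g.length = 12) {v : ℕ}
    (hv : v < 4096) (hfix : apL g v = v) : m.testBit v = true := by
  have key : ∀ (l : List ℕ) (b v0 w0 : ℕ),
      (List.rec (motive := fun _ => ℕ → ℕ → ℕ → Bool)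
        (fun _ v w => !(Nat.beq v w) || !(Nat.beq (Nat.land (Nat.shiftRight m v) 1) 0))
        (fun a _ ih b v w => ih (Nat.mul 2 b) v w && ih (Nat.mul 2 b) (Nat.add v b) (Nat.xor w a)) l)
        b v0 w0 = true →
      ∀ x < 2 ^ l.length, v0 + b * x = w0 ^^^ apL l x → m.testBit (v0 + b * x) = true := by
    intro l
    induction l with
    | nil =>
      intro b v0 w0 h x hx he
      have hx0 : x = 0 := by simpa using hx
      subst hx0
      simp only [apL_nil, Nat.mul_zero, Nat.add_zero, Nat.xor_zero] at he ⊢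
      subst he
      simp only [Bool.or_eq_true, Bool.not_eq_true'] at h
      rcases h with h | h
      · exact absurd h (by rw [Nat.beq_refl]; decide)
      · rw [Nat.testBit, bne_iff_ne]
        intro hz
        rw [show Nat.land (Nat.shiftRight m v0) 1 = 1 &&& (m >>> v0) from Nat.and_comm _ _, hz] at h
        exact absurd h (by decide)
    | cons a l ih =>
      intro b v0 w0 h x hx he
      simp only [Bool.and_eq_true] at h
      have hx2 : x / 2 < 2 ^ l.length := by
        rw [List.length_cons, pow_succ] at hx; omega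
      rw [apL_cons] at he
      rcases Nat.mod_two_eq_zero_or_one x with hp | hp
      · have ht : x.testBit 0 = false := by simp [Nat.testBit_zero, hp]
        have e : v0 + b * x = v0 + 2 * b * (x / 2) := by
          conv_lhs => rw [show x = 2 * (x / 2) by omega]
          ring
        rw [e]
        refine ih (2 * b) v0 w0 h.1 (x / 2) hx2 ?_
        rw [← e, he, ht]
        simp
      · have ht : x.testBit 0 = true := by simp [Nat.testBit_zero, hp]
        have e : v0 + b * x = v0 + b + 2 * b * (x / 2) := by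
          conv_lhs => rw [show x = 2 * (x / 2) + 1 by omega]
          ring
        rw [e]
        refine ih (2 * b) (v0 + b) (w0 ^^^ a) h.2 (x / 2) hx2 ?_
        rw [← e, he, ht, Nat.xor_assoc]
        rfl
  have := key g 1 0 0 h v (by rw [hl]; exact hv) (by simp [hfix])
  simpa using this

/-! ### The search -/

/-- Entry of a table. -/
noncomputable def tget (tab : List (List ℕ)) (n i j : ℕ) : ℕ := (tab.getD i []).getD j n

/-- The span after adding an element. -/
noncomputable def spanL (tab : List (List ℕ)) (n : ℕ) (s : List ℕ) (g : ℕ) : List ℕ :=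
  g :: (s ++ s.map (tget tab n g))

/-- The listed set is closed under products. -/
noncomputable def closedL (tab : List (List ℕ)) (n : ℕ) (s : List ℕ) : Bool :=
  s.all fun x => s.all fun y => Nat.beq x y || s.any (Nat.beq (tget tab n x y))

/-- No repetition. -/
noncomputable def nodupB : List ℕ → Bool :=
  List.rec (motive := fun _ => Bool) true (fun a l ih => !(l.any (Nat.beq a)) && ih)

theorem nodupB_spec : ∀ {l : List ℕ}, nodupB l = true → l.Nodup := by
  intro l
  induction l with
  | nil => intro _; exact List.nodup_nil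
  | cons a l ih =>
    intro h
    have e : nodupB (a :: l) = (!(l.any (Nat.beq a)) && nodupB l) := rfl
    rw [e, Bool.and_eq_true, Bool.not_eq_true'] at h
    refine List.nodup_cons.2 ⟨fun hm => ?_, ih h.2⟩
    rw [List.any_eq_false] at h
    exact h.1 a hm (Nat.beq_refl a)

/-- The search for subgroups of order 16. -/
noncomputable def quadOK (tab : List (List ℕ)) (masks aIdx : List ℕ) (n k : ℕ) :
    ℕ → List ℕ → ℕ → Bool :=
  Nat.rec (motive := fun _ => ℕ → List ℕ → ℕ → Bool)
    (fun _ s m => fewBits 8 m || (nodupB s && s.all fun x => aIdx.any (Nat.beq x)))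
    (fun _ ih lo s m => closedL tab n s && (List.range n).all fun g =>
      Nat.blt g lo || s.any (Nat.beq g) || s.any (fun x => !(Nat.blt g (tget tab n g x)) ||
        Nat.beq (tget tab n g x) n) ||
      ih (g + 1) (spanL tab n s g) (Nat.land m (masks.getD g 0))) k

/-- A set of indices that behaves like the involutions of an elementary group of order 16. -/
theorem quadOK_spec {tab : List (List ℕ)} {masks aIdx : List ℕ} {n : ℕ} (S : Finset ℕ)
    (hcard : S.card = 15) (hn : ∀ x ∈ S, x < n)
    (hclosed : ∀ x ∈ S, ∀ y ∈ S, x ≠ y → tget tab n x y ∈ S ∧ tget tab n x y ≠ x ∧ tget tab n x y ≠ y)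
    (hinvol : ∀ x ∈ S, ∀ y ∈ S, x ≠ y → tget tab n (tget tab n x y) y = x)
    (F : Set ℕ) (hF : ∀ x ∈ S, ∀ v ∈ F, (masks.getD x 0).testBit v = true) :
    ∀ k lo (s : List ℕ) m, (s.length + 1) * 2 ^ k = 16 → (∀ x ∈ s, x ∈ S) →
      (∀ x ∈ S, x ∉ s → lo ≤ x) → (∀ v ∈ F, m.testBit v = true) →
      quadOK tab masks aIdx n k lo s m = true →
      (∀ x ∈ S, x ∈ aIdx) ∨ ∃ m', fewBits 8 m' = true ∧ ∀ v ∈ F, m'.testBit v = true := by
  intro k
  induction k with
  | zero =>
    intro lo s m hlen hs _ hm h
    have e : quadOK tab masks aIdx n 0 lo s m =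
        (fewBits 8 m || (nodupB s && s.all fun x => aIdx.any (Nat.beq x))) := rfl
    rw [e, Bool.or_eq_true] at h
    rcases h with h | h
    · exact Or.inr ⟨m, h, hm⟩
    rw [Bool.and_eq_true] at h
    refine Or.inl fun x hx => ?_
    have hsub : s.toFinset ⊆ S := fun y hy => hs y (List.mem_toFinset.1 hy)
    have heq : s.toFinset = S := Finset.eq_of_subset_of_card_le hsub (by
      rw [List.toFinset_card_of_nodup (nodupB_spec h.1), hcard]; omega)
    rw [← heq, List.mem_toFinset] at hx
    obtain ⟨y, hy, hxy⟩ := List.any_eq_true.1 (List.all_eq_true.1 h.2 x hx)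
    rwa [Nat.eq_of_beq_eq_true hxy]
  | succ k ih =>
    intro lo s m hlen hs hlo hm h
    have e : quadOK tab masks aIdx n (k + 1) lo s m = (closedL tab n s && (List.range n).all fun g =>
        Nat.blt g lo || s.any (Nat.beq g) || s.any (fun x => !(Nat.blt g (tget tab n g x)) ||
          Nat.beq (tget tab n g x) n) ||
        quadOK tab masks aIdx n k (g + 1) (spanL tab n s g) (Nat.land m (masks.getD g 0))) := rfl
    rw [e, Bool.and_eq_true] at h
    have hlt : s.length < 15 := by
      have : 2 * (s.length + 1) ≤ (s.length + 1) * 2 ^ (k + 1) := by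
        rw [pow_succ]
        have : 1 ≤ 2 ^ k := Nat.one_le_two_pow
        nlinarith
      omega
    have hne : (S \ s.toFinset).Nonempty := by
      rw [Finset.sdiff_nonempty]
      intro hsub
      have := Finset.card_le_card hsub
      have := List.toFinset_card_le s
      omega
    obtain ⟨hgS, hgs⟩ := Finset.mem_sdiff.1 ((S \ s.toFinset).min'_mem hne)
    set g := (S \ s.toFinset).min' hne with hg
    have hgs' : g ∉ s := fun h' => hgs (List.mem_toFinset.2 h')
    have hmin : ∀ x ∈ S, x ∉ s → g ≤ x := fun x hx hxs =>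
      Finset.min'_le _ _ (Finset.mem_sdiff.2 ⟨hx, fun h' => hxs (List.mem_toFinset.1 h')⟩)
    have hcond := List.all_eq_true.1 h.2 g (List.mem_range.2 (hn g hgS))
    simp only [Bool.or_eq_true] at hcond
    have hstep : ∀ x ∈ s, g < tget tab n g x ∧ tget tab n g x < n ∧ tget tab n g x ∈ S := by
      intro x hx
      have hne' : g ≠ x := fun e' => hgs' (e' ▸ hx)
      obtain ⟨hyS, hyg, hyx'⟩ := hclosed g hgS x (hs x hx) hne'
      refine ⟨lt_of_le_of_ne (hmin _ hyS fun hys => ?_) (Ne.symm hyg), hn _ hyS, hyS⟩
      have hi := hinvol g hgS x (hs x hx) hne'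
      have hcl := List.all_eq_true.1 (List.all_eq_true.1 h.1 _ hys) x hx
      rw [Bool.or_eq_true] at hcl
      rcases hcl with hcl | hcl
      · exact hyx' (Nat.eq_of_beq_eq_true hcl)
      · obtain ⟨w, hw, hwe⟩ := List.any_eq_true.1 hcl
        rw [hi] at hwe
        exact hgs' (Nat.eq_of_beq_eq_true hwe ▸ hw)
    rcases hcond with ((h' | h') | h') | h'
    · have := hlo g hgS hgs'
      rw [Nat.blt_eq] at h'
      omega
    · obtain ⟨w, hw, hwe⟩ := List.any_eq_true.1 h'
      exact absurd (Nat.eq_of_beq_eq_true hwe ▸ hw) hgs'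
    · obtain ⟨x, hx, hxe⟩ := List.any_eq_true.1 h'
      obtain ⟨h1, h2, -⟩ := hstep x hx
      rw [Bool.or_eq_true, Bool.not_eq_true'] at hxe
      rcases hxe with hxe | hxe
      · rw [show Nat.blt g (tget tab n g x) = true from Nat.blt_eq.mpr h1] at hxe
        exact absurd hxe (by decide)
      · exact absurd (Nat.eq_of_beq_eq_true hxe) (Nat.ne_of_lt h2)
    · refine ih (g + 1) (spanL tab n s g) _ ?_ ?_ ?_ ?_ h'
      · rw [spanL, List.length_cons, List.length_append, List.length_map, ← hlen, pow_succ]
        ring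
      · intro x hx
        rw [spanL, List.mem_cons, List.mem_append, List.mem_map] at hx
        rcases hx with rfl | hx | ⟨y, hy, rfl⟩
        · exact hgS
        · exact hs x hx
        · exact (hstep y hy).2.2
      · intro x hx hxs
        rw [spanL, List.mem_cons, List.mem_append, not_or, not_or] at hxs
        exact Nat.lt_of_le_of_ne (hmin x hx hxs.2.1) (Ne.symm hxs.1)
      · intro v hv
        show (m &&& masks.getD g 0).testBit v = true
        rw [Nat.testBit_and, hm v hv, hF g hgS v hv]
        rfl

end Cfsg.Agent.LargeFischer.Thompson
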