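import Cfsg.Agent.LargeFischer.ThompsonCalc
import Cfsg.Agent.LargeFischer.ThompsonData

/-!
The certificate for the elementary abelian subgroup of order 16 in a Sylow 2-subgroup of the
semilinear model of `3.U₄(3).2` acting on the six-dimensional space over the field of four elements.
-/

set_option autoImplicit false
set_option maxRecDepth 100000

namespace Cfsg.Agent.LargeFischer.Thompson

open Cfsg.Agent.GFour25 Cfsg.Agent.CosetCert
open Cfsg.Agent.SporB.FischerU (Vec SUSix vecN enc vecN_enc enc_lt pt hs hs_eq tv)
open Cfsg.Agent.TTClass
open ThompsonData

/-! ### The permutations -/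

theorem f4_w_ww : ∀ x : F4, (⟨true, true⟩ : F4) * (⟨false, true⟩ * x) = x := by decide
theorem f4_ww_w : ∀ x : F4, (⟨false, true⟩ : F4) * (⟨true, true⟩ * x) = x := by decide
theorem f4_sq_sq : ∀ x : F4, x * x * (x * x) = x := by decide
theorem f4_sq_add : ∀ x y : F4, (x + y) * (x + y) = x * x + y * y := by decide

/-- Multiplication by `w`. -/
def omgPerm : Equiv.Perm Vec where
  toFun v i := ⟨false, true⟩ * v i
  invFun v i := ⟨true, true⟩ * v i
  left_inv v := funext fun i => f4_w_ww (v i)
  right_inv v := funext fun i => f4_ww_w (v i)

/-- The conjugation of the coordinates. -/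
def cnjPerm : Equiv.Perm Vec where
  toFun v i := v i * v i
  invFun v i := v i * v i
  left_inv v := funext fun i => f4_sq_sq (v i)
  right_inv v := funext fun i => f4_sq_sq (v i)

/-- The point of the transvection with the given number. -/
noncomputable def tPoint (i : ℕ) : Fin 693 := ⟨tvPts.getD i 0 % 693, Nat.mod_lt _ (Nat.succ_pos _)⟩

/-- The transvection with the given number. -/
noncomputable def tP (i : ℕ) : Equiv.Perm Vec := actHom (tv (tPoint i))

/-- Its effect. -/
noncomputable def tFun (i : ℕ) (v : Vec) : Vec := fun j => v j + hs v (pt (tPoint i)) * pt (tPoint i) j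

theorem tP_apply (i : ℕ) (v : Vec) : tP i v = tFun i v := by
  rw [tP, actHom_apply, tv, UnitF4.act_tSU GFour25.card_F4, ← hs_eq]
  rfl

/-- The numbers of the two transvections of a generator. -/
noncomputable def pairAt (i : ℕ) : ℕ × ℕ := pairPos.getD i (0, 0)

/-- A generator of the concrete group. -/
noncomputable def gPerm (i : ℕ) : Equiv.Perm Vec :=
  tP (pairAt i).1 * tP (pairAt i).2 * (tP (pairAt i).1 * tP (pairAt i).2)

/-- The list of the image of the product of two listed permutations squared. -/
noncomputable def gImg (i : ℕ) : List ℕ :=
  comp (comp (tvImgs.getD (pairAt i).1 idL) (tvImgs.getD (pairAt i).2 idL))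
    (comp (tvImgs.getD (pairAt i).1 idL) (tvImgs.getD (pairAt i).2 idL))

/-- A letter: a generator or its inverse. -/
noncomputable def letter (i : ℕ) : Equiv.Perm Vec :=
  bif Nat.blt i 10 then gPerm i else (gPerm (i - 10))⁻¹

/-- The value of a word. -/
noncomputable def wPerm (w : List ℕ) : Equiv.Perm Vec := (w.map letter).prod

/-- The list of the value of a word. -/
noncomputable def wImg (w : List ℕ) : List ℕ := (w.map fun i => letters.getD i idL).foldr comp idL

theorem tvImgs_ok : ((List.range 12).all fun i =>
    basisOK (tFun i) (tvImgs.getD i idL)) = true := by decide +kernel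

theorem letters_ok : ((List.range 10).all fun i => Nat.blt (pairAt i).1 12 && Nat.blt (pairAt i).2 12 &&
    (letters.getD i idL == gImg i) &&
    (comp (letters.getD (i + 10) idL) (letters.getD i idL) == idL)) = true := by decide +kernel

theorem omg_ok : basisOK (fun v i => (⟨false, true⟩ : F4) * v i) omg = true := by decide +kernel
theorem cnj_ok : basisOK (fun v i => v i * v i) cnj = true := by decide +kernel

theorem tP_add (i : ℕ) (u v : Vec) : tP i (u + v) = tP i u + tP i v :=
  (actHom_semi (tv (tPoint i))).1 u v

theorem rep_tP {i : ℕ} (hi : i < 12) : Rep (tvImgs.getD i idL) (tP i) :=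
  rep_of_basis (tP_add i) (tP_apply i) (List.all_eq_true.1 tvImgs_ok i (List.mem_range.2 hi))

theorem rep_omg : Rep omg omgPerm :=
  rep_of_basis (fun u v => funext fun i => mul_add _ _ _) (fun _ => rfl) omg_ok

theorem rep_cnj : Rep cnj cnjPerm :=
  rep_of_basis (fun u v => funext fun i => f4_sq_add (u i) (v i)) (fun _ => rfl) cnj_ok

theorem rep_letter {i : ℕ} (hi : i < 20) : Rep (letters.getD i idL) (letter i) := by
  have main : ∀ j < 10, Rep (letters.getD j idL) (gPerm j) ∧
      comp (letters.getD (j + 10) idL) (letters.getD j idL) = idL := by
    intro j hj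
    have h := List.all_eq_true.1 letters_ok j (List.mem_range.2 hj)
    simp only [Bool.and_eq_true, beq_iff_eq, Nat.blt_eq] at h
    refine ⟨?_, h.2⟩
    rw [h.1.2]
    exact ((rep_tP h.1.1.1).mul (rep_tP h.1.1.2)).mul ((rep_tP h.1.1.1).mul (rep_tP h.1.1.2))
  by_cases h : i < 10
  · rw [letter, show Nat.blt i 10 = true from Nat.blt_eq.mpr h, cond_true]
    exact (main i h).1
  · obtain ⟨j, rfl⟩ : ∃ j, i = j + 10 := ⟨i - 10, by omega⟩
    rw [letter, show Nat.blt (j + 10) 10 = false from
      Bool.eq_false_iff.2 fun e => h (Nat.blt_eq.mp e), cond_false, Nat.add_sub_cancel]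
    exact (main j (by omega)).1.inv (main j (by omega)).2

theorem rep_word : ∀ w : List ℕ, (∀ i ∈ w, i < 20) → Rep (wImg w) (wPerm w) := by
  intro w
  induction w with
  | nil => intro _; exact Rep.one
  | cons a w ih =>
    intro h
    exact (rep_letter (h a (List.mem_cons_self ..))).mul (ih fun i hi => h i (List.mem_cons_of_mem _ hi))

/-- A subgroup contains what is needed. -/
structure Contains (R : Subgroup (Equiv.Perm Vec)) : Prop where
  gen : ∀ i < 10, gPerm i ∈ R
  omega : omgPerm ∈ R

theorem Contains.word {R : Subgroup (Equiv.Perm Vec)} (hR : Contains R) {w : List ℕ}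
    (hw : ∀ i ∈ w, i < 20) : wPerm w ∈ R := by
  refine list_prod_mem fun x hx => ?_
  obtain ⟨i, hi, rfl⟩ := List.mem_map.1 hx
  have := hw i hi
  by_cases h : i < 10
  · rw [letter, show Nat.blt i 10 = true from Nat.blt_eq.mpr h, cond_true]
    exact hR.gen i h
  · rw [letter, show Nat.blt i 10 = false from
      Bool.eq_false_iff.2 fun e => h (Nat.blt_eq.mp e), cond_false]
    exact R.inv_mem (hR.gen _ (by omega))

/-! ### Candidates for a Sylow subgroup -/

/-- The data of a candidate. -/
structure Cand where
  /-- the outer generator -/
  outer : List ℕ
  /-- its elements -/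
  elems : List (List ℕ)
  /-- the parents of the elements -/
  par : List (ℕ × ℕ)
  /-- the involutions -/
  invs : List (List ℕ)
  /-- products of commuting involutions -/
  tab : List (List ℕ)
  /-- fixed vectors of the involutions -/
  masks : List ℕ
  /-- the involutions of the distinguished subgroup -/
  aIdx : List ℕ
  /-- the places of its elements -/
  aElems : List ℕ

/-- The generators of a candidate. -/
noncomputable def Cand.gens (C : Cand) : List (List ℕ) := evGens ++ [C.outer]

/-- The generators are the values of the words. -/
noncomputable def evOK : Bool :=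
  Nat.beq evWords.length 3 && Nat.beq evGens.length 3 && (List.range 3).all fun i =>
    (evWords.getD i []).all (fun j => Nat.blt j 20) && (wImg (evWords.getD i []) == evGens.getD i idL)

theorem evOK_true : evOK = true := by decide +kernel

/-- Every element times a generator is an element. -/
noncomputable def Cand.closedOK (C : Cand) : Bool :=
  C.elems.all fun g => C.gens.all fun h => C.elems.contains (comp g h)

/-- Every element is built from the identity. -/
noncomputable def Cand.parOK (C : Cand) : Bool :=
  (C.elems.getD 0 [] == idL) && Nat.beq C.elems.length 256 &&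
    (List.range 256).all fun i => Nat.beq i 0 ||
      (Nat.blt (C.par.getD i (0, 0)).1 i && Nat.blt (C.par.getD i (0, 0)).2 4 &&
        (C.elems.getD i [] ==
          comp (C.elems.getD (C.par.getD i (0, 0)).1 []) (C.gens.getD (C.par.getD i (0, 0)).2 [])))

/-- No repetition of lists. -/
noncomputable def distinctB : List (List ℕ) → Bool :=
  List.rec (motive := fun _ => Bool) true (fun a l ih => !(l.contains a) && ih)

theorem distinctB_spec : ∀ {l : List (List ℕ)}, distinctB l = true → l.Nodup := by
  intro l
  induction l with
  | nil => intro _; exact List.nodup_nil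
  | cons a l ih =>
    intro h
    have e : distinctB (a :: l) = (!(l.contains a) && distinctB l) := rfl
    rw [e, Bool.and_eq_true, Bool.not_eq_true'] at h
    exact List.nodup_cons.2 ⟨by simpa using h.1, ih h.2⟩

/-- The lists are in normal form. -/
noncomputable def normalB (l : List (List ℕ)) : Bool :=
  distinctB l && l.all fun g => (comp g idL == g) && Nat.beq g.length 12

/-- The list of involutions is complete. -/
noncomputable def Cand.invsOK (C : Cand) : Bool :=
  Nat.beq C.invs.length 71 && C.elems.all fun g => (g == idL) || !(comp g g == idL) || C.invs.contains g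

/-- The product table. -/
noncomputable def Cand.tabOK (C : Cand) : Bool :=
  (List.range 71).all fun i => (List.range 71).all fun j => Nat.beq i j ||
    (bif Nat.beq (tget C.tab 71 i j) 71 then
      !(comp (C.invs.getD i []) (C.invs.getD j []) == comp (C.invs.getD j []) (C.invs.getD i []))
    else Nat.blt (tget C.tab 71 i j) 71 &&
      (comp (C.invs.getD i []) (C.invs.getD j []) == C.invs.getD (tget C.tab 71 i j) []))

/-- The masks. -/
noncomputable def Cand.masksOK (C : Cand) : Bool :=
  (List.range 71).all fun i => maskOK (C.invs.getD i []) (C.masks.getD i 0)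

/-- The distinguished subgroup. -/
noncomputable def Cand.aOK (C : Cand) : Bool :=
  (C.aIdx.all fun i => aList.contains (C.invs.getD i [])) &&
    Nat.beq C.aElems.length 15 &&
    (List.range 15).all fun i => Nat.blt (C.aElems.getD i 256) 256 &&
      (C.elems.getD (C.aElems.getD i 256) [] == aList.getD i [])

/-- A candidate passes all checks. -/
structure Cand.Ok (C : Cand) : Prop where
  closed : C.closedOK = true
  par : C.parOK = true
  normal_elems : normalB C.elems = true
  normal_invs : normalB C.invs = true
  invs : C.invsOK = true
  tab : C.tabOK = true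
  masks : C.masksOK = true
  a : C.aOK = true
  quad : quadOK C.tab C.masks C.aIdx 71 4 0 [] (2 ^ 4096 - 1) = true

/-- The first candidate. -/
noncomputable def candA : Cand :=
  ⟨cnj, elemsA, parA, invsA, tabA, masksA, aIdxA, aElemsA⟩

/-- The second candidate. -/
noncomputable def candB : Cand :=
  ⟨comp cnj (tvImgs.getD tZero idL), elemsB, parB, invsB, tabB, masksB, aIdxB, aElemsB⟩

set_option maxHeartbeats 4000000

theorem candA_closed : candA.closedOK = true := by decide +kernel

theorem candA_par : candA.parOK = true := by decide +kernel

theorem candA_normal_elems : normalB candA.elems = true := by decide +kernel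

theorem candA_normal_invs : normalB candA.invs = true := by decide +kernel

theorem candA_invs : candA.invsOK = true := by decide +kernel

theorem candA_tab : candA.tabOK = true := by decide +kernel

theorem candA_masks : candA.masksOK = true := by decide +kernel

theorem candA_a : candA.aOK = true := by decide +kernel

theorem candA_quad : quadOK candA.tab candA.masks candA.aIdx 71 4 0 [] (2 ^ 4096 - 1) = true := by decide +kernel

theorem candA_ok : candA.Ok :=
  ⟨candA_closed, candA_par, candA_normal_elems, candA_normal_invs, candA_invs, candA_tab, candA_masks, candA_a, candA_quad⟩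

theorem candB_closed : candB.closedOK = true := by decide +kernel

theorem candB_par : candB.parOK = true := by decide +kernel

theorem candB_normal_elems : normalB candB.elems = true := by decide +kernel

theorem candB_normal_invs : normalB candB.invs = true := by decide +kernel

theorem candB_invs : candB.invsOK = true := by decide +kernel

theorem candB_tab : candB.tabOK = true := by decide +kernel

theorem candB_masks : candB.masksOK = true := by decide +kernel

theorem candB_a : candB.aOK = true := by decide +kernel

theorem candB_quad : quadOK candB.tab candB.masks candB.aIdx 71 4 0 [] (2 ^ 4096 - 1) = true := by decide +kernel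

theorem candB_ok : candB.Ok :=
  ⟨candB_closed, candB_par, candB_normal_elems, candB_normal_invs, candB_invs, candB_tab, candB_masks, candB_a, candB_quad⟩

/-! ### The checks on the distinguished subgroup and its fixed space -/

/-- The norm of a number. -/
noncomputable def qN (v : ℕ) : Bool := decide (hs (vecN v) (vecN v) = 0)

theorem qN_enc (v : Vec) : qN (enc v) = true ↔ UnitF4.H v v = 0 := by
  rw [qN, vecN_enc, hs_eq, decide_eq_true_eq]

/-- The distinguished subgroup is elementary abelian, commutes with `w`. -/
noncomputable def aGroupOK : Bool :=
  normalB aList && Nat.beq aList.length 15 && aList.all fun g => (comp g g == idL) &&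
    (comp g omg == comp omg g) && !(g == idL) && aList.all fun h =>
      (g == h) || (aList.contains (comp g h) && (comp g h == comp h g))

theorem aGroupOK_true : aGroupOK = true := by decide +kernel

/-- The fixed space. -/
noncomputable def uOK : Bool :=
  (uList.all fun u => Nat.blt u 4096 && qN u && uList.contains (apL omg u) &&
    (aList.all fun g => Nat.beq (apL g u) u)) &&
  allB (fun v => Nat.beq (Nat.land (Nat.shiftRight uMask v) 1) 0 || uList.contains v) 12 0 &&
  ((List.range 15).all fun i => maskOK (aList.getD i []) (masksA.getD (aIdxOf i) 0)) &&
  fewEq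
where
  /-- the place of an element among the involutions -/
  aIdxOf (i : ℕ) : ℕ := invsA.idxOf (aList.getD i [])
  /-- the intersection of the fixed masks -/
  fewEq : Bool := Nat.beq uMask
    ((List.range 15).foldr (fun i m => Nat.land m (masksA.getD (invsA.idxOf (aList.getD i [])) 0))
      (2 ^ 4096 - 1))

theorem uOK_true : uOK = true := by decide +kernel

/-- Maximality of the fixed space as a totally singular space. -/
noncomputable def perpOK : Bool :=
  allB (fun v => uList.contains v || uBasis.any fun u => !(qN (Nat.xor v u) == qN v)) 12 0

theorem perpOK_true : perpOK = true := by decide +kernel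

/-- The basis of the fixed space and the dual vectors. -/
noncomputable def dualOK : Bool :=
  Nat.beq uBasis.length 6 && (List.range 6).all fun i => Nat.blt (wDual.getD i 0) 4096 &&
    uList.contains (uBasis.getD i 0) && (List.range 6).all fun j =>
      (qN (Nat.xor (wDual.getD i 0) (uBasis.getD j 0)) == qN (wDual.getD i 0)) == !(Nat.beq i j)

theorem dualOK_true : dualOK = true := by decide +kernel

/-- Every fixed vector is a sum of basis vectors. -/
noncomputable def spanOK : Bool :=
  uList.all fun u => (List.range 64).any fun s => Nat.beq u ((List.range 6).foldr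
    (fun i m => bif Nat.beq (Nat.land (Nat.shiftRight s i) 1) 1 then Nat.xor (uBasis.getD i 0) m else m) 0)

theorem spanOK_true : spanOK = true := by decide +kernel

/-- The elements moving the distinguished subgroup. -/
noncomputable def normOK : Bool :=
  Nat.beq nWords.length 3 && (List.range 3).all fun k =>
    (nWords.getD k []).all (fun j => Nat.blt j 20) &&
    (wImg (nWords.getD k []) == nImgs.getD k idL) &&
    (comp (nInvImgs.getD k idL) (nImgs.getD k idL) == idL) &&
    (comp (nImgs.getD k idL) omg == comp omg (nImgs.getD k idL)) &&
    uList.all (fun u => uList.contains (apL (nImgs.getD k idL) u)) &&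
    aList.all fun g => aList.contains (comp (comp (nImgs.getD k idL) g) (nInvImgs.getD k idL))

theorem normOK_true : normOK = true := by decide +kernel

/-- Transitivity on the distinguished subgroup. -/
noncomputable def treeOK : Bool :=
  (List.range 15).all fun i => Nat.beq i 0 || (Nat.blt (aTree.getD i (0, 0)).1 i &&
    Nat.blt (aTree.getD i (0, 0)).2 3 && (aList.getD i [] ==
      comp (comp (nImgs.getD (aTree.getD i (0, 0)).2 idL) (aList.getD (aTree.getD i (0, 0)).1 []))
        (nInvImgs.getD (aTree.getD i (0, 0)).2 idL)))

theorem treeOK_true : treeOK = true := by decide +kernel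

end Cfsg.Agent.LargeFischer.Thompson
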