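import Cfsg.Agent.LargeFischer.Frame
import Cfsg.Agent.LargeFischer.ThompsonKe
import Cfsg.Agent.PGroup.Extraspecial

/-!
The unique elementary abelian subgroup of order `2^11` in a Sylow 2-subgroup of the centraliser in a
group of large Fischer type, given a frame in normal form.
-/

set_option autoImplicit false

namespace Cfsg.Agent.LargeFischer.Thompson

open Cfsg
open Cfsg.Agent.SporB.FischerU (Vec)

/-- The facts about the extension, from a frame. -/
theorem ext_of_frame {G : Type*} [Group G] [Finite G] {z : G}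
    {Q : Subgroup (Subgroup.centralizer ({z} : Set G))} [Q.Normal]
    (hF : Cfsg.IsOfLargeFischerTypeAt z Q) (F : Frame z Q) :
    ∃ z' : Subgroup.centralizer ({z} : Set G), Ext Q z' F.rho F.psi := by
  obtain ⟨⟨hz, hgF, hE, hcardQ, -⟩, -⟩ := hF
  obtain ⟨hzC, hzQ⟩ : ∃ hzC : z ∈ Subgroup.centralizer ({z} : Set G),
      (⟨z, hzC⟩ : Subgroup.centralizer ({z} : Set G)) ∈ Q := by
    by_contra hno
    push Not at hno
    have hone : ∀ a, F.psi a = 0 → a = 1 := fun a ha => by
      rcases (F.psi_ker a).1 ha with h | h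
      · exact Subtype.ext (Subtype.ext h)
      · have hzC : z ∈ Subgroup.centralizer ({z} : Set G) :=
          Subgroup.mem_centralizer_iff.2 fun g hg => by rw [Set.mem_singleton_iff.1 hg]
        have he : (⟨z, hzC⟩ : Subgroup.centralizer ({z} : Set G)) =
            (a : Subgroup.centralizer ({z} : Set G)) := Subtype.ext h.symm
        exact absurd (he ▸ a.2) (hno hzC)
    have hinj : Function.Injective F.psi := fun a b h => by
      have h2 := F.psi_mul b (b⁻¹ * a)
      rw [mul_inv_cancel_left, h] at h2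
      exact (inv_mul_eq_one.1 (hone _ (by simpa using h2))).symm
    have h := Nat.card_le_card_of_injective _ hinj
    rw [hcardQ, Nat.card_eq_fintype_card, Fintype.card_fun, GFour25.card_F4, Fintype.card_fin] at h
    norm_num at h
  refine ⟨⟨z, hzC⟩, ⟨hzQ, fun h => Subtype.ext ?_, ?_, ?_, F.ker_rho, F.psi_mul, F.psi_surj,
    fun a => ?_, F.psi_norm, F.psi_conj, fun R hR => ?_⟩⟩
  · exact (Subgroup.mem_centralizer_iff.1 h.2 z (Set.mem_singleton z)).symm
  · exact Subtype.ext (by
      show z * z = 1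
      rw [← pow_two, ← hz]
      exact pow_orderOf_eq_one z)
  · intro e
    have : z = 1 := congrArg Subtype.val e
    rw [this, orderOf_one] at hz
    omega
  · rw [F.psi_ker a, Subtype.ext_iff, Subtype.ext_iff]
    rfl
  · exact Cfsg.Agent.PGroup.extraspecial_card_abelian_le hE (n := 6) (hcardQ.trans (by norm_num)) hR

/-- The statement, from a frame with the concrete image. -/
theorem sylow_unique_max {G : Type*} [Group G] [Finite G] {z : G}
    {Q : Subgroup (Subgroup.centralizer ({z} : Set G))} [Q.Normal]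
    (hF : Cfsg.IsOfLargeFischerTypeAt z Q) (F : Frame z Q) (hK : Kc ≤ F.rho.range)
    (hout : frob ∈ F.rho.range ∨ outE ∈ F.rho.range)
    (hcard : Nat.card F.rho.range = 19595520)
    (T : Sylow 2 ↥(Subgroup.centralizer ({z} : Set G))) :
    ∃ A : Subgroup ↥(T : Subgroup (Subgroup.centralizer ({z} : Set G))),
      Cfsg.maxElementaryAbelianSubgroups 2 ↥(T : Subgroup (Subgroup.centralizer ({z} : Set G))) = {A} ∧
      Nat.card A = 2 ^ 11 ∧
      Nat.card ↥(A.map (T : Subgroup (Subgroup.centralizer ({z} : Set G))).subtype ⊓ Q) = 2 ^ 7 ∧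
      Nat.card ↥((A.map (T : Subgroup (Subgroup.centralizer ({z} : Set G))).subtype).map
        (QuotientGroup.mk' Q)) = 16 := by
  obtain ⟨z', D⟩ := ext_of_frame hF F
  obtain ⟨M⟩ : Nonempty (Model F.rho.range) := model_of_mem hK hout
  have hfac : (Nat.card F.rho.range).factorization 2 = 8 := by
    rw [hcard, show (19595520 : ℕ) = 2 ^ 8 * 76545 by norm_num,
      Nat.factorization_mul (by norm_num) (by norm_num), Finsupp.add_apply, Nat.factorization_pow,
      Finsupp.smul_apply, Nat.Prime.factorization_self Nat.prime_two,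
      Nat.factorization_eq_zero_of_not_dvd (show ¬ 2 ∣ 76545 by norm_num)]
    norm_num
  obtain ⟨K, hKT, hKel, hKc, hKQ, hKm, hmax⟩ := D.unique_max M hfac T
  have hmap : ∀ B : Subgroup ↥(T : Subgroup (Subgroup.centralizer ({z} : Set G))),
      IsElementaryAbelian 2 B → IsElementaryAbelian 2 (B.map (T : Subgroup (Subgroup.centralizer ({z} : Set G))).subtype) := by
    intro B hB
    refine ⟨⟨⟨fun u v => ?_⟩⟩, ?_⟩
    · obtain ⟨a, ha, hua⟩ := u.2
      obtain ⟨b, hb, hvb⟩ := v.2
      apply Subtype.ext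
      show (u : ↥(Subgroup.centralizer ({z} : Set G))) * v = v * u
      rw [← hua, ← hvb, ← map_mul, ← map_mul]
      exact congrArg _ (congrArg Subtype.val (hB.1.is_comm.comm ⟨a, ha⟩ ⟨b, hb⟩))
    · rintro _ ⟨a, ha, rfl⟩
      rw [← map_pow, hB.2 a ha, map_one]
  set A := K.subgroupOf (T : Subgroup (Subgroup.centralizer ({z} : Set G))) with hA
  have hAK : A.map (T : Subgroup (Subgroup.centralizer ({z} : Set G))).subtype = K :=
    Subgroup.map_subgroupOf_eq_of_le hKT
  have hAc : Nat.card A = 2 ^ 11 := by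
    rw [← hKc]
    exact Nat.card_congr (Subgroup.subgroupOfEquivOfLe hKT).toEquiv
  have hAel : IsElementaryAbelian 2 A := by
    refine ⟨⟨⟨fun u v => Subtype.ext (Subtype.ext ?_)⟩⟩, fun a ha => Subtype.ext ?_⟩
    · exact congrArg (fun k : K => (k : ↥(Subgroup.centralizer ({z} : Set G))))
        (hKel.1.is_comm.comm ⟨((u : ↥(T : Subgroup (Subgroup.centralizer ({z} : Set G)))) :
          ↥(Subgroup.centralizer ({z} : Set G))), u.2⟩ ⟨_, v.2⟩)
    · exact hKel.2 _ ha
  have hcardmap : ∀ B : Subgroup ↥(T : Subgroup (Subgroup.centralizer ({z} : Set G))),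
      Nat.card (B.map (T : Subgroup (Subgroup.centralizer ({z} : Set G))).subtype) = Nat.card B := fun B =>
    Subgroup.card_map_of_injective (T : Subgroup (Subgroup.centralizer ({z} : Set G))).subtype_injective
  have hbound : ∀ B : Subgroup ↥(T : Subgroup (Subgroup.centralizer ({z} : Set G))),
      IsElementaryAbelian 2 B → Nat.card B ≤ 2 ^ 11 ∧ (Nat.card B = 2 ^ 11 → B = A) := by
    intro B hB
    obtain ⟨h1, h2⟩ := hmax _ (Subgroup.map_subtype_le B) (hmap B hB)
    refine ⟨hcardmap B ▸ h1, fun e => ?_⟩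
    apply Subgroup.map_injective (T : Subgroup (Subgroup.centralizer ({z} : Set G))).subtype_injective
    rw [hAK, h2 ((hcardmap B).trans e)]
  refine ⟨A, ?_, hAc, by rw [hAK]; exact hKQ, by rw [hAK]; exact hKm⟩
  ext B
  constructor
  · rintro ⟨hB, hBmax⟩
    have h1 := hBmax A hAel
    rw [hAc] at h1
    exact (hbound B hB).2 (le_antisymm (hbound B hB).1 h1)
  · rintro rfl
    exact ⟨hAel, fun B hB => hAc.symm ▸ (hbound B hB).1⟩

end Cfsg.Agent.LargeFischer.Thompson
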