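import Cfsg.Agent.LargeFischer.Results
import Cfsg.Agent.LargeFischer.ThreeCore

/-!
The centraliser of the 3-core in a group of large Fischer type, reduced to the classification of the
linear parts and the absence of a complement.
-/

set_option autoImplicit false

namespace Cfsg.Agent.LargeFischer

open Cfsg
open Cfsg.Agent.SporB.FischerU (Vec)

theorem three_core_final {G : Type*} [Group G] [Finite G] {z : G}
    {Q : Subgroup (Subgroup.centralizer ({z} : Set G))} [Q.Normal] (hcl : Classified)
    (hF : IsOfLargeFischerTypeAt z Q)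
    (hfalse : ∀ (F : Frame z Q), F.IsNormal → F.rho.range = Ke →
      ∀ (x : Subgroup.centralizer ({z} : Set G)) (C1 : Subgroup (Subgroup.centralizer ({z} : Set G))),
      F.rho x = scal → (∀ c ∈ C1, c * x = x * c) → (∀ c ∈ C1, F.rho c = 1 → c = 1) →
        C1.map F.rho = Kc → False)
    (X : Subgroup (Subgroup.centralizer ({z} : Set G))) (hX : Nat.card X = 3) (hXQ : (X ⊔ Q).Normal) :
    IsQuasisimple ↥(Subgroup.centralizer (X : Set (Subgroup.centralizer ({z} : Set G)))) ∧
    IsCyclic ↥(Subgroup.center ↥(Subgroup.centralizer (X : Set (Subgroup.centralizer ({z} : Set G))))) ∧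
    Nat.card ↥(Subgroup.center ↥(Subgroup.centralizer (X : Set (Subgroup.centralizer ({z} : Set G))))) = 6 ∧
    ∃ (K : Type) (_ : Field K) (_ : Fintype K), Fintype.card K = 9 ∧
      Nonempty (↥(Subgroup.centralizer (X : Set (Subgroup.centralizer ({z} : Set G)))) ⧸
        Subgroup.center ↥(Subgroup.centralizer (X : Set (Subgroup.centralizer ({z} : Set G)))) ≃* PSU 4 K 3) := by
  obtain ⟨F, N, hKe⟩ := exists_normal_frame hcl hF
  exact F.three_core_of hF.1.1 N.big_map hKe (hfalse F N hKe) hX hXQ

end Cfsg.Agent.LargeFischer
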